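import Cfsg.Agent.Lib.TB.W
import Cfsg.Agent.Lib.L3C.Hex

/-!
S1143 (docs/TB.md): the six roots of a single bond, the elementary matrices of `SL₃`.
-/

set_option autoImplicit false

namespace Cfsg.Lib.TB

open Cfsg.Lib.BN Cfsg.Lib.Chev RootSys Matrix
open scoped commutatorElement MatrixGroups

section
variable {K : Type*} [Field K] {i j k : Fin 3}

theorem xe_eq (h : i ≠ j) (t : K) : xe i j t = SpecialLinearGroup.transvection h t := dif_pos h

theorem xe_coe (h : i ≠ j) (t : K) : (xe i j t).1 = 1 + single i j t := by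
  rw [xe_eq h]
  rfl

theorem xe_add2 (h : i ≠ j) (s t : K) : xe i j (s + t) = xe i j s * xe i j t := by
  simp only [xe_eq h, SpecialLinearGroup.transvection_add]

theorem xe_inv (h : i ≠ j) (t : K) : (xe i j t)⁻¹ = xe i j (-t) := by
  simp only [xe_eq h, SpecialLinearGroup.transvection_inv]

theorem xe_mem_center (h : i ≠ j) {t : K} : xe i j t ∈ Subgroup.center SL(3, K) ↔ t = 0 := by
  rw [xe_eq h, SpecialLinearGroup.transvection_mem_center_iff]

theorem xe_comm (h1 : i ≠ j) (h2 : j ≠ k) (h3 : i ≠ k) (s t : K) :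
    ⁅xe i j s, xe j k t⁆ = xe i k (s * t) := by
  rw [xe_eq h1, xe_eq h2, xe_eq h3, Cfsg.Lib.Linear.commutator_transvection]

theorem exists_xe [Finite K] {G : Type*} [Group G] {Y : Fin 3 → Fin 3 → K → G}
    (add : ∀ i j, i ≠ j → ∀ a b, Y i j (a + b) = Y i j a * Y i j b)
    (cm : ∀ i j k, i ≠ j → j ≠ k → i ≠ k → ∀ a b, ⁅Y i j a, Y j k b⁆ = Y i k (a * b)) :
    ∃ ψ : SL(3, K) →* G, ∀ i j, i ≠ j → ∀ a, ψ (xe i j a) = Y i j a := by
  obtain ⟨ψ, h⟩ := Cfsg.Lib.L3C.exists_SL3 add fun i j k h1 h2 h3 a b => by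
    rw [← cm i j k h1 h2 h3, commutatorElement_def]
    group
  exact ⟨ψ, fun i j hij a => by rw [xe_eq hij, h]⟩

theorem eq_top_of_xe {H : Subgroup SL(3, K)} (h : ∀ i j, i ≠ j → ∀ t, xe i j t ∈ H) : H = ⊤ :=
  Cfsg.Lib.Linear.eq_top_of_transvection_mem H fun i j hij t => xe_eq hij t ▸ h i j hij t

theorem conj_xe {A : SL(3, K)} {σ : Equiv.Perm (Fin 3)} (h1 : ∀ i j, i ≠ σ j → A i j = 0)
    (h2 : ∀ j, A (σ j) j ≠ 0) (h : i ≠ j) (t : K) :
    A * xe i j t * A⁻¹ = xe (σ i) (σ j) (A (σ i) i * t * (A (σ j) j)⁻¹) := by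
  rw [mul_inv_eq_iff_eq_mul]
  refine Subtype.ext ?_
  rw [Matrix.SpecialLinearGroup.coe_mul, Matrix.SpecialLinearGroup.coe_mul, xe_coe h,
    xe_coe (σ.injective.ne h), mul_add, add_mul, mul_one, one_mul, add_right_inj]
  ext p q
  by_cases e1 : q = j
  · subst e1
    rw [mul_single_apply_same]
    by_cases e2 : p = σ i
    · subst e2
      rw [single_mul_apply_same, inv_mul_cancel_right₀ (h2 q)]
    · rw [single_mul_apply_of_ne _ _ _ _ _ e2, h1 p i e2, zero_mul]
  · rw [mul_single_apply_of_ne _ _ _ _ _ e1]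
    by_cases e2 : p = σ i
    · subst e2
      rw [single_mul_apply_same, h1 _ q (σ.injective.ne (Ne.symm e1)), mul_zero]
    · rw [single_mul_apply_of_ne _ _ _ _ _ e2]

theorem we01c {t : K} (ht : t ≠ 0) : (we 0 1 t).1 = !![0, t, 0; -t⁻¹, 0, 0; 0, 0, 1] := by
  rw [we, Matrix.SpecialLinearGroup.coe_mul, Matrix.SpecialLinearGroup.coe_mul,
    xe_coe (by decide), xe_coe (by decide)]
  ext p q
  fin_cases p <;> fin_cases q <;> simp [mul_apply, Fin.sum_univ_three, one_apply, single_apply, ht]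

theorem we12c {t : K} (ht : t ≠ 0) : (we 1 2 t).1 = !![1, 0, 0; 0, 0, t; 0, -t⁻¹, 0] := by
  rw [we, Matrix.SpecialLinearGroup.coe_mul, Matrix.SpecialLinearGroup.coe_mul,
    xe_coe (by decide), xe_coe (by decide)]
  ext p q
  fin_cases p <;> fin_cases q <;> simp [mul_apply, Fin.sum_univ_three, one_apply, single_apply, ht]

theorem we02c {t : K} (ht : t ≠ 0) : (we 0 2 t).1 = !![0, 0, t; 0, 1, 0; -t⁻¹, 0, 0] := by
  rw [we, Matrix.SpecialLinearGroup.coe_mul, Matrix.SpecialLinearGroup.coe_mul,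
    xe_coe (by decide), xe_coe (by decide)]
  ext p q
  fin_cases p <;> fin_cases q <;> simp [mul_apply, Fin.sum_univ_three, one_apply, single_apply, ht]

theorem isDiag_of_center {A : SL(3, K)} (h : A ∈ Subgroup.center SL(3, K)) : A.1.IsDiag := by
  obtain ⟨r, -, e⟩ := Matrix.SpecialLinearGroup.mem_center_iff.1 h
  rw [← e]
  exact isDiag_diagonal _

theorem diag_ne_zero {A : SL(3, K)} (h : A.1.IsDiag) (i : Fin 3) : A i i ≠ 0 := by
  have := A.2
  rw [← h.diagonal_diag, det_diagonal] at this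
  exact Finset.prod_ne_zero_iff.1 (this.trans_ne one_ne_zero) i (Finset.mem_univ i)

end

section
variable {G K K' : Type*} [Group G] [Field K] [Field K'] {A : Subgroup G} {p : K → G} {p' : K' → G}

theorem Par.mem' (h : Par A p) (t : K) : p t ∈ A := (h.mem _).2 ⟨t, rfl⟩

theorem Par.card (h : Par A p) : Nat.card K = Nat.card A :=
  Nat.card_congr (Equiv.ofBijective (fun t => ⟨p t, h.mem' t⟩)
    ⟨fun _ _ e => h.inj (congrArg Subtype.val e), fun g =>
      ((h.mem _).1 g.2).imp fun _ e => Subtype.ext e⟩)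

theorem Par.finite [Finite G] (h : Par A p) : Finite K := Finite.of_injective _ h.inj

theorem Par.comp (h : Par A p) (e : K' ≃+ K) : Par A fun t => p (e t) :=
  ⟨fun s t => by rw [map_add, h.add], h.inj.comp e.injective, fun g => (h.mem g).trans
    e.surjective.exists⟩

theorem Par.exists_equiv (h : Par A p) (h' : Par A p') : ∃ e : K ≃+ K', ∀ t, p' (e t) = p t := by
  choose f hf using fun t => (h'.mem _).1 (h.mem' t)
  refine ⟨AddEquiv.ofBijective (AddMonoidHom.mk' f fun s t => h'.inj ?_) ⟨fun s t e => h.inj ?_,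
    fun u => ?_⟩, hf⟩
  · rw [h'.add, hf, hf, hf, h.add]
  · rw [← hf, ← hf]
    exact congrArg p' e
  · obtain ⟨t, e⟩ := (h.mem _).1 (h'.mem' u)
    exact ⟨t, h'.inj ((hf t).trans e)⟩

end

variable {ι Φ : Type} [Fintype ι] [DecidableEq ι] {R : RootSys ι Φ} {a b : ι} {i j k : Fin 3}

theorem inJ_rt (h : i ≠ j) : R.InJ {a, b} (rt R a b i j) := by
  have ha : R.InJ {a, b} (R.simple a) := inJ_simple_iff.2 (.inl rfl)
  have hb : R.InJ {a, b} (R.simple b) := inJ_simple_iff.2 (.inr rfl)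
  have hc := hb.sref (.inl rfl)
  fin_cases i <;> fin_cases j <;> first
    | exact absurd rfl h | assumption | exact ha.neg | exact hb.neg | exact hc.neg

theorem neg_rt (h : i ≠ j) : R.neg (rt R a b i j) = rt R a b j i := by
  fin_cases i <;> fin_cases j <;> first | exact absurd rfl h | rfl | exact R.neg_neg _

variable (h : Sb R a b)
include h

theorem Sb.exists_rt {r : Φ} (hr : R.InJ {a, b} r) : ∃ i j, i ≠ j ∧ r = rt R a b i j := by
  have : ∀ {r}, R.InJ {a, b} r → R.IsPos r → ∃ i j, i ≠ j ∧ r = rt R a b i j := fun h1 h2 => by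
    rcases pos_of_sb h h1 h2 with e | e | e
    exacts [⟨0, 1, by decide, e⟩, ⟨1, 2, by decide, e⟩, ⟨0, 2, by decide, e⟩]
  rcases isPos_or_neg (R := R) r with h1 | h1
  · exact this hr h1
  · obtain ⟨i, j, h2, e⟩ := this hr.neg h1
    exact ⟨j, i, h2.symm, by rw [← neg_rt h2, ← e, R.neg_neg]⟩

theorem Sb.sref_left (hij : i ≠ j) :
    R.sref a (rt R a b i j) = rt R a b (Equiv.swap 0 1 i) (Equiv.swap 0 1 j) := by
  fin_cases i <;> fin_cases j <;>
    simp [rt, sref_simple, sref_neg, Equiv.swap_apply_def] at hij ⊢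

theorem Sb.sref_right (hij : i ≠ j) :
    R.sref b (rt R a b i j) = rt R a b (Equiv.swap 1 2 i) (Equiv.swap 1 2 j) := by
  fin_cases i <;> fin_cases j <;>
    simp [rt, sref_simple, sref_neg, Equiv.swap_apply_def, ← h.sref_eq] at hij ⊢

theorem Sb.α_rt (hij : i ≠ j) : R.α (rt R a b i j) a = ![1, 0, 0] i - ![1, 0, 0] j ∧
    R.α (rt R a b i j) b = ![1, 1, 0] i - ![1, 1, 0] j := by
  fin_cases i <;> fin_cases j <;>
    simp [rt, α_sref', pair_simple_simple, R.α_neg, R.α_simple, h.1, h.ne, h.ne.symm] at hij ⊢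

theorem Sb.rt_inj {p q : Fin 3} (hij : i ≠ j) (hpq : p ≠ q) (e : rt R a b i j = rt R a b p q) :
    i = p ∧ j = q := by
  have h1 := h.α_rt hij
  have h2 := h.α_rt hpq
  rw [e] at h1
  have h3 := h1.1.symm.trans h2.1
  have h4 := h1.2.symm.trans h2.2
  clear h1 h2 e
  revert i j p q
  decide

theorem Sb.cone_rt (h1 : i ≠ j) (h2 : j ≠ k) (h3 : i ≠ k) {r : Φ}
    (hr : Cone R (rt R a b i j) (rt R a b j k) r) : r = rt R a b i k := by
  obtain ⟨p, q, hpq, rfl⟩ := h.exists_rt (hr.inJ (inJ_rt h1) (inJ_rt h2))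
  obtain ⟨m, x, y, m1, x1, y1, e⟩ := hr
  have e1 := congrFun e a
  have e2 := congrFun e b
  simp only [Pi.add_apply, Pi.smul_apply, smul_eq_mul, h.α_rt h1, h.α_rt h2, h.α_rt hpq] at e1 e2
  obtain ⟨rfl, rfl⟩ : p = i ∧ q = k := by
    clear e
    fin_cases i <;> fin_cases j <;> (try exact absurd rfl h1) <;> fin_cases k <;>
      (try exact absurd rfl h2) <;> (try exact absurd rfl h3) <;> fin_cases p <;> fin_cases q <;>
      simp at hpq e1 e2 ⊢ <;> omega
  rfl

end Cfsg.Lib.TB
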