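import Cfsg.Agent.Lib.TB.Bas

/-!
S1143 (docs/TB.md): rigidity in residues, digons, the Levi complements `LJ`, propagation.
-/

set_option autoImplicit false
set_option linter.unusedSectionVars false

namespace Cfsg.Lib.TB.Fr

open Cfsg.Lib.BN Cfsg.Lib.Chev RootSys Cfsg.Lib.CharDeg.FH

variable {ι Φ : Type} [Fintype ι] [DecidableEq ι] {R : RootSys ι Φ} [Fintype Φ]
variable {G : Type*} [Group G] {F : Fr G R} {c c' d d' z : F.X} {v w x y : R.W} {g k : G} {i j : ι}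
  {J : Set ι} {r : Φ}

open H17

theorem _root_.Cfsg.Lib.TB.H17.conj_sW {w : R.W} {i j : ι}
    (h : w.1 (R.simple j) = R.simple i ∨ w.1 (R.simple j) = R.neg (R.simple i)) :
    w * R.sW j = R.sW i * w := by
  have h1 := (W_aut w).conj_refl (R.simple j)
  rw [refl_simple, mul_inv_eq_iff_eq_mul] at h1
  refine Subtype.ext (h1.trans ?_)
  rcases h with h | h
  · rw [h, refl_simple]; rfl
  · rw [h, refl_neg, refl_simple]; rfl

theorem _root_.Cfsg.Lib.TB.H17.lg_swap (hj : j ∈ J) : ∃ i ∈ J, lg R J * R.sW j = R.sW i * lg R J ∧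
    R.sW j * lg R J = lg R J * R.sW i := by
  obtain ⟨i, hi, e⟩ := exists_lg_simple (R := R) hj
  have h1 := conj_sW (.inr e)
  refine ⟨i, hi, h1, ?_⟩
  have := congrArg (·⁻¹) h1
  simpa only [mul_inv_rev, lg_inv, sW_inv] using this

theorem opp_Tr (h : ∀ i ∈ J, g ∈ F.Tr c i) (hc : g • c = c) (hd : F.D (lg R J) c c')
    (hc' : g • c' = c') : ∀ i ∈ J, g ∈ F.Tr c' i := fun j hj => by
  refine mem_Tr.2 ⟨hc', fun d' hd' => ?_⟩
  obtain ⟨i, hi, e, -⟩ := lg_swap (R := R) hj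
  obtain ⟨d, k1, k2⟩ : ∃ d, g • d = d ∧ F.D (lg R J * R.sW j) d d' := by
    rcases hd.mul_ad hd' with k1 | k1
    · exact ⟨c, hc, k1⟩
    rw [← sW_cancel i (lg R J)] at k1
    obtain ⟨d, k1, k2⟩ := k1.split
    exact ⟨d, (mem_Tr.1 (h i hi)).2 d k1, e ▸ k2⟩
  have k3 := k2.inv
  rw [mul_inv_rev, sW_inv, lg_inv] at k3
  exact fix_of_gate (by rw [sW_cancel]; exact (lg_spec J).2.1 j hj) hc' k1 hd' k3

/-- **Rigidity in a residue**, for any two chambers opposite in the residue.  Copy the proof of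
`BNU.rigid` / `E1.opp`: if `g` is trivial on the `J`-panels of `c` and fixes `c'` with
`D (lg J) c c'`, then it is trivial on the `J`-panels of `c'` (for `j ∈ J` there is `i ∈ J` with
`sᵢ lg = lg sⱼ`; `gate` matches the `j`-panel of `c'` with the `i`-panel of `c`); every neighbour of
`c` is opposite to a chamber that is `c'` or adjacent to `c'` (`Ad.exists_third`); `Rs.induction`. -/
theorem rigidJ (h : ∀ i ∈ J, g ∈ F.Tr c i) (hc : g • c = c) (hd : F.D (lg R J) c c')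
    (hc' : g • c' = c') : g ∈ F.TrJ J c := by
  refine mem_TrJ.2 fun d hd' => ?_
  have inv : ∀ {c c'}, F.D (lg R J) c c' → F.D (lg R J) c' c := fun h => by
    have := h.inv
    rwa [lg_inv] at this
  obtain ⟨_, -, h1, -⟩ : ∃ c', F.D (lg R J) d c' ∧ g • d = d ∧ (∀ i ∈ J, g ∈ F.Tr d i) ∧
      g • c' = c' ∧ ∀ i ∈ J, g ∈ F.Tr c' i := by
    refine hd'.induction (p := fun d => ∃ c', F.D (lg R J) d c' ∧ g • d = d ∧
      (∀ i ∈ J, g ∈ F.Tr d i) ∧ g • c' = c' ∧ ∀ i ∈ J, g ∈ F.Tr c' i)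
      ⟨c', hd, hc, h, hc', opp_Tr h hc hd hc'⟩ ?_
    rintro z z' - i hi r ⟨c', k, e, h, e', h'⟩
    have e2 : g • z' = z' := (mem_Tr.1 (h i hi)).2 z' r
    suffices ∃ c', F.D (lg R J) z' c' ∧ g • c' = c' ∧ ∀ i ∈ J, g ∈ F.Tr c' i from
      let ⟨c', k1, k2, k3⟩ := this; ⟨c', k1, e2, opp_Tr k3 k2 (inv k1) e2, k2, k3⟩
    rcases r.symm.mul k with k1 | k1
    swap
    · exact ⟨c', k1, e', h'⟩
    obtain ⟨t, ht, -, e3⟩ := lg_swap (R := R) hi
    have l : len R.sW (lg R J * R.sW t) < len R.sW (lg R J * R.sW t * R.sW t) := by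
      rw [mul_assoc, sW_mul_self, mul_one]; exact (lg_spec J).2.2.1 t ht
    obtain ⟨f, f1, f2⟩ : ∃ f, F.Ad t c' f ∧ F.D (lg R J) z f := by
      obtain ⟨f, f1⟩ := exists_D_right (F := F) (R.sW t) c'
      obtain ⟨f', f2, f3⟩ := Ad.exists_third f1
      rcases k.mul_ad f1 with r1 | r1
      · refine ⟨f', f2, (k.mul_ad f2).resolve_left fun r2 => ?_⟩
        have := (r1.mul_of_lt l f3).unique r2
        rw [this] at l
        omega
      · exact ⟨f, f1, r1⟩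
    have e4 := (mem_Tr.1 (h' t ht)).2 f f1
    refine ⟨f, ?_, e4, opp_Tr h e f2 e4⟩
    have := (e3 ▸ k1 : F.D (lg R J * R.sW t) z' c').mul_of_lt l f1
    rwa [mul_assoc, sW_mul_self, mul_one] at this
  exact h1

theorem rigidJ_ch (h : ∀ i ∈ J, g ∈ F.Tr (F.ch x) i) (h' : ∀ y ∈ WJ R J,
    g • F.ch (x * y) = F.ch (x * y)) : g ∈ F.TrJ J (F.ch x) := by
  have k := D_ch (F := F) x (x * lg R J)
  rw [inv_mul_cancel_left] at k
  exact rigidJ h (by simpa using h' 1 (one_mem _)) k (h' _ (lg_mem J))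

/-- If the wall of `r` does not cross the residue. -/
theorem rigid_hf (hg : g ∈ F.Fx (hf R r)) (hx : x ∈ hf R r) (hJ : ¬ R.InJ J ((x⁻¹ : R.W).1 r))
    (h : ∀ i ∈ J, g ∈ F.Tr (F.ch x) i) : g ∈ F.TrJ J (F.ch x) := by
  exact rigidJ_ch h fun y hy => mem_Fx.1 hg _ (mul_mem_hf_of_not_inJ hx hJ hy)

theorem _root_.Cfsg.Lib.TB.H17.len_two (h : i ≠ j) :
    len R.sW (R.sW j) < len R.sW (R.sW i * R.sW j) :=
  mem_hf_simple.1 (by rw [mem_hf, sW_inv, coe_sW]; exact isPos_sref_simple h.symm)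

omit [Fintype Φ] in
theorem _root_.Cfsg.Lib.TB.H17.ne_of_zero (h : R.A i j = 0) : i ≠ j := by
  rintro rfl
  rw [A_diag] at h
  omega

omit [Fintype Φ] in
theorem Ad.eq_or (h : F.Ad i c d) (h' : F.Ad i c d') : d = d' ∨ F.Ad i d d' := by
  by_cases e : d = d'
  exacts [.inl e, .inr (h.symm.trans h' e)]

/-- Digons. -/
theorem digon (h : R.A i j = 0) (h1 : F.Ad i c c') (h2 : F.Ad j c d) :
    ∃! d', F.Ad j c' d' ∧ F.Ad i d d' := by
  have hij := ne_of_zero h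
  have h3 := h1.symm.mul_of_lt (len_two hij) h2
  rw [sW_comm h] at h3
  obtain ⟨d', h4, h5⟩ := h3.split
  exact ⟨d', ⟨h4, Ad.symm h5⟩, fun d'' h6 => gate (len_two hij.symm) (h6.1.eq_or h4) h6.2.symm h5⟩

theorem Tr_digon (h : R.A i j = 0) (h1 : F.Ad i c c') (hg : g ∈ F.Tr c j) (h' : g • c' = c') :
    g ∈ F.Tr c' j := by
  refine mem_Tr.2 ⟨h', fun d' hd' => ?_⟩
  obtain ⟨d, ⟨h2, h3⟩, -⟩ := digon h h1.symm hd'
  have h4 := (mem_Tr.1 hg).2 d h2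
  refine (digon h h1 h2).unique ⟨?_, ?_⟩ ⟨hd', h3.symm⟩
  · rw [← h']; exact (Ad_smul g).2 hd'
  · rw [← h4]; exact (Ad_smul g).2 h3.symm

/-- If `j` commutes with `J`. -/
theorem Tr_of_rs (h : ∀ i ∈ J, R.A i j = 0) (hg : g ∈ F.Tr c j) (hg' : g ∈ F.TrJ J c)
    (hd : F.Rs J c d) : g ∈ F.Tr d j := by
  exact hd.induction hg fun z z' h1 i hi h2 h3 =>
    Tr_digon (h i hi) h2 h3 (mem_TrJ.1 hg' _ (h1.trans (h2.rs hi)))

/-- If `j` commutes with `J` then `PJ J` normalizes the kernel on the `j`-panel intersected with the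
kernel on the residue. -/
theorem conj_mem_Tr_of_PJ (h : ∀ i ∈ J, R.A i j = 0) (hk : k ∈ F.PJ J) (hg : g ∈ F.Tr (F.ch 1) j)
    (hg' : g ∈ F.TrJ J (F.ch 1)) : k * g * k⁻¹ ∈ F.Tr (F.ch 1) j := by
  have := (conj_mem_Tr k).2 (Tr_of_rs h hg hg' (mem_PJ.1 (inv_mem hk)))
  rwa [smul_inv_smul] at this

theorem n_mem_LJ (hi : i ∈ J) : F.n i ∈ F.LJ J := by
  exact Subgroup.mem_sup_right (Subgroup.subset_closure ⟨i, hi, rfl⟩)

theorem Fx_DJ_le (J : Set ι) : F.Fx (DJ R J) ≤ F.LJ J := le_sup_left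

theorem H_le_LJ (J : Set ι) : F.H ≤ F.LJ J := by
  exact (H_le_Fx _).trans (Fx_DJ_le J)

omit [Fintype Φ] in
theorem _root_.Cfsg.Lib.TB.H17.one_mem_DJ (J : Set ι) : (1 : R.W) ∈ DJ R J := fun i _ =>
  one_mem_hf.2 (isPos_simple i)

theorem LJ_le_PJ (J : Set ι) : F.LJ J ≤ F.PJ J := by
  exact sup_le_sup_right (fun g hg => mem_B.2 (mem_Fx.1 hg 1 (one_mem_DJ J))) _

theorem LJ_mono {I : Set ι} (h : I ⊆ J) : F.LJ I ≤ F.LJ J := by
  exact sup_le_sup (Fx_anti fun w hw i hi => hw i (h hi)) (Subgroup.closure_mono (Set.image_mono h))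

theorem exists_ov {L : Subgroup G} (h1 : ∀ i ∈ J, F.n i ∈ L) (hw : w ∈ WJ R J) :
    ∃ l ∈ L, F.Ov l w := by
  refine WJ_ind (P := fun w => ∃ l ∈ L, F.Ov l w) ⟨1, one_mem _, mem_H_iff_ov.1 (one_mem _)⟩ ?_ hw
  rintro i hi x ⟨l, h2, h3⟩
  exact ⟨_, mul_mem (h1 i hi) h2, (ov_n i).mul h3⟩

theorem Fx_hf_le {L : Subgroup G} (h1 : ∀ i ∈ J, F.n i ∈ L)
    (h2 : ∀ i ∈ J, F.Fx (hf R (R.simple i)) ≤ L) (h : R.InJ J r) : F.Fx (hf R r) ≤ L := by
  obtain ⟨w, hw, i, hi, rfl⟩ := exists_WJ_simple h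
  obtain ⟨l, h3, h4⟩ := exists_ov h1 hw
  intro g hg
  have h5 := h2 i hi (h4.conj_mem_hf.1 (show l * (l⁻¹ * g * l) * l⁻¹ ∈ _ by
    convert hg using 1; group))
  convert mul_mem (mul_mem h3 h5) (inv_mem h3) using 1; group

theorem Ov.mem_LJ (h : F.Ov g w) (hw : w ∈ WJ R J) : g ∈ F.LJ J := by
  obtain ⟨l, h1, h2⟩ := exists_ov (L := F.LJ J) (fun i hi => n_mem_LJ hi) hw
  simpa using mul_mem h1 (H_le_LJ J (h2.inv_mul_mem h))

theorem Fx_hf_le_LJ (h : R.InJ J r) : F.Fx (hf R r) ≤ F.LJ J := by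
  exact Fx_hf_le (fun i hi => n_mem_LJ hi)
    (fun i hi => (Fx_anti (A := DJ R J) fun w hw => hw i hi).trans (Fx_DJ_le J)) h

/-- `L_J ⊓ B = Fx (DJ J)`.  Let `d = lg J * lg univ`, `J* = {j | d αⱼ ∈ Φ_J}`.  The generators of
`LJ J` map `ch d` into its `J*`-residue (`d⁻¹ W_J d = W_{J*}`), and `ch d` is the only chamber of
that residue at distance `d` from `ch 1` (`D.mul_of_len`, `Red.len_mul_right`; or
`Tits.mem_B_of_red`).  So `g` fixes `ch d`; `cvx` and `mem_DJ_iff`. -/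
theorem mem_Fx_DJ (hg : g ∈ F.LJ J) (h : g • F.ch 1 = F.ch 1) : g ∈ F.Fx (DJ R J) := by
  set d := lg R J * lg R Set.univ with hd
  have hn := ov_nr (F := F) d
  have hdJ : d ∈ DJ R J := mem_DJ_iff.2 fun k _ h => h
  let I : Set ι := {l | ∃ i ∈ J, d.1 (R.simple l) = R.simple i}
  have key : ∀ g : G, g ∈ (F.PJ I).comap (MulAut.conj (F.nr d)⁻¹).toMonoidHom ↔
      F.Rs I (F.ch d) (g • F.ch d) := fun g => by
    rw [Subgroup.mem_comap, mem_PJ, ← Rs_smul (F.nr d), hn.smul_ch, mul_one]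
    simp only [MulEquiv.toMonoidHom_eq_coe, MonoidHom.coe_coe, MulAut.conj_apply, inv_inv, mul_smul,
      smul_inv_smul, hn.smul_ch, mul_one]
  have h1 : F.LJ J ≤ (F.PJ I).comap (MulAut.conj (F.nr d)⁻¹).toMonoidHom := by
    refine sup_le (fun g hg => (key g).2 ?_) ((Subgroup.closure_le _).2 ?_)
    · rw [mem_Fx.1 hg d hdJ]; exact Rs.refl _ _
    · rintro _ ⟨i, hi, rfl⟩
      obtain ⟨k, hk, e⟩ := exists_lg_simple (R := R) hi
      obtain ⟨l, -, e'⟩ := exists_lg_simple (R := R) (Set.mem_univ k)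
      have e2 : d.1 (R.simple l) = R.simple i := by
        have q : ∀ (J : Set ι) t, (lg R J).1 ((lg R J).1 t) = t := fun J t => by
          rw [← W_mul, lg_mul_self]; rfl
        rw [hd, W_mul, ← R.neg_neg (R.simple l), ← e', (W_aut _).neg, q, (W_aut _).neg,
          ← (W_aut _).neg, ← e, q]
      refine (key _).2 ?_
      rw [(ov_n i).smul_ch, ← conj_sW (.inl e2)]
      exact (ad_ch d l).rs ⟨i, hi, e2⟩
  obtain ⟨v, hv, h2⟩ := (key g).1 (h1 hg)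
  have h3 := D_ch (F := F) 1 d
  rw [inv_one, one_mul] at h3
  have h4 : F.D d (F.ch 1) (g • F.ch d) := by rw [← h]; exact (D_smul g).2 h3
  have l : len R.sW (d * v) = len R.sW d + len R.sW v := by
    refine Cfsg.Lib.St.Red.len_mul_right R.invGen R.exchange ⟨fun _ h => h.elim, ?_⟩ hv
    rintro l ⟨i, -, e⟩
    exact (len_lt_iff.2 (e ▸ isPos_simple i)).le
  obtain rfl : v = 1 := mul_eq_left.1 ((h3.mul_of_len l h2).unique h4)
  exact mem_Fx.2 fun w hw => cvx h (D_one.1 h2).symm (mem_DJ_iff.1 hw)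

theorem fix_mul_DJ (hg : g ∈ F.LJ J) (hx : x ∈ WJ R J) (h : g • F.ch x = F.ch x) (hw : w ∈ DJ R J) :
    g • F.ch (x * w) = F.ch (x * w) := by
  have hn := ov_nr (F := F) x
  have h1 := hn.mem_LJ hx
  have h2 := mem_Fx.1 (mem_Fx_DJ (mul_mem (mul_mem (inv_mem h1) hg) h1) (by
    rw [mul_smul, mul_smul, hn.smul_ch, mul_one, h, hn.inv.smul_ch, inv_mul_cancel])) w hw
  rwa [mul_smul, mul_smul, inv_smul_eq_iff, hn.smul_ch] at h2

/-- `exists_DJ`, `mul_DJ_mem_hf`. -/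
theorem mem_Fx_hf (hg : g ∈ F.LJ J) (hr : R.InJ J r)
    (h : ∀ x ∈ WJ R J, x ∈ hf R r → g • F.ch x = F.ch x) : g ∈ F.Fx (hf R r) := by
  refine mem_Fx.2 fun z hz => ?_
  obtain ⟨x, hx, d, hd, rfl⟩ := exists_DJ J z
  exact fix_mul_DJ hg hx (h x hx ((mul_DJ_mem_hf hr hx hd).1 hz)) hd

theorem mem_H_of_LJ (hg : g ∈ F.LJ J) (hx : x ∈ WJ R J) (h : g • F.ch x = F.ch x)
    (h' : g • F.ch (x * lg R J) = F.ch (x * lg R J)) : g ∈ F.H := by
  refine mem_H.2 fun z => ?_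
  obtain ⟨y, hy, d, hd, rfl⟩ := exists_DJ J z
  refine fix_mul_DJ hg hy ?_ hd
  have := fix_WJ_of_opp h h' (mul_mem (inv_mem hx) hy)
  rwa [mul_inv_cancel_left] at this

theorem mem_H_of_TrJ (hg : g ∈ F.LJ J) (h : g ∈ F.TrJ J (F.ch 1)) : g ∈ F.H := by
  rw [mem_TrJ] at h
  exact mem_H_of_LJ hg (one_mem _) (h _ (Rs.refl _ _))
    (h _ (rs_ch.2 (by rw [inv_mul_cancel_left]; exact lg_mem J)))

theorem ov_of_LJ (hg : g ∈ F.LJ J) (hx : x ∈ WJ R J) (h : g • F.ch 1 = F.ch x)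
    (h' : g • F.ch (lg R J) = F.ch (x * lg R J)) : F.Ov g x := by
  have hn := ov_nr (F := F) x
  have h1 := mem_H_of_LJ (mul_mem (inv_mem (hn.mem_LJ hx)) hg) (one_mem _)
    (by rw [mul_smul, h, hn.inv.smul_ch, inv_mul_cancel])
    (by rw [mul_smul, one_mul, h', hn.inv.smul_ch, inv_mul_cancel_left])
  have := hn.mul (mem_H_iff_ov.1 h1)
  rwa [mul_inv_cancel_left, mul_one] at this

omit [Fintype Φ] in
theorem _root_.Cfsg.Lib.TB.H17.DJ_one (i : ι) : DJ R {i} = hf R (R.simple i) :=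
  Set.ext fun _ => ⟨fun h => h i rfl, fun h _ e => e ▸ h⟩

omit [Fintype Φ] in
theorem n_smul_one (i : ι) : F.n i • F.ch 1 = F.ch (R.sW i) := by rw [(ov_n i).smul_ch, mul_one]

omit [Fintype Φ] in
theorem fix_one_of_hf (hg : g ∈ F.Fx (hf R (R.simple i))) : g • F.ch 1 = F.ch 1 :=
  mem_Fx.1 hg 1 (one_mem_hf.2 (isPos_simple i))

/-- Bruhat decomposition of `LJ {i}` (`exists_Fx_simple`, `mem_Fx_DJ`; `DJ {i} = hf αᵢ`). -/
theorem mem_LJ_one (hg : g ∈ F.LJ {i}) : g ∈ F.Fx (hf R (R.simple i)) ∨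
    ∃ b ∈ F.Fx (hf R (R.simple i)), ∃ b' ∈ F.Fx (hf R (R.simple i)), g = b * F.n i * b' := by
  rw [← DJ_one]
  rcases rs_one.1 (mem_PJ.1 (LJ_le_PJ _ hg)) with h | h
  · exact .inl (mem_Fx_DJ hg h)
  · obtain ⟨b, h1, h2⟩ := exists_Fx_simple h
    rw [← DJ_one] at h1
    refine .inr ⟨b, h1, (b * F.n i)⁻¹ * g, mem_Fx_DJ
      (mul_mem (inv_mem (mul_mem (Fx_DJ_le _ h1) (n_mem_LJ rfl))) hg) ?_, by group⟩
    rw [mul_smul, inv_smul_eq_iff, mul_smul, n_smul_one, h2]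

/-- An element of `LJ {i}` that fixes chambers of the apartment on both sides of the wall: by
`mem_LJ_one` it is in `Fx (hf αᵢ)` (otherwise `nᵢ` fixes `ch x`); `mem_H_of_hf`. -/
theorem mem_H_of_LJ_one (hg : g ∈ F.LJ {i}) (hx : x ∈ hf R (R.simple i))
    (hy : y ∉ hf R (R.simple i)) (h : g • F.ch x = F.ch x) (h' : g • F.ch y = F.ch y) :
    g ∈ F.H := by
  rcases mem_LJ_one hg with h1 | ⟨b, h1, b', h2, rfl⟩
  · exact mem_H_of_hf h1 hy h'
  · rw [mul_smul, mem_Fx.1 h2 x hx, mul_smul, (ov_n i).smul_ch, ← eq_inv_smul_iff,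
      mem_Fx.1 (inv_mem h1) x hx] at h
    exact absurd (mul_eq_right.1 (ch_injective h)) (sW_ne_one i)

/-- `LJ {i}` is doubly transitive on the panel. -/
theorem exists_LJ_one (hc : c = F.ch 1 ∨ F.Ad i (F.ch 1) c) (hd : F.Ad i c d) :
    ∃ g ∈ F.LJ {i}, g • F.ch 1 = c ∧ g • F.ch (R.sW i) = d := by
  have key : ∀ d, F.Ad i (F.ch 1) d →
      ∃ g ∈ F.LJ {i}, g • F.ch 1 = F.ch 1 ∧ g • F.ch (R.sW i) = d := fun d hd => by
    obtain ⟨b, h1, h2⟩ := exists_Fx_simple hd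
    exact ⟨b, Fx_hf_le_LJ (J := {i}) (inJ_simple_iff.2 (Set.mem_singleton i)) h1,
      fix_one_of_hf h1, h2⟩
  rcases hc with rfl | hc
  · exact key d hd
  · obtain ⟨b, h1, -, h2⟩ := key c hc
    have h3 : (b * F.n i) • F.ch 1 = c := by rw [mul_smul, n_smul_one, h2]
    obtain ⟨b', h4, h5, h6⟩ := key ((b * F.n i)⁻¹ • d) (by
      rw [← Ad_smul (b * F.n i), h3, smul_inv_smul]; exact hd)
    exact ⟨b * F.n i * b', mul_mem (mul_mem h1 (n_mem_LJ rfl)) h4, by rw [mul_smul, h5, h3],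
      by rw [mul_smul, h6, smul_inv_smul]⟩

/-- A subgroup containing `nᵢ` and `Fx (hf αᵢ)`, `i ∈ J`, is strongly transitive on the residue.
Induction on `len w`, with the stronger claim that `l` fixes `ch y` whenever `y ∈ hf β` for all
`β > 0` with `w ∉ hf β`: for `w = sᵢ w'` use `l = b * nᵢ * l' * nᵢ⁻¹`. -/
theorem exists_smul_ch {L : Subgroup G} (h1 : ∀ i ∈ J, F.n i ∈ L)
    (h2 : ∀ i ∈ J, F.Fx (hf R (R.simple i)) ≤ L) (hw : w ∈ WJ R J) (hd : F.D w (F.ch 1) d) :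
    ∃ l ∈ L, l • F.ch 1 = F.ch 1 ∧ l • F.ch w = d := by
  obtain ⟨l, hl, rfl, hr⟩ := R.invGen.exists_reduced_of_mem_closure R.exchange hw
  clear hw
  induction l using List.reverseRecOn generalizing d with
  | nil => exact ⟨1, one_mem _, one_smul _ _, by rw [one_smul]; exact D_one.1 hd⟩
  | append_singleton l j ih =>
    have h3 := R.invGen.reduced_left hr.symm
    rw [wp_append, wp_singleton] at hd hr ⊢
    obtain ⟨z, h4, h5⟩ := hd.split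
    have hl' : ∀ i ∈ l, i ∈ J := fun i hi => hl i (List.mem_append_left _ hi)
    obtain ⟨g, h6, h7, h8⟩ := ih hl' h4 h3.symm
    obtain ⟨b, h9, h10⟩ := exists_Fx (F := F) (W_inv_apply (wp R.sW l) (R.simple j)) (d := g⁻¹ • d)
      (by rw [← Ad_smul g, h8, smul_inv_smul]; exact h5)
    refine ⟨g * b, mul_mem h6 (Fx_hf_le h1 h2 ((inJ_of_mem_WJ (Cfsg.Lib.St.wp_mem_WJ hl')).2
      (inJ_simple_iff.2 (hl j (by simp)))) h9), ?_, by rw [mul_smul, h10, smul_inv_smul]⟩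
    rw [mul_smul, mem_Fx.1 h9 1 (one_mem_hf.2 (len_lt_iff.1 (by rw [← hr, h3]; simp))), h7]

theorem exists_smul_pair {L : Subgroup G} (h1 : ∀ i ∈ J, F.n i ∈ L)
    (h2 : ∀ i ∈ J, F.Fx (hf R (R.simple i)) ≤ L) (hw : w ∈ WJ R J) (hc : F.Rs J (F.ch 1) c)
    (hd : F.D w c d) : ∃ l ∈ L, l • F.ch 1 = c ∧ l • F.ch w = d := by
  obtain ⟨v, hv, h3⟩ := hc
  obtain ⟨l, h4, -, h5⟩ := exists_smul_ch h1 h2 hv h3
  obtain ⟨n, h6, h7⟩ := exists_ov h1 hv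
  have h8 : (l * n) • F.ch 1 = c := by rw [mul_smul, h7.smul_ch, mul_one, h5]
  obtain ⟨l', h9, h10, h11⟩ := exists_smul_ch h1 h2 hw (d := (l * n)⁻¹ • d) (by
    rw [← D_smul (l * n), h8, smul_inv_smul]; exact hd)
  exact ⟨l * n * l', mul_mem (mul_mem h4 h6) h9, by rw [mul_smul, h10, h8],
    by rw [mul_smul, h11, smul_inv_smul]⟩

end Cfsg.Lib.TB.Fr
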