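import Cfsg.Agent.Lib.TB.PlCa
import Cfsg.Agent.Lib.TB.A2a
import Cfsg.Agent.Lib.TB.Res

/-!
S1143 (docs/TB.md): the action on the plane of a single bond as a homomorphism to the collineation
group.
-/

set_option autoImplicit false

noncomputable section

namespace Cfsg.Lib.TB

open Cfsg.Lib.BN Cfsg.Lib.Chev RootSys Matrix Cfsg.Lib.Perm PC
open scoped MatrixGroups commutatorElement

theorem PC.exists_perm_hom {G X P : Type*} [Group G] [MulAction G X] {L : Subgroup G} {S : X → Prop}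
    (π : X → P) (surj : ∀ p, ∃ c, S c ∧ π c = p) (stab : ∀ g ∈ L, ∀ c, S c → S (g • c))
    (wd : ∀ g ∈ L, ∀ c d, S c → S d → π c = π d → π (g • c) = π (g • d)) :
    ∃ φ : L →* Equiv.Perm P, ∀ (g : L) c, S c → φ g (π c) = π (g.1 • c) := by
  choose s h1 h2 using surj
  let _ : MulAction L P :=
    { smul := fun g p => π (g.1 • s p)
      one_smul := fun p => (congrArg π (one_smul G _)).trans (h2 p)
      mul_smul := fun g k p => (congrArg π (mul_smul g.1 k.1 _)).trans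
        (wd _ g.2 _ _ (stab _ k.2 _ (h1 p)) (h1 _) (h2 _).symm) }
  exact ⟨MulAction.toPermHom L P, fun g c hc => wd _ g.2 _ _ (h1 _) hc (h2 _)⟩

section
variable {K : Type} [Field K] [Finite K]

theorem PC.exists_sub (m : Li K) : ∃ W : Submodule K (Fin 3 → K), Module.finrank K W = 2 ∧
    ∀ p : Pt K, (D K).I p m ↔ p.submodule ≤ W := by
  obtain ⟨f, hf, rfl⟩ := lm_ind m
  obtain ⟨w, hw⟩ := Cfsg.Lib.Linear.exists_dot_eq_one hf
  let φ : (Fin 3 → K) →ₗ[K] K := ⟨⟨fun v => v ⬝ᵥ f, fun _ _ => add_dotProduct _ _ _⟩,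
    fun x v => smul_dotProduct x v f⟩
  refine ⟨LinearMap.ker φ, ?_, fun p => ?_⟩
  · have h1 := φ.finrank_range_add_finrank_ker
    rw [LinearMap.range_eq_top.2 fun x => ⟨x • w, by rw [map_smul]; simp [φ, hw]⟩] at h1
    simp only [finrank_top, Module.finrank_self, Module.finrank_fin_fun] at h1
    omega
  · obtain ⟨v, hv, rfl⟩ := pk_ind p
    rw [I_mk, Projectivization.submodule_mk, Submodule.span_singleton_le_iff_mem]
    rfl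

omit [Finite K] in
theorem PC.le_of_pts {W W' : Submodule K (Fin 3 → K)}
    (h : ∀ p : Pt K, p.submodule ≤ W → p.submodule ≤ W') : W ≤ W' := fun v hv => by
  by_cases h0 : v = 0
  · exact h0 ▸ zero_mem _
  have := h (Projectivization.mk K v h0)
  rw [Projectivization.submodule_mk, Submodule.span_singleton_le_iff_mem,
    Submodule.span_singleton_le_iff_mem] at this
  exact this hv

theorem PC.exists_lm {W : Submodule K (Fin 3 → K)} (h : Module.finrank K W = 2) :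
    ∃ m : Li K, ∀ p : Pt K, (D K).I p m ↔ p.submodule ≤ W := by
  obtain ⟨v, hv⟩ : ∃ v, v ∉ W := by
    by_contra h'
    push Not at h'
    rw [show W = ⊤ from eq_top_iff.2 fun v _ => h' v] at h
    simp at h
  obtain ⟨f, h1, h2⟩ := Cfsg.Lib.Linear.exists_dot_of_notMem hv
  have hf : f ≠ 0 := by
    rintro rfl
    simp at h2
  obtain ⟨W', h3, h4⟩ := exists_sub (lm f hf)
  obtain rfl : W = W' := Submodule.eq_of_le_of_finrank_eq (le_of_pts fun p hp => (h4 p).1 (by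
    obtain ⟨u, hu, rfl⟩ := pk_ind p
    rw [Projectivization.submodule_mk, Submodule.span_singleton_le_iff_mem] at hp
    rw [I_mk, dotProduct_comm, h1 u hp])) (h.trans h3.symm)
  exact ⟨_, h4⟩

theorem PC.line_ext {m m' : Li K} (h : ∀ p, (D K).I p m → (D K).I p m') : m = m' := by
  obtain ⟨a, ha⟩ := (D K).meet' m m
  obtain ⟨b, hb, hab, -⟩ := (D K).exists_third m a a
  exact (D K).line_eq hab hb ha.1 (h _ hb) (h _ ha.1)

end

variable {ι Φ : Type} [Fintype ι] [DecidableEq ι] {R : RootSys ι Φ}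
variable {G : Type*} [Group G] {F : Fr G R} {a b : ι}

theorem Sb.isPos_rt (h : Sb R a b) {i j : Fin 3} (hij : i ≠ j) : R.IsPos (rt R a b i j) ↔ i < j := by
  have h1 := isPos_simple (R := R) a
  have h2 := isPos_simple (R := R) b
  have h3 := H17.isPos_sref_simple (R := R) h.ne
  fin_cases i <;> fin_cases j <;> simp [rt, isPos_neg_iff, h1, h2, h3] at hij ⊢

namespace Fr

variable (F) in
/-- Coordinates with the action on points and lines. -/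
structure Cd (a b : ι) (L : Subgroup G) (K : Type) [Field K] [Finite K] where
  pt : F.X → Pt K
  ld : F.X → Li K
  φ : L →* Γ K
  ρ : SL(3, K) →* Γ K
  hρ : ∀ (A : SL(3, K)) (p : Pt K), ρ A • p = A • p
  inc : ∀ c, F.Rs {a, b} (F.ch 1) c → (PC.D K).I (pt c) (ld c)
  inj : ∀ c d, F.Rs {a, b} (F.ch 1) c → F.Rs {a, b} (F.ch 1) d → pt c = pt d → ld c = ld d → c = d
  surj : ∀ p m, (PC.D K).I p m → ∃ c, F.Rs {a, b} (F.ch 1) c ∧ pt c = p ∧ ld c = m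
  ada : ∀ c d, F.Rs {a, b} (F.ch 1) c →
    (F.Ad a c d ↔ F.Rs {a, b} (F.ch 1) d ∧ ld d = ld c ∧ d ≠ c)
  adb : ∀ c d, F.Rs {a, b} (F.ch 1) c →
    (F.Ad b c d ↔ F.Rs {a, b} (F.ch 1) d ∧ pt d = pt c ∧ d ≠ c)
  φp : ∀ (g : L) c, F.Rs {a, b} (F.ch 1) c → φ g • pt c = pt (g.1 • c)
  φl : ∀ (g : L) c, F.Rs {a, b} (F.ch 1) c → φ g • ld c = ld (g.1 • c)
  sl : ∀ A, ∃ g, φ g = ρ A
  nrm : ∀ l A, ∃ A', φ l * ρ A * (φ l)⁻¹ = ρ A'
  std0 : pt (F.ch 1) = PC.e K 0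
  std1 : pt (F.ch (R.sW a)) = PC.e K 1
  std2 : pt (F.ch (R.sW b * R.sW a)) = PC.e K 2

variable {L : Subgroup G} {K : Type} [Field K] [Finite K]

theorem Crd.exists_cd (C : F.Crd a b L K) (hL : L ≤ F.PJ {a, b}) : Nonempty (F.Cd a b L K) := by
  choose ld hld using fun c => exists_lm (C.rk c)
  have e1 : ∀ c d, ld c = ld d ↔ C.ln c = C.ln d := fun c d =>
    ⟨fun h => le_antisymm (le_of_pts fun p hp => by rwa [← hld, ← h, hld])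
      (le_of_pts fun p hp => by rwa [← hld, h, hld]),
      fun h => line_ext fun p hp => by rwa [hld, ← h, ← hld]⟩
  have surj : ∀ p m, (PC.D K).I p m → ∃ c, F.Rs {a, b} (F.ch 1) c ∧ C.pt c = p ∧ ld c = m :=
    fun p m h => by
      obtain ⟨W, h1, h2⟩ := exists_sub m
      obtain ⟨c, h3, h4, rfl⟩ := C.surj p W h1 ((h2 p).1 h)
      exact ⟨c, h3, h4, line_ext fun p hp => by rwa [h2, ← hld]⟩
  have sp : ∀ p, ∃ c, F.Rs {a, b} (F.ch 1) c ∧ C.pt c = p := fun p => by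
    obtain ⟨m, h, -⟩ := (PC.D K).join' p p
    exact (surj p m h).imp fun c h => ⟨h.1, h.2.1⟩
  have st : ∀ g ∈ L, ∀ c, F.Rs {a, b} (F.ch 1) c → F.Rs {a, b} (F.ch 1) (g • c) :=
    fun g hg c => rs_smul_of_PJ (hL hg)
  obtain ⟨φ₁, h1⟩ := exists_perm_hom C.pt sp st fun g hg c d hc hd e => by
    by_cases h : d = c
    · rw [h]
    exact ((C.adb _ _ (st g hg c hc)).1 ((Ad_smul g).2 ((C.adb c d hc).2 ⟨hd, e.symm, h⟩))).2.1.symm
  obtain ⟨φ₂, h2⟩ := exists_perm_hom ld (fun m => by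
    obtain ⟨p, h, -⟩ := (PC.D K).meet' m m
    exact (surj p m h).imp fun c h => ⟨h.1, h.2.2⟩) st fun g hg c d hc hd e => by
      by_cases h : d = c
      · rw [h]
      exact (e1 _ _).2 ((C.ada _ _ (st g hg c hc)).1 ((Ad_smul g).2
        ((C.ada c d hc).2 ⟨hd, ((e1 _ _).1 e).symm, h⟩))).2.1.symm
  have h3 : ∀ (g : L) p m, (PC.D K).I p m → (PC.D K).I (φ₁ g p) (φ₂ g m) := fun g p m h => by
    obtain ⟨c, hc, rfl, rfl⟩ := surj p m h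
    rw [h1 g c hc, h2 g c hc, hld]
    exact C.inc _ (st _ g.2 c hc)
  let φ : L →* Γ K := (φ₁.prod φ₂).codRestrict _ fun g p m =>
    ⟨fun h => show (PC.D K).I p m by simpa using h3 g⁻¹ _ _ h, h3 g p m⟩
  have h4 : ∀ (g : L) c, F.Rs {a, b} (F.ch 1) c → φ g • C.pt c = C.pt (g.1 • c) := h1
  have h5 : ∀ (g : L) (A : SL(3, K)), (∀ c, F.Rs {a, b} (F.ch 1) c → C.pt (g.1 • c) = A • C.pt c) →
      ∀ p : Pt K, φ g • p = A • p := fun g A h p => by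
    obtain ⟨c, hc, rfl⟩ := sp p
    rw [h4 g c hc, h c hc]
  have h6 : ∀ {γ δ : Γ K}, (∀ p : Pt K, γ • p = δ • p) → γ = δ := fun h =>
    (inv_mul_eq_one.1 ((PC.D K).faith _ fun p => by rw [mul_smul, inv_smul_eq_iff, h])).symm
  choose s s1 s2 using C.sl
  have h7 := fun A => h5 ⟨s A, s1 A⟩ A (s2 A)
  let ρ : SL(3, K) →* Γ K := MonoidHom.mk' (fun A => φ ⟨s A, s1 A⟩) fun A B => h6 fun p => by
    rw [mul_smul, h7, h7, h7, mul_smul]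
  refine ⟨⟨C.pt, ld, φ, ρ, h7, fun c hc => (hld _ _).2 (C.inc c hc),
    fun c d hc hd e e' => C.inj c d hc hd e ((e1 _ _).1 e'), surj,
    fun c d hc => by rw [C.ada c d hc, e1], C.adb, h4, h2, fun A => ⟨_, rfl⟩, fun l A => ?_,
    Projectivization.submodule_injective C.std0, Projectivization.submodule_injective C.std1,
    Projectivization.submodule_injective C.std2⟩⟩
  obtain ⟨A', h⟩ := C.nrm l l.2 (s A) (s1 A) A (s2 A)
  refine ⟨A', h6 fun p => ?_⟩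
  rw [← map_inv]
  change (φ l * φ _ * φ _) • p = φ _ • p
  rw [← map_mul, ← map_mul, h5 _ A' h, h7]

namespace Cd

variable (C : F.Cd a b L K) (hL : L ≤ F.PJ {a, b}) {g : L} {c d : F.X}
include hL

theorem smul_eq (hc : F.Rs {a, b} (F.ch 1) c) (hd : F.Rs {a, b} (F.ch 1) d) :
    g.1 • c = d ↔ C.φ g • C.pt c = C.pt d ∧ C.φ g • C.ld c = C.ld d := by
  rw [C.φp g c hc, C.φl g c hc]
  exact ⟨by rintro rfl; exact ⟨rfl, rfl⟩,
    fun h => C.inj _ _ (rs_smul_of_PJ (hL g.2) hc) hd h.1 h.2⟩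

theorem mem_TrJ_iff : g.1 ∈ F.TrJ {a, b} (F.ch 1) ↔ C.φ g = 1 := by
  rw [mem_TrJ]
  refine ⟨fun h => (PC.D K).faith _ fun p => ?_, fun h c hc => (C.smul_eq hL hc hc).2 (by simp [h])⟩
  obtain ⟨m, h1, -⟩ := (PC.D K).join' p p
  obtain ⟨c, hc, rfl, -⟩ := C.surj p m h1
  rw [C.φp g c hc, h c hc]

theorem mem_Tr_a (hc : F.Rs {a, b} (F.ch 1) c) :
    g.1 ∈ F.Tr c a ↔ (PC.D K).Ax (C.φ g) (C.ld c) := by
  rw [mem_Tr]
  refine ⟨fun h p hp => ?_, fun h => ⟨(C.smul_eq hL hc hc).2 ⟨h _ (C.inc c hc), h.fix⟩,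
    fun d hd => ?_⟩⟩
  · obtain ⟨d, hd, rfl, e⟩ := C.surj p _ hp
    rw [C.φp g d hd]
    by_cases h1 : d = c
    · rw [h1, h.1]
    · rw [h.2 d ((C.ada c d hc).2 ⟨hd, e, h1⟩)]
  · obtain ⟨h1, h2, -⟩ := (C.ada c d hc).1 hd
    exact (C.smul_eq hL h1 h1).2 ⟨h _ (h2 ▸ C.inc d h1), h2 ▸ h.fix⟩

theorem mem_Tr_b (hc : F.Rs {a, b} (F.ch 1) c) :
    g.1 ∈ F.Tr c b ↔ (PC.D K).Ce (C.φ g) (C.pt c) := by
  rw [mem_Tr]
  refine ⟨fun h m hm => ?_, fun h => ⟨(C.smul_eq hL hc hc).2 ⟨h.fix, h _ (C.inc c hc)⟩,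
    fun d hd => ?_⟩⟩
  · obtain ⟨d, hd, e, rfl⟩ := C.surj _ m hm
    rw [C.φl g d hd]
    by_cases h1 : d = c
    · rw [h1, h.1]
    · rw [h.2 d ((C.adb c d hc).2 ⟨hd, e, h1⟩)]
  · obtain ⟨h1, h2, -⟩ := (C.adb c d hc).1 hd
    exact (C.smul_eq hL h1 h1).2 ⟨h2 ▸ h.fix, h _ (h2 ▸ C.inc d h1)⟩

omit hL

/-- The flag of the apartment attached to a permutation. -/
def Fl (w : R.W) (σ : Equiv.Perm (Fin 3)) : Prop :=
  w ∈ WJ R {a, b} ∧ (∀ i j, i ≠ j → w.1 (rt R a b i j) = rt R a b (σ i) (σ j)) ∧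
    C.pt (F.ch w) = PC.e K (σ 0) ∧ C.ld (F.ch w) = PC.l K (σ 2)

theorem flags (h : Sb R a b) : C.Fl 1 1 ∧ C.Fl (R.sW a) (.swap 0 1) ∧ C.Fl (R.sW b) (.swap 1 2) ∧
    C.Fl (R.sW a * R.sW b) (.swap 0 1 * .swap 1 2) ∧ C.Fl (R.sW b * R.sW a) (.swap 1 2 * .swap 0 1) ∧
    C.Fl (R.sW a * R.sW b * R.sW a) (.swap 0 1 * .swap 1 2 * .swap 0 1) := by
  have ha : R.sW a ∈ WJ R {a, b} := H17.sW_mem_WJ (.inl rfl)
  have hb : R.sW b ∈ WJ R {a, b} := H17.sW_mem_WJ (.inr rfl)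
  have s : ∀ {w}, w ∈ WJ R {a, b} → F.Rs {a, b} (F.ch 1) (F.ch w) := fun hw =>
    rs_ch.2 (by simpa using hw)
  have p : ∀ {w}, w ∈ WJ R {a, b} → C.pt (F.ch (w * R.sW b)) = C.pt (F.ch w) := fun hw =>
    ((C.adb _ _ (s hw)).1 (ad_ch _ b)).2.1
  have k : ∀ {w i j k}, w ∈ WJ R {a, b} → C.pt (F.ch w) = PC.e K i →
      C.pt (F.ch (w * R.sW a)) = PC.e K j → i ≠ j → i ≠ k → j ≠ k →
      C.ld (F.ch w) = PC.l K k ∧ C.ld (F.ch (w * R.sW a)) = PC.l K k :=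
    fun {w i j k} hw h1 h2 h3 h4 h5 => by
      have e := ((C.ada _ _ (s hw)).1 (ad_ch _ a)).2.1
      rw [e, and_self]
      exact (PC.D K).line_eq (e_ne h3) (h1 ▸ C.inc _ (s hw)) (h2 ▸ e ▸ C.inc _ (s (mul_mem hw ha)))
        (I_el h4) (I_el h5)
  have m : ∀ {v w : R.W} {σ τ : Equiv.Perm (Fin 3)},
      (∀ i j, i ≠ j → v.1 (rt R a b i j) = rt R a b (σ i) (σ j)) →
      (∀ i j, i ≠ j → w.1 (rt R a b i j) = rt R a b (τ i) (τ j)) →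
      ∀ i j, i ≠ j → (v * w).1 (rt R a b i j) = rt R a b ((σ * τ) i) ((σ * τ) j) :=
    fun {v w σ τ} h1 h2 i j hij => by rw [H17.W_mul, h2 i j hij, h1 _ _ (τ.injective.ne hij)]; rfl
  have ra : ∀ i j, i ≠ j → (R.sW a).1 (rt R a b i j) =
      rt R a b (Equiv.swap 0 1 i) (Equiv.swap 0 1 j) := fun _ _ => h.sref_left
  have rb : ∀ i j, i ≠ j → (R.sW b).1 (rt R a b i j) =
      rt R a b (Equiv.swap 1 2 i) (Equiv.swap 1 2 j) := fun _ _ => h.sref_right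
  have p1 : C.pt (F.ch (R.sW b)) = PC.e K 0 := by simpa [C.std0] using p (one_mem _)
  have p2 := (p ha).trans C.std1
  have p3 : C.pt (F.ch (R.sW a * R.sW b * R.sW a)) = PC.e K 2 := by
    rw [h.braid, p (mul_mem hb ha), C.std2]
  have l1 := k (k := 2) (one_mem _) C.std0 (by rw [one_mul, C.std1]) (by decide) (by decide) (by decide)
  have l2 := k (k := 1) hb p1 C.std2 (by decide) (by decide) (by decide)
  have l3 := k (k := 0) (mul_mem ha hb) p2 p3 (by decide) (by decide) (by decide)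
  rw [one_mul] at l1
  exact ⟨⟨one_mem _, fun _ _ _ => rfl, C.std0, l1.1⟩, ⟨ha, ra, C.std1, l1.2⟩, ⟨hb, rb, p1, l2.1⟩,
    ⟨mul_mem ha hb, m ra rb, p2, l3.1⟩, ⟨mul_mem hb ha, m rb ra, C.std2, l2.2⟩,
    mul_mem (mul_mem ha hb) ha, m (m ra rb) ra, p3, l3.2⟩

theorem mem_Ul_iff (h : Sb R a b) (hL : L ≤ F.PJ {a, b}) {i j : Fin 3} (hij : i ≠ j) :
    g.1 ∈ F.Ul {a, b} (rt R a b i j) ↔
      (PC.D K).Ax (C.φ g) (PC.l K j) ∧ (PC.D K).Ce (C.φ g) (PC.e K i) := by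
  obtain ⟨f1, f2, f3, f4, f5, f6⟩ := C.flags h
  have s : ∀ {w}, w ∈ WJ R {a, b} → F.Rs {a, b} (F.ch 1) (F.ch w) := fun hw =>
    rs_ch.2 (by simpa using hw)
  have k : ∀ {w σ i j}, C.Fl w σ → i ≠ j → (w⁻¹ : R.W).1 (rt R a b (σ i) (σ j)) = rt R a b i j :=
    fun hw hij => by rw [← hw.2.1 _ _ hij, H17.W_inv_apply]
  rw [mem_Ul]
  constructor
  · intro hg
    obtain ⟨w, σ, hw, rfl, rfl⟩ : ∃ w σ, C.Fl w σ ∧ σ 0 = i ∧ σ 2 = j := by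
      fin_cases i <;> fin_cases j <;> first
        | exact absurd rfl hij | exact ⟨_, _, f1, rfl, rfl⟩ | exact ⟨_, _, f2, rfl, rfl⟩
        | exact ⟨_, _, f3, rfl, rfl⟩ | exact ⟨_, _, f4, rfl, rfl⟩ | exact ⟨_, _, f5, rfl, rfl⟩
        | exact ⟨_, _, f6, rfl, rfl⟩
    have h1 := k hw (show (0 : Fin 3) ≠ 2 by decide)
    have h2 : w ∈ hf R (rt R a b (σ 0) (σ 2)) := by
      rw [mem_hf, h1, h.isPos_rt (by decide)]
      decide
    rw [← hw.2.2.1, ← hw.2.2.2, ← C.mem_Tr_a hL (s hw.1), ← C.mem_Tr_b hL (s hw.1)]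
    exact ⟨hg w hw.1 h2 a (.inl rfl) (by_contra fun h3 => absurd (h.rt_inj (p := 0) (q := 1)
      (by decide) (by decide) (h1.symm.trans ((mul_sW_notMem_hf h2).1 h3))) (by decide)),
      hg w hw.1 h2 b (.inr rfl) (by_contra fun h3 => absurd (h.rt_inj (p := 1) (q := 2)
      (by decide) (by decide) (h1.symm.trans ((mul_sW_notMem_hf h2).1 h3))) (by decide))⟩
  · rintro ⟨h1, h2⟩ w hw h3 c hc h4
    obtain ⟨σ, hσ⟩ : ∃ σ, C.Fl w σ := by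
      rcases (mem_WJ_sb h).1 hw with rfl | rfl | rfl | rfl | rfl | rfl
      exacts [⟨_, f1⟩, ⟨_, f2⟩, ⟨_, f3⟩, ⟨_, f4⟩, ⟨_, f5⟩, ⟨_, f6⟩]
    obtain ⟨i, rfl⟩ := σ.surjective i
    obtain ⟨j, rfl⟩ := σ.surjective j
    have h5 : i ≠ j := fun e => hij (by rw [e])
    have h6 := fun e => (mul_sW_notMem_hf (i := c) h3).2 e h4
    rw [mem_hf, k hσ h5, h.isPos_rt h5] at h3
    rw [k hσ h5] at h6
    rcases hc with rfl | rfl
    · obtain rfl : j = 2 := by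
        by_contra e
        obtain ⟨rfl, rfl⟩ : i = 0 ∧ j = 1 := by omega
        exact h6 rfl
      rwa [C.mem_Tr_a hL (s hw), hσ.2.2.2]
    · obtain rfl : i = 0 := by
        by_contra e
        obtain ⟨rfl, rfl⟩ : i = 1 ∧ j = 2 := by omega
        exact h6 rfl
      rwa [C.mem_Tr_b hL (s hw), hσ.2.2.1]

include C in
theorem exists_plD (h : Sb R a b) (hL : L ≤ F.PJ {a, b}) : Nonempty (F.PlD a b L K) := by
  obtain ⟨f1, f2, -, f4, -⟩ := C.flags h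
  have s : ∀ {w}, w ∈ WJ R {a, b} → F.Rs {a, b} (F.ch 1) (F.ch w) := fun hw =>
    rs_ch.2 (by simpa using hw)
  have s1 := Rs.refl (F := F) {a, b} (F.ch 1)
  have p1 : C.pt (F.ch 1) = PC.e K 0 := f1.2.2.1
  have l1 : C.ld (F.ch 1) = PC.l K 2 := f1.2.2.2
  have p2 : C.pt (F.ch (R.sW a)) = PC.e K 1 := f2.2.2.1
  have l2 : C.ld (F.ch (R.sW a)) = PC.l K 2 := f2.2.2.2
  have p4 : C.pt (F.ch (R.sW a * R.sW b)) = PC.e K 1 := f4.2.2.1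
  have l4 : C.ld (F.ch (R.sW a * R.sW b)) = PC.l K 0 := f4.2.2.2
  have fx : ∀ {g : L}, g.1 • F.ch 1 = F.ch 1 ↔
      C.φ g • PC.e K 0 = PC.e K 0 ∧ C.φ g • PC.l K 2 = PC.l K 2 := by
    intro g
    rw [C.smul_eq hL s1 s1, p1, l1]
  let Rel : Subgroup (G × SL(3, K)) :=
    { carrier := {z | ∃ hg : z.1 ∈ L, C.φ ⟨z.1, hg⟩ = C.ρ z.2}
      mul_mem' := fun ⟨h1, e1⟩ ⟨h2, e2⟩ => ⟨mul_mem h1 h2, by
        rw [Prod.snd_mul, map_mul, ← e1, ← e2, ← map_mul]; rfl⟩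
      one_mem' := ⟨one_mem _, (map_one _).trans (map_one _).symm⟩
      inv_mem' := fun ⟨h1, e1⟩ => ⟨inv_mem h1, by rw [Prod.snd_inv, map_inv, ← e1, ← map_inv]; rfl⟩ }
  refine ⟨⟨Rel, fun h => h.1, fun A => (C.sl A).elim fun g e => ⟨g, g.2, e⟩, fun ⟨hg, e⟩ => ?_,
    fun g hg h => ⟨hg, ((C.mem_TrJ_iff hL (g := ⟨g, hg⟩)).1 h).trans (map_one _).symm⟩,
    fun l hl g A ⟨hg, e⟩ => ?_, fun i j hij g hg => ?_, fun ⟨hg, e⟩ h1 h2 h3 => ?_, ?_,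
    fun d hd => ?_, fun {g s t} ⟨hg, e⟩ => ?_, fun N h1 h2 h3 h4 t => ?_,
    fun g₁ h1 g₂ h2 g₃ h3 g₄ h4 => ?_⟩⟩
  · rw [C.mem_TrJ_iff hL (g := ⟨_, hg⟩), e, ρ_eq_one C.hρ]
  · obtain ⟨A', e'⟩ := C.nrm ⟨l, hl⟩ A
    exact ⟨A', mul_mem (mul_mem hl hg) (inv_mem hl), by
      rw [← e', ← e, ← map_inv, ← map_mul, ← map_mul]; rfl⟩
  · rw [C.mem_Ul_iff h hL (g := ⟨g, hg⟩) hij, ← root C.hρ hij]
    exact exists_congr fun t => ⟨fun h => h.2, fun h => ⟨hg, h⟩⟩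
  · exact (fx (g := ⟨_, hg⟩)).2 (e ▸ upper C.hρ h1 h2 h3)
  · rw [← card_l]
    refine (Set.ncard_congr (fun d _ => C.pt d) (fun d hd => ?_) (fun d d' hd hd' e => ?_)
      fun p hp => ?_).symm
    · obtain ⟨h1, h2, h3⟩ := (C.ada _ _ s1).1 hd
      exact ⟨l1 ▸ h2 ▸ C.inc d h1, fun e => h3 (C.inj _ _ h1 s1 (e.trans p1.symm) h2)⟩
    · obtain ⟨h1, h2, -⟩ := (C.ada _ _ s1).1 hd
      obtain ⟨h3, h4, -⟩ := (C.ada _ _ s1).1 hd'
      exact C.inj _ _ h1 h3 e (h2.trans h4.symm)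
    · obtain ⟨d, h1, rfl, h2⟩ := C.surj p _ hp.1
      exact ⟨d, (C.ada _ _ s1).2 ⟨h1, h2.trans l1.symm, fun e => hp.2 (e ▸ p1)⟩, rfl⟩
  · obtain ⟨h1, h2, h3⟩ := (C.adb _ _ (s f2.1)).1 hd
    obtain ⟨t, h4, h5⟩ := PC.trans C.hρ (p2 ▸ h2 ▸ C.inc d h1)
      fun e => h3 (C.inj _ _ h1 (s f2.1) h2 (e.trans l2.symm))
    exact ⟨t, fun g ⟨hg, e⟩ => (C.smul_eq hL (g := ⟨g, hg⟩) (s f4.1) h1).2 (by
      rw [e, p4, l4, h2, p2]; exact ⟨h4, h5⟩)⟩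
  · obtain ⟨h1, c, h2, h3⟩ := (elA C.hρ).1 ⟨s, t, e⟩
    obtain ⟨z, h4, rfl, h5⟩ := C.surj c _ h2
    refine ⟨(C.mem_Tr_a hL (g := ⟨g, hg⟩) s1).2 (l1 ▸ h1), z, ?_,
      (C.mem_Tr_b hL (g := ⟨g, hg⟩) h4).2 h3⟩
    exact (eq_or_ne z _).imp_right fun e => (C.ada _ _ s1).2 ⟨h4, h5.trans l1.symm, e⟩
  · obtain ⟨g, hg, h5⟩ := SetLike.not_le_iff_exists.1 h4
    obtain ⟨y, hy, e⟩ := nsub C.hρ (N := (N.subgroupOf L).map C.φ) (by
      rintro _ ⟨k, hk, rfl⟩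
      exact fx.1 (h2 _ hk)) (by
      rintro A a1 a2 a3 _ ⟨k, hk, rfl⟩
      obtain ⟨l, e⟩ := C.sl A
      exact ⟨l * k * l⁻¹, h3 l l.2 (fx.2 (e ▸ upper C.hρ a1 a2 a3)) _ hk, by
        rw [map_mul, map_mul, map_inv, e]⟩) ⟨⟨g, h1 hg⟩, hg, rfl⟩
      (fun e => h5 ((C.mem_TrJ_iff hL (g := ⟨g, h1 hg⟩)).2 e)) t
    exact ⟨y, hy, y.2, e⟩
  · have k : ∀ g (hg : g ∈ L ⊓ F.Fx {1, R.sW a}), C.φ ⟨g, hg.1⟩ • PC.e K 0 = PC.e K 0 ∧
        C.φ ⟨g, hg.1⟩ • PC.e K 1 = PC.e K 1 := fun g hg => by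
      rw [← p1, ← p2, C.φp _ _ s1, C.φp _ _ (s f2.1), mem_Fx.1 hg.2 _ (.inl rfl),
        mem_Fx.1 hg.2 _ (.inr rfl)]
      exact ⟨rfl, rfl⟩
    have := metab C.hρ (γ := fun i => C.φ (![⟨g₁, h1.1⟩, ⟨g₂, h2.1⟩, ⟨g₃, h3.1⟩, ⟨g₄, h4.1⟩] i))
      (fun i => C.nrm _) fun i => by
        fin_cases i
        exacts [k _ h1, k _ h2, k _ h3, k _ h4]
    simp only [← map_commutatorElement] at this
    exact (C.mem_Tr_a hL s1).2 (l1 ▸ this)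

end Cd

end Fr

end Cfsg.Lib.TB
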