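import Cfsg.Agent.Lib.TB.PlA
import Cfsg.Agent.Lib.TB.PlCb

/-!
S1143 (docs/TB.md): from the coordinates of the plane to group theoretic statements.
-/

set_option autoImplicit false

namespace Cfsg.Lib.TB.Fr

open Cfsg.Lib.BN Cfsg.Lib.Chev RootSys

variable {ι Φ : Type} [Fintype ι] [DecidableEq ι] {R : RootSys ι Φ} [Fintype Φ]
variable {G : Type*} [Group G] [Finite G] {F : Fr G R} {a b : ι}

/-- `Rel = {(g, A) | g ∈ L, ∀ c in the residue, pt (g • c) = A • pt c}`; then also
`ln (g • c) = A (ln c)`.  The flags of the apartment: `1 = (e₀, e₀e₁)`, `s_a = (e₁, e₀e₁)`,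
`s_b = (e₀, e₀e₂)`, `s_b s_a = (e₂, e₀e₂)`, `s_a s_b = (e₁, e₁e₂)`, `s_a s_b s_a = (e₂, e₁e₂)`.
* `root`: `g ∈ Ul (rt i j)` says that `g` has centre `eᵢ` and axis `eᵢ e_k` (`k ≠ i, j`); correct `g` by an
  element over `xe i j t` to fix the point `eⱼ`; then it is trivial on the plane (`rigidJ`).  (It is
  enough to do `(0, 2)` and conjugate by the `nᵢ` and monomial matrices, or to argue with points.)
* `nsub`: let `g ∈ N` be nontrivial on the plane.  If `g` commutes on the plane with all elements over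
  `xe 0 2 s * xe 1 2 t` (elations with axis `l₀`) it fixes their centres, so has axis `l₀`; dually for
  `xe 0 1 s * xe 0 2 t`.  If it commutes with both it lies over some `xe 0 2 t`, `t ≠ 0` (`root`).
  Otherwise a commutator `[g, e] ∈ N` is a nontrivial elation with axis `l₀` (or centre `p₀`), it lies
  over `xe 0 2 s * xe 1 2 t`, and if `t ≠ 0` take the commutator with an element over `xe 0 1 1`.
  Conjugation by elements over `diag (λ, λ⁻¹, 1)` (`upper`) gives all `t ≠ 0`.
* `metab`: the stabilizer `T` of `e₀`, `e₁` in `SL₃(K)` acts on the other points `e₀ + x e₁` of `l₀` by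
  `x ↦ λ x`, an abelian transitive cyclic group, normalized by the elements `g` of `L` fixing the two
  chambers (`nrm`); a permutation `γ` of `Kˣ` normalizing the multiplications is `x ↦ γ(1) θ(x)` with
  `θ` an automorphism of the cyclic group `Kˣ`, so commutators are multiplications. -/
theorem Crd.exists_plD (h : Sb R a b) {L : Subgroup G} (hL : L ≤ F.PJ {a, b}) {K : Type} [Field K]
    [Fintype K] (C : F.Crd a b L K) : Nonempty (F.PlD a b L K) :=
  (C.exists_cd hL).elim fun C' => C'.exists_plD h hL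

theorem exists_plD (h : Sb R a b) {L : Subgroup G} (hL : L ≤ F.PJ {a, b})
    (h1 : ∀ i ∈ ({a, b} : Set ι), F.n i ∈ L)
    (h2 : ∀ i ∈ ({a, b} : Set ι), F.Fx (hf R (R.simple i)) ≤ L) :
    ∃ (K : Type) (_ : Field K) (_ : Fintype K), Nonempty (F.PlD a b L K) := by
  obtain ⟨K, _, _, ⟨C⟩⟩ := exists_crd h hL h1 h2
  exact ⟨K, _, inferInstance, C.exists_plD h hL⟩

theorem exists_plD_LJ (h : Sb R a b) :
    ∃ (K : Type) (_ : Field K) (_ : Fintype K), Nonempty (F.PlD a b (F.LJ {a, b}) K) :=
  exists_plD h (LJ_le_PJ _) (fun _ hi => n_mem_LJ hi) fun _ hi =>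
    Fx_hf_le_LJ (inJ_simple_iff.2 hi)

theorem isPrimePow_q (h : Sb R a b) : IsPrimePow (F.q a) := by
  obtain ⟨K, _, _, ⟨D⟩⟩ := exists_plD_LJ (F := F) h
  rw [← D.card, Nat.card_eq_fintype_card]
  exact Fintype.isPrimePow_card_of_field

end Cfsg.Lib.TB.Fr
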