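import Cfsg.Agent.Lib.TB.Act1
import Cfsg.Agent.Lib.TB.PlC
import Cfsg.Agent.Lib.TB.A2a

/-!
S1143 (docs/TB.md): the `SL₃(K)` of a single bond.
-/

set_option autoImplicit false

namespace Cfsg.Lib.TB

open Cfsg.Lib.BN Cfsg.Lib.Chev RootSys Matrix
open scoped commutatorElement MatrixGroups

theorem hua_id {L : Type*} [Field L] {x y : L} (hx : x ≠ 0) (hy : y ≠ 0) (hxy : y ≠ x⁻¹) :
    x ^ 2 * y = x - (x⁻¹ + (y⁻¹ - x)⁻¹)⁻¹ := by
  have h3 : 1 - x * y ≠ 0 := fun e => hxy (eq_inv_of_mul_eq_one_right (sub_eq_zero.1 e).symm)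
  have h4 : (y⁻¹ - x)⁻¹ = y / (1 - x * y) := by
    rw [show y⁻¹ - x = (1 - x * y) / y by field_simp, inv_div]
  rw [h4, show x⁻¹ + y / (1 - x * y) = (x * (1 - x * y))⁻¹ by field_simp; ring, inv_inv]
  ring

/-- **Hua.**  Normalize `f 1 = 1 = g 1`.  The identity `a⁻¹ + (b⁻¹ - a)⁻¹ = (a - a b a)⁻¹` gives
`f (a² b) = (f a)² * g b`; `a = 1` (or a separate argument) gives `f = g`, and `f (a²) = (f a)²`.  In odd
characteristic polarize; in characteristic two every element is a square. -/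
theorem hua {K K' : Type*} [Field K] [Field K'] [Finite K] (f g : K ≃+ K')
    (h : ∀ t, t ≠ 0 → f t * g t⁻¹ = 1) :
    ∃ (c : K') (τ : K ≃+* K'), c ≠ 0 ∧ (∀ t, f t = c * τ t) ∧ ∀ t, g t = c⁻¹ * τ t := by
  have h1 : ∀ t, g t⁻¹ = (f t)⁻¹ := fun t => by
    by_cases ht : t = 0
    · simp [ht]
    · exact eq_inv_of_mul_eq_one_right (h t ht)
  have h2 : ∀ t, f t⁻¹ = (g t)⁻¹ := fun t => by rw [← inv_inv (f _), ← h1, inv_inv]
  have key : ∀ a b, f (a ^ 2 * b) = f a ^ 2 * g b := fun a b => by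
    by_cases ha : a = 0
    · simp [ha]
    by_cases hb : b = 0
    · simp [hb]
    have a1 : f a ≠ 0 := f.map_ne_zero_iff.2 ha
    have b1 : g b ≠ 0 := g.map_ne_zero_iff.2 hb
    by_cases hab : b = a⁻¹
    · rw [hab, h1, sq, sq, mul_inv_cancel_right₀ ha, mul_inv_cancel_right₀ a1]
    rw [hua_id ha hb hab, hua_id a1 b1 fun e => hab (g.injective (e.trans (h1 a).symm)), map_sub,
      h2, map_add, h1, h1, map_sub, h2]
  have c1 : f 1 ≠ 0 := f.map_ne_zero_iff.2 one_ne_zero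
  have h3 : ∀ b, f b = f 1 ^ 2 * g b := fun b => by simpa using key 1 b
  have h4 : ∀ t u, f (t ^ 2 * u) * f 1 = f (t ^ 2) * f u := fun t u => by
    have := key t 1
    rw [mul_one, ← inv_one, h1] at this
    rw [key, this, h3 u]
    field_simp
  have h5 : ∀ a u, f (a * u) * f 1 = f a * f u := fun a u => by
    by_cases h5 : ringChar K = 2
    · obtain ⟨t, rfl⟩ := FiniteField.isSquare_of_char_two h5 a
      rw [← sq, h4]
    · have h6 : (2 : K) ≠ 0 := Ring.two_ne_zero h5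
      rw [show a = ((a + 1) / 2) ^ 2 - ((a - 1) / 2) ^ 2 by field_simp; ring, sub_mul, map_sub,
        map_sub, sub_mul, h4, h4, sub_mul]
  let σ : K →+* K' := ⟨⟨⟨fun t => (f 1)⁻¹ * f t, inv_mul_cancel₀ c1⟩, fun a u => by
    field_simp
    rw [mul_comm, h5]⟩, by simp, fun a u => by simp [mul_add]⟩
  refine ⟨f 1, RingEquiv.ofBijective σ ⟨σ.injective, fun u => ⟨f.symm (f 1 * u), ?_⟩⟩, c1,
    fun t => (mul_inv_cancel_left₀ c1 _).symm, fun t => ?_⟩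
  · change (f 1)⁻¹ * f _ = u
    rw [f.apply_symm_apply, inv_mul_cancel_left₀ c1]
  · change _ = (f 1)⁻¹ * ((f 1)⁻¹ * f t)
    rw [h3 t]
    field_simp

variable {ι Φ : Type} [Fintype ι] [DecidableEq ι] {R : RootSys ι Φ} [Fintype Φ]
variable {G G' : Type*} [Group G] [Group G'] [Finite G] [Finite G'] {F : Fr G R} {F' : Fr G' R}
  {a b : ι} (hR : Good R) (hM : F.Mo) (h : Sb R a b)
include hR hM h

/-- `D : PlD a b (LJ {a, b}) K`.  For `i ≠ j`, `t` there is a unique `Y i j t ∈ U (rt i j)` over `xe i j t`: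
`x ↦` the `t` with `(x, xe i j t) ∈ Rel` (`root`, `U_le_Ul`) is injective (`ker`, `eq_one_of_fix`) and
`|U| = q a = |K|` (`Mf.card`, `q_eq`).  `comm_mem_one`, `commute_of` give the relations;
`L3C.exists_SL3`. -/
theorem Fr.exists_a2 : ∃ (K : Type) (_ : Field K) (_ : Fintype K) (ψ : SL(3, K) →* G),
    F.A2 a b ψ := by
  obtain ⟨K, _, _, ⟨D⟩⟩ := Fr.exists_plD_LJ (F := F) h
  have u1 : ∀ {i j x y t}, i ≠ j → x ∈ F.U (rt R a b i j) → y ∈ F.U (rt R a b i j) →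
      (x, xe i j t) ∈ D.Rel → (y, xe i j t) ∈ D.Rel → x = y := fun {i j x y t} hij hx hy h1 h2 => by
    have h3 := Fr.mem_TrJ.1 ((D.ker (g := x⁻¹ * y) (A := (xe i j t)⁻¹ * xe i j t)
      (mul_mem (inv_mem h1) h2)).2 (by simp))
    obtain ⟨w, w1, w2⟩ : ∃ w ∈ WJ R {a, b}, w ∉ hf R (rt R a b i j) := by
      by_cases h4 : R.IsPos (rt R a b i j)
      · refine ⟨_, lg_mem {a, b}, fun h5 => (isPos_lg h4).1 ?_ (inJ_rt hij)⟩
        rwa [mem_hf, inv_eq_of_mul_eq_one_right (lg_mul_self _)] at h5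
      · exact ⟨1, one_mem _, fun h5 => h4 (one_mem_hf.1 h5)⟩
    exact inv_mul_eq_one.1 (Fr.eq_one_of_fix hR (mul_mem (inv_mem hx) hy) w2
      (h3 _ (Fr.rs_ch.2 (by simpa using w1))))
  have u2 : ∀ {i j x s t}, i ≠ j → (x, xe i j s) ∈ D.Rel → (x, xe i j t) ∈ D.Rel → s = t :=
    fun {i j x s t} hij h1 h2 => by
      have h3 := (D.ker (g := x⁻¹ * x) (A := (xe i j s)⁻¹ * xe i j t)
        (mul_mem (inv_mem h1) h2)).1 (by simp)
      rw [xe_inv hij, ← xe_add2 hij, xe_mem_center hij] at h3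
      exact neg_add_eq_zero.1 h3
  have u3 : ∀ {i j}, i ≠ j → ∀ x ∈ F.U (rt R a b i j), ∃ t, (x, xe i j t) ∈ D.Rel :=
    fun hij x hx => (D.root _ _ hij x (Fr.U_le_LJ hR (inJ_rt hij) hx)).2 (Fr.U_le_Ul _ _ hx)
  have u4 : ∀ i j t, ∃ x, i ≠ j → x ∈ F.U (rt R a b i j) ∧ (x, xe i j t) ∈ D.Rel := fun i j t => by
    by_cases hij : i = j
    · exact ⟨1, fun h => absurd hij h⟩
    choose θ hθ using fun x : F.U (rt R a b i j) => u3 hij x x.2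
    have h1 : Function.Injective θ := fun x y e =>
      Subtype.ext (u1 hij x.2 y.2 (hθ x) (e ▸ hθ y))
    obtain ⟨w, -, c, hc, e⟩ := exists_WJ_simple (inJ_rt (R := R) (a := a) (b := b) hij)
    have h2 := (hM (rt R a b i j)).card hR (w := w) (i := c) (by rw [← e]; exact inv_apply _ _)
    have h3 : F.q c = F.q a := by
      rcases hc with rfl | rfl
      exacts [rfl, (Fr.q_eq h).symm]
    obtain ⟨x, rfl⟩ := ((Nat.bijective_iff_injective_and_card θ).2 ⟨h1, by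
      rw [h2, h3, D.card]⟩).2 t
    exact ⟨x, fun _ => ⟨x.2, hθ x⟩⟩
  choose Y hY using u4
  have add : ∀ i j, i ≠ j → ∀ s t, Y i j (s + t) = Y i j s * Y i j t := fun i j hij s t =>
    u1 hij (hY _ _ _ hij).1 (mul_mem (hY _ _ _ hij).1 (hY _ _ _ hij).1) (hY _ _ _ hij).2 (by
      rw [xe_add2 hij]
      exact mul_mem (hY _ _ _ hij).2 (hY _ _ _ hij).2)
  obtain ⟨ψ, hψ⟩ := exists_xe add fun i j k h1 h2 h3 s t => by
    refine u1 h3 (Fr.comm_mem_one hR hM (fun e => h1 (h.rt_inj h2 h1 e).1.symm)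
      (fun e => h3 (h.rt_inj h2 h1.symm (e.trans (neg_rt h1))).2.symm)
      (fun _ => h.cone_rt h1 h2 h3) (hY _ _ _ h1).1 (hY _ _ _ h2).1) (hY _ _ _ h3).1 ?_
      (hY _ _ _ h3).2
    rw [← xe_comm h1 h2 h3]
    exact mul_mem (mul_mem (mul_mem (hY _ _ _ h1).2 (hY _ _ _ h2).2) (inv_mem (hY _ _ _ h1).2))
      (inv_mem (hY _ _ _ h2).2)
  refine ⟨K, _, inferInstance, ψ, fun i j hij => ?_⟩
  simp only [hψ i j hij]
  refine ⟨add i j hij, fun s t e => u2 hij (hY _ _ s hij).2 (e ▸ (hY _ _ t hij).2),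
    fun g => ⟨fun hg => ?_, ?_⟩⟩
  · obtain ⟨t, ht⟩ := u3 hij g hg
    exact ⟨t, u1 hij (hY _ _ _ hij).1 hg (hY _ _ _ hij).2 ht⟩
  · rintro ⟨t, rfl⟩
    exact (hY _ _ _ hij).1

variable {K : Type*} [Field K] {ψ : SL(3, K) →* G}

theorem Fr.A2.card (hψ : F.A2 a b ψ) : Nat.card K = F.q a :=
  (hψ 0 1 (by decide)).card.trans ((hM _).card hR (w := 1) rfl)

theorem Fr.A2.mem_GJ (hψ : F.A2 a b ψ) (A : SL(3, K)) : ψ A ∈ F.GJ {a, b} :=
  (eq_top_of_xe (H := (F.GJ {a, b}).comap ψ) fun i j hij t =>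
    Fr.U_le_GJ_of_inJ hR hM (inJ_rt hij) ((hψ i j hij).mem' t)).ge (Subgroup.mem_top A)

theorem Fr.A2.ov_of (hψ : F.A2 a b ψ) {A : SL(3, K)} {σ : Equiv.Perm (Fin 3)} {w : R.W}
    (h1 : ∀ i j, i ≠ σ j → A i j = 0) (h2 : ∀ j, A (σ j) j ≠ 0) (hw : w ∈ WJ R {a, b})
    (h3 : ∀ i j, i ≠ j → w.1 (rt R a b i j) = rt R a b (σ i) (σ j)) : F.Ov (ψ A) w := by
  refine Fr.ov_of_conj hR hM (Fr.GJ_le_LJ hR _ (hψ.mem_GJ hR hM h A)) hw
    fun c hc r hr x hx => Subgroup.mem_sup_left ?_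
  obtain ⟨i, j, hij, rfl⟩ := h.exists_rt (r := r) (by
    simp only [List.mem_cons, List.not_mem_nil, or_false] at hr
    rcases hr with rfl | rfl
    exacts [inJ_simple_iff.2 hc, (inJ_simple_iff.2 hc).neg])
  obtain ⟨t, rfl⟩ := ((hψ i j hij).mem x).1 hx
  rw [← map_inv, ← map_mul, ← map_mul, conj_xe h1 h2 hij, h3 i j hij]
  exact (hψ _ _ (σ.injective.ne hij)).mem' _

/-- `ov_of_conj`. -/
theorem Fr.A2.ov (hψ : F.A2 a b ψ) {t : K} (ht : t ≠ 0) : F.Ov (ψ (we 0 1 t)) (R.sW a) ∧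
    F.Ov (ψ (we 1 2 t)) (R.sW b) ∧ F.Ov (ψ (we 0 2 t)) (R.sW a * R.sW b * R.sW a) := by
  have ha : R.sW a ∈ WJ R {a, b} := Cfsg.Lib.St.simple_mem_WJ (.inl rfl)
  have hb : R.sW b ∈ WJ R {a, b} := Cfsg.Lib.St.simple_mem_WJ (.inr rfl)
  refine ⟨hψ.ov_of hR hM h (σ := Equiv.swap 0 1) (fun i j => ?_) (fun j => ?_) ha
    fun i j => h.sref_left, hψ.ov_of hR hM h (σ := Equiv.swap 1 2) (fun i j => ?_) (fun j => ?_) hb
    fun i j => h.sref_right, hψ.ov_of hR hM h (σ := Equiv.swap 0 2) (fun i j => ?_) (fun j => ?_)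
    (mul_mem (mul_mem ha hb) ha) fun i j hij => ?_⟩
  · rw [we01c ht]
    fin_cases i <;> fin_cases j <;> simp [Equiv.swap_apply_def]
  · rw [we01c ht]
    fin_cases j <;> simp [Equiv.swap_apply_def, ht]
  · rw [we12c ht]
    fin_cases i <;> fin_cases j <;> simp [Equiv.swap_apply_def]
  · rw [we12c ht]
    fin_cases j <;> simp [Equiv.swap_apply_def, ht]
  · rw [we02c ht]
    fin_cases i <;> fin_cases j <;> simp [Equiv.swap_apply_def]
  · rw [we02c ht]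
    fin_cases j <;> simp [Equiv.swap_apply_def, ht]
  · have e : ∀ i : Fin 3, Equiv.swap 0 1 (Equiv.swap 1 2 (Equiv.swap 0 1 i)) = Equiv.swap 0 2 i := by
      decide
    change R.sref a (R.sref b (R.sref a _)) = _
    rw [h.sref_left hij, h.sref_right (Equiv.injective _ |>.ne hij),
      h.sref_left (Equiv.injective _ |>.ne (Equiv.injective _ |>.ne hij)), e, e]

theorem Fr.A2.diag (hψ : F.A2 a b ψ) {A : SL(3, K)} (hA : A.1.IsDiag) : ψ A ∈ F.H :=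
  Fr.mem_H_iff_ov.2 (hψ.ov_of hR hM h (σ := 1) (fun _ _ hij => hA hij) (diag_ne_zero hA) (one_mem _)
    fun _ _ _ => rfl)

theorem Fr.A2.std (hψ : F.A2 a b ψ) :
    F.Std a (fun t => ψ (xe 0 1 t)) (fun t => ψ (xe 1 0 t)) ∧
      F.Std b (fun t => ψ (xe 1 2 t)) fun t => ψ (xe 2 1 t) :=
  ⟨⟨hψ 0 1 (by decide), hψ 1 0 (by decide), fun t ht => by
    simpa only [we, map_mul] using (hψ.ov hR hM h ht).1⟩,
    hψ 1 2 (by decide), hψ 2 1 (by decide), fun t ht => by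
    simpa only [we, map_mul] using (hψ.ov hR hM h ht).2.1⟩

/-- If `ψ A = 1` then `A` normalizes the six elementary subgroups …: `ψ (A (xe i j t) A⁻¹ (xe i j t)⁻¹) = 1`;
or: `PSL₃(K)` is simple and `SL₃(K)` is perfect. -/
theorem Fr.A2.ker (hψ : F.A2 a b ψ) {A : SL(3, K)} (hA : ψ A = 1) :
    A ∈ Subgroup.center SL(3, K) := by
  refine (Cfsg.Lib.Linear.normal_SL_le_center_or_eq_top (.inl (by simp)) ψ.ker).resolve_right
    (fun e => ?_) hA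
  have h1 : ∀ A, ψ A = 1 := fun A => e.ge (Subgroup.mem_top A)
  exact one_ne_zero ((hψ 0 1 (by decide)).inj ((h1 _).trans (h1 _).symm))

omit [Fintype Φ] hR hM h in
theorem Fr.A2.comp (hψ : F.A2 a b ψ) {K' : Type*} [Field K'] (τ : K' ≃+* K) (d : Fin 3 → K)
    (hd : ∀ i, d i ≠ 0) : ∃ ψ' : SL(3, K') →* G, F.A2 a b ψ' ∧
      ∀ i j, i ≠ j → ∀ t, ψ' (xe i j t) = ψ (xe i j (d i * (d j)⁻¹ * τ t)) := by
  haveI := (hψ 0 1 (by decide)).finite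
  haveI := Finite.of_equiv _ τ.symm.toEquiv
  obtain ⟨ψ', h1⟩ := exists_xe (Y := fun i j t => ψ (xe i j (d i * (d j)⁻¹ * τ t)))
    (fun i j hij s t => by rw [map_add, mul_add, xe_add2 hij, map_mul])
    fun i j k h1 h2 h3 s t => by
      rw [← map_commutatorElement, xe_comm h1 h2 h3, map_mul τ]
      congr 2
      have := hd j
      field_simp
  refine ⟨ψ', fun i j hij => ?_, h1⟩
  simp only [h1 i j hij]
  exact (hψ i j hij).comp (τ.toAddEquiv.trans (AddAut.mulLeft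
    (Units.mk0 _ (mul_ne_zero (hd i) (inv_ne_zero (hd j))))))

/-- Two standard pairs differ as in `hua` (`mu_unique` for the root `-α_a`); compose `ψ` of
`exists_a2` with a field isomorphism and conjugation by `diag (c, 1, 1)` (`Chev.exists_conjSL_diag`). -/
theorem Fr.Std.exists_a2 {K : Type*} [Field K] {p m : K → G} (hp : F.Std a p m) :
    ∃ ψ : SL(3, K) →* G, F.A2 a b ψ ∧ (∀ t, ψ (xe 0 1 t) = p t) ∧ ∀ t, ψ (xe 1 0 t) = m t := by
  obtain ⟨K₀, _, _, ψ₀, h0⟩ := Fr.exists_a2 hR hM h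
  have h1 := (h0.std hR hM h).1
  obtain ⟨f, hf⟩ := hp.hp.exists_equiv h1.hp
  obtain ⟨g, hg⟩ := hp.hm.exists_equiv h1.hm
  haveI := hp.hp.finite
  obtain ⟨c, τ, hc, e1, e2⟩ := hua f g fun t ht => by
    have h2 : g t⁻¹ ≠ 0 := g.map_ne_zero_iff.2 (inv_ne_zero ht)
    have h3 := h1.ov _ (inv_ne_zero h2)
    have h4 := hp.ov t ht
    rw [inv_inv, ← map_neg, hg] at h3
    have h5 : R.sW a = ⟨R.refl (R.neg (R.simple a)), R.refl_mem_W _⟩ :=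
      Subtype.ext ((R.refl_neg _).trans (R.refl_simple _)).symm
    rw [h5] at h3 h4
    have h6 : ∀ {x}, x ∈ F.U (R.simple a) → x ∈ F.U (R.neg (R.neg (R.simple a))) := fun hx => by
      rwa [R.neg_neg]
    have h7 := (Fr.mu_unique hR hM (h6 (hp.hp.mem' t)) (h6 (hp.hp.mem' t)) (h6 (h1.hp.mem' _))
      (h6 (h1.hp.mem' _)) (hp.hm.mem' _) h4 h3).1
    rw [h1.hp.inj ((hf t).trans h7), inv_mul_cancel₀ h2]
  obtain ⟨ψ, h2, h3⟩ := h0.comp τ ![c, 1, 1] fun i => by fin_cases i <;> simp [hc]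
  refine ⟨ψ, h2, fun t => ?_, fun t => ?_⟩
  · rw [h3 _ _ (by decide), ← hf, e1]
    simp
  · rw [h3 _ _ (by decide), ← hg, e2]
    simp

/-- Finite fields of the same order are isomorphic. -/
theorem Fr.exists_a2' (K : Type*) [Field K] [Finite K] (hK : Nat.card K = F.q a) :
    ∃ ψ : SL(3, K) →* G, F.A2 a b ψ := by
  obtain ⟨K₀, _, _, ψ₀, h0⟩ := Fr.exists_a2 hR hM h
  haveI := Fintype.ofFinite K
  have h1 := hK.trans (h0.card hR hM h).symm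
  rw [Nat.card_eq_fintype_card, Nat.card_eq_fintype_card] at h1
  exact (h0.comp (FiniteField.ringEquivOfCardEq h1) 1 fun _ => one_ne_zero).imp fun _ h => h.1

variable (hM' : F'.Mo)
include hM'

/-- The graphs of two frames over the same field; `D ≤ range (ψ.prod ψ')`, `ker`, `diag`. -/
theorem Fr.A2.loc2 {ψ' : SL(3, K) →* G'} (hψ : F.A2 a b ψ) (hψ' : F'.A2 a b ψ') :
    ∃ Z Z', Gr2 F F' a Z ∧ Gr2 F F' b Z' ∧ Loc2 F F' Z Z' ∧
      (∀ z, z ∈ Z.1 ↔ ∃ t, (ψ (xe 0 1 t), ψ' (xe 0 1 t)) = z) ∧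
      ∀ z, z ∈ Z.2 ↔ ∃ t, (ψ (xe 1 0 t), ψ' (xe 1 0 t)) = z := by
  have key : ∀ i j, i ≠ j → ∃ Y : Subgroup (G × G'),
      Gr Y (F.U (rt R a b i j)) (F'.U (rt R a b i j)) ∧ Y ≤ (ψ.prod ψ').range ∧
        ∀ z, z ∈ Y ↔ ∃ t, (ψ (xe i j t), ψ' (xe i j t)) = z := fun i j hij => by
    let Y : Subgroup (G × G') := (AddMonoidHom.toMultiplicativeLeft (AddMonoidHom.mk'
      (fun t => Additive.ofMul (ψ.prod ψ' (xe i j t))) fun s t => by
        rw [xe_add2 hij, map_mul]; rfl)).range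
    have hY : ∀ z, z ∈ Y ↔ ∃ t, (ψ (xe i j t), ψ' (xe i j t)) = z := fun z => Iff.rfl
    refine ⟨Y, ⟨fun z hz => ?_, fun x hx => ?_, fun x hx => ?_⟩, fun z hz => ?_, hY⟩
    · obtain ⟨t, rfl⟩ := (hY z).1 hz
      exact ⟨(hψ i j hij).mem' t, (hψ' i j hij).mem' t⟩
    · obtain ⟨t, rfl⟩ := ((hψ i j hij).mem x).1 hx
      exact ⟨_, (hY _).2 ⟨t, rfl⟩⟩
    · obtain ⟨t, rfl⟩ := ((hψ' i j hij).mem x).1 hx
      exact ⟨_, (hY _).2 ⟨t, rfl⟩⟩
    · obtain ⟨t, rfl⟩ := (hY z).1 hz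
      exact ⟨_, rfl⟩
  obtain ⟨Y1, a1, b1, c1⟩ := key 0 1 (by decide)
  obtain ⟨Y2, a2, b2, c2⟩ := key 1 0 (by decide)
  obtain ⟨Y3, a3, b3, -⟩ := key 1 2 (by decide)
  obtain ⟨Y4, a4, b4, -⟩ := key 2 1 (by decide)
  refine ⟨(Y1, Y2), (Y3, Y4), ⟨a1, a2⟩, ⟨a3, a4⟩, Loc.mono ?_
    (sup_le (sup_le b1 b2) (sup_le b3 b4)), c1, c2⟩
  rintro _ ⟨A, rfl⟩
  exact ⟨fun e => hψ.diag hR hM h (isDiag_of_center (hψ'.ker hR hM' h e)),
    fun e => hψ'.diag hR hM' h (isDiag_of_center (hψ.ker hR hM h e))⟩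

theorem base_sb (hq : F.q a = F'.q a) :
    ∃ Z Z', Gr2 F F' a Z ∧ Gr2 F F' b Z' ∧ Loc2 F F' Z Z' := by
  obtain ⟨K, _, _, ψ, h1⟩ := Fr.exists_a2 hR hM h
  obtain ⟨ψ', h2⟩ := Fr.exists_a2' hR hM' h K ((h1.card hR hM h).trans hq)
  obtain ⟨Z, Z', h3, h4, h5, -⟩ := h1.loc2 hR hM h hM' h2
  exact ⟨Z, Z', h3, h4, h5⟩

/-- **Extension along a single bond**: `exists_a2`, `A2.std`, `Gr2.exists_std`, `Std.exists_a2`. -/
theorem ext_sb {Z : Subgroup (G × G') × Subgroup (G × G')} (hZ : Gr2 F F' a Z)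
    (hl : Loc F.H F'.H (Z.1 ⊔ Z.2)) : ∃ Z', Gr2 F F' b Z' ∧ Loc2 F F' Z Z' := by
  obtain ⟨K, _, _, ψ, h1⟩ := Fr.exists_a2 hR hM h
  obtain ⟨p, m, h2, h3, h4⟩ := hZ.exists_std hR hM hM' hl (h1.std hR hM h).1
  obtain ⟨ψ', h5, h6, h7⟩ := h2.exists_a2 hR hM' h
  obtain ⟨Z₀, Z', -, h8, h9, e1, e2⟩ := h1.loc2 hR hM h hM' h5
  obtain rfl : Z₀ = Z := Prod.ext (Subgroup.ext fun z => by simp only [e1, h3, h6])
    (Subgroup.ext fun z => by simp only [e2, h4, h7])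
  exact ⟨Z', h8, h9⟩

end Cfsg.Lib.TB
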