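import Cfsg.Agent.Lib.TB.Cm

/-!
S1143 (docs/TB.md): graphs between root groups of two groups: rank one and rank two.
-/

set_option autoImplicit false

namespace Cfsg.Lib.TB

open Cfsg.Lib.BN Cfsg.Lib.Chev RootSys
open scoped commutatorElement Pointwise

variable {ι Φ : Type} [Fintype ι] [DecidableEq ι] {R : RootSys ι Φ} [Fintype Φ]
variable {G G' : Type*} [Group G] [Group G'] {F : Fr G R} {F' : Fr G' R} {i j : ι}
  {Z Z' : Subgroup (G × G') × Subgroup (G × G')} {D : Subgroup (G × G')}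

theorem Loc.mono {H : Subgroup G} {H' : Subgroup G'} {D D' : Subgroup (G × G')} (h : Loc H H' D)
    (h' : D' ≤ D) : Loc H H' D' := fun z hz => h z (h' hz)

omit [Fintype Φ] in
theorem Loc2.left (h : Loc2 F F' Z Z') : Loc F.H F'.H (Z.1 ⊔ Z.2) := h.mono le_sup_left

omit [Fintype Φ] in
theorem Loc2.symm (h : Loc2 F F' Z Z') : Loc2 F F' Z' Z := h.mono (sup_comm _ _).le

/-- Exchange the two groups. -/
def sw (Z : Subgroup (G × G')) : Subgroup (G' × G) := Z.comap (MulEquiv.prodComm (M := G') (N := G))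

theorem mem_sw {Z : Subgroup (G × G')} {z : G' × G} : z ∈ sw Z ↔ (z.2, z.1) ∈ Z := Iff.rfl

theorem sw_sup (Z Z' : Subgroup (G × G')) : sw (Z ⊔ Z') = sw Z ⊔ sw Z' :=
  (Subgroup.comap_sup_eq _ _ _ (MulEquiv.prodComm (M := G') (N := G)).surjective).symm

theorem Gr.sw {Z : Subgroup (G × G')} {A : Subgroup G} {A' : Subgroup G'} (h : Gr Z A A') :
    Gr (sw Z) A' A :=
  ⟨fun z hz => (h.le (z.2, z.1) hz).symm, h.right, h.left⟩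

theorem Loc.sw {H : Subgroup G} {H' : Subgroup G'} (h : Loc H H' D) : Loc H' H (sw D) :=
  fun z hz => (h (z.2, z.1) hz).symm

omit [Fintype Φ] in
theorem Gr2.sw (h : Gr2 F F' i Z) : Gr2 F' F i (sw Z.1, sw Z.2) := ⟨h.pos.sw, h.neg.sw⟩

theorem Gr2.mem_GJ (h : Gr2 F F' i Z) {z : G × G'} (hz : z ∈ Z.1 ⊔ Z.2) :
    z.1 ∈ F.GJ {i} ∧ z.2 ∈ F'.GJ {i} := by
  have hi : i ∈ ({i} : Set ι) := rfl
  have : Z.1 ⊔ Z.2 ≤ (F.GJ {i}).prod (F'.GJ {i}) := sup_le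
    (fun z hz => ⟨(Fr.U_le_GJ hi).1 (h.pos.le z hz).1, (Fr.U_le_GJ hi).1 (h.pos.le z hz).2⟩)
    fun z hz => ⟨(Fr.U_le_GJ hi).2 (h.neg.le z hz).1, (Fr.U_le_GJ hi).2 (h.neg.le z hz).2⟩
  exact this hz

theorem Gr2.exists_left (h : Gr2 F F' i Z) {g : G} (hg : g ∈ F.GJ {i}) :
    ∃ g', (g, g') ∈ Z.1 ⊔ Z.2 := by
  have : F.GJ {i} ≤ (Z.1 ⊔ Z.2).map (MonoidHom.fst G G') := iSup₂_le fun k hk => by
    obtain rfl : k = i := hk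
    exact sup_le
      (fun a ha => (h.pos.left a ha).elim fun b hb => ⟨_, Subgroup.mem_sup_left hb, rfl⟩)
      fun a ha => (h.neg.left a ha).elim fun b hb => ⟨_, Subgroup.mem_sup_right hb, rfl⟩
  obtain ⟨z, hz, rfl⟩ := this hg
  exact ⟨z.2, hz⟩

variable (hR : Good R) (hM : F.Mo) (hM' : F'.Mo)
include hR

/-- A subgroup with `Loc` meets `U r × U' r` in a graph; so it is any full graph inside. -/
theorem Loc.mem_of_gr (h : Loc F.H F'.H D) {r : Φ} {Z : Subgroup (G × G')}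
    (hZ : Gr Z (F.U r) (F'.U r)) (hle : Z ≤ D) {z : G × G'} (hz : z ∈ D) (h1 : z.1 ∈ F.U r)
    (h2 : z.2 ∈ F'.U r) : z ∈ Z := by
  obtain ⟨a, ha⟩ := hZ.left _ h1
  have h3 : ((z.1, a)⁻¹ * z).1 = 1 := inv_mul_cancel z.1
  have h4 := Fr.U_inf_H hR (mul_mem (inv_mem (hZ.le _ ha).2) h2)
    ((h _ (mul_mem (inv_mem (hle ha)) hz)).2 h3)
  rwa [← inv_mul_eq_one.1 (Prod.ext h3 h4 : (z.1, a)⁻¹ * z = 1)]

theorem Gr.exists_par {r : Φ} {Z : Subgroup (G × G')} (hZ : Gr Z (F.U r) (F'.U r))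
    (h : Loc F.H F'.H Z) {K : Type*} [Field K] {p : K → G} (hp : Par (F.U r) p) :
    ∃ p' : K → G', Par (F'.U r) p' ∧ ∀ z, z ∈ Z ↔ ∃ t, (p t, p' t) = z := by
  have u1 : ∀ {a b b'}, (a, b) ∈ Z → (a, b') ∈ Z → b = b' := fun {a b b'} h1 h2 =>
    inv_mul_eq_one.1 (Fr.U_inf_H hR (hZ.le _ (mul_mem (inv_mem h1) h2)).2
      ((h _ (mul_mem (inv_mem h1) h2)).2 (inv_mul_cancel a)))
  have u2 : ∀ {a a' b}, (a, b) ∈ Z → (a', b) ∈ Z → a = a' := fun {a a' b} h1 h2 =>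
    inv_mul_eq_one.1 (Fr.U_inf_H hR (hZ.le _ (mul_mem (inv_mem h1) h2)).1
      ((h _ (mul_mem (inv_mem h1) h2)).1 (inv_mul_cancel b)))
  choose p' hp' using fun t => hZ.left (p t) ((hp.mem _).2 ⟨t, rfl⟩)
  have key : ∀ z, z ∈ Z ↔ ∃ t, (p t, p' t) = z := fun z => ⟨fun hz => by
    obtain ⟨t, ht⟩ := (hp.mem _).1 (hZ.le z hz).1
    exact ⟨t, Prod.ext ht (u1 (hp' t) (by rw [ht]; exact hz))⟩, by rintro ⟨t, rfl⟩; exact hp' t⟩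
  refine ⟨p', ⟨fun s t => u1 (hp' _) ?_, fun s t e => hp.inj (u2 (hp' s) (e ▸ hp' t)),
    fun g => ⟨fun hg => ?_, ?_⟩⟩, key⟩
  · rw [hp.add]
    exact mul_mem (hp' s) (hp' t)
  · obtain ⟨a, ha⟩ := hZ.right g hg
    obtain ⟨t, ht⟩ := (key _).1 ha
    exact ⟨t, congrArg Prod.snd ht⟩
  · rintro ⟨t, rfl⟩
    exact (hZ.le _ (hp' t)).2

include hM hM'

/-- For `x' ∈ U' r` (`r = ± αᵢ`) take `(x, x') ∈ Z`; `z (x, x') z⁻¹` has first coordinate in `U (w r)`, so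
differs from an element of `Z` by `(1, h')`, `h' ∈ H' ⊓ GJ {i}`, and all conjugates of `(1, h')` under
`Z.1 ⊔ Z.2` are of this kind; so `h'` commutes with `U' (± αᵢ)` (`U_inf_H`) and fixes the whole panel
(`h'` fixes `ch 1`, `ch sᵢ`; `Mf.trans`).  `ov_of_conj`. -/
theorem Gr2.ov (h : Gr2 F F' i Z) (hl : Loc F.H F'.H (Z.1 ⊔ Z.2)) {z : G × G'}
    (hz : z ∈ Z.1 ⊔ Z.2) {w : R.W} (hw : w = 1 ∨ w = R.sW i) (h1 : F.Ov z.1 w) : F'.Ov z.2 w := by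
  have k1 : ∀ y ∈ Z.1 ⊔ Z.2, y.1 = 1 → y.2 ∈ F'.TrJ {i} (F'.ch 1) := fun y hy e => by
    refine Fr.mem_TrJ.2 fun d hd => ?_
    rcases Fr.rs_one.1 hd with rfl | hd
    · exact Fr.mem_H.1 ((hl y hy).2 e) 1
    obtain ⟨u, hu, rfl⟩ := (hM' (R.simple i)).trans (w := 1) rfl hd
    obtain ⟨a, ha⟩ := h.pos.right u hu
    have h2 := Subgroup.mem_sup_left (T := Z.2) ha
    have h3 := Fr.mem_H.1 ((hl _ (mul_mem (mul_mem (inv_mem h2) hy) h2)).2 (by simp [e]))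
      (1 * R.sW i)
    simpa [mul_smul, inv_smul_eq_iff] using h3
  have k2 : ∀ r ∈ [R.simple i, R.neg (R.simple i)], ∃ Y ≤ Z.1 ⊔ Z.2, Gr Y (F.U r) (F'.U r) :=
    fun r hr => by
      simp only [List.mem_cons, List.not_mem_nil, or_false] at hr
      rcases hr with rfl | rfl
      exacts [⟨_, le_sup_left, h.pos⟩, ⟨_, le_sup_right, h.neg⟩]
  refine Fr.ov_of_conj hR hM' (J := {i}) (Fr.GJ_le_LJ hR _ (h.mem_GJ hz).2) (mem_WJ_one.2 hw)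
    fun k hk r hr x hx => ?_
  obtain rfl : k = i := hk
  obtain ⟨Y, hY, gY⟩ := k2 r hr
  obtain ⟨Y', hY', gY'⟩ := k2 (w.1 r) (by
    simp only [List.mem_cons, List.not_mem_nil, or_false] at hr ⊢
    rcases hw with rfl | rfl
    · exact hr
    · rcases hr with rfl | rfl
      exacts [.inr (R.sref_simple k), .inl (sref_neg_simple k)])
  obtain ⟨a, ha⟩ := gY.right x hx
  obtain ⟨b, hb⟩ := gY'.left _ (h1.conj_mem_U.2 (gY.le _ ha).1)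
  have h2 := k1 _ (mul_mem (inv_mem (hY' hb)) (mul_mem (mul_mem hz (hY ha)) (inv_mem hz)))
    (inv_mul_cancel _)
  have h3 := mul_mem (Subgroup.mem_sup_left (T := F'.TrJ {k} (F'.ch 1)) (gY'.le _ hb).2)
    (Subgroup.mem_sup_right h2)
  simpa using h3

/-- `exists_mu`. -/
theorem Gr2.exists_ov (h : Gr2 F F' i Z) (hl : Loc F.H F'.H (Z.1 ⊔ Z.2)) :
    ∃ z ∈ Z.1 ⊔ Z.2, F.Ov z.1 (R.sW i) ∧ F'.Ov z.2 (R.sW i) := by
  obtain ⟨x, hx, h1⟩ := Fr.U_ne_bot hR hM (R.simple i)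
  obtain ⟨v, hv, v', hv', e⟩ := Fr.exists_mu hR hM hx h1
  rw [show (⟨R.refl (R.simple i), R.refl_mem_W _⟩ : R.W) = R.sW i from
    Subtype.ext (R.refl_simple _)] at e
  obtain ⟨a, ha⟩ := h.pos.left x hx
  obtain ⟨b, hb⟩ := h.neg.left v hv
  obtain ⟨b', hb'⟩ := h.neg.left v' hv'
  have h2 : (v, b) * (x, a) * (v', b') ∈ Z.1 ⊔ Z.2 := mul_mem (mul_mem (Subgroup.mem_sup_right hb)
    (Subgroup.mem_sup_left ha)) (Subgroup.mem_sup_right hb')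
  exact ⟨_, h2, e, h.ov hR hM hM' hl h2 (.inr rfl) e⟩

theorem Gr2.mem_H_of_comm (h : Gr2 F F' i Z) (hl : Loc F.H F'.H (Z.1 ⊔ Z.2)) {z : G × G'}
    (hz : z ∈ Z.1 ⊔ Z.2) (hc : ∀ x ∈ F.GJ {i}, Commute z.1 x) : z.2 ∈ F'.H := by
  refine Fr.mem_H_iff_ov.2 (h.ov hR hM hM' hl hz (.inl rfl) ?_)
  refine Fr.ov_of_conj hR hM (J := {i}) (Fr.GJ_le_LJ hR _ (h.mem_GJ hz).1) (one_mem _)
    fun k hk r hr x hx => Subgroup.mem_sup_left ?_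
  simp only [List.mem_cons, List.not_mem_nil, or_false] at hr
  have : x ∈ F.GJ {i} := by
    rcases hr with rfl | rfl
    exacts [(Fr.U_le_GJ hk).1 hx, (Fr.U_le_GJ hk).2 hx]
  rw [(hc x this).eq, mul_inv_cancel_right]
  exact hx

theorem Gr2.loc2_aux (h0 : R.A i j = 0) (h : Gr2 F F' i Z) (h' : Gr2 F F' j Z')
    (hl : Loc F.H F'.H (Z.1 ⊔ Z.2)) (hl' : Loc F.H F'.H (Z'.1 ⊔ Z'.2)) {z : G × G'}
    (hz : z ∈ Z.1 ⊔ Z.2 ⊔ (Z'.1 ⊔ Z'.2)) (e : z.1 = 1) : z.2 ∈ F'.H := by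
  have n1 : Z'.1 ⊔ Z'.2 ≤ Subgroup.normalizer ((Z.1 ⊔ Z.2 : Subgroup (G × G')) : Set (G × G')) := by
    have : ∀ x ∈ Z'.1 ⊔ Z'.2, ∀ y ∈ Z.1 ⊔ Z.2, x * y * x⁻¹ ∈ Z.1 ⊔ Z.2 := fun x hx y hy => by
      have : y * x = x * y := Prod.ext
        (Fr.commute_GJ hR hM h0 (h.mem_GJ hy).1 (h'.mem_GJ hx).1).eq
        (Fr.commute_GJ hR hM' h0 (h.mem_GJ hy).2 (h'.mem_GJ hx).2).eq
      rwa [← this, mul_inv_cancel_right]
    exact fun x hx => Subgroup.mem_normalizer_iff.2 fun y => ⟨this x hx y, fun h => by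
      simpa [mul_assoc] using this _ (inv_mem hx) _ h⟩
  have n2 : z ∈ ((Z.1 ⊔ Z.2 : Subgroup (G × G')) : Set (G × G')) *
      ((Z'.1 ⊔ Z'.2 : Subgroup (G × G')) : Set (G × G')) := by
    rw [← Subgroup.coe_mul_of_right_le_normalizer_left _ _ n1]
    exact hz
  obtain ⟨a, ha, b, hb, rfl⟩ := n2
  have e1 : a.1 = b.1⁻¹ := eq_inv_of_mul_eq_one_left e
  have e2 : b.1 = a.1⁻¹ := eq_inv_of_mul_eq_one_right e
  refine mul_mem (h.mem_H_of_comm hR hM hM' hl ha fun x hx => ?_)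
    (h'.mem_H_of_comm hR hM hM' hl' hb fun x hx => ?_)
  · rw [e1]
    exact (Fr.commute_GJ hR hM h0 hx (inv_mem (h'.mem_GJ hb).1)).symm
  · rw [e2]
    exact Fr.commute_GJ hR hM h0 (inv_mem (h.mem_GJ ha).1) hx

/-- Commuting nodes: an element is `z z'` (`commute_GJ`); if `z.2 z'.2 = 1` then `z.2 ∈ GJ {i} ⊓ GJ {j}`
centralizes `U' (± αᵢ)`, so is in `H'` (`ov_of_conj`), and `z.1 ∈ H` by `Gr2.ov` for `sw`. -/
theorem Gr2.loc2 (h0 : R.A i j = 0) (h : Gr2 F F' i Z) (h' : Gr2 F F' j Z')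
    (hl : Loc F.H F'.H (Z.1 ⊔ Z.2)) (hl' : Loc F.H F'.H (Z'.1 ⊔ Z'.2)) : Loc2 F F' Z Z' := by
  refine fun z hz => ⟨fun e => ?_, h.loc2_aux hR hM hM' h0 h' hl hl' hz⟩
  refine h.sw.loc2_aux hR hM' hM h0 h'.sw (by rw [← sw_sup]; exact hl.sw)
    (by rw [← sw_sup]; exact hl'.sw) (z := (z.2, z.1)) ?_ e
  rw [← sw_sup, ← sw_sup, ← sw_sup]
  exact hz

/-- Transport of a standard pair. -/
theorem Gr2.exists_std (h : Gr2 F F' i Z) (hl : Loc F.H F'.H (Z.1 ⊔ Z.2)) {K : Type*} [Field K]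
    {p m : K → G} (hp : F.Std i p m) : ∃ p' m' : K → G', F'.Std i p' m' ∧
      (∀ z, z ∈ Z.1 ↔ ∃ t, (p t, p' t) = z) ∧ ∀ z, z ∈ Z.2 ↔ ∃ t, (m t, m' t) = z := by
  obtain ⟨p', h1, h2⟩ := h.pos.exists_par hR (hl.mono le_sup_left) hp.hp
  obtain ⟨m', h3, h4⟩ := h.neg.exists_par hR (hl.mono le_sup_right) hp.hm
  refine ⟨p', m', ⟨h1, h3, fun t ht => ?_⟩, h2, h4⟩
  have h5 : (p t, p' t) ∈ Z.1 ⊔ Z.2 := Subgroup.mem_sup_left ((h2 _).2 ⟨t, rfl⟩)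
  have h6 : (m (-t⁻¹), m' (-t⁻¹)) ∈ Z.1 ⊔ Z.2 := Subgroup.mem_sup_right ((h4 _).2 ⟨_, rfl⟩)
  exact h.ov hR hM hM' hl (mul_mem (mul_mem h5 h6) h5) (.inr rfl) (hp.ov t ht)

end Cfsg.Lib.TB
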