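import Cfsg.Agent.Lib.TB.Act1

/-!
S1143 (docs/TB.md): the abstract Curtis–Tits theorem, first part: global root groups `Zr k` in
`G × G'`.
-/

set_option autoImplicit false

noncomputable section

namespace Cfsg.Lib.TB

open Cfsg.Lib.BN Cfsg.Lib.Chev RootSys
open scoped commutatorElement

variable {ι Φ : Type} [Fintype ι] [DecidableEq ι] {R : RootSys ι Φ}
variable {G G' : Type*} [Group G] [Group G'] {F : Fr G R} {F' : Fr G' R}

/-- Both coordinates lie over `w`. -/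
def Nz (F : Fr G R) (F' : Fr G' R) (w : R.W) (z : G × G') : Prop := F.Ov z.1 w ∧ F'.Ov z.2 w

theorem Nz.mul {v w : R.W} {x y : G × G'} (h : Nz F F' v x) (h' : Nz F F' w y) :
    Nz F F' (v * w) (x * y) := ⟨h.1.mul h'.1, h.2.mul h'.2⟩

theorem Nz.inv {v : R.W} {x : G × G'} (h : Nz F F' v x) : Nz F F' v⁻¹ x⁻¹ := ⟨h.1.inv, h.2.inv⟩

theorem nz_one_iff {x : G × G'} : Nz F F' 1 x ↔ x.1 ∈ F.H ∧ x.2 ∈ F'.H := by
  rw [Nz, Fr.mem_H_iff_ov, Fr.mem_H_iff_ov]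

theorem nz_one : Nz F F' 1 1 := nz_one_iff.2 ⟨one_mem _, one_mem _⟩

theorem cj_one {E : Type*} [Group E] (A : Subgroup E) : cj 1 A = A := by
  ext a
  simp [mem_cj]

theorem conj_mem_cj {E : Type*} [Group E] {A : Subgroup E} {a : E} (g : E) (h : a ∈ A) :
    g * a * g⁻¹ ∈ cj g A := ⟨a, h, rfl⟩

theorem cj_eq_of {E : Type*} [Group E] {A B : Subgroup E} {g : E} (h : ∀ a ∈ A, g * a * g⁻¹ ∈ B)
    (h' : ∀ b ∈ B, g⁻¹ * b * g ∈ A) : cj g A = B :=
  Subgroup.ext fun a => ⟨by rintro ⟨b, hb, rfl⟩; exact h b hb, fun ha =>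
    ⟨_, h' a ha, by simp [mul_assoc]⟩⟩

theorem cj_sup {E : Type*} [Group E] (g : E) (A B : Subgroup E) : cj g (A ⊔ B) = cj g A ⊔ cj g B :=
  Subgroup.map_sup _ _ _

theorem Gr.cj {Z : Subgroup (G × G')} {r : Φ} (h : Gr Z (F.U r) (F'.U r)) {w : R.W} {z : G × G'}
    (hz : Nz F F' w z) : Gr (cj z Z) (F.U (w.1 r)) (F'.U (w.1 r)) where
  le := by
    rintro _ ⟨b, hb, rfl⟩
    exact ⟨hz.1.conj_mem_U.2 (h.le b hb).1, hz.2.conj_mem_U.2 (h.le b hb).2⟩
  left a ha := by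
    obtain ⟨b, hb, rfl⟩ := (hz.1.cj_U r).ge ha
    obtain ⟨b', hb'⟩ := h.left b hb
    exact ⟨_, conj_mem_cj z hb'⟩
  right a ha := by
    obtain ⟨b, hb, rfl⟩ := (hz.2.cj_U r).ge ha
    obtain ⟨b', hb'⟩ := h.right b hb
    exact ⟨_, conj_mem_cj z hb'⟩

theorem sW_inv (i : ι) : (R.sW i)⁻¹ = R.sW i := R.invGen.inv i

theorem W_neg (w : R.W) (r : Φ) : w.1 (R.neg r) = R.neg (w.1 r) := (isAut_of_mem_W w.2).neg r

theorem conj_sW {w : R.W} {k l : ι} (h : w.1 (R.simple k) = R.simple l) :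
    w * R.sW k * w⁻¹ = R.sW l := Subtype.ext (by
  have := (isAut_of_mem_W w.2).conj_refl (R.simple k)
  rwa [h, refl_simple, refl_simple] at this)

/-- The data of the Curtis–Tits theorem. -/
structure CTD (F : Fr G R) (F' : Fr G' R) where
  Z : ι → Subgroup (G × G') × Subgroup (G × G')
  m : ι → G × G'
  hR : Good R
  hM : F.Mo
  hM' : F'.Mo
  gr : ∀ i, Gr2 F F' i (Z i)
  loc : ∀ i j, Loc2 F F' (Z i) (Z j)
  mem : ∀ i, m i ∈ (Z i).1 ⊔ (Z i).2
  ov : ∀ i, Nz F F' (R.sW i) (m i)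

namespace CTD

variable (X : CTD F F')

/-- The rank one groups. -/
def D1 (i : ι) : Subgroup (G × G') := (X.Z i).1 ⊔ (X.Z i).2

/-- The rank two groups. -/
def D2 (i j : ι) : Subgroup (G × G') := X.D1 i ⊔ X.D1 j

theorem D1_le {i j a : ι} (ha : a ∈ ({i, j} : Set ι)) : X.D1 a ≤ X.D2 i j := by
  rcases ha with rfl | rfl
  exacts [le_sup_left, le_sup_right]

theorem loc2 (i j : ι) : Loc F.H F'.H (X.D2 i j) := X.loc i j

theorem loc1 (i : ι) : Loc F.H F'.H (X.D1 i) := (X.loc i i).left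

/-- The root groups of the rank two groups. -/
def Zl (i j : ι) (k : Φ) : Subgroup (G × G') := X.D2 i j ⊓ (F.U k).prod (F'.U k)

theorem mem_Zl {i j : ι} {k : Φ} {z : G × G'} :
    z ∈ X.Zl i j k ↔ z ∈ X.D2 i j ∧ z.1 ∈ F.U k ∧ z.2 ∈ F'.U k := Iff.rfl

theorem cj_Zl {i j : ι} {w : R.W} {z : G × G'} (hz : z ∈ X.D2 i j) (h : Nz F F' w z) (k : Φ) :
    cj z (X.Zl i j k) = X.Zl i j (w.1 k) := by
  refine cj_eq_of (fun a ha => ?_) fun a ha => ?_
  · rw [mem_Zl] at ha ⊢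
    exact ⟨mul_mem (mul_mem hz ha.1) (inv_mem hz), h.1.conj_mem_U.2 ha.2.1,
      h.2.conj_mem_U.2 ha.2.2⟩
  · rw [mem_Zl] at ha ⊢
    refine ⟨mul_mem (mul_mem (inv_mem hz) ha.1) hz, h.1.conj_mem_U.1 ?_, h.2.conj_mem_U.1 ?_⟩
    · simpa [mul_assoc] using ha.2.1
    · simpa [mul_assoc] using ha.2.2

/-- The torus. -/
def T : Subgroup (G × G') := F.H.prod F'.H ⊓ ⨅ i,
  Subgroup.normalizer ((X.Z i).1 : Set (G × G')) ⊓ Subgroup.normalizer ((X.Z i).2 : Set (G × G'))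

theorem mem_T {z : G × G'} : z ∈ X.T ↔ Nz F F' 1 z ∧
    ∀ i, cj z (X.Z i).1 = (X.Z i).1 ∧ cj z (X.Z i).2 = (X.Z i).2 := by
  simp only [T, Subgroup.mem_inf, Subgroup.mem_iInf, cj_eq_iff, nz_one_iff, Subgroup.mem_prod]

/-- The element attached to a word. -/
def nw (l : List ι) : G × G' := wp X.m l

theorem nw_append (l l' : List ι) : X.nw (l ++ l') = X.nw l * X.nw l' := wp_append _ _ _

theorem nw_singleton (i : ι) : X.nw [i] = X.m i := wp_singleton _ _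

theorem nz_nw (l : List ι) : Nz F F' (wp R.sW l) (X.nw l) := by
  induction l with
  | nil => exact nz_one
  | cons i l ih =>
    rw [nw, wp_cons, wp_cons]
    exact (X.ov i).mul ih

variable [Fintype Φ]

theorem Zl_eq {i j : ι} {k : Φ} {Z : Subgroup (G × G')} (hZ : Gr Z (F.U k) (F'.U k))
    (h : Z ≤ X.D2 i j) : X.Zl i j k = Z :=
  le_antisymm (fun _ hz => (X.loc2 i j).mem_of_gr X.hR hZ h hz.1 hz.2.1 hz.2.2)
    fun z hz => ⟨h hz, hZ.le z hz⟩

theorem Zl_pos {i j a : ι} (ha : a ∈ ({i, j} : Set ι)) : X.Zl i j (R.simple a) = (X.Z a).1 :=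
  X.Zl_eq (X.gr a).pos (le_sup_left.trans (X.D1_le ha))

theorem Zl_neg {i j a : ι} (ha : a ∈ ({i, j} : Set ι)) :
    X.Zl i j (R.neg (R.simple a)) = (X.Z a).2 :=
  X.Zl_eq (X.gr a).neg (le_sup_right.trans (X.D1_le ha))

theorem mem_T_of {i : ι} {z : G × G'} (hz : z ∈ X.D1 i) (h : Nz F F' 1 z) : z ∈ X.T := by
  refine X.mem_T.2 ⟨h, fun j => ?_⟩
  have h1 : j ∈ ({i, j} : Set ι) := .inr rfl
  have h2 := X.cj_Zl (X.D1_le (i := i) (j := j) (.inl rfl) hz) h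
  rw [← X.Zl_pos h1, ← X.Zl_neg h1]
  exact ⟨h2 _, h2 _⟩

theorem cj_D1 {z : G × G'} (hz : z ∈ X.T) (i : ι) : cj z (X.D1 i) = X.D1 i := by
  rw [D1, cj_sup, ((X.mem_T.1 hz).2 i).1, ((X.mem_T.1 hz).2 i).2]

theorem conj_mem_T {i : ι} {w : R.W} {x z : G × G'} (hx : x ∈ X.D1 i) (h : Nz F F' w x)
    (hz : z ∈ X.T) : x * z * x⁻¹ ∈ X.T := by
  have h1 := (X.mem_T.1 hz).1
  have h2 : z⁻¹ * x * z⁻¹⁻¹ ∈ X.D1 i := (X.cj_D1 (inv_mem hz) i).le (conj_mem_cj _ hx)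
  have h3 := X.mem_T_of (mul_mem h2 (inv_mem hx)) (by
    simpa using ((h1.inv.mul h).mul h1.inv.inv).mul h.inv)
  simpa [mul_assoc] using mul_mem hz h3

theorem m_mem (i : ι) : X.m i ∈ Subgroup.normalizer (X.T : Set (G × G')) :=
  Subgroup.mem_normalizer_iff.2 fun _ => ⟨X.conj_mem_T (X.mem i) (X.ov i), fun hk => by
    simpa [mul_assoc] using X.conj_mem_T (inv_mem (X.mem i)) (X.ov i).inv hk⟩

theorem braid_mem {i j k l : ι} (hk : k ∈ ({i, j} : Set ι)) (hl : l ∈ ({i, j} : Set ι))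
    {w : R.W} {z : G × G'} (hz : z ∈ X.D2 i j) (h : Nz F F' w z)
    (e : w.1 (R.simple k) = R.simple l) : z * X.m k * z⁻¹ * (X.m l)⁻¹ ∈ X.T := by
  have h1 : cj z (X.D1 k) = X.D1 l := by
    rw [D1, D1, cj_sup, ← X.Zl_pos hk, ← X.Zl_neg hk, X.cj_Zl hz h, X.cj_Zl hz h, W_neg, e,
      X.Zl_pos hl, X.Zl_neg hl]
  refine X.mem_T_of (mul_mem (h1.le (conj_mem_cj z (X.mem k))) (inv_mem (X.mem l))) ?_
  have := ((h.mul (X.ov k)).mul h.inv).mul (X.ov l).inv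
  rwa [conj_sW e, mul_inv_cancel] at this

theorem nw_mem_T {l : List ι} (hl : wp R.sref l = 1) : X.nw l ∈ X.T := by
  let q := QuotientGroup.mk' (X.T.subgroupOf (Subgroup.normalizer (X.T : Set (G × G'))))
  let a : ι → _ := fun i => q ⟨_, X.m_mem i⟩
  have hq : ∀ x : Subgroup.normalizer (X.T : Set (G × G')), x.1 ∈ X.T → q x = 1 := fun x hx => by
    rwa [QuotientGroup.mk'_apply, QuotientGroup.eq_one_iff, Subgroup.mem_subgroupOf]
  have sq : ∀ i, a i * a i = 1 := fun i => by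
    rw [← map_mul]
    refine hq _ (X.mem_T_of (mul_mem (X.mem i) (X.mem i)) ?_)
    have := (X.ov i).mul (X.ov i)
    rwa [R.invGen.sq] at this
  have inv : ∀ i, (a i)⁻¹ = a i := inv_eq_of_sq sq
  have key : ∀ i j n, (R.sW i * R.sW j) ^ n = 1 → (a i * a j) ^ n = 1 := fun i j n hn => by
    by_cases hij : i = j
    · rw [hij, sq, one_pow]
    have h1 : orderOf (R.sref i * R.sref j) ∣ n :=
      orderOf_dvd_of_pow_eq_one (congrArg Subtype.val hn)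
    rw [orderOf_sref_mul] at h1
    obtain ⟨c, rfl⟩ := h1
    suffices (a i * a j) ^ bondOrder (R.A i j * R.A j i) = 1 by rw [pow_mul, this, one_pow]
    have hi : i ∈ ({i, j} : Set ι) := .inl rfl
    have hj : j ∈ ({i, j} : Set ι) := .inr rfl
    have mi := X.D1_le hi (X.mem i)
    have mj := X.D1_le hj (X.mem j)
    rcases X.hR.cases i j hij with h | h | h
    · have h2 : a i * a j * (a i)⁻¹ * (a j)⁻¹ = 1 := by
        simp only [a, ← map_mul, ← map_inv]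
        refine hq _ (X.braid_mem hj hj mi (X.ov i) ?_)
        refine R.α_inj ?_
        rw [coe_sW, α_sref', pair_simple_simple, h, zero_smul, sub_zero]
      rw [inv, inv] at h2
      rw [h, zero_mul, show bondOrder 0 = 2 from rfl, ← h2]
      simp only [pow_succ, pow_zero, one_mul, mul_assoc]
    · have h2 : a i * a j * a i * (a i * a j)⁻¹ * (a j)⁻¹ = 1 := by
        simp only [a, ← map_mul, ← map_inv]
        refine hq _ (X.braid_mem hi hj (mul_mem mi mj) ((X.ov i).mul (X.ov j)) ?_)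
        show R.sref i (R.sref j (R.simple i)) = R.simple j
        rw [h.sref_eq, sref_sref]
      rw [mul_inv_rev, inv, inv] at h2
      rw [h.1, h.2, show bondOrder (-1 * -1) = 3 from rfl, ← h2]
      simp only [pow_succ, pow_zero, one_mul, mul_assoc]
    · have h2 : a i * a j * a i * a j * (a i * a j * a i)⁻¹ * (a j)⁻¹ = 1 := by
        simp only [a, ← map_mul, ← map_inv]
        refine hq _ (X.braid_mem hj hj (mul_mem (mul_mem mi mj) mi)
          (((X.ov i).mul (X.ov j)).mul (X.ov i)) ?_)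
        show R.sref i (R.sref j (R.sref i (R.simple j))) = R.simple j
        rw [h.symm.sref_sref, sref_sref]
      rw [mul_inv_rev, mul_inv_rev, inv, inv] at h2
      rw [show R.A i j * R.A j i = 2 from h, show bondOrder 2 = 4 from rfl, ← h2]
      simp only [pow_succ, pow_zero, one_mul, mul_assoc]
  obtain ⟨φ, hφ⟩ := R.invGen.exists_lift R.exchange (f := a) sq key
  have h1 : φ (wp R.sW l) = 1 := by
    rw [show wp R.sW l = 1 from Subtype.ext ((R.coe_wp l).trans hl), map_one]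
  simp only [map_wp, hφ, a] at h1
  rwa [← map_wp q, QuotientGroup.mk'_apply, QuotientGroup.eq_one_iff, Subgroup.mem_subgroupOf,
    ← Subgroup.subtype_apply, map_wp] at h1

theorem cj_m {i j a : ι} (ha : a ∈ ({i, j} : Set ι)) (k : Φ) :
    cj (X.m a) (X.Zl i j k) = X.Zl i j (R.sref a k) :=
  X.cj_Zl (X.D1_le ha (X.mem a)) (X.ov a) k

theorem gr_Zl {i j : ι} {k : Φ} (hk : R.InJ {i, j} k) : Gr (X.Zl i j k) (F.U k) (F'.U k) := by
  classical
  refine induction_inJ (p := fun k => Gr (X.Zl i j k) (F.U k) (F'.U k)) (fun a ha => ?_)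
    (fun a ha r _ ih => ?_) hk
  · rw [X.Zl_pos ha]
    exact (X.gr a).pos
  · have := ih.cj (X.ov a)
    rwa [X.cj_m ha, coe_sW] at this

theorem cj_T {i j : ι} {k : Φ} (hk : R.InJ {i, j} k) :
    ∀ g ∈ X.T, cj g (X.Zl i j k) = X.Zl i j k := by
  classical
  refine induction_inJ (p := fun k => ∀ g ∈ X.T, cj g (X.Zl i j k) = X.Zl i j k)
    (fun a ha g hg => ?_) (fun a ha r _ ih g hg => ?_) hk
  · rw [X.Zl_pos ha]
    exact ((X.mem_T.1 hg).2 a).1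
  · rw [← X.cj_m ha, ← cj_mul, show g * X.m a = X.m a * ((X.m a)⁻¹ * g * (X.m a)⁻¹⁻¹) by group,
      cj_mul, ih _ ((Subgroup.mem_normalizer_iff.1 (inv_mem (X.m_mem a)) g).1 hg)]

theorem cj_nw_simple (l : List ι) {i j k : ι} {r : Φ} (hr : R.InJ {i, j} r)
    (e : wp R.sref l r = R.simple k) : cj (X.nw l) (X.Zl i j r) = (X.Z k).1 := by
  induction hq : len R.sW (wp R.sW l) using Nat.strong_induction_on generalizing l i j r with
  | _ q ih =>
  have step : ∀ {i j : ι} {r : Φ} (_ : R.InJ {i, j} r) (a : ι) (_ : a ∈ ({i, j} : Set ι)),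
      ¬ R.IsPos (wp R.sref l (R.simple a)) → wp R.sref l r = R.simple k →
        cj (X.nw l) (X.Zl i j r) = (X.Z k).1 := fun {i j r} hr a ha' ha e => by
    have h1 := len_mul_sW_of_neg (w := wp R.sW l) (i := a) (by rwa [coe_wp])
    have := ih _ (by rw [wp_append, wp_singleton]; omega) (l ++ [a]) (hr.sref ha')
      (by simpa using e) rfl
    rwa [nw_append, nw_singleton, cj_mul, X.cj_m ha', sref_sref] at this
  by_cases h1 : ∃ a ∈ ({i, j} : Set ι), ¬ R.IsPos (wp R.sref l (R.simple a))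
  · obtain ⟨a, ha', ha⟩ := h1
    exact step hr a ha' ha e
  obtain ⟨a, h2, rfl⟩ := (isAut_wp l).eq_simple (fun a ha => by_contra fun h =>
    h1 ⟨a, by_contra fun h' => ha (hr a h'), h⟩) e
  rw [X.Zl_pos (inJ_simple_iff.1 hr)]
  by_cases h4 : ∃ b, ¬ R.IsPos (wp R.sref l (R.simple b))
  · obtain ⟨b, hb⟩ := h4
    have := step (i := a) (j := b) (inJ_simple_iff.2 (.inl rfl)) b (.inr rfl) hb e
    rwa [X.Zl_pos (.inl rfl)] at this
  have h5 := eq_one_of_pos (wp_mem_W l) fun b => by_contra fun h => h4 ⟨b, h⟩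
  rw [h5] at e
  rw [← R.simple_injective e]
  exact ((X.mem_T.1 (X.nw_mem_T h5)).2 a).1

theorem exists_Zr : ∃ Zr : Φ → Subgroup (G × G'), ∀ l i j r, R.InJ {i, j} r →
    cj (X.nw l) (X.Zl i j r) = Zr (wp R.sref l r) := by
  have : ∀ r, ∃ l i, wp R.sref l (R.simple i) = r := fun r => by
    obtain ⟨w, hw, i, e⟩ := R.exists_W_simple r
    obtain ⟨l, rfl⟩ := exists_wp hw
    exact ⟨l, i, e⟩
  choose l k h using this
  refine ⟨fun r => cj (X.nw (l r)) (X.Z (k r)).1, fun l' i j r hr =>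
    cj_injective (X.nw (l (wp R.sref l' r)).reverse) ?_⟩
  rw [← cj_mul, ← cj_mul, ← nw_append, ← nw_append, X.cj_nw_simple (k := k (wp R.sref l' r)) _ hr (by
    rw [wp_append, wp_reverse R.sref_mul_self, Equiv.Perm.mul_apply, Equiv.Perm.inv_eq_iff_eq, h])]
  exact ((X.mem_T.1 (X.nw_mem_T (by rw [wp_append, wp_reverse R.sref_mul_self,
    inv_mul_cancel]))).2 _).1.symm

theorem comm_Zl {i j : ι} {a b : Φ} (ha : R.InJ {i, j} a) (hb : R.InJ {i, j} b) (h1 : b ≠ a)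
    (h2 : b ≠ R.neg a) {x y : G × G'} (hx : x ∈ X.Zl i j a) (hy : y ∈ X.Zl i j b) :
    ⁅x, y⁆ ∈ ⨆ k ∈ {k | Cone R a b k}, X.Zl i j k := by
  set S := ⨆ k ∈ {k | Cone R a b k}, X.Zl i j k with hS
  have s1 : S ≤ X.D2 i j := iSup₂_le fun k _ => inf_le_left
  have s2 : S ≤ (F'.US {k | Cone R a b k}).comap (MonoidHom.snd G G') :=
    iSup₂_le fun k hk z hz => Fr.U_le_US hk hz.2.2
  have s3 : F.US {k | Cone R a b k} ≤ S.map (MonoidHom.fst G G') := Fr.US_le.2 fun k hk g hg => by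
    obtain ⟨g', hg'⟩ := (X.gr_Zl (Cone.inJ hk ha hb)).left g hg
    exact ⟨(g, g'), (le_iSup₂ (f := fun k (_ : k ∈ {k | Cone R a b k}) => X.Zl i j k) k hk) hg', rfl⟩
  obtain ⟨c, hc, e⟩ := s3 (Fr.comm_mem X.hR X.hM h1 h2 hx.2.1 hy.2.1)
  have h3 : ⁅x, y⁆ ∈ X.D2 i j := by
    rw [commutatorElement_def]
    exact mul_mem (mul_mem (mul_mem hx.1 hy.1) (inv_mem hx.1)) (inv_mem hy.1)
  have h4 : (c⁻¹ * ⁅x, y⁆).1 = 1 := by
    have : c.1 = ⁅x.1, y.1⁆ := e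
    rw [Prod.fst_mul, Prod.fst_inv, this]
    exact inv_mul_cancel _
  have h5 := (X.loc2 i j _ (mul_mem (inv_mem (s1 hc)) h3)).2 h4
  obtain ⟨f, f1, f2⟩ := exists_pos_pair h2
  obtain ⟨w, hw⟩ := exists_chamber (R := R) f
  have h6 := Fr.US_inf_H X.hR X.hM' (w := w) (A := {k | Cone R a b k})
    (fun k hk => Cone.mem_hf hk ((hw a).1 f1) ((hw b).1 f2))
    (mul_mem (inv_mem (s2 hc)) (Fr.comm_mem X.hR X.hM' h1 h2 hx.2.2 hy.2.2)) h5
  have h7 : c⁻¹ * ⁅x, y⁆ = 1 := Prod.ext h4 h6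
  rwa [← inv_mul_eq_one.1 h7]

/-- The global root groups. -/
theorem exists_rgd : ∃ Zr : Φ → Subgroup (G × G'), (∀ k, Gr (Zr k) (F.U k) (F'.U k)) ∧
    (∀ i, Zr (R.simple i) = (X.Z i).1 ∧ Zr (R.neg (R.simple i)) = (X.Z i).2) ∧
    (∀ i z, z ∈ X.D1 i → Nz F F' (R.sW i) z → ∀ k, cj z (Zr k) = Zr (R.sref i k)) ∧
    ∀ r s, s ≠ r → s ≠ R.neg r → ∀ x ∈ Zr r, ∀ y ∈ Zr s,
      ⁅x, y⁆ ∈ ⨆ k ∈ {k | Cone R r s k}, Zr k := by
  obtain ⟨Zr, hZ⟩ := X.exists_Zr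
  have h0 : ∀ r, ∃ l i, wp R.sref l (R.simple i) = r := fun r => by
    obtain ⟨w, hw, i, e⟩ := R.exists_W_simple r
    obtain ⟨l, rfl⟩ := exists_wp hw
    exact ⟨l, i, e⟩
  have hi : ∀ i, R.InJ {i, i} (R.simple i) := fun i => inJ_simple_iff.2 (.inl rfl)
  have h3 : ∀ i j r, R.InJ {i, j} r → X.Zl i j r = Zr r := fun i j r hr => by
    have := hZ [] i j r hr
    rwa [show X.nw [] = 1 from rfl, cj_one] at this
  have h5 : ∀ l r, cj (X.nw l) (Zr r) = Zr (wp R.sref l r) := fun l r => by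
    obtain ⟨l', i, rfl⟩ := h0 r
    rw [← hZ _ _ _ _ (hi i), ← cj_mul, ← nw_append, hZ _ _ _ _ (hi i), wp_append,
      Equiv.Perm.mul_apply]
  have h6 : ∀ g ∈ X.T, ∀ r, cj g (Zr r) = Zr r := fun g hg r => by
    obtain ⟨l, i, rfl⟩ := h0 r
    have : X.nw l ∈ Subgroup.normalizer (X.T : Set (G × G')) := wp_mem fun i _ => X.m_mem i
    rw [← hZ _ _ _ _ (hi i), ← cj_mul,
      show g * X.nw l = X.nw l * ((X.nw l)⁻¹ * g * (X.nw l)⁻¹⁻¹) by group,
      cj_mul, X.cj_T (hi i) _ ((Subgroup.mem_normalizer_iff.1 (inv_mem this) g).1 hg)]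
  refine ⟨Zr, fun k => ?_, fun i => ?_, fun i z hz h k => ?_, fun r s h1 h2 x hx y hy => ?_⟩
  · obtain ⟨l, i, rfl⟩ := h0 k
    rw [← hZ _ _ _ _ (hi i), ← R.coe_wp]
    exact (X.gr_Zl (hi i)).cj (X.nz_nw l)
  · rw [← h3 _ _ _ (hi i), ← h3 _ _ _ (hi i).neg]
    exact ⟨X.Zl_pos (.inl rfl), X.Zl_neg (.inl rfl)⟩
  · have h7 : z * (X.m i)⁻¹ ∈ X.T := X.mem_T_of (mul_mem hz (inv_mem (X.mem i))) (by
      simpa using h.mul (X.ov i).inv)
    have h8 := h5 [i] k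
    rw [nw_singleton, wp_singleton] at h8
    rw [show z = z * (X.m i)⁻¹ * X.m i by group, cj_mul, h8, h6 _ h7]
  · obtain ⟨w, hw, i, j, a, b, ha, hb, rfl, rfl⟩ := R.exists_W_pair r s
    obtain ⟨l, rfl⟩ := exists_wp hw
    obtain ⟨x', hx', rfl⟩ := (hZ l i j a ha).ge hx
    obtain ⟨y', hy', rfl⟩ := (hZ l i j b hb).ge hy
    have h7 := X.comm_Zl ha hb (fun e => h1 (by rw [e]))
      (fun e => h2 (by rw [e, (isAut_wp l).neg])) hx' hy'
    have h8 : (⨆ k ∈ {k | Cone R a b k}, X.Zl i j k) ≤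
        (⨆ k ∈ {k | Cone R (wp R.sref l a) (wp R.sref l b) k}, Zr k).comap
          (MulAut.conj (X.nw l)).toMonoidHom := iSup₂_le fun k hk z hz => by
      have h9 : wp R.sref l k ∈ {k | Cone R (wp R.sref l a) (wp R.sref l b) k} := by
        rw [← R.coe_wp]
        exact (Cone.map _).2 hk
      exact le_iSup₂ (f := fun k (_ : k ∈ {k | Cone R (wp R.sref l a) (wp R.sref l b) k}) => Zr k)
        _ h9 ((hZ l i j k (Cone.inJ hk ha hb)).le (conj_mem_cj _ hz))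
    have := h8 h7
    rw [Subgroup.mem_comap, map_commutatorElement] at this
    exact this

end CTD

end Cfsg.Lib.TB
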