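import Cfsg.Agent.Lib.TB.Def

/-!
S1143 (docs/TB.md): double bonds, definitions.

In a subsystem `B₃` with roots `± εᵢ ± εⱼ`, `± εᵢ` (`i, j = 0, 1, 2`) the group `GJ` generated by the root
groups of `± (ε₁ - ε₂)`, `± ε₂` acts on `Q / Z`, where `Q` is generated by the root groups of
`ε₀ - ε₁, ε₀ - ε₂, ε₀, ε₀ + ε₂, ε₀ + ε₁` and `Z = [U (ε₀ - ε₁), U (ε₀ + ε₁)]`.  This is a vector space
`V K L = K × K × L × K × K` with basis vectors `e_a, e_b, L, e_c, e_d`.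
-/

set_option autoImplicit false

noncomputable section

namespace Cfsg.Lib.TB

open Matrix
open scoped MatrixGroups commutatorElement

/-- The group theoretic data: `ψ (xe i j t)` parametrizes `U (εᵢ - εⱼ)`, `X0 = U ε₀`, `X2 = U ε₂`,
`Y2 = U (-ε₂)`, `n` lies over the reflection in `ε₂`. -/
structure B3D (G K : Type*) [Group G] [Field K] where
  ψ : SL(3, K) →* G
  X0 : Subgroup G
  X2 : Subgroup G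
  Y2 : Subgroup G
  H : Subgroup G
  n : G

namespace B3D

variable {G K : Type*} [Group G] [Field K] (B : B3D G K)

/-- `U (εᵢ - εⱼ)`. -/
def A (i j : Fin 3) (t : K) : G := B.ψ (xe i j t)

/-- Over the transposition `(1 2)`. -/
def w : G := B.ψ (we 1 2 1)

/-- `U (ε₀ + ε₂)`. -/
def S2 (c : K) : G := B.n * B.A 0 2 c * B.n⁻¹

/-- `U (ε₀ + ε₁)`. -/
def S1 (d : K) : G := B.w * B.S2 d * B.w⁻¹

/-- `U (ε₁ + ε₂)`. -/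
def S12 (u : K) : G := B.n * B.A 1 2 u * B.n⁻¹

/-- The Levi subgroup of type `B₂`. -/
def GJ : Subgroup G :=
  Subgroup.closure (Set.range (B.A 1 2) ∪ Set.range (B.A 2 1)) ⊔ (B.X2 ⊔ B.Y2)

/-- The flag. -/
def Ab : Prop := ∀ t d, Commute (B.A 0 1 t) (B.S1 d)

/-- The relations that are used. -/
structure Ax : Prop where
  c0 : ∀ x ∈ B.X0, ∀ t, Commute x (B.A 0 1 t) ∧ Commute x (B.A 0 2 t) ∧ Commute x (B.A 1 2 t) ∧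
    Commute x (B.A 2 1 t) ∧ Commute x (B.S1 t) ∧ Commute x (B.S2 t)
  c2 : ∀ x ∈ B.X2 ⊔ B.Y2, ∀ t, Commute x (B.A 0 1 t) ∧ Commute x (B.A 1 0 t) ∧ Commute x (B.S1 t)
  c2' : ∀ x ∈ B.X2, ∀ t, Commute x (B.S2 t)
  cS : ∀ s t, Commute (B.S1 s) (B.S2 t) ∧ Commute (B.S1 s) (B.A 0 2 t) ∧
    Commute (B.S1 s) (B.A 1 2 t) ∧ Commute (B.S2 s) (B.A 0 1 t) ∧ Commute (B.S2 s) (B.A 2 1 t)
  z : ∀ t d, ⁅B.A 0 1 t, B.S1 d⁆ ∈ B.X0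
  r12 : ∀ u c, ∃ d, ⁅B.A 1 2 u, B.S2 c⁆ = B.S1 d
  r21 : ∀ u d, ∃ c, ⁅B.A 2 1 u, B.S1 d⁆ = B.S2 c
  r20 : ∀ x ∈ B.X2, ∀ y ∈ B.X0, ∃ c, ⁅x, y⁆ = B.S2 c
  tw : ∀ x ∈ B.X2, ∀ t, ∃ y ∈ B.X0, ∃ c, x * B.A 0 2 t * x⁻¹ = B.A 0 2 t * y * B.S2 c
  twi : ∀ x ∈ B.X2, ∀ c, x * B.A 0 2 1 * x⁻¹ = B.A 0 2 1 * B.S2 c → x = 1
  tws : ∀ y ∈ B.X0, ∃ x ∈ B.X2, ∃ c, x * B.A 0 2 1 * x⁻¹ = B.A 0 2 1 * y * B.S2 c
  r5 : ∀ u, ∀ x ∈ B.X2, ∃ x₁ ∈ B.X2, ∃ u₁,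
    B.A 1 2 u * x * (B.A 1 2 u)⁻¹ = B.w * x₁ * B.w⁻¹ * B.S12 u₁ * x
  mu : ∀ x ∈ B.X2, x ≠ 1 → ∃ y ∈ B.Y2, ∃ y' ∈ B.Y2, ∃ c,
    y * x * y' * B.A 0 2 1 * (y * x * y')⁻¹ = B.S2 c
  nmem : B.n ∈ B.X2 ⊔ B.Y2
  nXY : ∀ x, B.n * x * B.n⁻¹ ∈ B.Y2 ↔ x ∈ B.X2
  nX0 : ∀ x ∈ B.X0, B.n * x * B.n⁻¹ ∈ B.X0
  nS : ∀ c, ∃ b, B.n * B.S2 c * B.n⁻¹ = B.A 0 2 b
  dg0 : ∀ D : SL(3, K), D.1.IsDiag → ∀ x ∈ B.X0, B.ψ D * x * (B.ψ D)⁻¹ ∈ B.X0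
  dg1 : ∀ D : SL(3, K), D.1.IsDiag → ∀ d, ∃ d', B.ψ D * B.S1 d * (B.ψ D)⁻¹ = B.S1 d'
  uniq : ∀ a b, ∀ x ∈ B.X0, ∀ c d, B.A 0 1 a * B.A 0 2 b * x * B.S2 c * B.S1 d = 1 →
    a = 0 ∧ b = 0 ∧ x = 1 ∧ c = 0 ∧ d = 0
  ker : ∀ g ∈ B.GJ, (∀ t, ∀ z ∈ [B.A 0 1 t, B.A 0 2 t, B.S2 t, B.S1 t],
    ⁅g, z⁆ ∈ B.X0 ⊓ Subgroup.centralizer (B.GJ : Set G)) → g ∈ B.H
  XH : ∀ x ∈ B.X2, x ∈ B.H → x = 1
  ne : ∃ x ∈ B.X2, x ≠ 1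
  ab : (∀ u u', ⁅B.A 1 2 u, B.S12 u'⁆ ∈ B.H) → B.Ab

end B3D

/-- The module. -/
abbrev V (K L : Type*) : Type _ := K × K × L × K × K

section
variable {G K L : Type*} [Group G] [Field K] [AddCommGroup L] [Module K L]

/-- The action of `U (ε₁ - ε₂)`. -/
def a12 (σ : K ≃+* K) (u : K) (z : V K L) : V K L :=
  (z.1, z.2.1 - u * z.1, z.2.2.1, z.2.2.2.1, z.2.2.2.2 + σ u * z.2.2.2.1)

/-- The action of `U (ε₂ - ε₁)`. -/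
def a21 (σ : K ≃+* K) (u : K) (z : V K L) : V K L :=
  (z.1 - u * z.2.1, z.2.1, z.2.2.1, z.2.2.2.1 + σ u * z.2.2.2.2, z.2.2.2.2)

/-- The action of `U ε₂`. -/
def xm (v : L) (s : K) (f : L →ₗ[K] K) (z : V K L) : V K L :=
  (z.1, z.2.1, z.2.2.1 + z.2.1 • v, z.2.2.2.1 + z.2.1 * s + f z.2.2.1, z.2.2.2.2)

/-- The action of `U (-ε₂)`. -/
def ym (v : L) (s : K) (f : L →ₗ[K] K) (z : V K L) : V K L :=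
  (z.1, z.2.1 + z.2.2.2.1 * s + f z.2.2.1, z.2.2.1 + z.2.2.2.1 • v, z.2.2.2.1, z.2.2.2.2)

/-- The action of `n`. -/
def th (ε : K) (ν : L ≃ₗ[K] L) (z : V K L) : V K L :=
  (z.1, ε * z.2.2.2.1, ν z.2.2.1, z.2.1, z.2.2.2.2)

/-- `g` acts as `f`. -/
def Ac {Ω : Type*} (T : Subgroup (G × Equiv.Perm Ω)) (g : G) (f : Ω → Ω) : Prop :=
  ∃ π : Equiv.Perm Ω, (g, π) ∈ T ∧ ⇑π = f

theorem Ac.mul {Ω : Type*} {T : Subgroup (G × Equiv.Perm Ω)} {g g' : G} {f f' : Ω → Ω}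
    (h : Ac T g f) (h' : Ac T g' f') : Ac T (g * g') (f ∘ f') := by
  obtain ⟨π, h, rfl⟩ := h
  obtain ⟨π', h', rfl⟩ := h'
  exact ⟨π * π', T.mul_mem h h', rfl⟩

theorem Ac.one {Ω : Type*} (T : Subgroup (G × Equiv.Perm Ω)) : Ac T 1 id := ⟨1, T.one_mem, rfl⟩

theorem Ac.inv {Ω : Type*} {T : Subgroup (G × Equiv.Perm Ω)} {g : G} {f f' : Ω → Ω}
    (h : Ac T g f) (h' : ∀ z, f (f' z) = z) : Ac T g⁻¹ f' := by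
  obtain ⟨π, h, rfl⟩ := h
  exact ⟨π⁻¹, T.inv_mem h, funext fun z => by rw [Equiv.Perm.inv_eq_iff_eq, h']⟩

theorem Ac.unique {Ω : Type*} {T : Subgroup (G × Equiv.Perm Ω)} (hT : ∀ π, (1, π) ∈ T → π = 1)
    {g : G} {f f' : Ω → Ω} (h : Ac T g f) (h' : Ac T g f') : f = f' := by
  obtain ⟨π, h, rfl⟩ := h
  obtain ⟨π', h', rfl⟩ := h'
  have := hT (π⁻¹ * π') (by simpa using T.mul_mem (T.inv_mem h) h')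
  rw [inv_mul_eq_one.1 this]

/-- The module before the analysis of the forms. -/
structure Pre (B : B3D G K) (L : Type*) [AddCommGroup L] [Module K L] where
  σ : K ≃+* K
  ε : K
  ν : L ≃ₗ[K] L
  T : Subgroup (G × Equiv.Perm (V K L))
  hε : ε ≠ 0
  fn : ∀ π, (1, π) ∈ T → π = 1
  ker : ∀ g, (g, 1) ∈ T → g ∈ B.H
  hp : ∀ u, Ac T (B.A 1 2 u) (a12 σ u)
  hq : ∀ u, Ac T (B.A 2 1 u) (a21 σ u)
  hn : Ac T B.n (th ε ν)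
  hX : ∀ x ∈ B.X2, ∃ v s f, Ac T x (xm v s f)
  onto : ∀ v, ∃ x ∈ B.X2, ∃ s f, Ac T x (xm v s f)
  eb : ∀ g f c, Ac T g f → g * B.A 0 2 1 * g⁻¹ = B.S2 c → f (0, 1, 0, 0, 0) = (0, 0, 0, c, 0)
  ab : B.Ab → ∀ x ∈ B.X2, ∀ s f, Ac T x (xm 0 s f) → x = 1
  sub : Subsingleton L → ∀ x ∈ B.X0, ∀ y ∈ B.X2, Commute x y

/-- An anisotropic pseudo-quadratic space. -/
structure Md (K L : Type*) [Field K] [AddCommGroup L] [Module K L] where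
  σ : K ≃+* K
  ε : K
  g : L → L →ₗ[K] K
  S : Set (L × K)
  add : ∀ v v', g (v + v') = g v + g v'
  smul : ∀ c v, g (c • v) = σ c • g v
  herm : ∀ v w, σ (g v w) = ε * g w v
  inv : ∀ c, σ (σ c) = c
  hε : ε * σ ε = 1
  zero : (0, 0) ∈ S
  mul : ∀ {v s v' s'}, (v, s) ∈ S → (v', s') ∈ S → (v + v', s + s' + g v v') ∈ S
  neg : ∀ {v s}, (v, s) ∈ S → (-v, g v v - s) ∈ S
  scal : ∀ c {v s}, (v, s) ∈ S → (c • v, c * σ c * s) ∈ S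
  onto : ∀ v, ∃ s, (v, s) ∈ S
  aniso : ∀ {v}, (v, 0) ∈ S → v = 0
  tr : ∀ {v s}, (v, s) ∈ S → σ s + ε * s = ε * g v v
  ne : ∃ z ∈ S, z ≠ (0, 0)
  two : (∀ c, σ c = c) → ε = 1 → ∀ s, (0, s) ∈ S → s = 0

/-- The flag. -/
def Md.Ab (m : Md K L) : Prop := ∀ s, (0, s) ∈ m.S → s = 0

/-- Similar data. -/
structure Md.Iso {L' : Type*} [AddCommGroup L'] [Module K L'] (m : Md K L) (m' : Md K L') where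
  i : L ≃ₗ[K] L'
  c : K
  hc : c ≠ 0
  σ : m'.σ = m.σ
  ε : m'.ε * c = m.ε * m.σ c
  g : ∀ v w, m'.g (i v) (i w) = c * m.g v w
  S : ∀ v s, (i v, c * s) ∈ m'.S ↔ (v, s) ∈ m.S

/-- The action of the Levi subgroup of type `B₂`. -/
structure Rep (m : Md K L) (B : B3D G K) where
  T : Subgroup (G × Equiv.Perm (V K L))
  fn : ∀ π, (1, π) ∈ T → π = 1
  ker : ∀ g, (g, 1) ∈ T → g ∈ B.H
  hp : ∀ u, Ac T (B.A 1 2 u) (a12 m.σ u)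
  hq : ∀ u, Ac T (B.A 2 1 u) (a21 m.σ u)
  hX : ∀ x ∈ B.X2, ∃ v s, (v, s) ∈ m.S ∧ Ac T x (xm v s (m.g v))
  hX' : ∀ v s, (v, s) ∈ m.S → ∃ x ∈ B.X2, Ac T x (xm v s (m.g v))
  hY : ∀ y ∈ B.Y2, ∃ v s, (v, s) ∈ m.S ∧ Ac T y (ym v (m.ε * s) (m.ε • m.g v))
  hY' : ∀ v s, (v, s) ∈ m.S → ∃ y ∈ B.Y2, Ac T y (ym v (m.ε * s) (m.ε • m.g v))

end

/-- The possible parameters `q` (single side), `r` of a double bond, with the flag `ab`. -/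
def Alw (q r : ℕ) (ab : Prop) : Prop :=
  (r = q ∧ ab) ∨ (r = q ^ 2 ∧ ab) ∨ (r = q ∧ ¬ ab ∧ Odd q) ∨
    ∃ q₀, q = q₀ ^ 2 ∧ ¬ ab ∧ (r = q₀ ∨ r = q₀ ^ 3)

end Cfsg.Lib.TB
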