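import Cfsg.Agent.Lib.TB.W

/-!
S1143 (docs/TB.md): coordinates for a subsystem `B₃`: `α_u = ε₀ - ε₁`, `α_a = ε₁ - ε₂`, `α_b = ε₂`.
-/

set_option autoImplicit false

namespace Cfsg.Lib.TB

open Cfsg.Lib.BN Cfsg.Lib.Chev RootSys

variable {ι Φ : Type} [Fintype ι] [DecidableEq ι] {R : RootSys ι Φ}

/-- A subdiagram `u - a => b` of type `B₃`. -/
structure T3 (R : RootSys ι Φ) (u a b : ι) : Prop where
  ua : Sb R u a
  ab : R.A a b = -1
  ba : R.A b a = -2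
  ub : R.A u b = 0

/-- `k = x ε₀ + y ε₁ + z ε₂`. -/
def Co (R : RootSys ι Φ) (u a b : ι) (k : Φ) (x y z : ℤ) : Prop :=
  R.α k = x • R.α (R.simple u) + (x + y) • R.α (R.simple a) + (x + y + z) • R.α (R.simple b)

/-- The coordinates of the roots of `B₃`. -/
def Bd (x y z : ℤ) : Prop :=
  -1 ≤ x ∧ x ≤ 1 ∧ -1 ≤ y ∧ y ≤ 1 ∧ -1 ≤ z ∧ z ≤ 1 ∧ (x = 0 ∨ y = 0 ∨ z = 0) ∧ (x ≠ 0 ∨ y ≠ 0 ∨ z ≠ 0)

variable {u a b : ι} {k k' r s : Φ} {x y z x' y' z' : ℤ}

theorem T3.db (h : T3 R u a b) : Db R a b := by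
  unfold Db
  rw [h.ab, h.ba]
  norm_num

theorem co_u : Co R u a b (R.simple u) 1 (-1) 0 := by simp [Co]

theorem co_a : Co R u a b (R.simple a) 0 1 (-1) := by simp [Co]

theorem co_b : Co R u a b (R.simple b) 0 0 1 := by simp [Co]

theorem Co.neg (c : Co R u a b k x y z) : Co R u a b (R.neg k) (-x) (-y) (-z) := by
  rw [Co, R.α_neg, c]; module

theorem Co.eq (c : Co R u a b k x y z) (c' : Co R u a b k' x y z) : k = k' :=
  R.α_inj (c.trans c'.symm)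

theorem Co.inJ (c : Co R u a b k x y z) : R.InJ {u, a, b} k := fun i hi => by
  simp only [Set.mem_insert_iff, Set.mem_singleton_iff, not_or] at hi
  rw [c]
  simp [R.α_simple, hi]

theorem Co.inJ_ab (c : Co R u a b k 0 y z) : R.InJ {a, b} k := fun i hi => by
  simp only [Set.mem_insert_iff, Set.mem_singleton_iff, not_or] at hi
  rw [c]
  simp [R.α_simple, hi]

variable (h : T3 R u a b)
include h

theorem T3.ne : u ≠ a ∧ a ≠ b ∧ u ≠ b := by
  refine ⟨h.ua.ne, h.db.ne, ?_⟩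
  rintro rfl
  have := h.ub
  rw [R.A_diag] at this
  omega

theorem Co.val (c : Co R u a b k x y z) :
    R.α k u = x ∧ R.α k a = x + y ∧ R.α k b = x + y + z := by
  obtain ⟨h1, h2, h3⟩ := h.ne
  rw [c]
  simp [R.α_simple, h1, h2, h3, h1.symm, h2.symm, h3.symm]

theorem Co.inj (c : Co R u a b k x y z) (c' : Co R u a b k x' y' z') : x = x' ∧ y = y' ∧ z = z' := by
  have := c.val h
  have := c'.val h
  omega

theorem Co.su (c : Co R u a b k x y z) : Co R u a b (R.sref u k) y x z := by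
  rw [Co, α_sref, sL_apply, c]
  simp only [R.α_simple, map_add, map_zsmul, ca_single, R.A_diag, h.ua.1, h.ub]
  module

theorem Co.sa (c : Co R u a b k x y z) : Co R u a b (R.sref a k) x z y := by
  rw [Co, α_sref, sL_apply, c]
  simp only [R.α_simple, map_add, map_zsmul, ca_single, R.A_diag, h.ua.2, h.ab]
  module

theorem Co.sb (c : Co R u a b k x y z) : Co R u a b (R.sref b k) x y (-z) := by
  rw [Co, α_sref, sL_apply, c]
  simp only [R.α_simple, map_add, map_zsmul, ca_single, R.A_diag, A_zero_symm h.ub, h.ba]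
  module

theorem Co.isPos (c : Co R u a b k x y z) :
    R.IsPos k ↔ 0 ≤ x ∧ 0 ≤ x + y ∧ 0 ≤ x + y + z := by
  obtain ⟨h1, h2, h3⟩ := c.val h
  refine ⟨fun p => ⟨h1 ▸ p u, h2 ▸ p a, h3 ▸ p b⟩, fun p i => ?_⟩
  by_cases hi : i ∈ ({u, a, b} : Set ι)
  · rcases hi with rfl | rfl | rfl <;> omega
  · exact (c.inJ i hi).ge

/-- `induction_inJ`. -/
theorem T3.exists_co (hk : R.InJ {u, a, b} k) : ∃ x y z, Co R u a b k x y z ∧ Bd x y z := by
  refine induction_inJ (p := fun k => ∃ x y z, Co R u a b k x y z ∧ Bd x y z) ?_ ?_ hk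
  · rintro _ (rfl | rfl | rfl)
    exacts [⟨_, _, _, co_u, by simp [Bd]⟩, ⟨_, _, _, co_a, by simp [Bd]⟩, ⟨_, _, _, co_b, by simp [Bd]⟩]
  · rintro _ (rfl | rfl | rfl) r - ⟨x, y, z, c, d⟩
    · exact ⟨_, _, _, c.su h, by unfold Bd at *; omega⟩
    · exact ⟨_, _, _, c.sa h, by unfold Bd at *; omega⟩
    · exact ⟨_, _, _, c.sb h, by unfold Bd at *; omega⟩

theorem T3.exists_co_ab (hk : R.InJ {a, b} k) : ∃ y z, Co R u a b k 0 y z ∧ Bd 0 y z := by
  obtain ⟨x, y, z, c, d⟩ := h.exists_co (k := k) fun i hi => hk i fun e => hi (.inr e)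
  obtain rfl : x = 0 := (c.val h).1.symm.trans (hk u (by simp [h.ne.1, h.ne.2.2]))
  exact ⟨y, z, c, d⟩

theorem Co.cone (c : Co R u a b r x y z) (c' : Co R u a b s x' y' z') (hk : Cone R r s k) :
    ∃ m i j x₀ y₀ z₀ : ℤ, 0 < m ∧ 0 < i ∧ 0 < j ∧ Co R u a b k x₀ y₀ z₀ ∧ Bd x₀ y₀ z₀ ∧
      m * x₀ = i * x + j * x' ∧ m * y₀ = i * y + j * y' ∧ m * z₀ = i * z + j * z' := by
  obtain ⟨x₀, y₀, z₀, c₀, d⟩ := h.exists_co (hk.inJ c.inJ c'.inJ)
  obtain ⟨m, i, j, hm, hi, hj, e⟩ := hk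
  obtain ⟨a1, a2, a3⟩ := c.val h
  obtain ⟨b1, b2, b3⟩ := c'.val h
  obtain ⟨c1, c2, c3⟩ := c₀.val h
  have e1 := congrFun e u
  have e2 := congrFun e a
  have e3 := congrFun e b
  simp only [Pi.add_apply, Pi.smul_apply, smul_eq_mul, a1, a2, a3, b1, b2, b3, c1, c2, c3] at e1 e2 e3
  exact ⟨m, i, j, x₀, y₀, z₀, hm, hi, hj, c₀, d, e1, by linear_combination e2 - e1,
    by linear_combination e3 - e2⟩

/-- `exists_chamber`. -/
theorem T3.exists_chamber [Fintype Φ] (p q t : ℤ) : ∃ w : R.W, ∀ k x y z, Co R u a b k x y z →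
    (0 < p * x + q * y + t * z → w ∈ hf R k) ∧ (p * x + q * y + t * z < 0 → w ∉ hf R k) := by
  obtain ⟨w, hw⟩ := TB.exists_chamber (R := R) ((p - q) • Pi.evalAddMonoidHom _ u +
    (q - t) • Pi.evalAddMonoidHom _ a + t • Pi.evalAddMonoidHom _ b)
  refine ⟨w, fun k x y z c => ?_⟩
  obtain ⟨c1, c2, c3⟩ := c.val h
  have := hw k
  simp only [AddMonoidHom.add_apply, AddMonoidHom.smul_apply, Pi.evalAddMonoidHom_apply, c1, c2, c3,
    smul_eq_mul] at this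
  rwa [show (p - q) * x + (q - t) * (x + y) + t * (x + y + z) = p * x + q * y + t * z by ring] at this

/-- `W_{ab}` acts by signed permutations of `ε₁, ε₂`. -/
theorem T3.co_WJ {w : R.W} (hw : w ∈ WJ R {a, b}) : ∃ p q : ℤ, (p = 1 ∨ p = -1) ∧ (q = 1 ∨ q = -1) ∧
    ((∀ k x y z, Co R u a b k x y z → Co R u a b (w.1 k) x (p * y) (q * z)) ∨
      ∀ k x y z, Co R u a b k x y z → Co R u a b (w.1 k) x (p * z) (q * y)) := by
  refine H17.WJ_ind (P := fun w => ∃ p q : ℤ, (p = 1 ∨ p = -1) ∧ (q = 1 ∨ q = -1) ∧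
    ((∀ k x y z, Co R u a b k x y z → Co R u a b (w.1 k) x (p * y) (q * z)) ∨
      ∀ k x y z, Co R u a b k x y z → Co R u a b (w.1 k) x (p * z) (q * y)))
    ⟨1, 1, .inl rfl, .inl rfl, .inl fun k x y z c => by simpa using c⟩ ?_ hw
  rintro _ (rfl | rfl) w ⟨p, q, hp, hq, e | e⟩
  · exact ⟨q, p, hq, hp, .inr fun k x y z c => (e k x y z c).sa h⟩
  · exact ⟨q, p, hq, hp, .inl fun k x y z c => (e k x y z c).sa h⟩
  · exact ⟨p, -q, hp, by omega, .inl fun k x y z c => by simpa using (e k x y z c).sb h⟩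
  · exact ⟨p, -q, hp, by omega, .inr fun k x y z c => by simpa using (e k x y z c).sb h⟩

/-- An element of `W_{ab}` that fixes `α_a` and `α_b` is trivial (`mem_WJ_db`). -/
theorem T3.eq_one {w : R.W} (hw : w ∈ WJ R {a, b}) (h1 : w.1 (R.simple a) = R.simple a)
    (h2 : w.1 (R.simple b) = R.simple b) : w = 1 := by
  refine Subtype.ext (eq_one_of_pos w.2 fun i => ?_)
  by_cases hi : i ∈ ({a, b} : Set ι)
  · rcases hi with rfl | rfl
    exacts [h1.symm ▸ isPos_simple _, h2.symm ▸ isPos_simple _]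
  · simpa [mem_hf] using mul_mem_hf_of_not_inJ (one_mem_hf.2 (isPos_simple i))
      (by simpa [inJ_simple_iff] using hi) (inv_mem hw)

end Cfsg.Lib.TB
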