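import Cfsg.Agent.Lib.TB.Cm
import Cfsg.Agent.Lib.TB.B3R

/-!
S1143 (docs/TB.md): root groups of a subsystem `B₃` by coordinates.
-/

set_option autoImplicit false

noncomputable section

namespace Cfsg.Lib.TB

open Cfsg.Lib.BN Cfsg.Lib.Chev RootSys Subgroup
open scoped commutatorElement

/-- Coordinates. -/
abbrev Z3 : Type := ℤ × ℤ × ℤ

/-- Dot product. -/
def dt (p q : Z3) : ℤ := p.1 * q.1 + p.2.1 * q.2.1 + p.2.2 * q.2.2

/-- Cross product. -/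
def cr (p q : Z3) : Z3 :=
  (p.2.1 * q.2.2 - p.2.2 * q.2.1, p.2.2 * q.1 - p.1 * q.2.2, p.1 * q.2.1 - p.2.1 * q.1)

/-- The roots. -/
def rts : List Z3 := [(1, 0, 0), (-1, 0, 0), (0, 1, 0), (0, -1, 0), (0, 0, 1), (0, 0, -1), (1, 1, 0),
  (1, -1, 0), (-1, 1, 0), (-1, -1, 0), (1, 0, 1), (1, 0, -1), (-1, 0, 1), (-1, 0, -1), (0, 1, 1),
  (0, 1, -1), (0, -1, 1), (0, -1, -1)]

theorem Bd.mem {x y z : ℤ} (h : Bd x y z) : (x, y, z) ∈ rts := by
  obtain ⟨h1, h2, h3, h4, h5, h6, h7, h8⟩ := h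
  interval_cases x <;> interval_cases y <;> interval_cases z <;> simp [rts] at h7 h8 ⊢

/-- The roots in the open cone of `p`, `q` are in `l`. -/
def Chk (p q : Z3) (l : List Z3) : Prop := 0 < dt (cr p q) (cr p q) ∧
  ∀ r ∈ rts, dt r (cr p q) = 0 ∧ 0 < dt (cr r q) (cr p q) ∧ 0 < dt (cr p r) (cr p q) → r ∈ l

instance decChk (p q : Z3) (l : List Z3) : Decidable (Chk p q l) := by
  unfold Chk; infer_instance

namespace Fr

variable {ι Φ : Type} [Fintype ι] [DecidableEq ι] {R : RootSys ι Φ} {G : Type*} [Group G]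

/-- The group generated by the root groups with coordinates in `l`. -/
def UL (F : Fr G R) (u a b : ι) (l : List Z3) : Subgroup G :=
  F.US {k | ∃ p ∈ l, Co R u a b k p.1 p.2.1 p.2.2}

variable [Fintype Φ] {F : Fr G R} {u a b : ι} {g g' m : G} {p q : Z3} {l l' : List Z3} {k : Φ} {w : R.W}

theorem UL_eq (c : Co R u a b k p.1 p.2.1 p.2.2) : F.UL u a b [p] = F.U k :=
  le_antisymm (US_le.2 fun _ ⟨_, hp, c'⟩ => by
    obtain rfl := List.mem_singleton.1 hp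
    rw [c.eq c']) (U_le_US ⟨p, by simp, c⟩)

theorem UL_mono (h : ∀ p ∈ l, p ∈ l') : F.UL u a b l ≤ F.UL u a b l' :=
  US_le.2 fun _ ⟨p, hp, c⟩ => U_le_US ⟨p, h p hp, c⟩

theorem UL_le {M : Subgroup G} (h : ∀ p ∈ l, F.UL u a b [p] ≤ M) : F.UL u a b l ≤ M :=
  US_le.2 fun _ ⟨p, hp, c⟩ => (UL_eq c).ge.trans (h p hp)

theorem UL_cases (hg : g ∈ F.UL u a b [p]) :
    g = 1 ∨ ∃ k, Co R u a b k p.1 p.2.1 p.2.2 ∧ g ∈ F.U k := by
  by_cases e : ∃ k, Co R u a b k p.1 p.2.1 p.2.2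
  · obtain ⟨k, c⟩ := e
    exact .inr ⟨k, c, (UL_eq c).le hg⟩
  · have : F.UL u a b [p] ≤ ⊥ := US_le.2 fun k ⟨_, hp, c⟩ =>
      absurd ⟨k, List.mem_singleton.1 hp ▸ c⟩ e
    exact .inl (mem_bot.1 (this hg))

theorem Ov.conj_UL (hm : F.Ov m w) (f : Z3 → Z3) (e : ∀ k p, Co R u a b k p.1 p.2.1 p.2.2 →
    Co R u a b (w.1 k) (f p).1 (f p).2.1 (f p).2.2) (hg : g ∈ F.UL u a b l) :
    m * g * m⁻¹ ∈ F.UL u a b (l.map f) := by
  refine US_le.2 ?_ (hm.conj_mem_US hg)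
  rintro _ ⟨k, ⟨p, hp, c⟩, rfl⟩
  exact U_le_US ⟨f p, List.mem_map_of_mem hp, e k p c⟩

theorem conj_UL_H (hm : m ∈ F.H) (hg : g ∈ F.UL u a b l) : m * g * m⁻¹ ∈ F.UL u a b l := by
  simpa using (mem_H_iff_ov.1 hm).conj_UL id (fun _ _ c => c) hg

variable (h : T3 R u a b)
include h

theorem Ov.su (hm : F.Ov m (R.sW u)) {x y z : ℤ} (hg : g ∈ F.UL u a b [(x, y, z)]) :
    m * g * m⁻¹ ∈ F.UL u a b [(y, x, z)] := by
  simpa only [List.map] using hm.conj_UL (fun p => (p.2.1, p.1, p.2.2)) (fun _ _ c => by exact c.su h) hg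

theorem Ov.sa (hm : F.Ov m (R.sW a)) {x y z : ℤ} (hg : g ∈ F.UL u a b [(x, y, z)]) :
    m * g * m⁻¹ ∈ F.UL u a b [(x, z, y)] := by
  simpa only [List.map] using hm.conj_UL (fun p => (p.1, p.2.2, p.2.1)) (fun _ _ c => by exact c.sa h) hg

theorem Ov.sb (hm : F.Ov m (R.sW b)) {x y z : ℤ} (hg : g ∈ F.UL u a b [(x, y, z)]) :
    m * g * m⁻¹ ∈ F.UL u a b [(x, y, -z)] := by
  simpa only [List.map] using hm.conj_UL (fun p => (p.1, p.2.1, -p.2.2)) (fun _ _ c => by exact c.sb h) hg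

theorem Ov.s02 (hm : F.Ov m (R.sW u * R.sW a * R.sW u)) {x y z : ℤ}
    (hg : g ∈ F.UL u a b [(x, y, z)]) : m * g * m⁻¹ ∈ F.UL u a b [(z, y, x)] := by
  simpa only [List.map] using
    hm.conj_UL (fun p => (p.2.2, p.2.1, p.1)) (fun _ _ c => by exact ((c.su h).sa h).su h) hg

omit h in
theorem Ov.inv' (hm : F.Ov m w) (e : w * w = 1) : F.Ov m⁻¹ w :=
  inv_eq_of_mul_eq_one_right e ▸ hm.inv

variable (hR : Good R)
include hR

/-- Separation by the functional `f`. -/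
theorem sep (f : Z3) (hg : g ∈ F.UL u a b [p]) (hg' : g ∈ F.UL u a b l)
    (hf : dt f p < 0 ∧ ∀ q ∈ l, 0 < dt f q := by decide) : g = 1 := by
  rcases UL_cases hg with e | ⟨k, c, hk⟩
  · exact e
  obtain ⟨w, hw⟩ := h.exists_chamber f.1 f.2.1 f.2.2
  refine eq_one_of_US hR ?_ ((hw k _ _ _ c).2 hf.1) hk (mem_sup_left hg')
  exact fun k ⟨q, hq, c⟩ => (hw k _ _ _ c).1 (hf.2 q hq)

variable (hM : F.Mo)
include hM

theorem cm (hg : g ∈ F.UL u a b [p]) (hg' : g' ∈ F.UL u a b [q]) (l : List Z3)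
    (hl : Chk p q l := by decide) : ⁅g, g'⁆ ∈ F.UL u a b l := by
  rcases UL_cases hg with rfl | ⟨r, c, hr⟩
  · simp
  rcases UL_cases hg' with rfl | ⟨s, c', hs⟩
  · simp
  obtain ⟨x, y, z⟩ := p
  obtain ⟨x', y', z'⟩ := q
  have h0 := hl.1
  refine US_le.2 (fun k hk => ?_) (comm_mem hR hM ?_ ?_ hr hs)
  · obtain ⟨m, i, j, x₀, y₀, z₀, hm, hi, hj, c₀, d, e1, e2, e3⟩ := c.cone h c' hk
    refine U_le_US ⟨_, hl.2 _ d.mem ⟨mul_left_cancel₀ hm.ne' ?_, (mul_pos_iff_of_pos_left hm).1 ?_,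
      (mul_pos_iff_of_pos_left hm).1 ?_⟩, c₀⟩
    · simp only [dt, cr] at e1 e2 e3 ⊢
      linear_combination (y * z' - z * y') * e1 + (z * x' - x * z') * e2 + (x * y' - y * x') * e3
    · refine (mul_pos hi h0).trans_eq ?_
      simp only [dt, cr] at e1 e2 e3 ⊢
      linear_combination (-(y * z' - z * y')) * (z' * e2 - y' * e3) -
        (z * x' - x * z') * (x' * e3 - z' * e1) - (x * y' - y * x') * (y' * e1 - x' * e2)
    · refine (mul_pos hj h0).trans_eq ?_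
      simp only [dt, cr] at e1 e2 e3 ⊢
      linear_combination (-(y * z' - z * y')) * (y * e3 - z * e2) -
        (z * x' - x * z') * (z * e1 - x * e3) - (x * y' - y * x') * (x * e2 - y * e1)
  · rintro rfl
    obtain ⟨rfl, rfl, rfl⟩ := c.inj h c'
    simp [dt, cr, mul_comm] at h0
  · rintro rfl
    obtain ⟨rfl, rfl, rfl⟩ := c.neg.inj h c'
    simp [dt, cr, mul_comm] at h0

theorem cm0 (hg : g ∈ F.UL u a b [p]) (hg' : g' ∈ F.UL u a b [q])
    (hl : Chk p q [] := by decide) : Commute g g' :=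
  commutatorElement_eq_one_iff_commute.1 (mem_bot.1 (UL_le (by simp) (cm h hR hM hg hg' [] hl)))

theorem two (hg : g ∈ F.UL u a b [p, q]) (hl : Chk p q [] := by decide) :
    ∃ x ∈ F.UL u a b [p], ∃ y ∈ F.UL u a b [q], g = x * y := by
  have h1 : F.UL u a b [p] ≤ normalizer (F.UL u a b [q] : Set G) := fun x hx =>
    centralizer_le_normalizer _ fun y hy => (cm0 h hR hM hx hy hl).symm
  have h2 : g ∈ F.UL u a b [p] ⊔ F.UL u a b [q] := UL_le (by simp) hg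
  rw [← SetLike.mem_coe, coe_mul_of_left_le_normalizer_right _ _ h1] at h2
  obtain ⟨x, hx, y, hy, rfl⟩ := h2
  exact ⟨x, hx, y, hy, rfl⟩

/-- `U p` normalizes `UL l`. -/
theorem nrm (hg : g ∈ F.UL u a b [p]) (hg' : g' ∈ F.UL u a b l)
    (hl : ∀ q ∈ l, Chk p q l := by decide) : g * g' * g⁻¹ ∈ F.UL u a b l := by
  refine UL_le (M := (F.UL u a b l).comap (MulAut.conj g).toMonoidHom) (fun q hq x hx => ?_) hg'
  have := mul_mem (cm h hR hM hg hx l (hl q hq)) (UL_mono (by simpa) hx)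
  rwa [commutatorElement_def, inv_mul_cancel_right] at this

end Fr

end Cfsg.Lib.TB
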