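import Cfsg.Agent.Lib.TB.Def

/-!
S1143 (docs/TB.md): identities in `SL₃(K)`.
-/

set_option autoImplicit false

namespace Cfsg.Lib.TB

open Matrix
open scoped MatrixGroups

variable {K : Type*} [Field K]

theorem xe_val {i j : Fin 3} (h : i ≠ j) (t : K) : (xe i j t).1 = 1 + single i j t := by
  rw [xe, dif_pos h]; rfl

theorem xe_add (i j : Fin 3) (s t : K) : xe i j (s + t) = xe i j s * xe i j t := by
  by_cases h : i = j
  · simp [xe, h]
  · refine Subtype.ext ?_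
    simp [xe_val h, add_mul, mul_add, single_add, single_mul_single_of_ne _ _ _ _ (Ne.symm h),
      add_assoc, add_comm, add_left_comm]

theorem xe_zero (i j : Fin 3) : xe i j (0 : K) = 1 := by
  have := xe_add i j (0 : K) 0
  rw [add_zero] at this
  exact (left_eq_mul.1 this)

theorem xe_neg (i j : Fin 3) (t : K) : xe i j (-t) = (xe i j t)⁻¹ :=
  eq_inv_of_mul_eq_one_left (by rw [← xe_add, neg_add_cancel, xe_zero])

theorem xe01 (t : K) : (xe 0 1 t).1 = !![1, t, 0; 0, 1, 0; 0, 0, 1] := by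
  rw [xe_val (by decide)]; ext i j; fin_cases i <;> fin_cases j <;> simp

theorem xe10 (t : K) : (xe 1 0 t).1 = !![1, 0, 0; t, 1, 0; 0, 0, 1] := by
  rw [xe_val (by decide)]; ext i j; fin_cases i <;> fin_cases j <;> simp

theorem xe02 (t : K) : (xe 0 2 t).1 = !![1, 0, t; 0, 1, 0; 0, 0, 1] := by
  rw [xe_val (by decide)]; ext i j; fin_cases i <;> fin_cases j <;> simp

theorem xe20 (t : K) : (xe 2 0 t).1 = !![1, 0, 0; 0, 1, 0; t, 0, 1] := by
  rw [xe_val (by decide)]; ext i j; fin_cases i <;> fin_cases j <;> simp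

theorem xe12 (t : K) : (xe 1 2 t).1 = !![1, 0, 0; 0, 1, t; 0, 0, 1] := by
  rw [xe_val (by decide)]; ext i j; fin_cases i <;> fin_cases j <;> simp

theorem xe21 (t : K) : (xe 2 1 t).1 = !![1, 0, 0; 0, 1, 0; 0, t, 1] := by
  rw [xe_val (by decide)]; ext i j; fin_cases i <;> fin_cases j <;> simp

theorem we01 {t : K} (ht : t ≠ 0) : (we 0 1 t).1 = !![0, t, 0; -t⁻¹, 0, 0; 0, 0, 1] := by
  simp [we, xe01, xe10, ht]

theorem we12 {t : K} (ht : t ≠ 0) : (we 1 2 t).1 = !![1, 0, 0; 0, 0, t; 0, -t⁻¹, 0] := by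
  simp [we, xe12, xe21, ht]

theorem we02 {t : K} (ht : t ≠ 0) : (we 0 2 t).1 = !![0, 0, t; 0, 1, 0; -t⁻¹, 0, 0] := by
  simp [we, xe02, xe20, ht]

/-- `diag (t, t⁻¹, 1)`. -/
noncomputable def hd (t : K) : SL(3, K) := we 0 1 t * we 0 1 (-1)

/-- `diag (1, t, t⁻¹)`. -/
noncomputable def hd' (t : K) : SL(3, K) := we 1 2 t * we 1 2 (-1)

theorem hd_val {t : K} (ht : t ≠ 0) : (hd t).1 = !![t, 0, 0; 0, t⁻¹, 0; 0, 0, 1] := by
  simp [hd, we01 ht, we01 (neg_ne_zero.2 (one_ne_zero' K))]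

theorem hd'_val {t : K} (ht : t ≠ 0) : (hd' t).1 = !![1, 0, 0; 0, t, 0; 0, 0, t⁻¹] := by
  simp [hd', we12 ht, we12 (neg_ne_zero.2 (one_ne_zero' K))]

theorem isDiag_hd {t : K} (ht : t ≠ 0) : (hd t).1.IsDiag := by
  rw [hd_val ht]; intro i j h; fin_cases i <;> fin_cases j <;> simp at h ⊢

theorem isDiag_hd' {t : K} (ht : t ≠ 0) : (hd' t).1.IsDiag := by
  rw [hd'_val ht]; intro i j h; fin_cases i <;> fin_cases j <;> simp at h ⊢

theorem xe01_02 (a b : K) : xe 0 1 a * xe 0 2 b = xe 0 2 b * xe 0 1 a :=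
  Subtype.ext (by simp [xe01, xe02])

theorem xe12_02 (a b : K) : xe 1 2 a * xe 0 2 b = xe 0 2 b * xe 1 2 a :=
  Subtype.ext (by simp [xe12, xe02])

theorem xe21_01 (a b : K) : xe 2 1 a * xe 0 1 b = xe 0 1 b * xe 2 1 a :=
  Subtype.ext (by simp [xe21, xe01])

theorem xe12_01 (u a : K) : xe 1 2 u * xe 0 1 a = xe 0 1 a * xe 0 2 (-(u * a)) * xe 1 2 u :=
  Subtype.ext (by simp [xe12, xe01, xe02, mul_comm])

theorem xe21_02 (u b : K) : xe 2 1 u * xe 0 2 b = xe 0 1 (-(u * b)) * xe 0 2 b * xe 2 1 u :=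
  Subtype.ext (by simp [xe21, xe01, xe02, mul_comm])

theorem we12_02 (t : K) : we 1 2 1 * xe 0 2 t = xe 0 1 t * we 1 2 1 :=
  Subtype.ext (by simp [we12 (one_ne_zero' K), xe01, xe02])

theorem hd_02 {t : K} (ht : t ≠ 0) (b : K) : hd t * xe 0 2 b = xe 0 2 (t * b) * hd t :=
  Subtype.ext (by simp [hd_val ht, xe02])

theorem hd_01 {t : K} (ht : t ≠ 0) (b : K) : hd t * xe 0 1 b = xe 0 1 (t * t * b) * hd t :=
  Subtype.ext (by simp [hd_val ht, xe01]; field_simp)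

theorem we12_eq {t : K} (ht : t ≠ 0) : we 1 2 t = hd' t * we 1 2 1 :=
  Subtype.ext (by simp [hd'_val ht, we12 ht, we12 (one_ne_zero' K)])

theorem hd'_we_hd {u t : K} (hu : u ≠ 0) (ht : t ≠ 0) :
    we 1 2 u * hd t * we 1 2 (-1) = we 1 2 1 * hd t * we 1 2 (-1) * hd' u :=
  Subtype.ext (by
    simp [hd'_val hu, hd_val ht, we12 hu, we12 (one_ne_zero' K),
      we12 (neg_ne_zero.2 (one_ne_zero' K)), mul_comm])

theorem we12_neg : we 1 2 (-1 : K) = (we 1 2 1)⁻¹ :=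
  eq_inv_of_mul_eq_one_left (Subtype.ext (by
    simp [we12 (one_ne_zero' K), we12 (neg_ne_zero.2 (one_ne_zero' K)), Matrix.one_fin_three]))

theorem hd'_mul {s t : K} (hs : s ≠ 0) (ht : t ≠ 0) : hd' (s * t) = hd' s * hd' t :=
  Subtype.ext (by simp [hd'_val hs, hd'_val ht, hd'_val (mul_ne_zero hs ht), mul_comm])

end Cfsg.Lib.TB
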