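import Cfsg.Agent.Lib.TB.B3D
import Cfsg.Agent.Lib.TB.B3s

/-!
S1143 (docs/TB.md): the group `Q / Z` of a double bond and the action of `GJ`.
-/

set_option autoImplicit false

noncomputable section

namespace Cfsg.Lib.TB.B3D

open Matrix Subgroup
open scoped MatrixGroups commutatorElement

variable {G K : Type*} [Group G] [Field K] {B : B3D G K}

theorem A_add (B : B3D G K) (i j : Fin 3) (s t : K) : B.A i j (s + t) = B.A i j s * B.A i j t := by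
  rw [A, xe_add, map_mul]; rfl

theorem A_zero (B : B3D G K) (i j : Fin 3) : B.A i j 0 = 1 := by rw [A, xe_zero, map_one]

theorem A_neg (B : B3D G K) (i j : Fin 3) (t : K) : B.A i j (-t) = (B.A i j t)⁻¹ := by
  rw [A, xe_neg, map_inv]; rfl

theorem S2_add (B : B3D G K) (s t : K) : B.S2 (s + t) = B.S2 s * B.S2 t := by
  simp only [S2, A_add]; group

theorem S1_add (B : B3D G K) (s t : K) : B.S1 (s + t) = B.S1 s * B.S1 t := by
  simp only [S1, S2_add]; group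

theorem S2_zero (B : B3D G K) : B.S2 0 = 1 := by simp [S2, A_zero]

theorem S1_zero (B : B3D G K) : B.S1 0 = 1 := by simp [S1, S2_zero]

theorem S2_neg (B : B3D G K) (t : K) : B.S2 (-t) = (B.S2 t)⁻¹ := by
  simp only [S2, A_neg]; group

theorem S1_neg (B : B3D G K) (t : K) : B.S1 (-t) = (B.S1 t)⁻¹ := by
  simp only [S1, S2_neg]; group

theorem A12_mem (B : B3D G K) (t : K) : B.A 1 2 t ∈ B.GJ :=
  mem_sup_left (subset_closure (.inl ⟨t, rfl⟩))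

theorem A21_mem (B : B3D G K) (t : K) : B.A 2 1 t ∈ B.GJ :=
  mem_sup_left (subset_closure (.inr ⟨t, rfl⟩))

theorem we_mem (B : B3D G K) (t : K) : B.ψ (we 1 2 t) ∈ B.GJ := by
  rw [we, map_mul, map_mul]
  exact mul_mem (mul_mem (B.A12_mem _) (B.A21_mem _)) (B.A12_mem _)

theorem X2_le (B : B3D G K) : B.X2 ≤ B.GJ := le_sup_left.trans le_sup_right

/-- The subgroup `Z`. -/
def Z (B : B3D G K) : Subgroup G := closure {g | ∃ t d, g = ⁅B.A 0 1 t, B.S1 d⁆}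

theorem comm_mem_Z (B : B3D G K) (t d : K) : ⁅B.A 0 1 t, B.S1 d⁆ ∈ B.Z := subset_closure ⟨t, d, rfl⟩

theorem commute_Z {g z : G} (h1 : ∀ t, Commute g (B.A 0 1 t)) (h2 : ∀ t, Commute g (B.S1 t))
    (hz : z ∈ B.Z) : Commute g z := by
  refine (closure_le (centralizer {g})).2 ?_ hz g rfl
  rintro _ ⟨t, d, rfl⟩ _ rfl
  rw [commutatorElement_def]
  exact (((h1 t).mul_right (h2 d)).mul_right (h1 t).inv_right).mul_right (h2 d).inv_right

theorem comm_mul_mul {y y' p p' : G} (h1 : Commute y p) (h2 : Commute y p') (h3 : Commute y' p)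
    (h4 : Commute y' p') : ⁅y * p, y' * p'⁆ = ⁅y, y'⁆ * ⁅p, p'⁆ := by
  have e : ∀ {y : G}, Commute y p → Commute y p' → Commute y⁻¹ ⁅p, p'⁆ := fun h1 h2 => by
    rw [commutatorElement_def]
    exact (((h1.mul_right h2).mul_right h1.inv_right).mul_right h2.inv_right).inv_left
  calc ⁅y * p, y' * p'⁆ = y * (p * y') * p' * p⁻¹ * (y⁻¹ * p'⁻¹) * y'⁻¹ := by
        rw [commutatorElement_def]; group
    _ = y * y' * (⁅p, p'⁆ * y⁻¹) * y'⁻¹ := by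
        rw [← h3.eq, h2.inv_inv.eq, commutatorElement_def]; group
    _ = y * y' * y⁻¹ * (⁅p, p'⁆ * y'⁻¹) := by rw [← (e h1 h2).eq]; group
    _ = _ := by rw [← (e h3 h4).eq, commutatorElement_def y]; group

namespace Ax

variable (h : B.Ax) {z z' y y' g x : G}
include h

theorem n_mem : B.n ∈ B.GJ := mem_sup_right h.nmem

theorem Z_le : B.Z ≤ B.X0 := (closure_le _).2 (by rintro _ ⟨t, d, rfl⟩; exact h.z t d)

theorem cZX (hz : z ∈ B.Z) (hy : y ∈ B.X0) : Commute y z :=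
  commute_Z (fun t => (h.c0 y hy t).1) (fun t => (h.c0 y hy t).2.2.2.2.1) hz

theorem cZG (hz : z ∈ B.Z) (hg : g ∈ B.GJ) : Commute g z := by
  have : B.GJ ≤ centralizer {z} := by
    refine sup_le ((closure_le _).2 ?_) fun x hx _ e => ?_
    · rintro _ (⟨t, rfl⟩ | ⟨t, rfl⟩) _ rfl
      exacts [(h.c0 _ (h.Z_le hz) t).2.2.1, (h.c0 _ (h.Z_le hz) t).2.2.2.1]
    · exact e ▸ (commute_Z (fun t => (h.c2 x hx t).1) (fun t => (h.c2 x hx t).2.2) hz).symm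
  exact (this hg z rfl).symm

theorem conj_Z (hz : z ∈ B.Z) (hg : g ∈ B.GJ) : g * z * g⁻¹ = z := by
  rw [(h.cZG hz hg).eq, mul_inv_cancel_right]

theorem conj_mem_Z (hg : g ∈ B.GJ) : g * z * g⁻¹ ∈ B.Z ↔ z ∈ B.Z := by
  refine ⟨fun e => ?_, fun e => (h.conj_Z e hg).symm ▸ e⟩
  have := h.conj_Z e (inv_mem hg)
  rwa [← this, inv_inv, show g⁻¹ * (g * z * g⁻¹) * g = z by group] at e

theorem comm2_mem_Z (t c : K) : ⁅B.A 0 2 t, B.S2 c⁆ ∈ B.Z := by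
  rw [← h.conj_mem_Z (B.we_mem 1), conjugate_commutatorElement]
  have : B.ψ (we 1 2 1) * B.A 0 2 t * (B.ψ (we 1 2 1))⁻¹ = B.A 0 1 t := by
    rw [mul_inv_eq_iff_eq_mul, A, A, ← map_mul, ← map_mul, we12_02]
  rw [this]
  exact B.comm_mem_Z t c

theorem comm_X0 (hy : y ∈ B.X0) (hy' : y' ∈ B.X0) : ⁅y, y'⁆ ∈ B.Z := by
  obtain ⟨x, hx, c, e⟩ := h.tws y hy
  obtain ⟨x', hx', c', e'⟩ := h.tws y' hy'
  obtain ⟨y₀, h0, c₀, e0⟩ := h.tw (x⁻¹ * x') (mul_mem (inv_mem hx) hx') 1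
  set a := B.A 0 2 1
  have k : ∀ {y : G}, y ∈ B.X0 → Commute y a := fun hy => (h.c0 _ hy 1).2.1
  have k' : ∀ {y : G} (c), y ∈ B.X0 → Commute y (B.S2 c) := fun c hy => (h.c0 _ hy c).2.2.2.2.2
  have k2 : ∀ c c', Commute (B.S2 c) (B.S2 c') := fun c c' => by
    rw [Commute, SemiconjBy, ← S2_add, ← S2_add, add_comm]
  have h1 : ⁅a, a * y₀ * B.S2 c₀⁆ = ⁅a, B.S2 c₀⁆ := by
    have hz := h.comm2_mem_Z 1 c₀
    rw [commutatorElement_mul_right_eq_mul_conj, commutatorElement_mul_right_eq_mul_conj,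
      commutatorElement_self, (k h0).symm.commutator_eq]
    simp only [one_mul, mul_one, mul_inv_cancel]
    rw [((k (h.Z_le hz)).symm.mul_left (h.cZX hz h0)).eq, mul_inv_cancel_right]
  have h2 : ⁅a * y * B.S2 c, a * y' * B.S2 c'⁆ ∈ B.Z := by
    rw [← e, ← e', ← h.conj_mem_Z (inv_mem (B.X2_le hx)), conjugate_commutatorElement,
      show x⁻¹ * (x * a * x⁻¹) * x⁻¹⁻¹ = a by group,
      show x⁻¹ * (x' * a * x'⁻¹) * x⁻¹⁻¹ = x⁻¹ * x' * a * (x⁻¹ * x')⁻¹ by group, e0, h1]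
    exact h.comm2_mem_Z 1 c₀
  have h3 : ⁅a * B.S2 c, a * B.S2 c'⁆ ∈ B.Z := by
    have e1 : ∀ c, B.S2 c * a = ⁅a, B.S2 c⁆⁻¹ * a * B.S2 c := fun c => by
      rw [commutatorElement_def]; group
    have k3 : ∀ c, Commute ⁅a, B.S2 c⁆⁻¹ a := fun c => (k (h.Z_le (h.comm2_mem_Z 1 c))).inv_left
    have e2 : ∀ c c', a * B.S2 c * (a * B.S2 c') = ⁅a, B.S2 c⁆⁻¹ * (a * a * B.S2 (c + c')) :=
      fun c c' => by
        rw [S2_add, show a * B.S2 c * (a * B.S2 c') = a * (B.S2 c * a) * B.S2 c' by group, e1,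
          ← mul_assoc, ← mul_assoc, ← (k3 c).eq]
        group
    rw [commutatorElement_def, mul_assoc (_ * _), ← _root_.mul_inv_rev, e2, e2, add_comm c' c,
      _root_.mul_inv_rev, mul_assoc, mul_inv_cancel_left]
    exact mul_mem (inv_mem (h.comm2_mem_Z 1 c)) (inv_mem (inv_mem (h.comm2_mem_Z 1 c')))
  have h4 : ∀ {y : G} (c), y ∈ B.X0 → Commute y (a * B.S2 c) := fun c hy =>
    (k hy).mul_right (k' c hy)
  rw [← (k hy).eq, ← (k hy').eq, mul_assoc, mul_assoc,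
    comm_mul_mul (h4 c hy) (h4 c' hy) (h4 c hy') (h4 c' hy')] at h2
  exact (mul_mem_cancel_right h3).1 h2

omit h in
/-- The quotient `X0 / Z`. -/
def LL (_h : B.Ax) : Type _ := B.X0 ⧸ B.Z.subgroupOf B.X0

theorem normal_Z : (B.Z.subgroupOf B.X0).Normal :=
  ⟨fun z hz y => by
    rw [mem_subgroupOf, coe_mul, coe_mul, (h.cZX (z := z) hz y.2).eq, coe_inv, mul_inv_cancel_right]
    exact hz⟩

omit h in
instance instLL (h : B.Ax) : CommGroup h.LL :=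
  haveI := h.normal_Z
  { QuotientGroup.Quotient.group (B.Z.subgroupOf B.X0) with
    mul_comm := by
      rintro ⟨a⟩ ⟨b⟩
      refine QuotientGroup.eq.2 ?_
      have := h.comm_X0 (inv_mem b.2) (inv_mem a.2)
      rw [commutatorElement_def, inv_inv, inv_inv] at this
      simpa [mem_subgroupOf, mul_assoc] using this }

omit h in
instance finLL [Finite G] (h : B.Ax) : Finite h.LL :=
  inferInstanceAs (Finite (B.X0 ⧸ B.Z.subgroupOf B.X0))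

omit h in
/-- The additive quotient. -/
abbrev L (h : B.Ax) : Type _ := Additive h.LL

omit h in
/-- `v` is the class of `y`. -/
def Cl (h : B.Ax) (y : G) (v : h.L) : Prop :=
  ∃ hy : y ∈ B.X0, Additive.ofMul (QuotientGroup.mk ⟨y, hy⟩ : h.LL) = v

variable {h} {v v' : h.L}

theorem Cl.mem (c : h.Cl y v) : y ∈ B.X0 := c.1

theorem Cl.mul (c : h.Cl y v) (c' : h.Cl y' v') : h.Cl (y * y') (v + v') := by
  obtain ⟨hy, rfl⟩ := c
  obtain ⟨hy', rfl⟩ := c'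
  exact ⟨mul_mem hy hy', rfl⟩

theorem Cl.inv (c : h.Cl y v) : h.Cl y⁻¹ (-v) := by
  obtain ⟨hy, rfl⟩ := c
  exact ⟨inv_mem hy, rfl⟩

theorem Cl.unique (c : h.Cl y v) (c' : h.Cl y v') : v = v' := c.2.symm.trans c'.2

theorem cl_zero : h.Cl y 0 ↔ y ∈ B.Z := by
  haveI := h.normal_Z
  exact ⟨fun ⟨hy, e⟩ => (QuotientGroup.eq_one_iff (N := B.Z.subgroupOf B.X0) ⟨y, hy⟩).1 e,
    fun e => ⟨h.Z_le e, (QuotientGroup.eq_one_iff (N := B.Z.subgroupOf B.X0) ⟨y, h.Z_le e⟩).2 e⟩⟩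

variable (h) in
theorem exists_cl (hy : y ∈ B.X0) : ∃ v, h.Cl y v := ⟨_, hy, rfl⟩

theorem exists_cl' (v : h.L) : ∃ y, h.Cl y v := by
  obtain ⟨⟨y, hy⟩⟩ := v
  exact ⟨y, hy, rfl⟩

theorem Cl.mul_Z (c : h.Cl y v) (hz : z ∈ B.Z) : h.Cl (y * z) v := by
  simpa using c.mul (cl_zero.2 hz)

theorem Cl.Z_mul (c : h.Cl y v) (hz : z ∈ B.Z) : h.Cl (z * y) v := by
  simpa using (cl_zero.2 hz).mul c

theorem Cl.inv_mul (c : h.Cl y v) (c' : h.Cl y' v) : y⁻¹ * y' ∈ B.Z :=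
  cl_zero.1 (by simpa using c.inv.mul c')

variable (h) in
/-- The map induced by an element normalizing `X0` and `Z`. -/
theorem exists_map (h0 : ∀ y ∈ B.X0, g * y * g⁻¹ ∈ B.X0) (hZ : ∀ y ∈ B.Z, g * y * g⁻¹ ∈ B.Z) :
    ∃ ν : h.L →+ h.L, ∀ y v, h.Cl y v → h.Cl (g * y * g⁻¹) (ν v) := by
  choose r hr using exists_cl' (h := h)
  choose f hf using fun v => h.exists_cl (h0 _ (hr v).mem)
  have key : ∀ y v, h.Cl y v → h.Cl (g * y * g⁻¹) (f v) := fun y v c => by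
    have := (hf v).mul_Z (hZ _ ((hr v).inv_mul c))
    rwa [show g * r v * g⁻¹ * (g * ((r v)⁻¹ * y) * g⁻¹) = g * y * g⁻¹ by group] at this
  refine ⟨AddMonoidHom.mk' f fun v v' => (key _ _ ((hr v).mul (hr v'))).unique ?_, key⟩
  rw [← conj_mul]
  exact (hf v).mul (hf v')

omit h in
/-- `z` represents `v`. -/
def Rp (h : B.Ax) (z : G) (v : V K h.L) : Prop := ∃ y, h.Cl y v.2.2.1 ∧
  z = B.A 0 1 v.1 * (B.A 0 2 v.2.1 * (y * (B.S2 v.2.2.2.1 * B.S1 v.2.2.2.2)))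

variable {p p' : V K h.L}

theorem exists_rp (p : V K h.L) : ∃ z, h.Rp z p := let ⟨y, c⟩ := exists_cl' p.2.2.1; ⟨_, y, c, rfl⟩

theorem Rp.mul (r : h.Rp z p) (r' : h.Rp z' p') : h.Rp (z * z') (p + p') := by
  obtain ⟨a, b, v, c, d⟩ := p
  obtain ⟨y, hy, rfl⟩ := r
  have k1 : ∀ a {z p}, h.Rp z p → h.Rp (B.A 0 1 a * z) ((a, 0, 0, 0, 0) + p) := by
    rintro a _ p ⟨y, hy, rfl⟩
    exact ⟨y, by simpa using hy, by simp [A_add, mul_assoc]⟩
  have k2 : ∀ a {z p}, h.Rp z p → h.Rp (B.A 0 2 a * z) ((0, a, 0, 0, 0) + p) := by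
    rintro a _ p ⟨y, hy, rfl⟩
    refine ⟨y, by simpa using hy, ?_⟩
    have : Commute (B.A 0 2 a) (B.A 0 1 p.1) := by
      rw [Commute, SemiconjBy, A, A, ← map_mul, ← map_mul, xe01_02]
    simp [A_add, mul_assoc, this.left_comm]
  have k3 : ∀ {y v z p}, h.Cl y v → h.Rp z p → h.Rp (y * z) ((0, 0, v, 0, 0) + p) := by
    rintro y v _ p hy ⟨y', hy', rfl⟩
    refine ⟨y * y', hy.mul hy', ?_⟩
    simp [mul_assoc, (h.c0 y hy.mem _).1.left_comm, (h.c0 y hy.mem _).2.1.left_comm]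
  have k4 : ∀ a {z p}, h.Rp z p → h.Rp (B.S2 a * z) ((0, 0, 0, a, 0) + p) := by
    rintro a _ p ⟨y, hy, rfl⟩
    refine ⟨_, by simpa using hy.Z_mul (h.comm2_mem_Z (-p.2.1) a), ?_⟩
    rw [(h.cS a _).2.2.2.1.left_comm, A_neg, commutatorElement_def]
    simp [S2_add, mul_assoc, (h.c0 y hy.mem _).2.2.2.2.2.left_comm]
  have k5 : ∀ a {z p}, h.Rp z p → h.Rp (B.S1 a * z) ((0, 0, 0, 0, a) + p) := by
    rintro a _ p ⟨y, hy, rfl⟩
    have hz := B.comm_mem_Z (-p.1) a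
    refine ⟨_, by simpa using hy.Z_mul hz, ?_⟩
    rw [mul_assoc ⁅_, _⁆, ← (h.c0 _ (h.Z_le hz) _).2.1.left_comm, A_neg, commutatorElement_def]
    simp [S1_add, mul_assoc, (h.c0 y hy.mem _).2.2.2.2.1.left_comm, ← (h.cS a _).1.left_comm,
      ← (h.cS a _).2.1.left_comm]
  simpa [mul_assoc, ← add_assoc] using k1 a (k2 b (k3 hy (k4 c (k5 d r'))))

theorem rp1 (a : K) : h.Rp (B.A 0 1 a) (a, 0, 0, 0, 0) :=
  ⟨1, cl_zero.2 (one_mem _), by simp [A_zero, S2_zero, S1_zero]⟩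

theorem rp2 (a : K) : h.Rp (B.A 0 2 a) (0, a, 0, 0, 0) :=
  ⟨1, cl_zero.2 (one_mem _), by simp [A_zero, S2_zero, S1_zero]⟩

theorem Cl.rp (c : h.Cl y v) : h.Rp y (0, 0, v, 0, 0) := ⟨y, c, by simp [A_zero, S2_zero, S1_zero]⟩

theorem rp4 (a : K) : h.Rp (B.S2 a) (0, 0, 0, a, 0) :=
  ⟨1, cl_zero.2 (one_mem _), by simp [A_zero, S1_zero]⟩

theorem rp5 (a : K) : h.Rp (B.S1 a) (0, 0, 0, 0, a) :=
  ⟨1, cl_zero.2 (one_mem _), by simp [A_zero, S2_zero]⟩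

theorem Rp.inv (r : h.Rp z p) : h.Rp z⁻¹ (-p) := by
  obtain ⟨a, b, v, c, d⟩ := p
  obtain ⟨y, hy, rfl⟩ := r
  simpa [A_neg, S2_neg, S1_neg] using
    ((((rp5 (-d)).mul (rp4 (-c))).mul hy.inv.rp).mul (rp2 (-b))).mul (rp1 (-a))

theorem rp_zero : h.Rp z 0 ↔ z ∈ B.Z := by
  refine ⟨?_, fun hz => (cl_zero.2 hz).rp⟩
  rintro ⟨y, hy, rfl⟩
  simpa [A_zero, S2_zero, S1_zero] using cl_zero.1 hy

theorem Rp.unique (r : h.Rp z p) (r' : h.Rp z p') : p = p' := by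
  obtain ⟨y, hy, e⟩ := r.inv.mul r'
  obtain ⟨h1, h2, rfl, h4, h5⟩ := h.uniq _ _ y hy.mem _ _ (by
    simpa only [mul_assoc, inv_mul_cancel] using e.symm)
  refine neg_add_eq_zero.1 (Prod.ext h1 (Prod.ext h2 (Prod.ext ?_ (Prod.ext h4 h5))))
  exact hy.unique (cl_zero.2 (one_mem _))

theorem Rp.inv_mul (r : h.Rp z p) (r' : h.Rp z' p) : z⁻¹ * z' ∈ B.Z :=
  rp_zero.1 (by simpa using r.inv.mul r')

omit h in
/-- The action of `GJ`. -/
def T (h : B.Ax) : Subgroup (G × Equiv.Perm (V K h.L)) where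
  carrier := {q | q.1 ∈ B.GJ ∧ ∀ z p, h.Rp z p → h.Rp (q.1 * z * q.1⁻¹) (q.2 p)}
  one_mem' := ⟨one_mem _, fun z p r => by simpa using r⟩
  mul_mem' ha hb := ⟨mul_mem ha.1 hb.1, fun z p r => by
    simpa [mul_assoc] using ha.2 _ _ (hb.2 z p r)⟩
  inv_mem' {q} hq := ⟨inv_mem hq.1, fun z p r => by
    obtain ⟨z', r'⟩ := exists_rp (q.2⁻¹ p)
    have h1 := (hq.2 _ _ r').inv_mul (by simpa using r)
    have h2 := r'.mul (rp_zero.2 ((h.conj_mem_Z (inv_mem hq.1)).2 h1))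
    simpa [mul_assoc] using h2⟩

theorem ac_of [Finite G] [Finite K] (hg : g ∈ B.GJ) {f : V K h.L → V K h.L}
    (hf : ∀ p p', f (p + p') = f p + f p')
    (h1 : ∀ a, h.Rp (g * B.A 0 1 a * g⁻¹) (f (a, 0, 0, 0, 0)))
    (h2 : ∀ a, h.Rp (g * B.A 0 2 a * g⁻¹) (f (0, a, 0, 0, 0)))
    (h3 : ∀ y v, h.Cl y v → h.Rp (g * y * g⁻¹) (f (0, 0, v, 0, 0)))
    (h4 : ∀ a, h.Rp (g * B.S2 a * g⁻¹) (f (0, 0, 0, a, 0)))
    (h5 : ∀ a, h.Rp (g * B.S1 a * g⁻¹) (f (0, 0, 0, 0, a))) : Ac h.T g f := by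
  have key : ∀ z p, h.Rp z p → h.Rp (g * z * g⁻¹) (f p) := by
    rintro _ ⟨a, b, v, c, d⟩ ⟨y, hy, rfl⟩
    simpa [← hf] using (h1 a).mul ((h2 b).mul ((h3 y v hy).mul ((h4 c).mul (h5 d))))
  have : Function.Injective (AddMonoidHom.mk' f hf) := (injective_iff_map_eq_zero _).2 fun p e => by
    obtain ⟨z, r⟩ := exists_rp p
    exact r.unique (rp_zero.2 ((h.conj_mem_Z hg).1 (rp_zero.1 ((show f p = 0 from e) ▸ key z p r))))
  exact ⟨Equiv.ofBijective f (Finite.injective_iff_bijective.1 this), ⟨hg, key⟩, rfl⟩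

theorem T_fn (π : Equiv.Perm (V K h.L)) (e : (1, π) ∈ h.T) : π = 1 := Equiv.ext fun p => by
  obtain ⟨z, r⟩ := exists_rp p
  exact (e.2 z p r).unique (by simpa using r)

theorem T_ker (g : G) (e : (g, 1) ∈ h.T) : g ∈ B.H := by
  have key : ∀ {z p}, h.Rp z p → ⁅g, z⁆ ∈ B.X0 ⊓ centralizer (B.GJ : Set G) := fun r => by
    have := rp_zero.1 (by simpa using (e.2 _ _ r).mul r.inv)
    exact ⟨h.Z_le this, fun k hk => h.cZG this hk⟩
  refine h.ker g e.1 fun t z hz => ?_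
  simp only [List.mem_cons, List.not_mem_nil, or_false] at hz
  rcases hz with rfl | rfl | rfl | rfl
  exacts [key (rp1 t), key (rp2 t), key (rp4 t), key (rp5 t)]

end Ax

end Cfsg.Lib.TB.B3D
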