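import Cfsg.Agent.Lib.TB.A2
import Cfsg.Agent.Lib.TB.B3I_a
import Cfsg.Agent.Lib.TB.B3a_a

/-!
S1143 (docs/TB.md): the data `B3D` of a frame.  `A i j`, `S2`, `S1`, `S12` parametrize the root groups of
`εᵢ - εⱼ`, `ε₀ + ε₂`, `ε₀ + ε₁`, `ε₁ + ε₂` (`Ov.conj_mem_U`, `A2.ov`); all commutator relations come from
`commute_of`, `comm_mem_one`, `comm_mem` with `Co.cone` (`US {r, s} = U r * U s` if they commute).
* `tw, twi, tws`: for `a = A 0 2 (-1)`, `m = ψ (we 0 2 (-1)) = v a v'` with `v, v' ∈ U (ε₂ - ε₀)` (in `SL₃`,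
  `we 0 2 t = xe 2 0 (-t⁻¹) * xe 0 2 t * xe 2 0 (-t⁻¹)`), `x ∈ X2`, `a x a⁻¹ = y s x` (`y ∈ X0`, `s ∈ S2`): `v'`
  commutes with `x`, `m x m⁻¹ = v y s x v⁻¹ ∈ y * US {ε₀ + ε₂, ε₂}` and `m x m⁻¹ ∈ X0`; so `y = m x m⁻¹`
  (`eq_one_of_US`, `T3.exists_chamber`) and `x (A 0 2 1) x⁻¹ = A 0 2 1 * (m x m⁻¹) * s`.
* `uniq`: `eq_one_of_US` with the functionals `(1,2,0)`, `(1,0,2)`, `(-1,2,2)`, `(0,1,-1)`.
* `ker`: `GJ = F.GJ {a, b}`.  `g = x m y` (`bruhat`), `m` over `w`; `x`, `y` centralize `S1` (and the centralizer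
  of `GJ`; `U_le_GJ_of_inJ`), hence `m s m⁻¹ ∈ X0 * s`, `U (w (ε₀ + ε₁)) ≤ US {ε₀, ε₀ + ε₁}`, `w ε₁ = ε₁`
  (`T3.co_WJ`, `eq_one_of_US`, `U_ne_bot`).  `x`, `y` normalize `S2 S1`, so
  `U (w (ε₀ + ε₂)) ≤ US {ε₀, ε₀ + ε₂, ε₀ + ε₁}`, `w = 1`, `g` fixes `ch 1`.  The hypothesis is invariant under
  conjugation by `m₀ ∈ GJ` over `lg {a, b}` (`ε₁ ↦ -ε₁`, `ε₂ ↦ -ε₂`); `mem_H_of_LJ`.
* `ab`: `[A 1 2 u, S12 u'] ∈ U ε₁`, `U_inf_H`; conjugate by an element over `s_a s_u`.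
-/

set_option autoImplicit false

namespace Cfsg.Lib.TB.Fr

open Cfsg.Lib.BN Cfsg.Lib.Chev RootSys Matrix
open scoped commutatorElement MatrixGroups

variable {ι Φ : Type} [Fintype ι] [DecidableEq ι] {R : RootSys ι Φ}
variable {G K : Type*} [Group G] [Field K]

/-- The data of a subsystem `B₃`. -/
noncomputable def b3 (F : Fr G R) (u a b : ι) (ψ : SL(3, K) →* G) (n : G) : B3D G K where
  ψ := ψ
  X0 := F.U (R.sref u (R.sref a (R.simple b)))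
  X2 := F.U (R.simple b)
  Y2 := F.U (R.neg (R.simple b))
  H := F.H
  n := n

/-- The hypotheses. -/
structure In (F : Fr G R) (u a b : ι) (ψ : SL(3, K) →* G) (n : G) : Prop where
  hR : Good R
  hM : F.Mo
  h : T3 R u a b
  hψ : F.A2 u a ψ
  hn : n ∈ F.GJ {b}
  hn' : F.Ov n (R.sW b)

variable [Fintype Φ] [Finite G] {F : Fr G R} {u a b : ι} {ψ : SL(3, K) →* G} {n : G}

open Subgroup B3D

namespace In

local notation "𝐁" => F.b3 u a b ψ n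
local notation "𝐔" => F.UL u a b

variable (I : F.In u a b ψ n) {g m : G}
include I

theorem A01 : g ∈ 𝐔 [(1, -1, 0)] ↔ ∃ t, (𝐁).A 0 1 t = g := by
  rw [UL_eq (k := R.simple u) co_u]; exact (I.hψ 0 1 (by decide)).mem g

theorem A10 : g ∈ 𝐔 [(-1, 1, 0)] ↔ ∃ t, (𝐁).A 1 0 t = g := by
  rw [UL_eq (k := R.neg (R.simple u)) co_u.neg]; exact (I.hψ 1 0 (by decide)).mem g

theorem A12 : g ∈ 𝐔 [(0, 1, -1)] ↔ ∃ t, (𝐁).A 1 2 t = g := by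
  rw [UL_eq (k := R.simple a) co_a]; exact (I.hψ 1 2 (by decide)).mem g

theorem A21 : g ∈ 𝐔 [(0, -1, 1)] ↔ ∃ t, (𝐁).A 2 1 t = g := by
  rw [UL_eq (k := R.neg (R.simple a)) co_a.neg]; exact (I.hψ 2 1 (by decide)).mem g

theorem A02 : g ∈ 𝐔 [(1, 0, -1)] ↔ ∃ t, (𝐁).A 0 2 t = g := by
  rw [UL_eq (k := R.sref u (R.simple a)) (co_a.su I.h)]; exact (I.hψ 0 2 (by decide)).mem g

theorem A20 : g ∈ 𝐔 [(-1, 0, 1)] ↔ ∃ t, (𝐁).A 2 0 t = g := by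
  rw [UL_eq (k := R.neg (R.sref u (R.simple a))) (co_a.su I.h).neg]
  exact (I.hψ 2 0 (by decide)).mem g

theorem X0 : g ∈ 𝐔 [(1, 0, 0)] ↔ g ∈ (𝐁).X0 := by
  rw [UL_eq (k := R.sref u (R.sref a (R.simple b))) ((co_b.sa I.h).su I.h)]; rfl

omit I [Finite G] in
theorem X2 : g ∈ 𝐔 [(0, 0, 1)] ↔ g ∈ (𝐁).X2 := by rw [UL_eq (k := R.simple b) co_b]; rfl

omit I [Finite G] in
theorem Y2 : g ∈ 𝐔 [(0, 0, -1)] ↔ g ∈ (𝐁).Y2 := by rw [UL_eq (k := R.neg (R.simple b)) co_b.neg]; rfl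

theorem ow : F.Ov (𝐁).w (R.sW a) := (I.hψ.ov I.hR I.hM I.h.ua one_ne_zero).2.1

omit I [Finite G] [Fintype Φ] in
theorem conj_iff {p : K → G} {A A' : Subgroup G} (h : ∀ {g}, g ∈ A ↔ ∃ t, p t = g)
    (h1 : ∀ g ∈ A, m * g * m⁻¹ ∈ A') (h2 : ∀ g ∈ A', m⁻¹ * g * m⁻¹⁻¹ ∈ A) :
    g ∈ A' ↔ ∃ t, m * p t * m⁻¹ = g :=
  ⟨fun hg => let ⟨t, e⟩ := h.1 (h2 g hg); ⟨t, by rw [e]; group⟩,
    fun ⟨t, e⟩ => e ▸ h1 _ (h.2 ⟨t, rfl⟩)⟩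

theorem S2 : g ∈ 𝐔 [(1, 0, 1)] ↔ ∃ t, (𝐁).S2 t = g :=
  conj_iff I.A02 (fun _ => I.hn'.sb I.h) fun _ => (I.hn'.inv' (H17.sW_mul_self b)).sb I.h

theorem S12 : g ∈ 𝐔 [(0, 1, 1)] ↔ ∃ t, (𝐁).S12 t = g :=
  conj_iff I.A12 (fun _ => I.hn'.sb I.h) fun _ => (I.hn'.inv' (H17.sW_mul_self b)).sb I.h

theorem S1 : g ∈ 𝐔 [(1, 1, 0)] ↔ ∃ t, (𝐁).S1 t = g :=
  conj_iff I.S2 (fun _ => I.ow.sa I.h) fun _ => (I.ow.inv' (H17.sW_mul_self a)).sa I.h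

theorem GJ_eq : (𝐁).GJ = F.GJ {a, b} := by
  refine le_antisymm (sup_le ((closure_le _).2 ?_) (sup_le (U_le_GJ (by simp)).1
    (U_le_GJ (by simp)).2)) (iSup₂_le ?_)
  · rintro _ (⟨t, rfl⟩ | ⟨t, rfl⟩)
    · exact (U_le_GJ (i := a) (by simp)).1 (((I.hψ 1 2 (by decide)).mem _).2 ⟨t, rfl⟩)
    · exact (U_le_GJ (i := a) (by simp)).2 (((I.hψ 2 1 (by decide)).mem _).2 ⟨t, rfl⟩)
  · rintro _ (rfl | rfl)
    · refine sup_le (fun g hg => ?_) fun g hg => ?_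
      · obtain ⟨t, rfl⟩ := ((I.hψ 1 2 (by decide)).mem _).1 hg
        exact A12_mem _ t
      · obtain ⟨t, rfl⟩ := ((I.hψ 2 1 (by decide)).mem _).1 hg
        exact A21_mem _ t
    · exact le_sup_right

theorem tw0 {x : G} (hx : x ∈ (𝐁).X2) : ∃ c, x * (𝐁).A 0 2 1 * x⁻¹ =
    (𝐁).A 0 2 1 * (ψ (we 0 2 (-1)) * x * (ψ (we 0 2 (-1)))⁻¹) * (𝐁).S2 c := by
  obtain ⟨hR, hM, h, hψ, -, -⟩ := id I
  have hx' := X2.2 hx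
  obtain ⟨y, hy, s, hs, e⟩ := two h hR hM
    (cm h hR hM (I.A02.2 ⟨-1, rfl⟩) hx' [(1, 0, 0), (1, 0, 1)])
  obtain ⟨c, rfl⟩ := I.S2.1 hs
  have hv := I.A20.2 ⟨1, rfl⟩
  have e1 : ψ (we 0 2 (-1)) = (𝐁).A 2 0 1 * (𝐁).A 0 2 (-1) * (𝐁).A 2 0 1 := by
    simp only [B3D.A, b3, ← map_mul]
    exact congrArg ψ (Subtype.ext (by simp [we02 (neg_ne_zero.2 (one_ne_zero' K)), xe20, xe02]))
  have h1 := (hψ.ov hR hM h.ua (neg_ne_zero.2 (one_ne_zero' K))).2.2.s02 h hx'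
  have e2 : y⁻¹ * (ψ (we 0 2 (-1)) * x * (ψ (we 0 2 (-1)))⁻¹) = ⁅y⁻¹, (𝐁).A 2 0 1⁆ *
      ((𝐁).A 2 0 1 * ((𝐁).S2 c * x) * ((𝐁).A 2 0 1)⁻¹) := by
    rw [e1, show ∀ v a : G, v * a * v * x * (v * a * v)⁻¹ = v * (⁅a, v * x * v⁻¹⁆ * (v * x * v⁻¹)) * v⁻¹
      from fun v a => by rw [commutatorElement_def]; group, (cm0 h hR hM hv hx').eq,
      mul_inv_cancel_right, e, commutatorElement_def]
    group
  have h2 : y⁻¹ * (ψ (we 0 2 (-1)) * x * (ψ (we 0 2 (-1)))⁻¹) = 1 := by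
    refine sep h hR (-1, 0, 2) (mul_mem (inv_mem hy) h1) (l := [(1, 0, 1), (0, 0, 1)]) ?_
    rw [e2]
    exact mul_mem (cm h hR hM (inv_mem hy) hv _) (nrm h hR hM hv
      (mul_mem (UL_mono (by simp) hs) (UL_mono (by simp) hx')))
  refine ⟨c, ?_⟩
  rw [← inv_mul_eq_one.1 h2, mul_assoc _ y, ← e, A_neg, commutatorElement_def]
  group

theorem fix {w : R.W} (hm : F.Ov m w) {p q f : Z3} {l : List Z3} {k : Φ}
    (c : Co R u a b k p.1 p.2.1 p.2.2) (c' : Co R u a b (w.1 k) q.1 q.2.1 q.2.2)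
    (H : ∀ s ∈ 𝐔 [p], m * s * m⁻¹ ∈ 𝐔 l) (hf : dt f q < 0 ∧ ∀ q ∈ l, 0 < dt f q := by decide) :
    False := by
  obtain ⟨s, hs, h1⟩ := U_ne_bot I.hR I.hM k
  exact h1 (conj_eq_one_iff.1 (sep I.h I.hR f ((UL_eq c').ge (hm.conj_mem_U.2 hs))
    (H s ((UL_eq c).ge hs)) hf))

theorem pos_le : F.US {k | R.IsPos k ∧ R.InJ {a, b} k} ≤
    𝐔 [(0, 1, -1), (0, 0, 1), (0, 1, 0), (0, 1, 1)] := US_le.2 fun k hk => by
  obtain ⟨y, z, c, d⟩ := I.h.exists_co_ab hk.2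
  have := (c.isPos I.h).1 hk.1
  refine U_le_US ⟨(0, y, z), ?_, c⟩
  unfold Bd at d
  simp only [List.mem_cons, Prod.mk.injEq, List.not_mem_nil, true_and, or_false]
  omega

theorem mem_B (hg : g ∈ F.GJ {a, b})
    (H : ∀ s, s ∈ 𝐔 [(1, 0, 1)] ∨ s ∈ 𝐔 [(1, 1, 0)] →
      ⁅g, s⁆ ∈ 𝐔 [(1, 0, 0)] ⊓ centralizer (F.GJ {a, b} : Set G)) : g • F.ch 1 = F.ch 1 := by
  obtain ⟨hR, hM, h, hψ, -, -⟩ := id I
  obtain ⟨x, hx, m, w, hw, hm, y, hy, rfl⟩ := bruhat hR hM (GJ_le_LJ hR _ hg)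
  have hx' : x ∈ F.GJ {a, b} := US_le.2 (fun k hk => U_le_GJ_of_inJ hR hM hk.2) hx
  have n1 : ∀ {x}, x ∈ F.US {k | R.IsPos k ∧ R.InJ {a, b} k} → ∀ s ∈ 𝐔 [(1, 1, 0)],
      x * s * x⁻¹ ∈ 𝐔 [(1, 1, 0)] := fun hx s hs => by
    have : 𝐔 [(0, 1, -1), (0, 0, 1), (0, 1, 0), (0, 1, 1)] ≤ centralizer {s} := UL_le fun p hp z hz => by
      rintro _ rfl
      simp only [List.mem_cons, List.not_mem_nil, or_false] at hp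
      rcases hp with rfl | rfl | rfl | rfl <;> exact cm0 h hR hM hs hz
    rwa [← this (I.pos_le hx) s rfl, mul_inv_cancel_right]
  have n2 : ∀ {x}, x ∈ F.US {k | R.IsPos k ∧ R.InJ {a, b} k} → ∀ s ∈ 𝐔 [(1, 0, 1), (1, 1, 0)],
      x * s * x⁻¹ ∈ 𝐔 [(1, 0, 1), (1, 1, 0)] := fun hx => by
    have : 𝐔 [(0, 1, -1), (0, 0, 1), (0, 1, 0), (0, 1, 1)] ≤
        normalizer (𝐔 [(1, 0, 1), (1, 1, 0)] : Set G) := UL_le fun p hp z hz => by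
      refine mem_normalizer_fintype fun s hs => ?_
      simp only [List.mem_cons, List.not_mem_nil, or_false] at hp
      rcases hp with rfl | rfl | rfl | rfl <;> exact nrm h hR hM hz hs
    exact fun s hs => (this (I.pos_le hx) s).1 hs
  have key : ∀ {l : List Z3} {s}, s ∈ 𝐔 [(1, 0, 1)] ∨ s ∈ 𝐔 [(1, 1, 0)] → x⁻¹ * s * x⁻¹⁻¹ ∈ 𝐔 l →
      m * (y * s * y⁻¹) * m⁻¹ ∈ 𝐔 ((1, 0, 0) :: l) := fun {l s} hs h1 => by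
    have e : m * (y * s * y⁻¹) * m⁻¹ = x⁻¹ * ⁅x * m * y, s⁆ * x * (x⁻¹ * s * x⁻¹⁻¹) := by
      rw [commutatorElement_def]; group
    rw [e, mul_assoc x⁻¹, ← (H s hs).2 x hx', inv_mul_cancel_left]
    exact mul_mem (UL_mono (by simp) (H s hs).1) (UL_mono (by simp +contextual) h1)
  have k1 : ∀ s ∈ 𝐔 [(1, 1, 0)], m * s * m⁻¹ ∈ 𝐔 [(1, 0, 0), (1, 1, 0)] := fun s hs => by
    have h1 := n1 (inv_mem hy) s hs
    simpa [mul_assoc] using key (.inr h1) (n1 (inv_mem hx) _ h1)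
  have k2 : ∀ s ∈ 𝐔 [(1, 0, 1)], m * s * m⁻¹ ∈ 𝐔 [(1, 0, 0), (1, 0, 1), (1, 1, 0)] := fun s hs => by
    obtain ⟨s₁, h1, s₂, h2, e⟩ := two h hR hM (n2 (inv_mem hy) s (UL_mono (by simp) hs))
    have := mul_mem (key (.inl h1) (n2 (inv_mem hx) _ (UL_mono (by simp) h1)))
      (key (.inr h2) (n2 (inv_mem hx) _ (UL_mono (by simp) h2)))
    rw [conj_mul, conj_mul, ← e] at this
    simpa [mul_assoc] using this
  have c1 : Co R u a b _ 1 0 1 := (co_a.su h).sb h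
  have c2 : Co R u a b _ 1 1 0 := c1.sa h
  obtain rfl : w = 1 := by
    obtain ⟨p, q, hp, hq, e | e⟩ := h.co_WJ hw
    · rcases hp with rfl | rfl
      · rcases hq with rfl | rfl
        · exact h.eq_one hw ((e _ _ _ _ co_a).eq co_a) ((e _ _ _ _ co_b).eq co_b)
        · exact (I.fix (p := (1, 0, 1)) (q := (1, 0, -1)) (f := (1, 0, 2)) hm c1
            (by simpa using e _ _ _ _ c1) k2).elim
      · exact (I.fix (p := (1, 1, 0)) (q := (1, -1, 0)) (f := (1, 2, 0)) hm c2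
          (by simpa using e _ _ _ _ c2) k1).elim
    · rcases hq with rfl | rfl
      · exact (I.fix (p := (1, 1, 0)) (q := (1, 0, 1)) (f := (1, 0, -2)) hm c2
          (by simpa using e _ _ _ _ c2) k1).elim
      · exact (I.fix (p := (1, 1, 0)) (q := (1, 0, -1)) (f := (1, 0, 2)) hm c2
          (by simpa using e _ _ _ _ c2) k1).elim
  have f : ∀ {x}, x ∈ F.US {k | R.IsPos k ∧ R.InJ {a, b} k} → x • F.ch 1 = F.ch 1 := fun hx =>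
    mem_Fx.1 (US_le_Fx hR _ hx) 1 fun r hr => one_mem_hf.2 hr.1
  rw [mul_smul, mul_smul, f hy, hm.smul_ch, one_mul, f hx]

theorem ab_iff : (𝐁).Ab ↔ ∀ x ∈ 𝐔 [(0, 1, -1)], ∀ y ∈ 𝐔 [(0, 1, 1)], Commute x y := by
  have h := I.h
  have e : ∀ {g x y : G}, Commute (g * x * g⁻¹) (g * y * g⁻¹) → Commute x y := fun {g x y} e =>
    commutatorElement_eq_one_iff_commute.1 (conj_eq_one_iff.1 ((conjugate_commutatorElement x y g).trans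
      e.commutator_eq))
  refine ⟨fun H x hx y hy => ?_, fun H t d => ?_⟩
  · obtain ⟨t, ht⟩ := I.A01.1 ((ov_n a).sa h ((ov_n u).su h hx))
    obtain ⟨d, hd⟩ := I.S1.1 ((ov_n a).sa h ((ov_n u).su h hy))
    exact e (e (ht ▸ hd ▸ H t d))
  · exact e (e (H _ ((ov_n u).su h ((ov_n a).sa h (I.A01.2 ⟨t, rfl⟩))) _
      ((ov_n u).su h ((ov_n a).sa h (I.S1.2 ⟨d, rfl⟩)))))

theorem uniq (a' b' : K) (x : G) (hx : x ∈ (𝐁).X0) (c d : K)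
    (e : (𝐁).A 0 1 a' * (𝐁).A 0 2 b' * x * (𝐁).S2 c * (𝐁).S1 d = 1) :
    a' = 0 ∧ b' = 0 ∧ x = 1 ∧ c = 0 ∧ d = 0 := by
  obtain ⟨hR, hM, h, hψ, hn, hn'⟩ := id I
  have a01 := fun t => I.A01.2 ⟨t, rfl⟩
  have a02 := fun t => I.A02.2 ⟨t, rfl⟩
  have s1 := fun t => I.S1.2 ⟨t, rfl⟩
  have s2 := fun t => I.S2.2 ⟨t, rfl⟩
  have hx' := I.X0.2 hx
  have k : ∀ {x y : G} {p l}, x * y = 1 → x ∈ 𝐔 [p] → y ∈ 𝐔 l → ∀ f : Z3,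
      (dt f p < 0 ∧ ∀ q ∈ l, 0 < dt f q) → x = 1 ∧ y = 1 := fun e hx hy f hf => by
    have := sep h hR f hx (eq_inv_of_mul_eq_one_left e ▸ inv_mem hy) hf
    exact ⟨this, by rwa [this, one_mul] at e⟩
  simp only [mul_assoc] at e
  have m4 : (𝐁).S2 c * (𝐁).S1 d ∈ 𝐔 [(1, 0, 1), (1, 1, 0)] :=
    mul_mem (UL_mono (by simp) (s2 c)) (UL_mono (by simp) (s1 d))
  have m3 : x * ((𝐁).S2 c * (𝐁).S1 d) ∈ 𝐔 [(1, 0, 0), (1, 0, 1), (1, 1, 0)] :=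
    mul_mem (UL_mono (by simp) hx') (UL_mono (by simp) m4)
  obtain ⟨e1, e⟩ := k (l := [(1, 0, -1), (1, 0, 0), (1, 0, 1), (1, 1, 0)]) e (a01 _)
    (mul_mem (UL_mono (by simp) (a02 _)) (UL_mono (by simp) m3)) (1, 2, 0) (by decide)
  obtain ⟨e2, e⟩ := k e (a02 _) m3 (1, 0, 2) (by decide)
  obtain ⟨e3, e⟩ := k e hx' m4 (-1, 2, 2) (by decide)
  obtain ⟨e4, e5⟩ := k e (s2 _) (s1 _) (0, 1, -1) (by decide)
  have i2 : ∀ {c}, (𝐁).A 0 2 c = 1 → c = 0 := fun e =>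
    (hψ 0 2 (by decide)).inj (e.trans (A_zero (𝐁) 0 2).symm)
  exact ⟨(hψ 0 1 (by decide)).inj (e1.trans (A_zero (𝐁) 0 1).symm), i2 e2, e3,
    i2 (conj_eq_one_iff.1 e4), i2 (conj_eq_one_iff.1 (conj_eq_one_iff.1 e5))⟩

omit I [Finite G] in
theorem lg4 (h : T3 R u a b) (hm : F.Ov m (R.sW a * R.sW b * R.sW a * R.sW b)) {x y z : ℤ}
    (hg : g ∈ 𝐔 [(x, y, z)]) : m * g * m⁻¹ ∈ 𝐔 [(x, -y, -z)] := by
  simpa only [List.map] using hm.conj_UL (fun p => (p.1, -p.2.1, -p.2.2))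
    (fun _ _ c => by exact (((c.sb h).sa h).sb h).sa h) hg

theorem ker (g : G) (hg : g ∈ (𝐁).GJ)
    (H : ∀ t, ∀ z ∈ [(𝐁).A 0 1 t, (𝐁).A 0 2 t, (𝐁).S2 t, (𝐁).S1 t],
      ⁅g, z⁆ ∈ (𝐁).X0 ⊓ centralizer ((𝐁).GJ : Set G)) : g ∈ F.H := by
  obtain ⟨hR, hM, h, hψ, hn, hn'⟩ := id I
  rw [I.GJ_eq] at hg H
  have H' : ∀ t, ∀ z ∈ [(𝐁).A 0 1 t, (𝐁).A 0 2 t, (𝐁).S2 t, (𝐁).S1 t],
      ⁅g, z⁆ ∈ 𝐔 [(1, 0, 0)] ⊓ centralizer (F.GJ {a, b} : Set G) := fun t z hz =>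
    ⟨I.X0.2 (H t z hz).1, (H t z hz).2⟩
  obtain ⟨m, hm, hm'⟩ := exists_ov_GJ hR hM (F := F) (lg_mem {a, b})
  have f1 := I.mem_B hg (by
    rintro s (hs | hs)
    · obtain ⟨t, rfl⟩ := I.S2.1 hs
      exact H' t _ (by simp)
    · obtain ⟨t, rfl⟩ := I.S1.1 hs
      exact H' t _ (by simp))
  have f2 := I.mem_B (mul_mem (mul_mem (inv_mem hm) hg) hm) fun s hs => by
    have o := lg_db h.db ▸ hm'
    have : ⁅g, m * s * m⁻¹⁆ ∈ 𝐔 [(1, 0, 0)] ⊓ centralizer (F.GJ {a, b} : Set G) := by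
      rcases hs with hs | hs
      · obtain ⟨t, e⟩ := I.A02.1 (lg4 h o (y := 0) (z := 1) hs)
        exact e ▸ H' t _ (by simp)
      · obtain ⟨t, e⟩ := I.A01.1 (lg4 h o (y := 1) (z := 0) hs)
        exact e ▸ H' t _ (by simp)
    rwa [show ⁅m⁻¹ * g * m, s⁆ = m⁻¹ * (⁅g, m * s * m⁻¹⁆ * m) by
      simp only [commutatorElement_def]; group, ← this.2 m hm, inv_mul_cancel_left]
  refine mem_H_of_LJ (GJ_le_LJ hR _ hg) (one_mem _) f1 ?_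
  rwa [mul_smul, mul_smul, inv_smul_eq_iff, hm'.smul_ch, mul_one, ← one_mul (lg R _)] at f2

theorem a01 (t : K) : (𝐁).A 0 1 t ∈ 𝐔 [(1, -1, 0)] := I.A01.2 ⟨t, rfl⟩

theorem a10 (t : K) : (𝐁).A 1 0 t ∈ 𝐔 [(-1, 1, 0)] := I.A10.2 ⟨t, rfl⟩

theorem a12 (t : K) : (𝐁).A 1 2 t ∈ 𝐔 [(0, 1, -1)] := I.A12.2 ⟨t, rfl⟩

theorem a21 (t : K) : (𝐁).A 2 1 t ∈ 𝐔 [(0, -1, 1)] := I.A21.2 ⟨t, rfl⟩

theorem a02 (t : K) : (𝐁).A 0 2 t ∈ 𝐔 [(1, 0, -1)] := I.A02.2 ⟨t, rfl⟩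

theorem s1 (t : K) : (𝐁).S1 t ∈ 𝐔 [(1, 1, 0)] := I.S1.2 ⟨t, rfl⟩

theorem s2 (t : K) : (𝐁).S2 t ∈ 𝐔 [(1, 0, 1)] := I.S2.2 ⟨t, rfl⟩

theorem c2 (x : G) (hx : x ∈ (𝐁).X2 ⊔ (𝐁).Y2) (t : K) :
    Commute x ((𝐁).A 0 1 t) ∧ Commute x ((𝐁).A 1 0 t) ∧ Commute x ((𝐁).S1 t) := by
  obtain ⟨hR, hM, h, -⟩ := id I
  have : ∀ {g}, (∀ x ∈ 𝐔 [(0, 0, 1)], Commute g x) → (∀ x ∈ 𝐔 [(0, 0, -1)], Commute g x) →
      Commute x g := fun {g} h1 h2 => by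
    have : (𝐁).X2 ⊔ (𝐁).Y2 ≤ centralizer {g} :=
      sup_le (fun x hx _ e => e ▸ h1 x (X2.2 hx)) fun x hx _ e => e ▸ h2 x (Y2.2 hx)
    exact (this hx g rfl).symm
  exact ⟨this (fun _ hx => cm0 h hR hM (I.a01 t) hx) fun _ hx => cm0 h hR hM (I.a01 t) hx,
    this (fun _ hx => cm0 h hR hM (I.a10 t) hx) fun _ hx => cm0 h hR hM (I.a10 t) hx,
    this (fun _ hx => cm0 h hR hM (I.s1 t) hx) fun _ hx => cm0 h hR hM (I.s1 t) hx⟩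

theorem o2 : F.Ov (ψ (we 0 2 (-1))) (R.sW u * R.sW a * R.sW u) :=
  (I.hψ.ov I.hR I.hM I.h.ua (neg_ne_zero.2 (one_ne_zero' K))).2.2

theorem ax : (𝐁).Ax where
  c0 x hx t := by
    obtain ⟨hR, hM, h, -⟩ := id I
    have hx := I.X0.2 hx
    exact ⟨cm0 h hR hM hx (I.a01 t), cm0 h hR hM hx (I.a02 t), cm0 h hR hM hx (I.a12 t),
      cm0 h hR hM hx (I.a21 t), cm0 h hR hM hx (I.s1 t), cm0 h hR hM hx (I.s2 t)⟩
  c2 := I.c2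
  c2' x hx t := cm0 I.h I.hR I.hM (X2.2 hx) (I.s2 t)
  cS s t := by
    obtain ⟨hR, hM, h, -⟩ := id I
    exact ⟨cm0 h hR hM (I.s1 s) (I.s2 t), cm0 h hR hM (I.s1 s) (I.a02 t),
      cm0 h hR hM (I.s1 s) (I.a12 t), cm0 h hR hM (I.s2 s) (I.a01 t), cm0 h hR hM (I.s2 s) (I.a21 t)⟩
  z t d := I.X0.1 (cm I.h I.hR I.hM (I.a01 t) (I.s1 d) _)
  r12 t c := (I.S1.1 (cm I.h I.hR I.hM (I.a12 t) (I.s2 c) _)).imp fun _ => Eq.symm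
  r21 t c := (I.S2.1 (cm I.h I.hR I.hM (I.a21 t) (I.s1 c) _)).imp fun _ => Eq.symm
  r20 x hx y hy := (I.S2.1 (cm I.h I.hR I.hM (X2.2 hx) (I.X0.2 hy) _)).imp fun _ => Eq.symm
  tw x hx t := by
    obtain ⟨y, hy, s, hs, e⟩ := two I.h I.hR I.hM
      (cm I.h I.hR I.hM (I.a02 (-t)) (X2.2 hx) [(1, 0, 0), (1, 0, 1)])
    obtain ⟨c, rfl⟩ := I.S2.1 hs
    refine ⟨y, I.X0.1 hy, c, ?_⟩
    rw [mul_assoc _ y, ← e, A_neg, commutatorElement_def]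
    group
  twi x hx c e := by
    obtain ⟨c', e'⟩ := I.tw0 hx
    rw [e, mul_assoc, mul_right_inj, ← mul_inv_eq_iff_eq_mul] at e'
    refine conj_eq_one_iff.1 (sep I.h I.hR (-1, 0, 2) (I.o2.s02 I.h (X2.2 hx)) (l := [(1, 0, 1)]) ?_)
    exact e' ▸ mul_mem (I.s2 c) (inv_mem (I.s2 c'))
  tws y hy := by
    have hx : _ ∈ (𝐁).X2 := X2.1 ((I.o2.inv' (by
      simp [mul_assoc, H17.sW_cancel, H17.sW_mul_self])).s02 I.h (I.X0.2 hy))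
    obtain ⟨c, e⟩ := I.tw0 hx
    exact ⟨_, hx, c, e.trans (by group)⟩
  r5 t x hx := by
    obtain ⟨y, hy, s, hs, e⟩ := two I.h I.hR I.hM
      (cm I.h I.hR I.hM (I.a12 t) (X2.2 hx) [(0, 1, 0), (0, 1, 1)])
    obtain ⟨c, rfl⟩ := I.S12.1 hs
    refine ⟨_, X2.1 ((I.ow.inv' (H17.sW_mul_self a)).sa I.h hy), c, ?_⟩
    rw [← mul_inv_eq_iff_eq_mul, ← commutatorElement_def, e]
    group
  mu x hx h1 := by
    obtain ⟨y, hy, y', hy', e⟩ := exists_mu_simple I.hR I.hM hx h1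
    have := e.sb I.h (I.a02 1)
    rw [Int.neg_neg] at this
    obtain ⟨c, e'⟩ := I.S2.1 this
    exact ⟨y, hy, y', hy', c, e'.symm⟩
  nmem := by simpa [GJ, b3] using I.hn
  nXY x := ⟨fun e => X2.1 (by
      simpa [mul_assoc, b3] using (I.hn'.inv' (H17.sW_mul_self b)).sb I.h (z := -1) (Y2.2 e)),
    fun e => Y2.1 (I.hn'.sb I.h (X2.2 e))⟩
  nX0 x hx := I.X0.1 (I.hn'.sb I.h (z := 0) (I.X0.2 hx))
  nS c := (I.A02.1 (I.hn'.sb I.h (I.s2 c))).imp fun _ => Eq.symm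
  dg0 D hD x hx := I.X0.1 (conj_UL_H (I.hψ.diag I.hR I.hM I.h.ua hD) (I.X0.2 hx))
  dg1 D hD d := (I.S1.1 (conj_UL_H (I.hψ.diag I.hR I.hM I.h.ua hD) (I.s1 d))).imp fun _ => Eq.symm
  uniq := I.uniq
  ker := I.ker
  XH x hx := U_inf_H I.hR hx
  ne := U_ne_bot I.hR I.hM _
  ab H := I.ab_iff.2 fun x hx y hy => by
    obtain ⟨t, rfl⟩ := I.A12.1 hx
    obtain ⟨t', rfl⟩ := I.S12.1 hy
    exact commutatorElement_eq_one_iff_commute.1 (U_inf_H I.hR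
      ((UL_eq (p := (0, 1, 0)) (co_b.sa I.h)).le (cm I.h I.hR I.hM hx hy [(0, 1, 0)])) (H t t'))

end In

variable (hR : Good R) (hM : F.Mo) (h : T3 R u a b) (hψ : F.A2 u a ψ) (hn : n ∈ F.GJ {b})
  (hn' : F.Ov n (R.sW b))
include hR hM h hψ hn hn'

theorem b3_ax : (F.b3 u a b ψ n).Ax := In.ax ⟨hR, hM, h, hψ, hn, hn'⟩

theorem b3_ab : (F.b3 u a b ψ n).Ab ↔ F.Ab a b := by
  rw [In.ab_iff ⟨hR, hM, h, hψ, hn, hn'⟩, UL_eq (k := R.simple a) co_a,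
    UL_eq (k := R.sref b (R.simple a)) (co_a.sb h), Ab]

/-- Conjugate by `F.n u`. -/
theorem b3_ba (h0 : ∀ x ∈ (F.b3 u a b ψ n).X0, ∀ y ∈ (F.b3 u a b ψ n).X2, Commute x y) :
    F.Ab b a := fun x hx y hy => by
  have := h0 _ ((In.X0 ⟨hR, hM, h, hψ, hn, hn'⟩).1 ((ov_n u).su h ((UL_eq (p := (0, 1, 0))
    (co_b.sa h)).ge hy))) _ ((UL_eq (p := (0, 0, 1)) co_b).le ((ov_n u).su h
      ((UL_eq (p := (0, 0, 1)) co_b).ge hx)))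
  exact commutatorElement_eq_one_iff_commute.1 (conj_eq_one_iff.1
    ((conjugate_commutatorElement x y _).trans this.symm.commutator_eq))

end Cfsg.Lib.TB.Fr
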