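import Cfsg.Agent.Lib.TB.B3a_a

/-!
S1143 (docs/TB.md): the module `Q / Z` of a double bond.

* `Z = closure {[A 0 1 t, S1 d]} ≤ X0` commutes with `X0` (`c0`), `GJ`, `A 0 1`, `A 0 2`, `S1`, `S2`.
  `[A 0 2 t, S2 c] ∈ Z` (conjugate by `w`, which centralizes `Z`; `w (A 0 2 t) w⁻¹ = A 0 1 t`).
* `X0 / Z` is abelian: for `y, y' ∈ X0` take `x, x'` from `tws`; `[x a x⁻¹, x' a x'⁻¹] ∈ Z` (`a = A 0 2 1`;
  conjugate by `x⁻¹`, `tw` for `x⁻¹ x'`), and it is `[y, y']` modulo `Z`.  `L = Additive (X0 / Z)`.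
* `Rp z (a, b, v, c, d)`: `z = A 0 1 a * A 0 2 b * y * S2 c * S1 d` with `y ∈ X0` of class `v`.  It is
  multiplicative and functional (`uniq`).  `T = {(g, π) | g ∈ GJ, ∀ z v, Rp z v → Rp (g z g⁻¹) (π v)}`
  (a submonoid of a finite group).  For additive `π` it is enough to check the five factors.
* `h t = ψ (diag (t, t⁻¹, 1)) = ψ (we 0 1 t * we 0 1 (-1))` commutes with `X2 ⊔ Y2 ∋ n`, normalizes `X0`, `Z`;
  `h t (A 0 2 b) (h t)⁻¹ = A 0 2 (t b)`, `h t (S2 c) (h t)⁻¹ = S2 (t c)`.  `ρ t` = conjugation by `h t` on `L`,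
  `ρ 0 = 0`.  For `x ∈ X2` let `x (A 0 2 b) x⁻¹` represent `(0, b, φ x b, s x b, 0)`: additive in `b`,
  `ρ t (φ x b) = φ x (t b)`, `s x (t b) = t * s x b`, every `v` is a `φ x 1` (`tws`); so `ρ` is a ring
  homomorphism `K →+* AddMonoid.End L`.
* `A 1 2 u (S2 c) (A 1 2 u)⁻¹ = S2 c * S1 (β u c)`, `A 2 1 u (S1 d) (A 2 1 u)⁻¹ = S2 (β' u d) * S1 d`.
  `ψ (we 1 2 u) = ψ (diag (1, u, u⁻¹)) * w` maps `S2 c` to some `S1 d'` (`dg1`), expand:
  `c + β' (-u⁻¹) (β u c) = 0`, `d' = β u c`.  So `diag (1, u, u⁻¹)` maps `S1 c` to `S1 (β u c)`; it commutes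
  with `w (h t) w⁻¹` (diagonal), which maps `S1 d` to `S1 (t d)`: `β u c = σ u * c`, `σ u = β u 1` is
  multiplicative, additive, bijective.
-/

set_option autoImplicit false

universe u

noncomputable section

namespace Cfsg.Lib.TB.B3D

open Matrix Subgroup
open scoped MatrixGroups commutatorElement

variable {G K : Type*} [Group G] [Field K] {B : B3D G K}

/-- The scalars. -/
def ht (B : B3D G K) (t : K) : G := B.ψ (hd t)

theorem ht_A2 (B : B3D G K) {t : K} (h0 : t ≠ 0) (b : K) :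
    B.ht t * B.A 0 2 b * (B.ht t)⁻¹ = B.A 0 2 (t * b) := by
  rw [mul_inv_eq_iff_eq_mul, ht, A, A, ← map_mul, ← map_mul, hd_02 h0]

namespace Ax

variable (h : B.Ax) {z z' y y' g x : G} {t : K}
include h

theorem c_ht (hx : x ∈ B.X2 ⊔ B.Y2) (t : K) : Commute x (B.ht t) := by
  have : ∀ t, Commute x (B.ψ (we 0 1 t)) := fun t => by
    rw [we, map_mul, map_mul]
    exact ((h.c2 x hx _).1.mul_right (h.c2 x hx _).2.1).mul_right (h.c2 x hx _).1
  rw [ht, hd, map_mul]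
  exact (this _).mul_right (this _)

theorem conj_ht (hx : x ∈ B.X2 ⊔ B.Y2) (t : K) (g : G) :
    B.ht t * (x * g * x⁻¹) * (B.ht t)⁻¹ = x * (B.ht t * g * (B.ht t)⁻¹) * x⁻¹ := by
  rw [← conj_mul, ← conj_mul, ← conj_inv, ← (h.c_ht hx t).eq, mul_inv_cancel_right]

theorem ht_S2 (h0 : t ≠ 0) (c : K) : B.ht t * B.S2 c * (B.ht t)⁻¹ = B.S2 (t * c) := by
  rw [S2, h.conj_ht h.nmem, B.ht_A2 h0, S2]

theorem ht_Z (h0 : t ≠ 0) (hz : z ∈ B.Z) : B.ht t * z * (B.ht t)⁻¹ ∈ B.Z := by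
  refine (closure_le (B.Z.comap (MulAut.conj (B.ht t)).toMonoidHom)).2 ?_ hz
  rintro _ ⟨a, d, rfl⟩
  obtain ⟨d', e⟩ := h.dg1 _ (isDiag_hd h0) d
  have e' : B.ht t * B.A 0 1 a * (B.ht t)⁻¹ = B.A 0 1 (t * t * a) := by
    rw [mul_inv_eq_iff_eq_mul, ht, A, A, ← map_mul, ← map_mul, hd_01 h0]
  change B.ht t * _ * (B.ht t)⁻¹ ∈ B.Z
  rw [conjugate_commutatorElement, e', ht, e]
  exact B.comm_mem_Z _ _

theorem exists_rho : ∃ ρ : K → h.L →+ h.L, ρ 0 = 0 ∧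
    ∀ t, t ≠ 0 → ∀ y v, h.Cl y v → h.Cl (B.ht t * y * (B.ht t)⁻¹) (ρ t v) := by
  classical
  choose ρ hρ using fun (t : K) (h0 : t ≠ 0) =>
    h.exists_map (h.dg0 _ (isDiag_hd h0)) fun _ => h.ht_Z h0
  exact ⟨fun t => if h0 : t = 0 then 0 else ρ t h0, by simp, fun t h0 => by
    simpa [h0, ht] using hρ t h0⟩

omit h in
/-- The scalar multiplication. -/
def rho (h : B.Ax) : K → h.L →+ h.L := h.exists_rho.choose

omit h in
/-- The second column of `x`. -/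
def Tw (h : B.Ax) (x : G) (b : K) (v : h.L) (s : K) : Prop :=
  h.Rp (x * B.A 0 2 b * x⁻¹) (0, b, v, s, 0)

variable {h} {v v' : h.L} {b b' s s' c : K}

theorem Cl.rho (c : h.Cl y v) (h0 : t ≠ 0) : h.Cl (B.ht t * y * (B.ht t)⁻¹) (h.rho t v) :=
  h.exists_rho.choose_spec.2 t h0 y v c

theorem rho_zero (v : h.L) : h.rho 0 v = 0 := by rw [rho, h.exists_rho.choose_spec.1]; rfl

theorem Rp.ht (r : h.Rp z (0, b, v, c, 0)) (h0 : t ≠ 0) :
    h.Rp (B.ht t * z * (B.ht t)⁻¹) (0, t * b, h.rho t v, t * c, 0) := by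
  obtain ⟨y, hy, rfl⟩ := r
  refine ⟨_, hy.rho h0, ?_⟩
  simp only [A_zero, S1_zero, one_mul, mul_one, ← B.ht_A2 h0, ← h.ht_S2 h0, conj_mul]

theorem Tw.add (a : h.Tw x b v s) (a' : h.Tw x b' v' s') : h.Tw x (b + b') (v + v') (s + s') := by
  simpa [Tw, A_add] using Rp.mul a a'

theorem Tw.unique (a : h.Tw x b v s) (a' : h.Tw x b v' s') : v = v' ∧ s = s' := by
  simpa using Rp.unique a a'

theorem Tw.smul (hx : x ∈ B.X2) (a : h.Tw x b v s) (t : K) : h.Tw x (t * b) (h.rho t v) (t * s) := by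
  rcases eq_or_ne t 0 with rfl | h0
  · simp only [Tw, A_zero, rho_zero, zero_mul, mul_one, mul_inv_cancel]
    exact rp_zero.2 (one_mem _)
  · have := Rp.ht a h0
    rwa [h.conj_ht (mem_sup_left hx), B.ht_A2 h0] at this

theorem tw_of (hy : h.Cl y v) (e : x * B.A 0 2 b * x⁻¹ = B.A 0 2 b * y * B.S2 s) : h.Tw x b v s := by
  simpa [Tw, e] using ((rp2 b).mul hy.rp).mul (rp4 s)

theorem exists_tw (v : h.L) : ∃ x ∈ B.X2, ∃ s, h.Tw x 1 v s := by
  obtain ⟨y, hy⟩ := exists_cl' v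
  obtain ⟨x, hx, c, e⟩ := h.tws y hy.mem
  exact ⟨x, hx, c, tw_of hy e⟩

omit h in
instance modL (h : B.Ax) : Module K h.L where
  smul t v := h.rho t v
  one_smul v := by
    obtain ⟨x, hx, s, a⟩ := exists_tw v
    exact ((a.smul hx 1).unique (by simpa using a)).1
  mul_smul s t v := by
    obtain ⟨x, hx, c, a⟩ := exists_tw v
    exact ((a.smul hx (s * t)).unique (mul_assoc s t 1 ▸ (a.smul hx t).smul hx s)).1
  smul_zero t := map_zero (h.rho t)
  smul_add t := map_add (h.rho t)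
  add_smul s t v := by
    obtain ⟨x, hx, c, a⟩ := exists_tw v
    exact ((a.smul hx (s + t)).unique (add_mul s t 1 ▸ (a.smul hx s).add (a.smul hx t))).1
  zero_smul := rho_zero

theorem smul_def (t : K) (v : h.L) : t • v = h.rho t v := rfl

variable [Finite G] [Finite K]

theorem ac_X (hx : x ∈ B.X2) (a : h.Tw x 1 v s) : ∃ f, Ac h.T x (xm v s f) := by
  choose r hr using exists_cl' (h := h)
  choose f hf using fun v => h.r20 x hx _ (hr v).mem
  have key : ∀ y w, h.Cl y w → h.Rp (x * y * x⁻¹) (0, 0, w, f w, 0) := fun y w c => by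
    have := ((rp4 (f w)).mul (hr w).rp).mul (rp_zero.2 ((hr w).inv_mul c))
    rw [← hf, ← h.conj_Z ((hr w).inv_mul c) (B.X2_le hx), commutatorElement_def] at this
    simpa [mul_assoc] using this
  have add : ∀ w w', f (w + w') = f w + f w' := fun w w' => by
    have := (key _ _ (hr w)).mul (key _ _ (hr w'))
    rw [conj_mul] at this
    simpa using (key _ _ ((hr w).mul (hr w'))).unique this
  have smul : ∀ (t : K) w, f (t • w) = t * f w := fun t w => by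
    rcases eq_or_ne t 0 with rfl | h0
    · simpa using add 0 0
    · have := (key _ _ (hr w)).ht h0
      rw [h.conj_ht (mem_sup_left hx)] at this
      simpa [smul_def] using (key _ _ ((hr w).rho h0)).unique this
  have c2 := h.c2 x (mem_sup_left hx)
  have f0 : f 0 = 0 := by simpa using add 0 0
  refine ⟨⟨⟨f, add⟩, smul⟩, ac_of (B.X2_le hx) (fun p p' => ?_) (fun a => ?_) (fun b => ?_)
    (fun y w c => ?_) (fun a => ?_) fun a => ?_⟩
  · simp only [xm, Prod.fst_add, Prod.snd_add, map_add, Prod.mk_add_mk, add_smul, Prod.mk.injEq]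
    exact ⟨trivial, trivial, by abel, by ring, trivial⟩
  · simpa [xm, f0, (c2 a).1.eq] using rp1 a
  · simpa [xm, f0, Tw, smul_def] using a.smul hx b
  · simpa [xm] using key y w c
  · simpa [xm, f0, (h.c2' x hx a).eq] using rp4 a
  · simpa [xm, f0, (c2 a).2.2.eq] using rp5 a

variable (h) in
theorem ac_n : ∃ ε ≠ 0, ∃ ν, Ac h.T B.n (th ε ν) := by
  obtain ⟨ν, hν⟩ := h.exists_map h.nX0 fun _ => (h.conj_mem_Z h.n_mem).2
  obtain ⟨ε, hε⟩ := h.nS 1
  have smul : ∀ (t : K) w, ν (t • w) = t • ν w := fun t w => by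
    rcases eq_or_ne t 0 with rfl | h0
    · simp
    · obtain ⟨y, c⟩ := exists_cl' w
      exact (hν _ _ (c.rho h0)).unique (h.conj_ht h.nmem t y ▸ (hν _ _ c).rho h0)
  have inj : Function.Injective ν := (injective_iff_map_eq_zero _).2 fun w e => by
    obtain ⟨y, c⟩ := exists_cl' w
    exact c.unique (cl_zero.2 ((h.conj_mem_Z h.n_mem).1 (cl_zero.1 (e ▸ hν _ _ c))))
  have e : ∀ c, B.n * B.S2 c * B.n⁻¹ = B.A 0 2 (ε * c) := fun c => by
    rcases eq_or_ne c 0 with rfl | h0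
    · simp [S2_zero, A_zero]
    · rw [mul_comm ε, ← B.ht_A2 h0, ← hε, h.conj_ht h.nmem, h.ht_S2 h0, mul_one]
  have c2 := h.c2 _ h.nmem
  refine ⟨ε, fun h0 => ?_, LinearEquiv.ofBijective ⟨⟨ν, map_add ν⟩, smul⟩
    (Finite.injective_iff_bijective.1 inj), ac_of h.n_mem (fun p p' => ?_) (fun a => ?_)
    (fun b => ?_) (fun y w c => ?_) (fun a => ?_) fun a => ?_⟩
  · rw [h0, A_zero, conj_eq_one_iff] at hε
    exact one_ne_zero (congrArg (·.2.2.2.1) ((rp4 (h := h) 1).unique (hε ▸ rp_zero.2 (one_mem _))))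
  · simp [th, mul_add]
  · simpa [th, (c2 a).1.eq] using rp1 a
  · simpa [th, S2] using rp4 (h := h) b
  · simpa [th] using (hν y w c).rp
  · simpa [th, e] using rp2 _
  · simpa [th, (c2 a).2.2.eq] using rp5 a

variable (h) in
theorem ac_A : ∃ σ : K ≃+* K, (∀ u, Ac h.T (B.A 1 2 u) (a12 σ u)) ∧
    ∀ u, Ac h.T (B.A 2 1 u) (a21 σ u) := by
  choose β hβ using h.r12
  choose γ hγ using h.r21
  have e1 : ∀ u c, B.A 1 2 u * B.S2 c * (B.A 1 2 u)⁻¹ = B.S2 c * B.S1 (β u c) := fun u c => by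
    rw [← (h.cS _ _).1.eq, ← hβ, commutatorElement_def, inv_mul_cancel_right]
  have e2 : ∀ u c, B.A 2 1 u * B.S1 c * (B.A 2 1 u)⁻¹ = B.S2 (γ u c) * B.S1 c := fun u c => by
    rw [← hγ, commutatorElement_def, inv_mul_cancel_right]
  have e3 : ∀ u c, B.A 1 2 u * B.S1 c * (B.A 1 2 u)⁻¹ = B.S1 c := fun u c => by
    rw [← (h.cS _ _).2.2.1.eq, mul_inv_cancel_right]
  have e4 : ∀ u c, B.A 2 1 u * B.S2 c * (B.A 2 1 u)⁻¹ = B.S2 c := fun u c => by
    rw [← (h.cS _ _).2.2.2.2.eq, mul_inv_cancel_right]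
  have uq : ∀ {c d c' d'}, B.S2 c * B.S1 d = B.S2 c' * B.S1 d' → c = c' ∧ d = d' := fun {c d _ _} e => by
    have := (rp4 (h := h) c).mul (rp5 d)
    rw [e] at this
    simpa using this.unique ((rp4 _).mul (rp5 _))
  have uq1 : ∀ {d d'}, B.S1 d = B.S1 d' → d = d' := fun e => (uq (congrArg (B.S2 0 * ·) e)).2
  have b0 : ∀ u, β u 0 = 0 := fun u => uq1 (by simpa [S2_zero, S1_zero] using (e1 u 0).symm)
  have e5 : ∀ u, u ≠ 0 → ∀ c, c + γ (-u⁻¹) (β u c) = 0 ∧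
      B.ψ (hd' u) * B.S1 c * (B.ψ (hd' u))⁻¹ = B.S1 (β u c) := fun u hu c => by
    obtain ⟨d', e⟩ := h.dg1 _ (isDiag_hd' hu) c
    have k : B.ψ (hd' u) * B.S1 c * (B.ψ (hd' u))⁻¹ = B.A 1 2 u * (B.A 2 1 (-u⁻¹) *
        (B.A 1 2 u * B.S2 c * (B.A 1 2 u)⁻¹) * (B.A 2 1 (-u⁻¹))⁻¹) * (B.A 1 2 u)⁻¹ := by
      have : B.ψ (hd' u) * B.w = B.A 1 2 u * B.A 2 1 (-u⁻¹) * B.A 1 2 u := by
        rw [w, ← map_mul, ← we12_eq hu, we, map_mul, map_mul]; rfl
      rw [S1, show ∀ a b c : G, a * (b * c * b⁻¹) * a⁻¹ = a * b * c * (a * b)⁻¹ from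
        fun a b c => by group, this]
      group
    rw [e1, ← conj_mul (b := B.A 2 1 _), e4, e2, ← mul_assoc (B.S2 c), ← S2_add, ← conj_mul, e1, e3,
      mul_assoc (B.S2 _), ← S1_add] at k
    obtain ⟨k1, -⟩ := uq ((by rw [S2_zero, one_mul, e] : B.S2 0 * B.S1 d' = _).trans k)
    rw [← k1, b0, zero_add, S2_zero, one_mul] at k
    exact ⟨k1.symm, k⟩
  have b1 : ∀ u, β 0 u = 0 := fun u => uq1 (by simpa [A_zero, S1_zero] using (e1 0 u).symm)
  have lin : ∀ u c, β u c = β u 1 * c := fun u c => by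
    rcases eq_or_ne u 0 with rfl | hu
    · simp [b1]
    rcases eq_or_ne c 0 with rfl | hc
    · simp [b0]
    have k1 : ∀ d, B.w * B.ht c * B.w⁻¹ * B.S1 d * (B.w * B.ht c * B.w⁻¹)⁻¹ = B.S1 (c * d) :=
      fun d => by rw [S1, S1, ← h.ht_S2 hc]; group
    have k2 : B.ψ (hd' u) * (B.w * B.ht c * B.w⁻¹) = B.w * B.ht c * B.w⁻¹ * B.ψ (hd' u) := by
      simp only [w, ht, ← map_inv, ← map_mul, ← we12_neg]
      rw [← hd'_we_hd hu hc, we12_eq hu]
      simp only [mul_assoc]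
    refine uq1 ?_
    rw [← (e5 u hu c).2, mul_comm _ c, ← k1, ← (e5 u hu 1).2, ← mul_one c, ← k1, mul_one]
    generalize B.w * B.ht c * B.w⁻¹ = a at k2
    rw [show ∀ a b c : G, a * (b * c * b⁻¹) * a⁻¹ = a * b * c * (a * b)⁻¹ from
      fun a b c => by group, k2]
    group
  let σ₀ : K →+* K :=
    { toFun := fun u => β u 1
      map_one' := uq1 (by
        rw [← (e5 1 one_ne_zero 1).2, hd', we12_neg, mul_inv_cancel, map_one]; group)
      map_mul' := fun u u' => by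
        rcases eq_or_ne u 0 with rfl | hu
        · simp [b1]
        rcases eq_or_ne u' 0 with rfl | hu'
        · simp [b1]
        refine uq1 ?_
        rw [← lin, ← (e5 _ hu _).2, ← (e5 _ hu' _).2, ← (e5 _ (mul_ne_zero hu hu') _).2,
          hd'_mul hu hu', map_mul]
        group
      map_zero' := b1 1
      map_add' := fun u u' => (uq (c := 1) (c' := 1) (by
        rw [← e1, S1_add, ← mul_assoc, ← e1, ← e3 u (β u' 1), conj_mul, ← e1, A_add]; group)).2 }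
  let σ := RingEquiv.ofBijective σ₀ (Finite.injective_iff_bijective.1 σ₀.injective)
  have hσ : ∀ u c, β u c = σ u * c := lin
  have hσ' : ∀ u c, γ u c = σ u * c := fun u c => by
    rcases eq_or_ne u 0 with rfl | hu
    · simpa using (uq (c' := 0) (d := c) (d' := c) (by
        simpa [A_zero, S2_zero] using (e2 0 c).symm)).1
    have := (e5 (-u⁻¹) (by simpa) (-(σ u * c))).1
    have h1 : σ u ≠ 0 := by simpa
    rw [hσ, map_neg, map_inv₀, neg_mul_neg, inv_mul_cancel_left₀ h1, neg_add_eq_zero] at this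
    simpa using this.symm
  refine ⟨σ, fun u => ac_of (B.A12_mem u) (fun p p' => ?_) (fun a => ?_) (fun b => ?_)
    (fun y w c => ?_) (fun a => ?_) fun a => ?_, fun u => ac_of (B.A21_mem u) (fun p p' => ?_)
    (fun a => ?_) (fun b => ?_) (fun y w c => ?_) (fun a => ?_) fun a => ?_⟩
  · simp only [a12, Prod.fst_add, Prod.snd_add, Prod.mk_add_mk, Prod.mk.injEq]
    exact ⟨trivial, by ring, trivial, trivial, by ring⟩
  · have : B.A 1 2 u * B.A 0 1 a * (B.A 1 2 u)⁻¹ = B.A 0 1 a * B.A 0 2 (-(u * a)) := by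
      simp only [mul_inv_eq_iff_eq_mul, A, ← map_mul, xe12_01]
    simpa [a12, this] using (rp1 a).mul (rp2 (-(u * a)))
  · have : B.A 1 2 u * B.A 0 2 b * (B.A 1 2 u)⁻¹ = B.A 0 2 b := by
      simp only [mul_inv_eq_iff_eq_mul, A, ← map_mul, xe12_02]
    simpa [a12, this] using rp2 b
  · simpa [a12, ← (h.c0 y c.mem u).2.2.1.eq] using c.rp
  · simpa [a12, e1, hσ] using (rp4 a).mul (rp5 (σ u * a))
  · simpa [a12, e3] using rp5 a
  · simp only [a21, Prod.fst_add, Prod.snd_add, Prod.mk_add_mk, Prod.mk.injEq]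
    exact ⟨by ring, trivial, trivial, by ring, trivial⟩
  · have : B.A 2 1 u * B.A 0 1 a * (B.A 2 1 u)⁻¹ = B.A 0 1 a := by
      simp only [mul_inv_eq_iff_eq_mul, A, ← map_mul, xe21_01]
    simpa [a21, this] using rp1 a
  · have : B.A 2 1 u * B.A 0 2 b * (B.A 2 1 u)⁻¹ = B.A 0 1 (-(u * b)) * B.A 0 2 b := by
      simp only [mul_inv_eq_iff_eq_mul, A, ← map_mul, xe21_02]
    simpa [a21, this] using (rp1 (-(u * b))).mul (rp2 b)
  · simpa [a21, ← (h.c0 y c.mem u).2.2.2.1.eq] using c.rp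
  · simpa [a21, e4] using rp4 a
  · simpa [a21, e2, hσ'] using (rp4 (σ u * a)).mul (rp5 a)

end Ax

theorem Ax.exists_pre {G : Type u} {K : Type*} [Group G] [Finite G] [Field K] [Finite K]
    {B : B3D G K} (h : B.Ax) :
    ∃ (L : Type u) (_ : AddCommGroup L) (_ : Module K L) (_ : Finite L), Nonempty (Pre B L) := by
  obtain ⟨σ, h1, h2⟩ := h.ac_A
  obtain ⟨ε, h3, ν, h4⟩ := h.ac_n
  refine ⟨h.L, _, _, inferInstance, ⟨⟨σ, ε, ν, h.T, h3, Ax.T_fn, Ax.T_ker, h1, h2, h4,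
    fun x hx => ?_, fun v => ?_, ?_, fun hab x hx s f => ?_, fun hL x hx y hy => ?_⟩⟩⟩
  · obtain ⟨y, hy, c, e⟩ := h.tw x hx 1
    obtain ⟨v, hv⟩ := h.exists_cl hy
    exact ⟨v, c, Ax.ac_X hx (Ax.tw_of hv e)⟩
  · obtain ⟨x, hx, s, a⟩ := Ax.exists_tw v
    exact ⟨x, hx, s, Ax.ac_X hx a⟩
  · rintro g _ c ⟨π, hπ, rfl⟩ e
    exact (hπ.2 _ _ (Ax.rp2 1)).unique (e ▸ Ax.rp4 c)
  · rintro ⟨π, hπ, e⟩
    obtain ⟨y, hy, k⟩ := hπ.2 _ _ (Ax.rp2 1)
    have : B.Z = ⊥ := (closure_eq_bot_iff).2 (by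
      rintro _ ⟨t, d, rfl⟩
      exact (hab t d).commutator_eq)
    simp only [e, xm, smul_zero, add_zero, Ax.cl_zero, this, mem_bot] at hy
    exact h.twi x hx _ (by simpa [e, xm, hy, A_zero, S1_zero] using k)
  · obtain ⟨v, hv⟩ := h.exists_cl hx
    exact (h.cZG (Ax.cl_zero.1 (Subsingleton.elim v 0 ▸ hv)) (B.X2_le hy)).symm

end Cfsg.Lib.TB.B3D
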