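import Cfsg.Agent.Lib.TB.B3b
import Cfsg.Agent.Lib.Orth.Class
import Cfsg.Agent.Lib.Unitary.Field

/-!
S1143 (docs/TB.md): anisotropic pseudo-quadratic spaces over finite fields.  `K₀ = {s | (0, s) ∈ S}` is
an additive subgroup stable under the `c σ c`; the fibres of `S → L` are cosets, `|S| = |K₀| |L|`.
* orthogonal: `m.Ab` (`K₀ = 0`), `σ = 1`, `ε = 1` (`Md.Ab.triv`), `S` is the graph of an anisotropic quadratic
  form with polar form `g`, `L ≠ 0` (`ne`), `dim L ≤ 2` (`Lib/Orth`, Chevalley–Warning; in dimension two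
  the form is nondegenerate: in characteristic two a diagonal form is isotropic).
* symplectic: `σ = 1`, `K₀ ≠ 0`; `ε² = 1`, `ε ≠ 1` (`two`), so `ε = -1`, `q` is odd; `K₀ = K` (every element is
  a sum of two squares), `L = 0` (`aniso`).
* unitary: `σ ≠ 1` is the involution, `|K| = q₀²`, `F₀` the fixed field, the norm is onto `F₀`;
  `K₀ ≠ 0` is an `F₀`-subspace of the `F₀`-line `{s | σ s + ε s = 0}`, so `|K₀| = q₀` and
  `S = {(v, s) | σ s + ε s = ε g v v}`; `g v v = 0 → v = 0`, so `dim L ≤ 1` (for `v, w ≠ 0` orthogonal,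
  `g v v` and `g w w` lie on the `F₀`-line `{γ | σ γ = ε γ}`, `g (c w) (c w) = -g v v` is solvable).
  Similarity: `ε' λ = ε σ λ` by Hilbert 90 (`λ = t + (ε / ε') σ t`), then adjust by a norm.
-/

set_option autoImplicit false

namespace Cfsg.Lib.TB.Md

variable {K L L' : Type*} [Field K] [Finite K] [AddCommGroup L] [Module K L] [Finite L]
  [AddCommGroup L'] [Module K L'] [Finite L']

open Module Cfsg.Lib.Orth Cfsg.Lib.Unitary QuadraticMap

omit [Finite K] [Finite L] in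
theorem g_zero (m : Md K L) : m.g 0 = 0 := by simpa using m.add 0 0

omit [Finite K] [Finite L] in
theorem ε_ne (m : Md K L) : m.ε ≠ 0 := left_ne_zero_of_mul_eq_one m.hε

theorem orth {m : Md K L} (h : m.Ab) : ∃ Q : QuadraticForm K L, Q.Anisotropic ∧
    (∀ v s, (v, s) ∈ m.S ↔ s = Q v) ∧ (∀ v w, m.g v w = polar Q v w) ∧
    (finrank K L = 1 ∨ finrank K L = 2) ∧ m.S.ncard = Nat.card K ^ finrank K L := by
  choose f hf using m.onto
  have uq : ∀ {v s}, (v, s) ∈ m.S → s = f v := fun {v s} a => by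
    have := m.mul a (m.neg (hf v))
    rw [add_neg_cancel, map_neg] at this
    linear_combination h _ this
  have h1 : ∀ v w, f (v + w) = f v + f w + m.g v w := fun v w => (uq (m.mul (hf v) (hf w))).symm
  let Q : QuadraticForm K L :=
    { toFun := f
      toFun_smul := fun c v => by rw [← uq (m.scal c (hf v)), h.triv.1, smul_eq_mul]
      exists_companion' := ⟨LinearMap.mk₂ K (fun v w => m.g v w) (fun _ _ _ => by simp [m.add])
        (fun _ _ _ => by simp [m.smul, h.triv.1]) (fun _ _ _ => by simp) fun _ _ _ => by simp, h1⟩ }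
  have hQ : Q.Anisotropic := fun v e => m.aniso ((show f v = 0 from e) ▸ hf v)
  refine ⟨Q, hQ, fun v s => ⟨uq, fun e => e ▸ hf v⟩, fun v w => ?_, ?_, ?_⟩
  · change _ = f (v + w) - f v - f w
    rw [h1]; ring
  · obtain ⟨⟨v, s⟩, a, b⟩ := m.ne
    have : Nontrivial L := nontrivial_of_ne v 0 (by
      rintro rfl
      exact b (by rw [h s a]))
    have := finrank_le_two_of_anisotropic hQ
    have := finrank_pos (R := K) (M := L)
    omega
  · rw [← Module.natCard_eq_pow_finrank]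
    exact (Nat.card_congr (Equiv.ofBijective (fun v => (⟨(v, f v), hf v⟩ : m.S))
      ⟨fun _ _ e => congrArg (·.1.1) e, fun z => ⟨z.1.1, Subtype.ext (Prod.ext rfl (uq z.2).symm)⟩⟩)).symm

theorem symp {m : Md K L} (h : ¬ m.Ab) (hσ : ∀ c, m.σ c = c) : m.ε = -1 ∧ (2 : K) ≠ 0 ∧
    Subsingleton L ∧ (∀ v s, (v, s) ∈ m.S) ∧ m.S.ncard = Nat.card K := by
  have h1 : m.ε ≠ 1 := fun e => h (m.two hσ e)
  have h2 : m.ε = -1 := (mul_self_eq_one_iff.1 (by simpa only [hσ] using m.hε)).resolve_left h1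
  have h3 : (2 : K) ≠ 0 := fun e => h1 (by linear_combination h2 - e)
  obtain ⟨s, hs, h0⟩ : ∃ s, (0, s) ∈ m.S ∧ s ≠ 0 := by simpa [Ab] using h
  have h4 : ∀ c, (0, c) ∈ m.S := fun c => by
    have := m.mul (m.scal ((c / s + 1) / 2) hs) (m.neg (m.scal ((c / s - 1) / 2) hs))
    simp only [smul_zero, neg_zero, add_zero, map_zero, hσ] at this
    convert this using 2
    field_simp
    ring
  have h5 : Subsingleton L := subsingleton_of_forall_eq 0 fun v => by
    obtain ⟨t, ht⟩ := m.onto v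
    exact m.aniso (by simpa using m.mul ht (h4 (-t)))
  have h6 : ∀ v s, (v, s) ∈ m.S := fun v s => Subsingleton.elim 0 v ▸ h4 s
  refine ⟨h2, h3, h5, h6, ?_⟩
  rw [Set.eq_univ_of_forall fun z : L × K => h6 z.1 z.2, Set.ncard_univ, Nat.card_prod,
    Nat.card_unique, one_mul]

theorem unit {m : Md K L} (hσ : ¬ ∀ c, m.σ c = c) : ∃ q, IsBar q (m.σ : K →+* K) ∧ ¬ m.Ab ∧
    (∀ v s, (v, s) ∈ m.S ↔ m.σ s + m.ε * s = m.ε * m.g v v) ∧ (∀ v, m.g v v = 0 → v = 0) ∧
    finrank K L ≤ 1 ∧ m.S.ncard = Nat.card K ^ finrank K L * q := by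
  obtain ⟨q, hq⟩ := exists_isBar_of_invol (σ := (m.σ : K →+* K))
    (fun e => hσ fun c => congrArg (· c) e) m.inv
  have h : ¬ m.Ab := fun a => hσ a.triv.1
  obtain ⟨s₀, hs, h0⟩ : ∃ s, (0, s) ∈ m.S ∧ s ≠ 0 := by simpa [Ab] using h
  have hε := m.ε_ne
  have h1 : m.σ s₀ = -(m.ε * s₀) := by simpa [eq_neg_iff_add_eq_zero] using m.tr hs
  have h2 : ∀ {d}, m.σ d + m.ε * d = 0 → m.σ (d / s₀) = d / s₀ := fun e => by
    rw [map_div₀, h1, eq_neg_of_add_eq_zero_left e]
    field_simp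
  have h3 : ∀ {v s x}, (v, s) ∈ m.S → m.σ x = x → (v, s + x * s₀) ∈ m.S := fun a e => by
    obtain ⟨c, rfl⟩ := hq.exists_norm_eq e
    simpa using m.mul a (m.scal c hs)
  choose f hf using m.onto
  have h4 : ∀ {v s}, m.σ s + m.ε * s = m.ε * m.g v v → m.σ ((s - f v) / s₀) = (s - f v) / s₀ :=
    fun {v s} e => h2 (by rw [map_sub]; linear_combination e - m.tr (hf v))
  have h5 : ∀ v s, (v, s) ∈ m.S ↔ m.σ s + m.ε * s = m.ε * m.g v v := fun v s =>
    ⟨m.tr, fun e => by simpa [h0] using h3 (hf v) (h4 e)⟩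
  have h6 : ∀ v, m.g v v = 0 → v = 0 := fun v e => m.aniso ((h5 _ _).2 (by simp [e]))
  refine ⟨q, hq, h, h5, h6, ?_, ?_⟩
  · rcases subsingleton_or_nontrivial L with h7 | h7
    · simp [finrank_zero_of_subsingleton]
    obtain ⟨v, hv⟩ := exists_ne (0 : L)
    have hγ : m.g v v ≠ 0 := mt (h6 v) hv
    refine finrank_le_one v fun w => ⟨m.g v w / m.g v v, by_contra fun hne => ?_⟩
    set u := w - (m.g v w / m.g v v) • v
    have k1 : m.g v u = 0 := by simp [u, hγ]
    have k2 : m.g u v = 0 := by simpa [k1, hε] using m.herm v u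
    have k3 : m.g u u ≠ 0 := mt (h6 u) (sub_ne_zero.2 (Ne.symm hne))
    obtain ⟨c, hc⟩ := hq.exists_norm_eq (μ := -m.g v v / m.g u u) (by
      simp only [RingHom.coe_coe, map_div₀, map_neg, m.herm]; field_simp)
    have k4 := h6 (v + c • u) (by
      simp only [m.add, m.smul, map_add, map_smul, LinearMap.add_apply, LinearMap.smul_apply, k1, k2,
        smul_eq_mul]
      rw [eq_div_iff k3, RingHom.coe_coe] at hc
      linear_combination hc)
    exact hγ (by simpa [k1] using congrArg (m.g v) k4)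
  · rw [← Module.natCard_eq_pow_finrank, ← hq.card_fixed, ← Nat.card_prod]
    refine (Nat.card_congr (Equiv.ofBijective
      (fun z => (⟨(z.1, f z.1 + z.2.1 * s₀), h3 (hf _) z.2.2⟩ : m.S)) ⟨?_, fun z => ?_⟩)).symm
    · rintro ⟨v, x⟩ ⟨v', x'⟩ e
      obtain rfl : v = v' := congrArg (·.1.1) e
      have : f v + x.1 * s₀ = f v + x'.1 * s₀ := congrArg (·.1.2) e
      exact Prod.ext rfl (Subtype.ext (mul_right_cancel₀ h0 (add_left_cancel this)))
    · exact ⟨(z.1.1, ⟨_, h4 (m.tr z.2)⟩), Subtype.ext (Prod.ext rfl (by simp [h0]))⟩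

theorem alw (m : Md K L) : Alw (Nat.card K) m.S.ncard m.Ab := by
  by_cases hσ : ∀ c, m.σ c = c
  · by_cases h : m.Ab
    · obtain ⟨Q, -, -, -, h1 | h1, h2⟩ := orth h
      · exact .inl ⟨by rw [h2, h1, pow_one], h⟩
      · exact .inr (.inl ⟨by rw [h2, h1], h⟩)
    · obtain ⟨-, h1, -, -, h2⟩ := symp h hσ
      refine .inr (.inr (.inl ⟨h2, h, ?_⟩))
      have := Fintype.ofFinite K
      rw [Nat.card_eq_fintype_card, Nat.odd_iff]
      exact FiniteField.odd_card_of_char_ne_two fun e =>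
        h1 (by exact_mod_cast e ▸ ringChar.Nat.cast_ringChar (R := K))
  · obtain ⟨q, h1, h2, -, -, h3, h4⟩ := unit hσ
    refine .inr (.inr (.inr ⟨q, h1.card, h2, ?_⟩))
    rw [h4, h1.card]
    interval_cases finrank K L
    · exact .inl (by simp)
    · exact .inr (by ring)

omit [Finite K] in
theorem exists_equiv (h : finrank K L = 1) (h' : finrank K L' = 1) {v : L} {v' : L'} (hv : v ≠ 0)
    (hv' : v' ≠ 0) : ∃ i : L ≃ₗ[K] L', i v = v' ∧ ∀ w, ∃ c : K, c • v = w := by
  refine ⟨(FiniteDimensional.basisSingleton Unit h v hv).equiv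
    (FiniteDimensional.basisSingleton Unit h' v' hv') (Equiv.refl _), ?_,
    (finrank_eq_one_iff_of_nonzero' v hv).1 h⟩
  simpa using (FiniteDimensional.basisSingleton Unit h v hv).equiv_apply ()
    (FiniteDimensional.basisSingleton Unit h' v' hv') (Equiv.refl _)

theorem nd_two {Q : QuadraticForm K L} (hQ : Q.Anisotropic) (h : finrank K L = 2) : ND Q := by
  by_cases h2 : (2 : K) = 0
  · refine (nd_iff Q).2 fun x hx => by_contra fun h0 => ?_
    have : finrank K L ≤ 1 := finrank_le_one x fun y => by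
      have := Fintype.ofFinite K
      obtain ⟨a, ha⟩ := FiniteField.isSquare_of_char_two
        (CharP.ringChar_of_prime_eq_zero Nat.prime_two (by exact_mod_cast h2)) (Q y / Q x)
      have h3 : Q x ≠ 0 := mt (hQ x) h0
      refine ⟨-a, neg_smul a x ▸ neg_eq_of_add_eq_zero_right (hQ _ ?_)⟩
      rw [Q_add, QuadraticMap.map_smul, polar_smul_left, hx, ← ha]
      simp only [smul_eq_mul, mul_zero, add_zero, div_mul_cancel₀ _ h3]
      linear_combination Q y * h2
    omega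
  · exact nd_of_anisotropic_of_two_ne_zero h2 hQ

theorem exists_sim {Q : QuadraticForm K L} {Q' : QuadraticForm K L'} (hQ : Q.Anisotropic)
    (hQ' : Q'.Anisotropic) (h : finrank K L = 1 ∨ finrank K L = 2) (h' : finrank K L = finrank K L') :
    ∃ (i : L ≃ₗ[K] L') (c : K), c ≠ 0 ∧ ∀ v, Q' (i v) = c * Q v := by
  rcases h with h | h
  · have := Module.nontrivial_of_finrank_eq_succ h
    have := Module.nontrivial_of_finrank_eq_succ (h'.symm.trans h)
    obtain ⟨v, hv⟩ := exists_ne (0 : L)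
    obtain ⟨v', hv'⟩ := exists_ne (0 : L')
    obtain ⟨i, h1, h2⟩ := exists_equiv h (h'.symm.trans h) hv hv'
    have h3 := mt (hQ v) hv
    refine ⟨i, Q' v' / Q v, div_ne_zero (mt (hQ' v') hv') h3, fun w => ?_⟩
    obtain ⟨c, rfl⟩ := h2 w
    simp only [map_smul, QuadraticMap.map_smul, h1, smul_eq_mul]
    field_simp
  · obtain ⟨ζ, hζ⟩ := exists_aniso_one K
    obtain ⟨e⟩ := (equivalent_qBin (nd_two hQ h) h hQ hζ).trans
      (equivalent_qBin (nd_two hQ' (h'.symm.trans h)) (h'.symm.trans h) hQ' hζ).symm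
    exact ⟨e.toLinearEquiv, 1, one_ne_zero, fun v => by simpa using e.map_app v⟩

theorem iso (m : Md K L) (m' : Md K L') (h : m.S.ncard = m'.S.ncard) (hab : m.Ab ↔ m'.Ab) :
    Nonempty (m.Iso m') := by
  have hK : 2 ≤ Nat.card K := Finite.one_lt_card
  by_cases a : m.Ab
  · have a' := hab.1 a
    obtain ⟨Q, h1, h2, h3, h4, h5⟩ := orth a
    obtain ⟨Q', h1', h2', h3', -, h5'⟩ := orth a'
    obtain ⟨i, c, hc, k⟩ := exists_sim h1 h1' h4 (Nat.pow_right_injective hK (h5.symm.trans (h.trans h5')))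
    refine ⟨⟨i, c, hc, RingEquiv.ext fun c => (a'.triv.1 c).trans (a.triv.1 c).symm,
      by rw [a.triv.1, a.triv.2, a'.triv.2], fun v w => ?_, fun v s => ?_⟩⟩
    · simp only [h3, h3', polar, ← map_add, k]; ring
    · rw [h2, h2', k, mul_right_inj' hc]
  have a' := mt hab.2 a
  have key : ∀ {q d}, Nat.card K = q ^ 2 → d ≤ 1 → Nat.card K ^ d * q ≠ Nat.card K := by
    intro q d e hd
    have : 2 ≤ q := by
      by_contra h0
      interval_cases q <;> omega
    rw [e, ← pow_mul, ← pow_succ]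
    exact fun e => absurd (Nat.pow_right_injective this e) (by omega)
  by_cases hσ : ∀ c, m.σ c = c <;> by_cases hσ' : ∀ c, m'.σ c = c
  · obtain ⟨h1, -, h2, h3, -⟩ := symp a hσ
    obtain ⟨h1', -, h2', h3', -⟩ := symp a' hσ'
    exact ⟨⟨LinearEquiv.ofSubsingleton _ _, 1, one_ne_zero,
      RingEquiv.ext fun c => (hσ' c).trans (hσ c).symm, by rw [h1, h1', map_one],
      fun v w => by rw [Subsingleton.elim w 0]; simp, fun v s => iff_of_true (h3' _ _) (h3 _ _)⟩⟩
  · obtain ⟨q, h1, -, -, -, h2, h3⟩ := unit hσ'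
    exact absurd (h3 ▸ h ▸ (symp a hσ).2.2.2.2) (key h1.card h2)
  · obtain ⟨q, h1, -, -, -, h2, h3⟩ := unit hσ
    exact absurd (h3 ▸ h.symm ▸ (symp a' hσ').2.2.2.2) (key h1.card h2)
  obtain ⟨q, h1, -, h2, h3, h4, h5⟩ := unit hσ
  obtain ⟨q', h1', -, h2', h3', -, h5'⟩ := unit hσ'
  obtain rfl : q = q' := Nat.pow_left_injective two_ne_zero (h1.card.symm.trans h1'.card)
  have e1 : m'.σ = m.σ := RingEquiv.ext fun c => (h1'.eq c).trans (h1.eq c).symm
  have e2 : finrank K L = finrank K L' := Nat.pow_right_injective hK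
    (Nat.eq_of_mul_eq_mul_right (by have := h1.two_le; omega) (h5 ▸ h5' ▸ h))
  have hε := m.ε_ne
  have hε' := m'.ε_ne
  obtain ⟨c, hc, e3⟩ := h1.exists_div_eq (x := m'.ε * m.σ m.ε) (by
    have := m'.hε
    simp only [RingHom.coe_coe, map_mul, m.inv, e1] at this ⊢
    linear_combination m.ε * m.σ m.ε * this + m.hε)
  have e4 : m'.ε * c = m.ε * m.σ c := by
    rw [RingHom.coe_coe] at e3
    linear_combination -m.ε * e3 - m'.ε * c * m.hε
  have hc' : m.σ c ≠ 0 := m.σ.map_ne_zero_iff.2 hc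
  obtain ⟨i, hi⟩ : ∃ i : L ≃ₗ[K] L', ∀ v w, m'.g (i v) (i w) = c * m.g v w := by
    rcases Nat.le_one_iff_eq_zero_or_eq_one.1 h4 with h6 | h6
    · have := finrank_zero_iff.1 h6
      have := finrank_zero_iff.1 (e2.symm.trans h6)
      exact ⟨LinearEquiv.ofSubsingleton _ _, fun v w => by rw [Subsingleton.elim w 0]; simp⟩
    have := Module.nontrivial_of_finrank_eq_succ h6
    have := Module.nontrivial_of_finrank_eq_succ (e2.symm.trans h6)
    obtain ⟨v, hv⟩ := exists_ne (0 : L)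
    obtain ⟨v', hv'⟩ := exists_ne (0 : L')
    have k1 := mt (h3 v) hv
    have k2 := mt (h3' v') hv'
    obtain ⟨u, hu⟩ := h1.exists_norm_eq (μ := c * m.g v v / m'.g v' v') (by
      have := m'.herm v' v'
      rw [e1] at this
      rw [RingHom.coe_coe, map_div₀, map_mul, m.herm, this, ← mul_assoc, mul_comm _ m.ε, ← e4,
        mul_assoc, mul_div_mul_left _ _ hε'])
    rw [eq_div_iff k2, RingHom.coe_coe] at hu
    obtain ⟨i, k3, k4⟩ := exists_equiv h6 (e2.symm.trans h6) hv (smul_ne_zero (by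
      rintro rfl
      exact mul_ne_zero hc k1 (by simpa using hu.symm)) hv' : u • v' ≠ 0)
    refine ⟨i, fun x y => ?_⟩
    obtain ⟨x, rfl⟩ := k4 x
    obtain ⟨y, rfl⟩ := k4 y
    simp only [map_smul, k3, m.smul, m'.smul, e1, LinearMap.smul_apply, smul_eq_mul]
    linear_combination y * m.σ x * hu
  refine ⟨⟨i, c, hc, e1, e4, hi, fun v s => ?_⟩⟩
  rw [h2, h2', hi, e1, map_mul, ← mul_assoc, ← mul_assoc, e4, ← mul_right_inj' (b := _ + m.ε * s) hc']
  constructor <;> intro e <;> linear_combination e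

theorem subsingleton (m : Md K L) (h : ¬ m.Ab) (hq : m.S.ncard = Nat.card K) : Subsingleton L := by
  by_cases hσ : ∀ c, m.σ c = c
  · exact (symp h hσ).2.2.1
  obtain ⟨q, h1, -, -, -, h2, h3⟩ := unit hσ
  rw [h3, h1.card, ← pow_mul, ← pow_succ] at hq
  exact absurd (Nat.pow_right_injective h1.two_le hq) (by omega)

end Cfsg.Lib.TB.Md
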