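import Cfsg.Agent.Lib.TB.B3I
import Cfsg.Agent.Lib.TB.B3a
import Cfsg.Agent.Lib.TB.B3e

/-!
S1143 (docs/TB.md): double bonds, the results.
-/

set_option autoImplicit false

universe u

namespace Cfsg.Lib.TB

open Cfsg.Lib.BN Cfsg.Lib.Chev RootSys Matrix
open scoped commutatorElement MatrixGroups

variable {ι Φ : Type} [Fintype ι] [DecidableEq ι] {R : RootSys ι Φ} [Fintype Φ]
variable {G : Type u} {G' : Type*} [Group G] [Group G'] [Finite G] [Finite G'] {F : Fr G R}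
  {F' : Fr G' R} {u a b : ι} (hR : Good R) (hM : F.Mo) (h : T3 R u a b)
include hR hM h

theorem T3.exists_md {K : Type*} [Field K] [Finite K] {ψ : SL(3, K) →* G} (hψ : F.A2 u a ψ) :
    ∃ (n : G) (L : Type u) (_ : AddCommGroup L) (_ : Module K L) (_ : Finite L) (m : Md K L),
      Nonempty (Rep m (F.b3 u a b ψ n)) ∧ (m.Ab ↔ F.Ab a b) ∧ m.S.ncard = F.q b ∧
      (Subsingleton L → F.Ab b a) := by
  obtain ⟨n, hn, hn'⟩ := Fr.exists_ov_GJ hR hM (F := F) (J := {b}) (w := R.sW b)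
    (mem_WJ_one.2 (.inr rfl))
  have hB := Fr.b3_ax hR hM h hψ hn hn'
  obtain ⟨L, _, _, _, ⟨P⟩⟩ := hB.exists_pre
  obtain ⟨m, ⟨ρ⟩, hab⟩ := P.exists_rep hB
  refine ⟨n, L, _, _, inferInstance, m, ⟨ρ⟩, hab.trans (Fr.b3_ab hR hM h hψ hn hn'), ?_,
    fun hL => Fr.b3_ba hR hM h hψ hn hn' (P.sub hL)⟩
  rw [← ρ.card hB]
  exact (hM (R.simple b)).card hR (w := 1) (by simp)

theorem T3.alw : Alw (F.q a) (F.q b) (F.Ab a b) := by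
  obtain ⟨K, _, _, ψ, hψ⟩ := Fr.exists_a2 hR hM h.ua
  obtain ⟨n, L, _, _, _, m, -, h1, h2, -⟩ := h.exists_md hR hM hψ
  have := m.alw
  rwa [h2, hψ.card hR hM h.ua, Fr.q_eq h.ua, propext h1] at this

theorem T3.ab_of_not (h1 : ¬ F.Ab a b) (h2 : F.q b = F.q a) : F.Ab b a := by
  obtain ⟨K, _, _, ψ, hψ⟩ := Fr.exists_a2 hR hM h.ua
  obtain ⟨n, L, _, _, _, m, -, h3, h4, h5⟩ := h.exists_md hR hM hψ
  refine h5 (m.subsingleton (fun e => h1 (h3.1 e)) ?_)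
  rw [h4, hψ.card hR hM h.ua, Fr.q_eq h.ua, h2]

omit hR hM h [Finite G] [Finite G'] [Fintype Φ] in
theorem gr_inf {D : Subgroup (G × G')} {A : Subgroup G} {A' : Subgroup G'}
    (h1 : ∀ x ∈ A, ∃ x' ∈ A', (x, x') ∈ D) (h2 : ∀ x' ∈ A', ∃ x ∈ A, (x, x') ∈ D) :
    Gr (D ⊓ A.prod A') A A' where
  le _ hz := hz.2
  left x hx := let ⟨x', h, h'⟩ := h1 x hx; ⟨x', h', hx, h⟩
  right x' hx := let ⟨x, h, h'⟩ := h2 x' hx; ⟨x, h', h, hx⟩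

omit hR hM h [Finite G] [Finite G'] [Fintype Φ] in
theorem gr_par {K : Type*} [Field K] {D : Subgroup (G × G')} {A : Subgroup G} {A' : Subgroup G'}
    {p : K → G} {p' : K → G'} (hp : Par A p) (hp' : Par A' p') (h : ∀ t, (p t, p' t) ∈ D) :
    Gr (D ⊓ A.prod A') A A' := by
  refine gr_inf (fun x hx => ?_) fun x hx => ?_
  · obtain ⟨t, rfl⟩ := (hp.mem x).1 hx
    exact ⟨_, (hp'.mem _).2 ⟨t, rfl⟩, h t⟩
  · obtain ⟨t, rfl⟩ := (hp'.mem x).1 hx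
    exact ⟨_, (hp.mem _).2 ⟨t, rfl⟩, h t⟩

theorem base_db (hM' : F'.Mo) (hq : F.q a = F'.q a) (hq' : F.q b = F'.q b)
    (hab : F.Ab a b ↔ F'.Ab a b) : ∃ Z Z', Gr2 F F' a Z ∧ Gr2 F F' b Z' ∧ Loc2 F F' Z Z' := by
  obtain ⟨K, _, _, ψ, hψ⟩ := Fr.exists_a2 hR hM h.ua
  obtain ⟨ψ', hψ'⟩ := Fr.exists_a2' hR hM' h.ua K (by
    rw [hψ.card hR hM h.ua, Fr.q_eq h.ua, Fr.q_eq h.ua, hq])
  obtain ⟨n, L, _, _, _, m, ⟨ρ⟩, h1, h2, -⟩ := h.exists_md hR hM hψ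
  obtain ⟨n', L', _, _, _, m', ⟨ρ'⟩, h1', h2', -⟩ := h.exists_md hR hM' hψ'
  obtain ⟨e⟩ := m.iso m' (by rw [h2, h2', hq']) (h1.trans (hab.trans h1'.symm))
  obtain ⟨D, hD, d1, d2, d3, d4, d5, d6⟩ := ρ.exists_loc ρ' e
  have s := (hψ.std hR hM h.ua).2
  have s' := (hψ'.std hR hM' h.ua).2
  refine ⟨(D ⊓ Subgroup.prod _ _, D ⊓ Subgroup.prod _ _),
    (D ⊓ Subgroup.prod _ _, D ⊓ Subgroup.prod _ _), ⟨gr_par s.hp s'.hp d1, gr_par s.hm s'.hm d2⟩,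
    ⟨gr_inf d3 d4, gr_inf d5 d6⟩, Loc.mono hD ?_⟩
  exact sup_le (sup_le inf_le_left inf_le_left) (sup_le inf_le_left inf_le_left)

end Cfsg.Lib.TB
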