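import Cfsg.Agent.Lib.TB.B3D

/-!
S1143 (docs/TB.md): the forms on the module of a double bond.  Compute with `Ac.mul`, `Ac.inv`,
`Ac.unique` and evaluate on `e_a = (1,0,0,0,0)`, `e_b`, `(0,0,w,0,0)`, `e_c`, `e_d`.

Let `𝒳 = {(v, s, f) | ∃ x ∈ X2, Ac T x (xm v s f)}`; `xm v s f ∘ xm v' s' f' = xm (v+v') (s+s'+f v') (f+f')`,
the inverse is `xm (-v) (f v - s) (-f)`.
* `w = A 1 2 1 * A 2 1 (-1) * A 1 2 1`: `e_a ↦ -e_b`, `e_b ↦ e_a`, `e_c ↦ e_d`, `e_d ↦ -e_c`;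
  `S12 u`: `e_a ↦ e_a - u e_c`, `e_b ↦ e_b + ε⁻¹ σ u e_d`.  `r5` gives, for `(v, s, f) ∈ 𝒳`:
  `(u v, u σ(u) s, σ(u) f) ∈ 𝒳` (`u₁ = -u s`) and `σ s + ε s = ε f v`.
* Polarize: `σ (f v') = ε f' v`; so `f` is determined by `v` (`onto`), `f = g v`; `herm`.
* `mu`, `eb`: for `x ≠ 1` over `(v, s)`, `y = n x₁ n⁻¹` (`nXY`) acts as
  `ym (ν v₁) (ε s₁) (ε • g v₁ ∘ ν⁻¹)`, and `v + s ν v₁ = 0`, `1 + ε g v₁ (ν⁻¹ v) + s ε s₁ = 0`.  So `s ≠ 0`
  (`aniso`; `(0,0,0)` comes from `x = 1` only: `ker`, `XH`).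
* The relation for the inverse `(-v, ε⁻¹ σ s)` gives `σ σ s = ε σ(ε) s`; with scaling `σ²` fixes all
  `u σ u`, so all `u + σ u`, so `σ² u ∈ {u, σ u}`: `inv`, `hε`.
* With `v' = ν⁻¹ v`, `v₁ = -v' / s`, `γ = g v' v'`: `s₁ = γ / (s σ s) - 1 / (ε s)`, and
  `σ s₁ + ε s₁ = ε γ / (s σ s)`, `σ γ = ε γ` give `ε γ = σ s + ε s`, `s₁ = 1 / σ s`.  Scaling by `-σ s`:
  `(ν⁻¹ v, s) ∈ S`.  `S` is finite, so `(ν v, s) ∈ S ↔ (v, s) ∈ S`.  Then
  `(0, g (ν⁻¹ v) (ν⁻¹ w) - g v w) ∈ S`; if this is not `0` then all `(0, c) ∈ S` (scale `w`), so `L = 0` by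
  `aniso`.  So `ν` is an isometry: `hY`, `hY'`.
* `two`: if `σ = 1`, `ε = 1` then `[A 1 2 u, S12 u']` acts trivially; `ker`, `Ax.ab`, `Pre.ab`.
* `m.Ab → B.Ab`: either `σ = 1, ε = 1` (see `Md.Ab.triv` in `B3e`: `S` is the graph of a function `𝔮`, so
  `g` is symmetric; if `σ c ≠ c` then `g = 0`, `𝔮` is additive, `(c + 1) σ (c + 1) = c σ c + 1` for all `c`,
  so `σ c = -c`, char two, contradiction; `tr` for the inverse and `scal (-1)` give `ε = 1`), then `Ax.ab`.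
-/

set_option autoImplicit false

namespace Cfsg.Lib.TB

variable {G G' K L L' : Type*} [Group G] [Group G'] [Field K] [AddCommGroup L] [Module K L]
  [AddCommGroup L'] [Module K L']

/-- If the flag holds then the form is quadratic.  (`two` is not used.) -/
theorem Md.Ab.triv {m : Md K L} (h : m.Ab) : (∀ c, m.σ c = c) ∧ m.ε = 1 := by
  have uq : ∀ {v s s'}, (v, s) ∈ m.S → (v, s') ∈ m.S → s = s' := fun {v s s'} a b => by
    have := m.mul a (m.neg b)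
    rw [add_neg_cancel, map_neg] at this
    linear_combination h _ this
  have sy : ∀ v w, m.g v w = m.g w v := fun v w => by
    obtain ⟨s, a⟩ := m.onto v
    obtain ⟨t, b⟩ := m.onto w
    linear_combination uq (m.mul a b) (add_comm w v ▸ m.mul b a)
  obtain ⟨⟨v, s⟩, hz, h0⟩ := m.ne
  have hs : s ≠ 0 := by
    rintro rfl
    exact h0 (by rw [m.aniso hz])
  have h1 : ∀ c, m.σ c = c := by
    by_contra! ⟨c, hc⟩
    have g0 : ∀ v w, m.g v w = 0 := fun v w => by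
      have := sy (c • v) w
      rw [m.smul, map_smul, LinearMap.smul_apply, sy w v, smul_eq_mul, smul_eq_mul] at this
      exact (mul_eq_zero.1 (by linear_combination this : (m.σ c - c) * m.g v w = 0)).resolve_left
        (sub_ne_zero.2 hc)
    have k : ∀ c, c + m.σ c = 0 := fun c => by
      have := uq (m.scal (c + 1) hz) (by simpa [add_smul] using m.mul (m.scal c hz) hz)
      rw [g0, map_add, map_one] at this
      exact (mul_eq_zero.1 (by linear_combination this : (c + m.σ c) * s = 0)).resolve_right hs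
    have k1 := k 1
    rw [map_one] at k1
    exact hc (by linear_combination k c - c * k1)
  refine ⟨h1, mul_right_cancel₀ hs ?_⟩
  have a := uq (m.neg hz) (by simpa using m.scal (-1) hz)
  have b := m.tr hz
  rw [h1] at b
  linear_combination -b - m.ε * a

theorem xm_comp (v v' : L) (s s' : K) (f f' : L →ₗ[K] K) :
    xm v s f ∘ xm v' s' f' = xm (v + v') (s + s' + f v') (f + f') := by
  funext z
  simp only [Function.comp, xm, map_add, map_smul, smul_add, smul_eq_mul, LinearMap.add_apply,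
    Prod.mk.injEq]
  exact ⟨trivial, trivial, by abel, by ring, trivial⟩

theorem xm_inj {v v' : L} {s s' : K} {f f' : L →ₗ[K] K} (e : xm v s f = xm v' s' f') :
    v = v' ∧ s = s' ∧ f = f' := by
  have h1 := congrFun e (0, 1, 0, 0, 0)
  simp only [xm, one_smul, zero_add, one_mul, map_zero, add_zero, Prod.mk.injEq] at h1
  exact ⟨h1.2.2.1, h1.2.2.2.1, LinearMap.ext fun w => by
    simpa [xm] using congrFun e (0, 0, w, 0, 0)⟩

theorem xm_zero : xm (0 : L) (0 : K) 0 = id := funext fun z => by simp [xm]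

namespace Pre

variable {B : B3D G K} (P : Pre B L)

/-- The triples that occur. -/
def Xs (v : L) (s : K) (f : L →ₗ[K] K) : Prop := ∃ x ∈ B.X2, Ac P.T x (xm v s f)

variable {P} {v v' : L} {s s' : K} {f f' : L →ₗ[K] K} {g : G}

theorem Xs.mul (a : P.Xs v s f) (b : P.Xs v' s' f') : P.Xs (v + v') (s + s' + f v') (f + f') :=
  let ⟨x, hx, a⟩ := a
  let ⟨y, hy, b⟩ := b
  ⟨x * y, mul_mem hx hy, xm_comp v v' s s' f f' ▸ a.mul b⟩

theorem Xs.inv (a : P.Xs v s f) : P.Xs (-v) (f v - s) (-f) :=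
  let ⟨x, hx, a⟩ := a
  ⟨x⁻¹, inv_mem hx, a.inv (congrFun ((xm_comp ..).trans (by simp [xm_zero]) : _ = id))⟩

theorem ac_nc {F : V K L → V K L} (a : Ac P.T g F) : Ac P.T (B.n * g * B.n⁻¹)
    (th P.ε P.ν ∘ F ∘ fun z => (z.1, z.2.2.2.1, P.ν.symm z.2.2.1, P.ε⁻¹ * z.2.1, z.2.2.2.2)) :=
  (P.hn.mul a).mul (P.hn.inv fun z => by simp [th, P.hε])

theorem ac_Y (a : Ac P.T g (xm v s f)) : Ac P.T (B.n * g * B.n⁻¹)
    (ym (P.ν v) (P.ε * s) (P.ε • f ∘ₗ P.ν.symm.toLinearMap)) := by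
  convert ac_nc a using 1
  funext z
  simp only [Function.comp, xm, ym, th, map_add, map_smul, Prod.mk.injEq,
    LinearEquiv.apply_symm_apply, LinearMap.smul_apply, LinearMap.comp_apply, smul_eq_mul]
  refine ⟨trivial, ?_, trivial⟩
  have := P.hε
  field_simp
  rfl

theorem ac_S (u : K) : Ac P.T (B.S12 u) fun z => (z.1, z.2.1, z.2.2.1, z.2.2.2.1 - u * z.1,
    z.2.2.2.2 + P.σ u * (P.ε⁻¹ * z.2.1)) := by
  rw [B3D.S12]
  convert ac_nc (P.hp u) using 1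
  funext z
  simp [a12, th, P.hε]

theorem ac_w : Ac P.T B.w fun z => (z.2.1, -z.1, z.2.2.1, -z.2.2.2.2, z.2.2.2.1) := by
  have : B.w = B.A 1 2 1 * B.A 2 1 (-1) * B.A 1 2 1 := by
    rw [B3D.w, we, map_mul, map_mul, inv_one]; rfl
  rw [this]
  convert ((P.hp 1).mul (P.hq (-1))).mul (P.hp 1) using 1
  funext z
  simp [a12, a21]

theorem Xs.r5 (h : B.Ax) (a : P.Xs v s f) (u : K) :
    P.Xs (u • v) (u * P.σ u * s) (P.σ u • f) ∧ (u = 1 → P.σ s + P.ε * s = P.ε * f v) := by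
  obtain ⟨x, hx, a⟩ := a
  obtain ⟨x₁, h1, u₁, e⟩ := h.r5 u x hx
  obtain ⟨v₁, s₁, f₁, b⟩ := P.hX x₁ h1
  have k := Ac.unique P.fn (((P.hp u).mul a).mul ((P.hp u).inv (f' := a12 P.σ (-u)) fun z => by
    simp [a12])) (e ▸ (((ac_w.mul b).mul (ac_w.inv
      (f' := fun z : V K L => (-z.2.1, z.1, z.2.2.1, z.2.2.2.2, -z.2.2.2.1)) fun z => by simp)).mul
      (ac_S u₁)).mul a)
  have k1 := congrFun k (1, 0, 0, 0, 0)
  have k2 := congrFun k (0, 1, 0, 0, 0)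
  have k3 : ∀ w, P.σ u * f w = f₁ w := fun w => by simpa [a12, xm] using congrFun k (0, 0, w, 0, 0)
  simp [a12, xm] at k1 k2
  obtain ⟨rfl, k4, rfl⟩ := k1
  obtain rfl : P.σ u • f = f₁ := LinearMap.ext k3
  refine ⟨⟨x₁, h1, by rwa [mul_comm u, mul_assoc]⟩, ?_⟩
  rintro rfl
  obtain rfl : u₁ = -s := by linear_combination k4
  have := P.hε
  simp at k2
  field_simp at k2
  linear_combination k2

theorem Xs.tr (h : B.Ax) (a : P.Xs v s f) : P.σ s + P.ε * s = P.ε * f v := (a.r5 h 1).2 rfl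

theorem Xs.pol (h : B.Ax) (a : P.Xs v s f) (b : P.Xs v' s' f') : P.σ (f v') = P.ε * f' v := by
  have := (a.mul b).tr h
  simp only [map_add, LinearMap.add_apply] at this
  linear_combination this - a.tr h - b.tr h

theorem Xs.f_eq (h : B.Ax) (a : P.Xs v s f) (b : P.Xs v s' f') : f = f' := LinearMap.ext fun w => by
  obtain ⟨x, hx, t, g, c⟩ := P.onto w
  exact P.σ.injective ((a.pol h ⟨x, hx, c⟩).trans (b.pol h ⟨x, hx, c⟩).symm)

theorem eq_one (h : B.Ax) (hg : g ∈ B.X2) (a : Ac P.T g id) : g = 1 := by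
  obtain ⟨π, h1, h2⟩ := a
  exact h.XH g hg (P.ker g (by rwa [show π = 1 from Equiv.ext (congrFun h2)] at h1))

theorem mu (h : B.Ax) (hg : g ∈ B.X2) (h1 : g ≠ 1) (a : Ac P.T g (xm v s f)) : s ≠ 0 ∧
    ∃ s₁ f₁, P.Xs (-s⁻¹ • P.ν.symm v) s₁ f₁ ∧ 1 + P.ε * f₁ (P.ν.symm v) + s * (P.ε * s₁) = 0 := by
  obtain ⟨y, hy, y', hy', c, e⟩ := h.mu g hg h1
  have k : ∀ y ∈ B.Y2, ∃ v s f, P.Xs v s f ∧
      Ac P.T y (ym (P.ν v) (P.ε * s) (P.ε • f ∘ₗ P.ν.symm.toLinearMap)) := fun y hy => by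
    have hx : B.n⁻¹ * y * B.n ∈ B.X2 := (h.nXY _).1 (by simpa [mul_assoc] using hy)
    obtain ⟨v, s, f, a⟩ := P.hX _ hx
    exact ⟨v, s, f, ⟨_, hx, a⟩, by simpa [mul_assoc] using ac_Y a⟩
  obtain ⟨v₁, s₁, f₁, b, b'⟩ := k y hy
  obtain ⟨_, _, _, -, d⟩ := k y' hy'
  have k1 := P.eb _ _ c ((b'.mul a).mul d) e
  simp [xm, ym] at k1
  have hs : s ≠ 0 := by
    rintro rfl
    simp at k1
    simp [k1.2.1] at k1
  refine ⟨hs, s₁, f₁, ?_, by linear_combination k1.1⟩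
  convert b
  rw [eq_neg_of_add_eq_zero_left k1.2.1]
  simp [smul_smul, hs]

end Pre

theorem Pre.exists_rep [Finite K] [Finite L] {B : B3D G K} (h : B.Ax) (P : Pre B L) :
    ∃ m : Md K L, Nonempty (Rep m B) ∧ (m.Ab ↔ B.Ab) := by
  choose x hx s g hg using P.onto
  have hv : ∀ v, P.Xs v (s v) (g v) := fun v => ⟨_, hx v, hg v⟩
  have e : ∀ {v s f}, P.Xs v s f → f = g v := fun a => a.f_eq h (hv _)
  have e' : ∀ {v s f}, P.Xs v s f → P.Xs v s (g v) := fun a => e a ▸ a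
  have add : ∀ v v', g (v + v') = g v + g v' := fun v v' => (e ((hv v).mul (hv v'))).symm
  have smul : ∀ c v, g (c • v) = P.σ c • g v := fun c v => (e ((hv v).r5 h c).1).symm
  have herm : ∀ v w, P.σ (g v w) = P.ε * g w v := fun v w => (hv v).pol h (hv w)
  have g0 : g 0 = 0 := by simpa using add 0 0
  have zero : P.Xs 0 0 (g 0) := ⟨1, one_mem _, by rw [g0, xm_zero]; exact Ac.one _⟩
  have ne1 : ∀ {y v s f}, y ∈ B.X2 → Ac P.T y (xm v s f) → y = 1 → v = 0 ∧ s = 0 := by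
    rintro _ v s f - a rfl
    exact (xm_inj (Ac.unique P.fn a (by rw [xm_zero]; exact Ac.one _))).imp_right And.left
  have aniso : ∀ {v f}, P.Xs v 0 f → v = 0 := fun ⟨y, hy, a⟩ => by
    by_contra h0
    exact (P.mu h hy (fun e => h0 (ne1 hy a e).1) a).1 rfl
  obtain ⟨v₀, s₀, a₀, h₀⟩ : ∃ v s, P.Xs v s (g v) ∧ s ≠ 0 := by
    obtain ⟨y, hy, h1⟩ := h.ne
    obtain ⟨v, s, f, a⟩ := P.hX y hy
    exact ⟨v, s, e' ⟨y, hy, a⟩, (P.mu h hy h1 a).1⟩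
  have hε := P.hε
  have sq : ∀ {v s f}, P.Xs v s f → P.σ (P.σ s) = P.ε * P.σ P.ε * s := fun {v s f} a => by
    have k1 := a.tr h
    have k2 := a.pol h a
    have k3 := congrArg P.σ k1
    rw [map_add, map_mul, map_mul, k2] at k3
    have k4 := a.inv.tr h
    have k5 := congrArg P.σ k4
    simp only [map_add, map_mul, map_sub, k2, LinearMap.neg_apply, map_neg, neg_neg] at k4 k5
    linear_combination k3 - P.σ P.ε * k1
  have nm : ∀ u, P.σ (P.σ (u * P.σ u)) = u * P.σ u := fun u => by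
    have := sq (a₀.r5 h u).1
    rw [map_mul, map_mul, sq a₀] at this
    refine mul_right_cancel₀ (mul_ne_zero (mul_ne_zero hε (P.σ.map_ne_zero_iff.2 hε)) h₀) ?_
    linear_combination this
  have inv : ∀ u, P.σ (P.σ u) = u := fun u => by
    have k1 := nm u
    have k2 := nm (u + 1)
    simp only [map_mul, map_add, map_one] at k1 k2
    have k3 : (P.σ (P.σ u) - u) * (P.σ (P.σ u) - P.σ u) = 0 := by
      linear_combination P.σ (P.σ u) * (k2 - k1) - k1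
    rcases mul_eq_zero.1 k3 with k | k
    · exact sub_eq_zero.1 k
    · rw [P.σ.injective (sub_eq_zero.1 k), P.σ.injective (sub_eq_zero.1 k)]
  have hε' : P.ε * P.σ P.ε = 1 := mul_right_cancel₀ h₀ (by rw [← sq a₀, inv, one_mul])
  have nu : ∀ {v s}, P.Xs v s (g v) → P.Xs (P.ν.symm v) s (g (P.ν.symm v)) := by
    rintro v s ⟨y, hy, a⟩
    rcases eq_or_ne y 1 with h1 | h1
    · obtain ⟨rfl, rfl⟩ := ne1 hy a h1
      simpa using zero
    obtain ⟨hs, s₁, f₁, b, k⟩ := P.mu h hy h1 a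
    have hs' : P.σ s ≠ 0 := P.σ.map_ne_zero_iff.2 hs
    have k1 := b.tr h
    have k2 := herm (P.ν.symm v) (P.ν.symm v)
    have k3 := congrArg P.σ k
    obtain rfl := e b
    simp only [smul, map_smul, map_neg, map_inv₀, LinearMap.smul_apply, smul_eq_mul, map_add, map_one,
      map_mul, inv, k2, map_zero] at k k1 k3
    have k4 : s₁ = (P.σ s)⁻¹ := by
      refine mul_left_cancel₀ hε ?_
      linear_combination k1 - P.ε * (P.σ s)⁻¹ * k3 + (P.σ s₁ * P.σ s * (P.σ s)⁻¹ -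
        P.ε * s⁻¹ * (P.σ s)⁻¹ * g (P.ν.symm v) (P.ν.symm v)) * hε' + P.σ s₁ * mul_inv_cancel₀ hs'
    have := e' (b.r5 h (-s)).1
    rwa [smul_smul, neg_mul_neg, mul_inv_cancel₀ hs, one_smul, k4, map_neg, neg_mul_neg,
      mul_inv_cancel_right₀ hs'] at this
  have nu' : ∀ {v s}, P.Xs v s (g v) → P.Xs (P.ν v) s (g (P.ν v)) := fun {v s} a => by
    let j : {z : L × K // P.Xs z.1 z.2 (g z.1)} → {z : L × K // P.Xs z.1 z.2 (g z.1)} :=
      fun z => ⟨(P.ν.symm z.1.1, z.1.2), nu z.2⟩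
    have : Function.Injective j := fun z z' e => Subtype.ext (Prod.ext
      (P.ν.symm.injective (congrArg (·.1.1) e)) (congrArg (·.1.2) e))
    obtain ⟨⟨⟨v', s'⟩, b⟩, k⟩ := Finite.surjective_of_injective this ⟨(v, s), a⟩
    obtain ⟨rfl, rfl⟩ : P.ν.symm v' = v ∧ s' = s := ⟨congrArg (·.1.1) k, congrArg (·.1.2) k⟩
    simpa using b
  have iso : ∀ v w, g (P.ν.symm v) (P.ν.symm w) = g v w := fun v w => by
    by_contra hne
    have k : ∀ c, P.Xs 0 c (g 0) := fun c => by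
      set d := g (P.ν.symm v) (P.ν.symm w) - g v w
      have hd : d ≠ 0 := sub_ne_zero.2 hne
      have a := nu' (e' ((nu (hv v)).mul (nu (hv ((c / d) • w)))))
      rw [← map_add, LinearEquiv.apply_symm_apply] at a
      have := e' (a.mul ((hv v).mul (hv ((c / d) • w))).inv)
      rw [add_neg_cancel, add, map_neg] at this
      convert this using 1
      simp only [map_smul, smul_eq_mul]
      linear_combination (-c) * (mul_inv_cancel₀ hd) - (c / d) * (rfl : d = _ - _)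
    have := aniso (v := v) (by simpa using (hv v).mul (k (-s v)))
    exact hne (by simp [this, g0])
  have eY : ∀ v, P.ε • g v ∘ₗ P.ν.symm.toLinearMap = P.ε • g (P.ν v) := fun v =>
    LinearMap.ext fun w => by simp [← iso (P.ν v) w]
  have ab : (∀ c, P.σ c = c) → P.ε = 1 → B.Ab := fun h1 h2 => h.ab fun u u' => by
    obtain ⟨π, k1, k2⟩ := (((P.hp u).mul (Pre.ac_S u')).mul ((P.hp u).inv (f' := a12 P.σ (-u))
      fun z => by simp [a12])).mul ((Pre.ac_S u').inv (f' := fun z : V K L => (z.1, z.2.1, z.2.2.1,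
        z.2.2.2.1 + u' * z.1, z.2.2.2.2 - u' * z.2.1)) fun z => by simp [h1, h2])
    refine P.ker _ (by
      rwa [show π = 1 from Equiv.ext fun z => by
        rw [k2]; simp [a12, h1, h2, Prod.ext_iff]; ring] at k1)
  have ab' : B.Ab → ∀ s, P.Xs 0 s (g 0) → s = 0 := fun hab s ⟨y, hy, a⟩ =>
    (ne1 hy a (P.ab hab y hy _ _ a)).2
  let m : Md K L :=
    { σ := P.σ, ε := P.ε, g := g, S := {z | P.Xs z.1 z.2 (g z.1)}, add := add, smul := smul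
      herm := herm, inv := inv, hε := hε', zero := zero, mul := fun a b => e' (a.mul b)
      neg := fun a => e' a.inv, scal := fun c _ _ a => e' (a.r5 h c).1
      onto := fun v => ⟨_, hv v⟩, aniso := aniso, tr := fun a => a.tr h
      ne := ⟨(v₀, s₀), a₀, fun e => h₀ (congrArg Prod.snd e)⟩
      two := fun h1 h2 => ab' (ab h1 h2) }
  refine ⟨m, ⟨⟨P.T, P.fn, P.ker, P.hp, P.hq, fun y hy => ?_, fun v s a => a, fun y hy => ?_,
    fun v s a => ?_⟩⟩, fun a => ab a.triv.1 a.triv.2, ab'⟩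
  · obtain ⟨v, s, f, a⟩ := P.hX y hy
    obtain rfl := e ⟨y, hy, a⟩
    exact ⟨v, s, ⟨y, hy, a⟩, a⟩
  · have hx : B.n⁻¹ * y * B.n ∈ B.X2 := (h.nXY _).1 (by simpa [mul_assoc] using hy)
    obtain ⟨v, s, f, a⟩ := P.hX _ hx
    obtain rfl := e ⟨_, hx, a⟩
    exact ⟨P.ν v, s, nu' ⟨_, hx, a⟩, by simpa [mul_assoc, eY] using Pre.ac_Y a⟩
  · obtain ⟨y, hy, b⟩ := nu a
    exact ⟨_, (h.nXY y).2 hy, by simpa [eY] using Pre.ac_Y b⟩

/-- `x ↦ (v, s)` is a bijection (`fn`, `ker`, `XH`). -/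
theorem Rep.card {B : B3D G K} (h : B.Ax) {m : Md K L} (ρ : Rep m B) :
    Nat.card B.X2 = m.S.ncard := by
  choose v s h1 h2 using ρ.hX
  refine Nat.card_congr (Equiv.ofBijective (fun x : B.X2 => (⟨(v x x.2, s x x.2), h1 x x.2⟩ : m.S))
    ⟨fun x y e => Subtype.ext ?_, fun z => ?_⟩)
  · obtain ⟨π, a, a'⟩ := h2 x x.2
    obtain ⟨π', b, b'⟩ := h2 y y.2
    obtain ⟨e1, e2⟩ : v x x.2 = v y y.2 ∧ s x x.2 = s y y.2 :=
      ⟨congrArg (·.1.1) e, congrArg (·.1.2) e⟩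
    obtain rfl : π = π' := DFunLike.coe_injective (by rw [a', b', e1, e2])
    exact inv_mul_eq_one.1 (h.XH _ (mul_mem (inv_mem x.2) y.2) (ρ.ker _ (by
      simpa using ρ.T.mul_mem (ρ.T.inv_mem a) b)))
  · obtain ⟨x, hx, a⟩ := ρ.hX' _ _ z.2
    obtain ⟨e1, e2, -⟩ := xm_inj (Ac.unique ρ.fn (h2 x hx) a)
    exact ⟨⟨x, hx⟩, Subtype.ext (Prod.ext e1 e2)⟩

/-- With `Θ (a, b, w, c, d) = (a, b, i w, λ c, λ d)` (`λ = e.c`):
`D = {(g, g') | ∃ π, (g, π) ∈ T ∧ (g', Θ π Θ⁻¹) ∈ T'}`. -/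
theorem Rep.exists_loc {B : B3D G K} {B' : B3D G' K} {m : Md K L} {m' : Md K L'} (ρ : Rep m B)
    (ρ' : Rep m' B') (e : m.Iso m') : ∃ D : Subgroup (G × G'), Loc B.H B'.H D ∧
      (∀ u, (B.A 1 2 u, B'.A 1 2 u) ∈ D) ∧ (∀ u, (B.A 2 1 u, B'.A 2 1 u) ∈ D) ∧
      (∀ x ∈ B.X2, ∃ x' ∈ B'.X2, (x, x') ∈ D) ∧ (∀ x' ∈ B'.X2, ∃ x ∈ B.X2, (x, x') ∈ D) ∧
      (∀ x ∈ B.Y2, ∃ x' ∈ B'.Y2, (x, x') ∈ D) ∧ ∀ x' ∈ B'.Y2, ∃ x ∈ B.Y2, (x, x') ∈ D := by
  have hc := e.hc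
  have hc' : m.σ e.c ≠ 0 := m.σ.map_ne_zero_iff.2 hc
  let Θ : V K L ≃ V K L' := (Equiv.refl K).prodCongr ((Equiv.refl K).prodCongr
    (e.i.toEquiv.prodCongr ((Equiv.mulLeft₀ e.c hc).prodCongr (Equiv.mulLeft₀ e.c hc))))
  have hΘ : ∀ z, Θ z = (z.1, z.2.1, e.i z.2.2.1, e.c * z.2.2.2.1, e.c * z.2.2.2.2) := fun _ => rfl
  let D : Subgroup (G × G') :=
    { carrier := {z | ∃ π, (z.1, π) ∈ ρ.T ∧ (z.2, Θ.permCongrHom π) ∈ ρ'.T}
      one_mem' := ⟨1, ρ.T.one_mem, by rw [map_one]; exact ρ'.T.one_mem⟩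
      mul_mem' := fun ⟨π, a, a'⟩ ⟨π', b, b'⟩ =>
        ⟨π * π', ρ.T.mul_mem a b, by rw [map_mul]; exact ρ'.T.mul_mem a' b'⟩
      inv_mem' := fun ⟨π, a, a'⟩ => ⟨π⁻¹, ρ.T.inv_mem a, by rw [map_inv]; exact ρ'.T.inv_mem a'⟩ }
  have key : ∀ {g g' f f'}, Ac ρ.T g f → Ac ρ'.T g' f' → (∀ z, Θ (f z) = f' (Θ z)) → (g, g') ∈ D := by
    rintro g g' _ _ ⟨π, a, rfl⟩ ⟨π', a', rfl⟩ k
    refine ⟨π, a, ?_⟩
    rwa [show Θ.permCongrHom π = π' from Equiv.ext fun z => by simp [k]]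
  have kx : ∀ v s z, Θ (xm v s (m.g v) z) = xm (e.i v) (e.c * s) (m'.g (e.i v)) (Θ z) :=
    fun v s z => by
      simp only [hΘ, xm, map_add, map_smul, e.g, Prod.mk.injEq]
      exact ⟨trivial, trivial, trivial, by ring, trivial⟩
  have ky : ∀ v s z, Θ (ym (e.c • v) (m.ε * (e.c * m.σ e.c * s)) (m.ε • m.g (e.c • v)) z) =
      ym (e.i v) (m'.ε * (e.c * s)) (m'.ε • m'.g (e.i v)) (Θ z) := fun v s z => by
    simp only [hΘ, ym, map_add, map_smul, e.g, Prod.mk.injEq, m.smul, LinearMap.smul_apply,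
      smul_eq_mul, smul_smul, mul_comm e.c z.2.2.2.1]
    exact ⟨trivial, by linear_combination -(z.2.2.2.1 * e.c * s + m.g v z.2.2.1) * e.ε, trivial⟩
  have on : ∀ {v' s'}, (v', s') ∈ m'.S → ∃ v s, (v, s) ∈ m.S ∧ v' = e.i v ∧ s' = e.c * s :=
    fun {v' s'} a => ⟨e.i.symm v', e.c⁻¹ * s', (e.S _ _).1 (by simpa [hc] using a), by simp,
      by simp [hc]⟩
  refine ⟨D, fun z ⟨π, a, a'⟩ => ⟨fun k => ρ.ker _ ?_, fun k => ρ'.ker _ ?_⟩,
    fun u => key (ρ.hp u) (ρ'.hp u) fun z => ?_, fun u => key (ρ.hq u) (ρ'.hq u) fun z => ?_,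
    fun x hx => ?_, fun x hx => ?_, fun x hx => ?_, fun x hx => ?_⟩
  · rw [k] at a'
    rwa [Θ.permCongrHom.map_eq_one_iff.1 (ρ'.fn _ a')] at a
  · rw [k] at a
    rwa [ρ.fn _ a, map_one] at a'
  · simp only [hΘ, a12, e.σ, Prod.mk.injEq]
    exact ⟨trivial, trivial, trivial, trivial, by ring⟩
  · simp only [hΘ, a21, e.σ, Prod.mk.injEq]
    exact ⟨trivial, trivial, trivial, by ring, trivial⟩
  · obtain ⟨v, s, a, b⟩ := ρ.hX x hx
    obtain ⟨x', hx', b'⟩ := ρ'.hX' _ _ ((e.S v s).2 a)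
    exact ⟨x', hx', key b b' (kx v s)⟩
  · obtain ⟨_, _, a, b⟩ := ρ'.hX x hx
    obtain ⟨v, s, a', rfl, rfl⟩ := on a
    obtain ⟨x', hx', b'⟩ := ρ.hX' _ _ a'
    exact ⟨x', hx', key b' b (kx v s)⟩
  · obtain ⟨v, s, a, b⟩ := ρ.hY x hx
    obtain ⟨x', hx', b'⟩ := ρ'.hY' _ _ ((e.S _ _).2 (m.scal e.c⁻¹ a))
    refine ⟨x', hx', key b b' ?_⟩
    have := ky (e.c⁻¹ • v) (e.c⁻¹ * m.σ e.c⁻¹ * s)
    rwa [smul_inv_smul₀ hc, show e.c * m.σ e.c * (e.c⁻¹ * m.σ e.c⁻¹ * s) = s by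
      rw [map_inv₀]; field_simp] at this
  · obtain ⟨_, _, a, b⟩ := ρ'.hY x hx
    obtain ⟨v, s, a', rfl, rfl⟩ := on a
    obtain ⟨x', hx', b'⟩ := ρ.hY' _ _ (m.scal e.c a')
    exact ⟨x', hx', key b' b (ky v s)⟩

end Cfsg.Lib.TB
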