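import Cfsg.Agent.Lib.TB.W

/-!
S1143 (docs/TB.md): the building of a frame.  Translate `Pos` (`CharDeg/FeitHigmanBN`, `BNU/Weyl`:
`pos_cases`, `pos_trans'`, `pos_uniq`, `exists_smul`, `rigid`) along `F.e`.
-/

set_option autoImplicit false
set_option linter.unusedSectionVars false

namespace Cfsg.Lib.TB.Fr

open Cfsg.Lib.BN Cfsg.Lib.Chev RootSys Cfsg.Lib.CharDeg.FH

variable {ι Φ : Type} [Fintype ι] [DecidableEq ι] {R : RootSys ι Φ}
variable {G : Type*} [Group G] {F : Fr G R} {c c' d d' z : F.X} {v w x y : R.W} {g k : G} {i j : ι}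
  {J : Set ι} {r : Φ}

open H17

theorem e_wp (l : List ι) : F.e (wp R.sW l) = wp (sW F.P) (l.map F.σ) := by
  induction l with
  | nil => simp
  | cons i l ih => rw [wp_cons, map_mul, ih, F.he, List.map_cons, wp_cons]

theorem len_e (w : R.W) : len (sW F.P) (F.e w) = len R.sW w := by
  apply le_antisymm
  · obtain ⟨l, h1, rfl⟩ := R.invGen.exists_reduced w
    rw [e_wp, ← h1]
    simpa using len_wp_le (sW F.P) (l.map F.σ)
  · obtain ⟨l, h1, h2⟩ := (invGen F.P).exists_reduced (F.e w)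
    have : w = wp R.sW (l.map F.σ.symm) := F.e.injective (by
      rw [e_wp, List.map_map, ← h2]; simp)
    rw [← h1, this]
    simpa using len_wp_le R.sW (l.map F.σ.symm)

theorem D_smul (g : G) : F.D w (g • c) (g • d) ↔ F.D w c d := Pos.smul g

theorem D.inv (h : F.D w c d) : F.D w⁻¹ d c := by
  unfold D at *
  rw [map_inv]; exact Pos.inv h

theorem D.unique (h : F.D w c d) (h' : F.D v c d) : w = v := by
  exact F.e.injective (Pos.unique h h')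

theorem exists_D (c d : F.X) : ∃ w, F.D w c d := by
  obtain ⟨v, hv⟩ : ∃ v, Pos F.P v c d := exists_cell F.P _
  exact ⟨F.e.symm v, by unfold D; rwa [MulEquiv.apply_symm_apply]⟩

theorem exists_D_right (w : R.W) (c : F.X) : ∃ d, F.D w c d := by
  obtain ⟨g, rfl⟩ := QuotientGroup.mk_surjective c
  obtain ⟨n, hn, e⟩ := exists_toW F.P (F.e w)
  refine ⟨(g * n : G), ?_⟩
  unfold D
  rw [pos_mk, inv_mul_cancel_left, ← e]
  exact cell_self hn

theorem D_one : F.D 1 c d ↔ c = d := by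
  unfold D
  rw [map_one]; exact pos_one

theorem D.split (h : F.D (v * w) c d) : ∃ z, F.D v c z ∧ F.D w z d := by
  unfold D at *
  rw [map_mul] at h
  exact Pos.split h

theorem D.exists_smul (h : F.D w c d) (h' : F.D w c' d') : ∃ g : G, g • c = c' ∧ g • d = d' := by
  exact Cfsg.Lib.BNU.exists_smul h h'

theorem exists_smul_eq (c d : F.X) : ∃ g : G, g • c = d := by
  exact MulAction.exists_smul_eq G c d

theorem ad_iff : F.Ad i c d ↔ Pos F.P (sW F.P (F.σ i)) c d := by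
  unfold Ad D; rw [F.he]

theorem Ad.symm (h : F.Ad i c d) : F.Ad i d c := by
  have := D.inv h
  rwa [sW_inv] at this

theorem Ad.ne (h : F.Ad i c d) : c ≠ d := by
  exact (ad_iff.1 h).ne

theorem Ad.trans (h : F.Ad i c d) (h' : F.Ad i d z) (hne : c ≠ z) : F.Ad i c z := by
  exact ad_iff.2 ((ad_iff.1 h).trans (ad_iff.1 h') hne)

theorem Ad.eq_of (h : F.Ad i c d) (h' : F.Ad j c d) : i = j := by
  have h1 : R.sW i = R.sW j := D.unique h h'
  exact R.sref_injective (congrArg Subtype.val h1)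

theorem Ad_smul (g : G) : F.Ad i (g • c) (g • d) ↔ F.Ad i c d := D_smul g

theorem Ad.mul (h : F.Ad i c d) (h' : F.D w d z) : F.D (R.sW i * w) c z ∨ F.D w c z := by
  unfold D at *
  rw [map_mul, F.he]
  exact Cfsg.Lib.BNU.pos_cases (ad_iff.1 h) h'

theorem D.mul_ad (h : F.D w c d) (h' : F.Ad i d z) : F.D (w * R.sW i) c z ∨ F.D w c z := by
  unfold D at *
  rw [map_mul, F.he]
  exact Cfsg.Lib.BNU.pos_cases' h (ad_iff.1 h')

theorem Ad.mul_of_lt (l : len R.sW w < len R.sW (R.sW i * w)) (h : F.Ad i c d) (h' : F.D w d z) :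
    F.D (R.sW i * w) c z := by
  rw [← len_e (F := F), ← len_e (F := F), map_mul, F.he] at l
  unfold D at *
  rw [map_mul, F.he]
  exact (ad_iff.1 h).trans_le l.le h'

theorem D.mul_of_lt (l : len R.sW w < len R.sW (w * R.sW i)) (h : F.D w c d) (h' : F.Ad i d z) :
    F.D (w * R.sW i) c z := by
  rw [← len_e (F := F), ← len_e (F := F), map_mul, F.he] at l
  unfold D at *
  rw [map_mul, F.he]
  exact Cfsg.Lib.BNU.pos_trans' l.le h (ad_iff.1 h')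

/-- Lengths add. -/
theorem D.mul_of_len (l : len R.sW (v * w) = len R.sW v + len R.sW w) (h : F.D v c d)
    (h' : F.D w d z) : F.D (v * w) c z := by
  obtain ⟨n, hn⟩ : ∃ n, len R.sW v = n := ⟨_, rfl⟩
  induction n generalizing v c with
  | zero =>
    obtain rfl := R.invGen.eq_one_of_len hn
    rw [D_one.1 h, one_mul]; exact h'
  | succ n ih =>
    obtain ⟨i, v', rfl, h2⟩ := R.invGen.exists_left_descent hn
    obtain ⟨c', h3, h4⟩ := h.split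
    have h5 := R.invGen.len_mul_le v' w
    have h6 := R.invGen.len_simple_mul_le i (v' * w)
    rw [mul_assoc] at l ⊢
    exact Ad.mul_of_lt (by omega) h3 (ih (by omega) h4 h2)

/-- The gate property for panels. -/
theorem gate (l : len R.sW w < len R.sW (R.sW i * w)) (h1 : d = d' ∨ F.Ad i d d')
    (k1 : F.D w d z) (k2 : F.D w d' z) : d = d' := by
  rcases h1 with h1 | h1
  · exact h1
  · have := (h1.mul_of_lt l k2).unique k1
    rw [this] at l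
    omega

theorem card_ad [Finite G] (i : ι) (c : F.X) : {d | F.Ad i c d}.ncard = F.q i := by
  obtain ⟨g, rfl⟩ := exists_smul_eq (F.ch 1) c
  have : {d | F.Ad i (g • F.ch 1) d} = (g • ·) '' {d | F.Ad i (F.ch 1) d} := by
    ext d
    constructor
    · intro h
      exact ⟨g⁻¹ • d, by rw [Set.mem_ofPred_eq, ← Ad_smul g, smul_inv_smul]; exact h,
        smul_inv_smul g d⟩
    · rintro ⟨d, h, rfl⟩
      exact (Ad_smul g).2 h
  rw [this, Set.ncard_image_of_injective _ (MulAction.injective g)]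
  rfl

theorem two_le_q [Finite G] (i : ι) : 2 ≤ F.q i := by
  obtain ⟨d, d', h1, h2, h3⟩ := Cfsg.Lib.BNU.exists_two (F.σ i) (F.ch 1)
  exact (Set.one_lt_ncard (Set.toFinite _)).2 ⟨d, ad_iff.2 h1, d', ad_iff.2 h2, h3⟩

theorem q_eq_val [Fintype (G ⧸ F.P.B)] (i : ι) : F.q i = val F.P (F.σ i) := by
  classical
  rw [← card_pos F.P (F.σ i) (F.ch 1), q, ← Set.ncard_coe_finset]
  congr 1
  ext d
  simp [ad_iff]

/-- A third chamber in a panel. -/
theorem Ad.exists_third (h : F.Ad i c d) : ∃ z, F.Ad i c z ∧ F.Ad i d z := by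
  obtain ⟨z, z', h1, h2, h3⟩ := Cfsg.Lib.BNU.exists_two (F.σ i) c
  rw [← ad_iff] at h1 h2
  by_cases e : d = z
  · exact ⟨z', h2, h.symm.trans h2 (e ▸ h3)⟩
  · exact ⟨z, h1, h.symm.trans h1 e⟩

theorem ov_nr (w : R.W) : F.Ov (F.nr w) w := by
  exact (exists_toW F.P (F.e w)).choose_spec

theorem ov_n (i : ι) : F.Ov (F.n i) (R.sW i) := by
  exact ⟨F.P.subset (F.σ i).2, (F.he i).symm⟩

theorem Ov.mul (h : F.Ov g v) (h' : F.Ov k w) : F.Ov (g * k) (v * w) := by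
  obtain ⟨h1, h2⟩ := h
  obtain ⟨h3, h4⟩ := h'
  exact ⟨mul_mem h1 h3, by rw [toW_mul F.P h1 h3, h2, h4, map_mul]⟩

theorem Ov.inv (h : F.Ov g v) : F.Ov g⁻¹ v⁻¹ := by
  obtain ⟨h1, h2⟩ := h
  exact ⟨inv_mem h1, by rw [toW_inv F.P h1, h2, map_inv]⟩

theorem Ov.unique (h : F.Ov g v) (h' : F.Ov g w) : v = w := by
  obtain ⟨h1, h2⟩ := h
  obtain ⟨h3, h4⟩ := h'
  exact F.e.injective (h2.symm.trans h4)

theorem Ov.coe_eq (h : F.Ov g v) : (g : G ⧸ F.P.B) = F.ch v := by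
  obtain ⟨h1, h2⟩ := h
  obtain ⟨h3, h4⟩ := ov_nr (F := F) v
  exact QuotientGroup.eq.2 ((toW_eq_iff F.P h1 h3).1 (h2.trans h4.symm))

theorem Ov.smul_ch (h : F.Ov g v) (x : R.W) : g • F.ch x = F.ch (v * x) := by
  exact (h.mul (ov_nr x)).coe_eq

theorem D_ch (x y : R.W) : F.D (x⁻¹ * y) (F.ch x) (F.ch y) := by
  obtain ⟨h1, h2⟩ := (ov_nr (F := F) x).inv.mul (ov_nr y)
  unfold D ch
  rw [pos_mk, ← h2]
  exact cell_self h1

theorem ad_ch (x : R.W) (i : ι) : F.Ad i (F.ch x) (F.ch (x * R.sW i)) := by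
  have := D_ch (F := F) x (x * R.sW i)
  rwa [inv_mul_cancel_left] at this

theorem ch_injective : Function.Injective F.ch := by
  intro x y h
  have h1 := D_ch (F := F) x y
  rw [h] at h1
  exact inv_mul_eq_one.1 (h1.unique (D_one.2 rfl))

theorem ch_one : F.ch 1 = ((1 : G) : G ⧸ F.P.B) := by
  exact (Ov.coe_eq ⟨F.P.N.one_mem, by rw [toW_one, map_one]⟩).symm

theorem mem_B : g ∈ F.P.B ↔ g • F.ch 1 = F.ch 1 := by
  rw [ch_one, MulAction.Quotient.smul_coe, smul_eq_mul, mul_one, QuotientGroup.eq, mul_one,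
    inv_mem_iff]

theorem mem_Fix {A : Set F.X} : g ∈ F.Fix A ↔ ∀ c ∈ A, g • c = c := by
  simp only [Fix, Subgroup.mem_iInf, MulAction.mem_stabilizer_iff]

theorem mem_Fx {A : Set R.W} : g ∈ F.Fx A ↔ ∀ w ∈ A, g • F.ch w = F.ch w := by
  rw [Fx, mem_Fix]
  exact Set.forall_mem_image

theorem mem_H : g ∈ F.H ↔ ∀ w, g • F.ch w = F.ch w := by
  rw [H, mem_Fx]; simp

theorem mem_Tr : g ∈ F.Tr c i ↔ g • c = c ∧ ∀ d, F.Ad i c d → g • d = d := by
  rw [Tr, mem_Fix]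
  exact ⟨fun h => ⟨h c (.inl rfl), fun d hd => h d (.inr hd)⟩,
    fun h d hd => hd.elim (fun e => e ▸ h.1) (h.2 d)⟩

theorem mem_TrJ : g ∈ F.TrJ J c ↔ ∀ d, F.Rs J c d → g • d = d := by
  rw [TrJ, mem_Fix]; rfl

theorem mem_U : g ∈ F.U r ↔ ∀ w ∈ hf R r, ∀ i, w * R.sW i ∈ hf R r → g ∈ F.Tr (F.ch w) i := by
  simp only [U, Subgroup.mem_iInf]

theorem mem_Ul : g ∈ F.Ul J r ↔ ∀ w ∈ WJ R J, w ∈ hf R r → ∀ i ∈ J, w * R.sW i ∈ hf R r →
    g ∈ F.Tr (F.ch w) i := by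
  simp only [Ul, Subgroup.mem_iInf]

theorem Fx_anti {A B : Set R.W} (h : A ⊆ B) : F.Fx B ≤ F.Fx A := by
  intro g hg
  rw [mem_Fx] at hg ⊢
  exact fun w hw => hg w (h hw)

theorem H_le_Fx (A : Set R.W) : F.H ≤ F.Fx A := Fx_anti (Set.subset_univ A)

/-- `sat`. -/
theorem mem_H_iff_ov : g ∈ F.H ↔ F.Ov g 1 := by
  constructor
  · intro h
    rw [mem_H] at h
    have h1 : g ∈ F.P.N := F.sat g fun n hn => by
      have : F.Ov n (F.e.symm (toW F.P hn)) := ⟨hn, by simp⟩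
      rw [this.coe_eq]; exact h _
    exact ⟨h1, by rw [map_one, toW_eq_one_iff]; exact mem_B.2 (h 1)⟩
  · intro h
    exact mem_H.2 fun w => by rw [h.smul_ch, one_mul]

theorem ov_of_ch (h : ∀ x, g • F.ch x = F.ch (w * x)) : F.Ov g w := by
  have h1 : (F.nr w)⁻¹ * g ∈ F.H := mem_H.2 fun x => by
    rw [mul_smul, h, (ov_nr w).inv.smul_ch, inv_mul_cancel_left]
  have := (ov_nr w).mul (mem_H_iff_ov.1 h1)
  rwa [mul_inv_cancel_left, mul_one] at this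

theorem Ov.conj_H (h : F.Ov g w) (hk : k ∈ F.H) : g * k * g⁻¹ ∈ F.H := by
  have := (h.mul (mem_H_iff_ov.1 hk)).mul h.inv
  rw [mul_one, mul_inv_cancel] at this
  exact mem_H_iff_ov.2 this

theorem Ov.inv_mul_mem (h : F.Ov g w) (h' : F.Ov k w) : g⁻¹ * k ∈ F.H := by
  have := h.inv.mul h'
  rw [inv_mul_cancel] at this
  exact mem_H_iff_ov.2 this

theorem conj_smul_iff (k : G) : (k * g * k⁻¹) • k • c = k • c ↔ g • c = c := by
  rw [mul_smul, inv_smul_smul, mul_smul, smul_left_cancel_iff]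

theorem conj_mem_Fix (k : G) {A B : Set F.X} (h : ∀ c, k • c ∈ B ↔ c ∈ A) :
    k * g * k⁻¹ ∈ F.Fix B ↔ g ∈ F.Fix A := by
  rw [mem_Fix, mem_Fix]
  refine ⟨fun h1 c hc => (conj_smul_iff k).1 (h1 _ ((h c).2 hc)), fun h1 c hc => ?_⟩
  rw [← smul_inv_smul k c] at hc ⊢
  exact (conj_smul_iff k).2 (h1 _ ((h _).1 hc))

theorem conj_mem_Tr (k : G) : k * g * k⁻¹ ∈ F.Tr (k • c) i ↔ g ∈ F.Tr c i := by
  exact conj_mem_Fix k fun d => by
    rw [Set.mem_ofPred_eq, Set.mem_ofPred_eq, Ad_smul, smul_left_cancel_iff]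

theorem conj_mem_TrJ (k : G) : k * g * k⁻¹ ∈ F.TrJ J (k • c) ↔ g ∈ F.TrJ J c := by
  exact conj_mem_Fix k fun d => by
    simp only [Set.mem_ofPred_eq, Rs, D_smul]

theorem conj_mem_El (k : G) : k * g * k⁻¹ ∈ F.El (k • c) i j ↔ g ∈ F.El c i j := by
  unfold El
  rw [Set.mem_ofPred_eq, Set.mem_ofPred_eq, conj_mem_Tr, conj_mem_Tr]
  refine and_congr_right fun _ => ⟨fun h d h1 h2 =>
    h (k • d) ((Ad_smul k).2 h1) ((conj_smul_iff k).2 h2), fun h d h1 h2 => ?_⟩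
  rw [← smul_inv_smul k d] at h1 h2
  exact h _ ((Ad_smul k).1 h1) ((conj_smul_iff k).1 h2)

theorem Ov.conj_mem_Fx {A : Set R.W} (h : F.Ov k w) :
    k * g * k⁻¹ ∈ F.Fx ((w * ·) '' A) ↔ g ∈ F.Fx A := by
  rw [mem_Fx, mem_Fx, Set.forall_mem_image]
  refine forall₂_congr fun x _ => ?_
  rw [← h.smul_ch, conj_smul_iff]

theorem image_hf (w : R.W) (r : Φ) : (w * ·) '' hf R r = hf R (w.1 r) := by
  ext x
  constructor
  · rintro ⟨x, hx, rfl⟩
    exact mul_mem_hf.2 hx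
  · intro hx
    exact ⟨w⁻¹ * x, by rwa [← mul_mem_hf (w := w), mul_inv_cancel_left], mul_inv_cancel_left w x⟩

theorem Ov.conj_mem_hf (h : F.Ov k w) : k * g * k⁻¹ ∈ F.Fx (hf R (w.1 r)) ↔ g ∈ F.Fx (hf R r) := by
  rw [← image_hf, h.conj_mem_Fx]

theorem Ov.conj_mem_U (h : F.Ov k w) : k * g * k⁻¹ ∈ F.U (w.1 r) ↔ g ∈ F.U r := by
  rw [mem_U, mem_U]
  constructor
  · intro h1 x hx i hi
    have := h1 (w * x) (mul_mem_hf.2 hx) i (by rw [mul_assoc]; exact mul_mem_hf.2 hi)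
    rwa [← h.smul_ch, conj_mem_Tr] at this
  · intro h1 x hx i hi
    obtain ⟨x, rfl⟩ : ∃ y, x = w * y := ⟨w⁻¹ * x, (mul_inv_cancel_left w x).symm⟩
    rw [mul_assoc] at hi
    rw [← h.smul_ch, conj_mem_Tr]
    exact h1 x (mul_mem_hf.1 hx) i (mul_mem_hf.1 hi)

theorem Ov.cj_U (h : F.Ov k w) (r : Φ) : cj k (F.U r) = F.U (w.1 r) := by
  ext a
  rw [mem_cj]
  constructor
  · rintro ⟨b, hb, rfl⟩
    exact h.conj_mem_U.2 hb
  · intro ha
    exact ⟨k⁻¹ * a * k, h.conj_mem_U.1 (by convert ha using 1; group), by group⟩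

theorem conj_mem_U_of_H (hk : k ∈ F.H) (hg : g ∈ F.U r) : k * g * k⁻¹ ∈ F.U r := by
  exact (mem_H_iff_ov.1 hk).conj_mem_U.2 hg

theorem Ov.conj_mem_Ul (h : F.Ov k w) (hw : w ∈ WJ R J) :
    k * g * k⁻¹ ∈ F.Ul J (w.1 r) ↔ g ∈ F.Ul J r := by
  rw [mem_Ul, mem_Ul]
  constructor
  · intro h1 x hx' hx i hi' hi
    have := h1 (w * x) (mul_mem hw hx') (mul_mem_hf.2 hx) i hi'
      (by rw [mul_assoc]; exact mul_mem_hf.2 hi)
    rwa [← h.smul_ch, conj_mem_Tr] at this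
  · intro h1 x hx' hx i hi' hi
    obtain ⟨x, rfl⟩ : ∃ y, x = w * y := ⟨w⁻¹ * x, (mul_inv_cancel_left w x).symm⟩
    rw [mul_assoc] at hi
    rw [← h.smul_ch, conj_mem_Tr]
    exact h1 x ((Subgroup.mul_mem_cancel_left _ hw).1 hx') (mul_mem_hf.1 hx) i hi' (mul_mem_hf.1 hi)

theorem U_le_Ul (J : Set ι) (r : Φ) : F.U r ≤ F.Ul J r := by
  intro g hg
  rw [mem_U] at hg
  exact mem_Ul.2 fun w _ h1 i _ h2 => hg w h1 i h2

theorem Ad.Tr_eq (h : F.Ad i c d) : F.Tr c i = F.Tr d i := by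
  have key : ∀ {c d}, F.Ad i c d → F.Tr c i ≤ F.Tr d i := fun {c d} h g hg => by
    rw [mem_Tr] at hg ⊢
    refine ⟨hg.2 d h, fun z hz => ?_⟩
    by_cases e : c = z
    · exact e ▸ hg.1
    · exact hg.2 z (h.trans hz e)
  exact le_antisymm (key h) (key h.symm)

/-- An element stabilizing a panel normalizes its kernel. -/
theorem conj_mem_Tr_of (hk : k • c = c ∨ F.Ad i c (k • c)) (hg : g ∈ F.Tr c i) :
    k * g * k⁻¹ ∈ F.Tr c i := by
  have := (conj_mem_Tr k).2 hg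
  rcases hk with h | h
  · rwa [h] at this
  · rwa [h.Tr_eq]

theorem Rs.refl (J : Set ι) (c : F.X) : F.Rs J c c := by
  exact ⟨1, one_mem _, D_one.2 rfl⟩

theorem Rs.symm (h : F.Rs J c d) : F.Rs J d c := by
  obtain ⟨w, h1, h2⟩ := h
  exact ⟨w⁻¹, inv_mem h1, h2.inv⟩

theorem Rs.trans (h : F.Rs J c d) (h' : F.Rs J d z) : F.Rs J c z := by
  obtain ⟨w, h1, h2⟩ := h
  refine WJ_ind (P := fun w => ∀ c, F.D w c d → F.Rs J c z) (fun c h => D_one.1 h ▸ h') ?_ h1 c h2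
  intro i hi x ih c h
  obtain ⟨c', h3, h4⟩ := h.split
  obtain ⟨u, h5, h6⟩ := ih c' h4
  rcases Ad.mul h3 h6 with h7 | h7
  exacts [⟨_, mul_mem (sW_mem_WJ hi) h5, h7⟩, ⟨_, h5, h7⟩]

theorem Rs_smul (g : G) : F.Rs J (g • c) (g • d) ↔ F.Rs J c d := by
  simp only [Rs, D_smul]

theorem Rs.mono {I : Set ι} (h : F.Rs I c d) (hI : I ⊆ J) : F.Rs J c d := by
  obtain ⟨w, h1, h2⟩ := h
  exact ⟨w, WJ_mono hI h1, h2⟩

theorem Ad.rs (h : F.Ad i c d) (hi : i ∈ J) : F.Rs J c d := by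
  exact ⟨_, sW_mem_WJ hi, h⟩

theorem rs_one : F.Rs {i} c d ↔ d = c ∨ F.Ad i c d := by
  constructor
  · rintro ⟨w, h1, h2⟩
    rcases mem_WJ_one.1 h1 with rfl | rfl
    exacts [.inl (D_one.1 h2).symm, .inr h2]
  · rintro (rfl | h)
    exacts [Rs.refl _ _, h.rs rfl]

theorem rs_ch : F.Rs J (F.ch x) (F.ch y) ↔ x⁻¹ * y ∈ WJ R J := by
  exact ⟨fun ⟨w, h1, h2⟩ => h2.unique (D_ch x y) ▸ h1, fun h => ⟨_, h, D_ch x y⟩⟩

/-- Induction along galleries in a residue. -/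
theorem Rs.induction {p : F.X → Prop} (h : F.Rs J c d) (h0 : p c)
    (h1 : ∀ z z', F.Rs J c z → ∀ i ∈ J, F.Ad i z z' → p z → p z') : p d := by
  obtain ⟨w, h2, h3⟩ := h.symm
  refine (WJ_ind (P := fun w => w ∈ WJ R J ∧ ∀ d, F.D w d c → p d)
    ⟨one_mem _, fun d h => (D_one.1 h).symm ▸ h0⟩ ?_ h2).2 d h3
  rintro i hi x ⟨hx, ih⟩
  refine ⟨mul_mem (sW_mem_WJ hi) hx, fun d h => ?_⟩
  obtain ⟨z, h4, h5⟩ := h.split
  exact h1 z d (Rs.symm ⟨x, hx, h5⟩) i hi (Ad.symm h4) (ih z h5)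

theorem Rs.TrJ_eq (h : F.Rs J c d) : F.TrJ J c = F.TrJ J d := by
  ext g
  rw [mem_TrJ, mem_TrJ]
  exact ⟨fun h1 z hz => h1 z (h.trans hz), fun h1 z hz => h1 z (h.symm.trans hz)⟩

theorem mem_Tr_of_TrJ (hg : g ∈ F.TrJ J c) (h : F.Rs J c d) (hi : i ∈ J) : g ∈ F.Tr d i := by
  rw [mem_TrJ] at hg
  exact mem_Tr.2 ⟨hg d h, fun z hz => hg z (h.trans (hz.rs hi))⟩

theorem D_one_smul : F.D w (F.ch 1) (g • F.ch 1) ↔ Cell F.P (F.e w) g := by
  unfold D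
  rw [ch_one, MulAction.Quotient.smul_coe, pos_mk, inv_one, one_mul, smul_eq_mul, mul_one]

theorem n_image_subset (J : Set ι) : F.n '' J ⊆ F.P.S := by
  rintro _ ⟨i, -, rfl⟩
  exact (F.σ i).2

theorem e_mem_closure : F.e w ∈ Subgroup.closure (sW F.P '' {s | (s : G) ∈ F.n '' J}) ↔
    w ∈ WJ R J := by
  have : sW F.P '' {s | (s : G) ∈ F.n '' J} = F.e.toMonoidHom '' (R.sW '' J) := by
    ext x
    constructor
    · rintro ⟨s, ⟨i, hi, e⟩, rfl⟩
      exact ⟨_, ⟨i, hi, rfl⟩, (F.he i).trans (congrArg _ (Subtype.ext e))⟩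
    · rintro ⟨_, ⟨i, hi, rfl⟩, rfl⟩
      exact ⟨F.σ i, ⟨i, hi, rfl⟩, (F.he i).symm⟩
  rw [this, ← MonoidHom.map_closure]
  exact Subgroup.mem_map_iff_mem (f := F.e.toMonoidHom) F.e.injective

theorem mem_PJ : g ∈ F.PJ J ↔ F.Rs J (F.ch 1) (g • F.ch 1) := by
  obtain ⟨w, hw⟩ := exists_D (F.ch 1) (g • F.ch 1)
  rw [PJ, mem_parabolic_iff_cell (n_image_subset J) (D_one_smul.1 hw), e_mem_closure]
  exact ⟨fun h => ⟨w, h, hw⟩, fun ⟨v, h1, h2⟩ => h2.unique hw ▸ h1⟩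

theorem rs_smul_of_PJ (hg : g ∈ F.PJ J) (h : F.Rs J (F.ch 1) c) : F.Rs J (F.ch 1) (g • c) := by
  exact (mem_PJ.1 hg).trans ((Rs_smul g).2 h)

theorem conj_mem_TrJ_of_PJ (hk : k ∈ F.PJ J) (hg : g ∈ F.TrJ J (F.ch 1)) :
    k * g * k⁻¹ ∈ F.TrJ J (F.ch 1) := by
  rw [(mem_PJ.1 hk).TrJ_eq]
  exact (conj_mem_TrJ k).2 hg

theorem PJ_univ : F.PJ Set.univ = ⊤ := by
  refine eq_top_iff.2 fun g _ => mem_PJ.2 ?_
  obtain ⟨w, hw⟩ := exists_D (F.ch 1) (g • F.ch 1)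
  exact ⟨w, mem_WJ_univ w, hw⟩

theorem Ov.mem_B_iff (h : F.Ov g w) : g ∈ F.P.B ↔ w = 1 := by
  rw [mem_B, h.smul_ch, mul_one]
  exact ch_injective.eq_iff

theorem irreducible (hc : R.Conn) : F.P.Irreducible := by
  rintro J hJ ⟨a, ha⟩ ⟨b, hb, hb'⟩
  obtain ⟨i, hi, j, hj, h⟩ := hc {i | F.n i ∈ J} ⟨F.σ.symm ⟨a, hJ ha⟩, by simpa [n] using ha⟩
    ⟨F.σ.symm ⟨b, hb⟩, by simpa [n] using hb'⟩
  refine ⟨_, hi, _, ⟨(F.σ j).2, hj⟩, fun hb =>
    h (A_eq_zero_of_commute (by rintro rfl; exact hj hi) ?_)⟩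
  have := ((((ov_n i).mul (ov_n j)).mul (ov_n i).inv).mul (ov_n j).inv).mem_B_iff.1 hb
  exact congrArg Subtype.val this

/-- `BN.normal_le_or_sup` and `core`. -/
theorem normal_eq_bot_or (hc : R.Conn) (K : Subgroup G) [K.Normal] : K = ⊥ ∨ F.P.B ⊔ K = ⊤ := by
  refine (normal_le_or_sup (irreducible hc) K).imp_left fun h => eq_bot_iff.2 fun g hg => ?_
  refine F.core g fun c => ?_
  obtain ⟨k, rfl⟩ := exists_smul_eq (F.ch 1) c
  have h1 : k⁻¹ * g * k⁻¹⁻¹ ∈ K := Subgroup.Normal.conj_mem inferInstance g hg k⁻¹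
  have h2 := mem_B.1 (h h1)
  rwa [inv_inv, mul_smul, mul_smul, inv_smul_eq_iff] at h2

variable [Fintype Φ]

omit [Fintype Φ] in
theorem fix_of_gate (l : len R.sW w < len R.sW (R.sW i * w)) (hc : g • c = c) (hz : g • z = z)
    (h : F.Ad i c d) (k : F.D w d z) : g • d = d := by
  have h1 : F.Ad i c (g • d) := by rw [← hc]; exact (Ad_smul g).2 h
  refine gate l ?_ (by rw [← hz]; exact (D_smul g).2 k) k
  by_cases e : g • d = d
  exacts [.inl e, .inr (h1.symm.trans h e)]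

/-- **Convexity.**  WLOG `x = 1`; induction on `len z`: if `len (sᵢ z) < len z` then `z ∉ hf αᵢ`, so
`y ∉ hf αᵢ`, `g` fixes `ch sᵢ` (`gate`), and the hypothesis holds for `sᵢ, y, z`. -/
theorem cvx {z : R.W} (hx : g • F.ch x = F.ch x) (hy : g • F.ch y = F.ch y)
    (h : ∀ k, x ∈ hf R k → y ∈ hf R k → z ∈ hf R k) : g • F.ch z = F.ch z := by
  obtain ⟨n, hn⟩ : ∃ n, len R.sW (x⁻¹ * z) = n := ⟨_, rfl⟩
  induction n generalizing x with
  | zero => rw [← inv_mul_eq_one.1 (R.invGen.eq_one_of_len hn)]; exact hx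
  | succ n ih =>
    obtain ⟨i, v, e, h2⟩ := R.invGen.exists_left_descent hn
    have h3 : z ∉ hf R (x.1 (R.simple i)) := by
      rw [← mul_inv_cancel_left x z, mul_mem_hf, mem_hf_simple, hn, e, sW_cancel]; omega
    have h4 : x ∈ hf R (x.1 (R.simple i)) := by
      rw [mem_hf, W_inv_apply]; exact isPos_simple i
    have h5 : x⁻¹ * y ∉ hf R (R.simple i) := fun h5 =>
      h3 (h _ h4 (by rw [← mul_inv_cancel_left x y, mul_mem_hf]; exact h5))
    rw [mem_hf_simple] at h5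
    have h6 := R.invGen.len_simple_mul_ne R.exchange i (x⁻¹ * y)
    have h7 := D_ch (F := F) (x * R.sW i) y
    rw [mul_inv_rev, sW_inv, mul_assoc] at h7
    refine ih (fix_of_gate (by rw [sW_cancel]; omega) hx hy (ad_ch x i) h7) (fun k k1 k2 => ?_) ?_
    · by_cases k3 : x ∈ hf R k
      · exact h k k3 k2
      · have k4 := (mul_sW_notMem_hf k1 (i := i)).1 (by rwa [mul_assoc, sW_mul_self, mul_one])
        rw [← W_apply_inv (x * R.sW i) k, k4, W_mul, coe_sW, sref_simple, (W_aut _).neg, mem_hf_neg]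
        exact h3
    · rw [mul_inv_rev, sW_inv, mul_assoc, e, sW_cancel, h2]

theorem mem_H_of_opp (hx : g • F.ch x = F.ch x)
    (hy : g • F.ch (x * lg R Set.univ) = F.ch (x * lg R Set.univ)) : g ∈ F.H := by
  exact mem_H.2 fun z => cvx hx hy fun k h1 h2 => absurd h1 (mul_lg_mem_hf.1 h2)

/-- Convexity in a residue. -/
theorem fix_WJ_of_opp (hx : g • F.ch x = F.ch x) (hy : g • F.ch (x * lg R J) = F.ch (x * lg R J))
    (h : y ∈ WJ R J) : g • F.ch (x * y) = F.ch (x * y) := by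
  refine cvx hx hy fun k h1 h2 => ?_
  refine mul_mem_hf_of_not_inJ h1 (fun h3 => ?_) h
  rw [mem_hf, mul_inv_rev, lg_inv, W_mul, isPos_lg h1] at h2
  exact h2 h3

/-- **Rigidity** (`BNU.rigid`, `core`). -/
theorem rigid (hg : g ∈ F.H) (h : ∀ i, g ∈ F.Tr (F.ch x) i) : g = 1 := by
  have m : Cfsg.Lib.BNU.MaxL (F.e (lg R Set.univ)) := fun v => by
    obtain ⟨v, rfl⟩ := F.e.surjective v
    rw [len_e, len_e]; exact len_le_lg v
  have k := D_ch (F := F) x (x * lg R Set.univ)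
  rw [inv_mul_cancel_left] at k
  refine F.core g (Cfsg.Lib.BNU.rigid m ⟨mem_H.1 hg x, fun s d hd => ?_⟩ k (mem_H.1 hg _))
  obtain ⟨i, rfl⟩ := F.σ.surjective s
  exact (mem_Tr.1 (h i)).2 d (ad_iff.2 hd)

/-- `Fx (hf αᵢ)` is transitive on the panel minus `ch 1`: with `y = sᵢ * lg univ`, both `ch sᵢ` and
`d` are opposite to `ch y`; `D.exists_smul`, `gate`, `cvx`. -/
theorem exists_Fx_simple (h : F.Ad i (F.ch 1) d) :
    ∃ b ∈ F.Fx (hf R (R.simple i)), b • F.ch (R.sW i) = d := by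
  have l : len R.sW (R.sW i * lg R Set.univ) < len R.sW (R.sW i * (R.sW i * lg R Set.univ)) := by
    rw [sW_cancel]; exact (lg_spec _).2.1 i trivial
  have h1 := D_ch (F := F) 1 (R.sW i * lg R Set.univ)
  rw [inv_one, one_mul] at h1
  have h2 := ad_ch (F := F) 1 i
  rw [one_mul] at h2
  obtain ⟨b, h3, h4⟩ := (h2.symm.mul_of_lt l h1).exists_smul (h.symm.mul_of_lt l h1)
  refine ⟨b, mem_Fx.2 fun z hz => cvx (x := 1) ?_ h4 fun k k1 k2 => ?_, h3⟩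
  · have h5 : F.Ad i (b • F.ch 1) d := by rw [← h3]; exact (Ad_smul b).2 h2
    refine gate l ?_ (by rw [← h4]; exact (D_smul b).2 h1) h1
    by_cases e : b • F.ch 1 = F.ch 1
    exacts [.inl e, .inr (h5.trans h.symm e)]
  · rw [mul_lg_mem_hf, ← one_mul (R.sW i), mul_sW_notMem_hf k1, inv_one] at k2
    rw [show k = R.simple i from k2]
    exact hz

theorem exists_Fx (hw : (w⁻¹ : R.W).1 r = R.simple i) (h : F.Ad i (F.ch w) d) :
    ∃ b ∈ F.Fx (hf R r), b • F.ch (w * R.sW i) = d := by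
  have hn := ov_nr (F := F) w
  have h1 : F.Ad i (F.ch 1) ((F.nr w)⁻¹ • d) := by
    rw [← Ad_smul (F.nr w), smul_inv_smul, hn.smul_ch, mul_one]; exact h
  obtain ⟨b, h2, h3⟩ := exists_Fx_simple h1
  refine ⟨F.nr w * b * (F.nr w)⁻¹, ?_, ?_⟩
  · rw [← W_apply_inv w r, hw]; exact hn.conj_mem_hf.2 h2
  · rw [mul_smul, mul_smul, hn.inv.smul_ch, inv_mul_cancel_left, h3, smul_inv_smul]

/-- The convex hull of a half-apartment and a chamber outside is the apartment: `x ∉ hf r` gives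
`x * lg univ ∈ hf r`. -/
theorem mem_H_of_hf (hg : g ∈ F.Fx (hf R r)) (hx : x ∉ hf R r) (h : g • F.ch x = F.ch x) :
    g ∈ F.H := by
  exact mem_H_of_opp h (mem_Fx.1 hg _ (mul_lg_mem_hf.2 hx))

theorem U_le_Fx [Nontrivial ι] (r : Φ) : F.U r ≤ F.Fx (hf R r) := by
  intro g hg
  refine mem_Fx.2 fun w hw => ?_
  obtain ⟨i, j, hij⟩ := exists_pair_ne ι
  have : w * R.sW i ∈ hf R r ∨ w * R.sW j ∈ hf R r := by
    by_contra hc
    rw [not_or, mul_sW_notMem_hf hw, mul_sW_notMem_hf hw] at hc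
    exact hij (R.simple_injective (hc.1.symm.trans hc.2))
  rcases this with h | h <;> exact (mem_Tr.1 (mem_U.1 hg w hw _ h)).1

omit [Fintype Φ] in
theorem _root_.Cfsg.Lib.TB.H17.good_nontrivial (hR : Good R) : Nontrivial ι :=
  Fintype.one_lt_card_iff_nontrivial.1 (by have := hR.three; omega)

/-- `mem_H_of_hf`, `Good.exists_deep`, `rigid`. -/
theorem eq_one_of_fix (hR : Good R) (hg : g ∈ F.U r) (hx : x ∉ hf R r) (h : g • F.ch x = F.ch x) :
    g = 1 := by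
  have := good_nontrivial hR
  obtain ⟨w, h1, h2⟩ := hR.exists_deep r
  exact rigid (mem_H_of_hf (U_le_Fx r hg) hx h) fun i => mem_U.1 hg w h1 i (h2 i)

theorem Mf.map (h : F.Mf r) (w : R.W) : F.Mf (w.1 r) := by
  intro y hy
  have hn := ov_nr (F := F) w
  obtain ⟨u, h1, h2⟩ := h ((F.nr w)⁻¹ * y * F.nr w) (hn.conj_mem_hf.1 (by convert hy using 1; group))
  exact ⟨_, hn.conj_mem_U.2 h1, by convert hn.conj_H h2 using 1; group⟩

theorem Mf.trans (h : F.Mf r) (hw : (w⁻¹ : R.W).1 r = R.simple i) (hd : F.Ad i (F.ch w) d) :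
    ∃ u ∈ F.U r, u • F.ch (w * R.sW i) = d := by
  obtain ⟨b, h1, h2⟩ := exists_Fx hw hd
  obtain ⟨u, h3, h4⟩ := h b h1
  exact ⟨u, h3, by rw [← mem_H.1 h4 (w * R.sW i), mul_smul, smul_inv_smul, h2]⟩

theorem mf_of_trans [Nontrivial ι] (hw : (w⁻¹ : R.W).1 r = R.simple i)
    (h : ∀ d, F.Ad i (F.ch w) d → ∃ u ∈ F.U r, u • F.ch (w * R.sW i) = d) : F.Mf r := by
  intro y hy
  have h0 : w ∈ hf R r := by rw [mem_hf, hw]; exact isPos_simple i
  have h1 : F.Ad i (F.ch w) (y • F.ch (w * R.sW i)) := by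
    rw [← mem_Fx.1 hy w h0]; exact (Ad_smul y).2 (ad_ch w i)
  obtain ⟨u, h2, h3⟩ := h _ h1
  exact ⟨u, h2, mem_H_of_hf (mul_mem (inv_mem (U_le_Fx r h2)) hy) ((mul_sW_notMem_hf h0).2 hw)
    (by rw [mul_smul, ← h3, inv_smul_smul])⟩

theorem Mf.card [Finite G] (hR : Good R) (h : F.Mf r) (hw : (w⁻¹ : R.W).1 r = R.simple i) :
    Nat.card (F.U r) = F.q i := by
  have := good_nontrivial hR
  have h0 : w ∈ hf R r := by rw [mem_hf, hw]; exact isPos_simple i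
  rw [← card_ad i (F.ch w), ← Nat.card_coe_set_eq]
  refine Nat.card_eq_of_bijective (fun u => ⟨u.1 • F.ch (w * R.sW i), ?_⟩) ⟨fun u u' e => ?_, ?_⟩
  · rw [Set.mem_ofPred_eq, ← mem_Fx.1 (U_le_Fx r u.2) w h0]; exact (Ad_smul _).2 (ad_ch w i)
  · have e' : u.1 • F.ch (w * R.sW i) = u'.1 • F.ch (w * R.sW i) := congrArg Subtype.val e
    have := eq_one_of_fix hR (mul_mem (inv_mem u'.2) u.2) ((mul_sW_notMem_hf h0).2 hw)
      (by rw [mul_smul, e', inv_smul_smul])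
    exact Subtype.ext (inv_mul_eq_one.1 this).symm
  · rintro ⟨d, hd⟩
    obtain ⟨u, h1, h2⟩ := h.trans hw hd
    exact ⟨⟨u, h1⟩, Subtype.ext h2⟩

theorem Mf.of_sb (h : F.Mf (R.simple i)) (hb : Sb R i j) : F.Mf (R.simple j) := by
  have := h.map (R.sW i * R.sW j)
  rwa [W_mul, coe_sW, coe_sW, hb.sref_eq, sref_sref] at this

theorem mo_of_simple (h : ∀ i, F.Mf (R.simple i)) : F.Mo := by
  intro r
  obtain ⟨w, i, rfl⟩ := exists_simple (R := R) r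
  exact (h i).map w

end Cfsg.Lib.TB.Fr
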