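import Cfsg.Agent.Lib.TB.Rg

/-!
S1143 (docs/TB.md): the commutator relations.
-/

set_option autoImplicit false

namespace Cfsg.Lib.TB.Fr

open Cfsg.Lib.BN Cfsg.Lib.Chev RootSys
open scoped commutatorElement Pointwise

variable {ι Φ : Type} [Fintype ι] [DecidableEq ι] {R : RootSys ι Φ} [Fintype Φ]
variable {G : Type*} [Group G] {F : Fr G R} {g x y : G} {i j : ι} {J : Set ι} {r s : Φ} {w : R.W}

omit [Fintype Φ] in
theorem cone_neg {k : Φ} (h : Cone R r s k) : Cone R (R.neg r) (R.neg s) (R.neg k) := by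
  obtain ⟨m, a, b, h1, h2, h3, e⟩ := h
  exact ⟨m, a, b, h1, h2, h3, by simp only [R.α_neg, smul_neg, e, neg_add]⟩

omit [Fintype Φ] in
theorem pos_coord {a b : ι} (h1 : R.InJ {a, b} r) (h2 : R.IsPos r) (h3 : r ≠ R.simple b) :
    0 < R.α r a := lt_of_le_of_ne (h2 a) fun e => h3 (eq_simple_of_inJ (fun k hk => by
  by_cases h : k = a
  · rw [h, ← e]
  · exact h1 k (by rintro (h' | h'); exacts [h h', hk h'])) h2)

omit [Fintype Φ] in
theorem cone_of_hf {a b : ι} {k : Φ} (hab : a ≠ b) (h1 : R.InJ {a, b} r) (h2 : R.IsPos r)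
    (h3 : r ≠ R.simple b) (k1 : R.InJ {a, b} k) (k2 : R.IsPos k) (k3 : k ≠ R.simple b)
    (w1 : w ∈ hf R (R.simple b)) (w2 : w ∉ hf R r) (w3 : w ∈ hf R k) :
    Cone R r (R.simple b) k := by
  have p1 := pos_coord h1 h2 h3
  have p2 := pos_coord k1 k2 k3
  have e : R.α r a • R.α k =
      R.α k a • R.α r + (R.α r a * R.α k b - R.α k a * R.α r b) • R.α (R.simple b) := by
    funext c
    simp only [R.α_simple, Pi.add_apply, Pi.smul_apply, smul_eq_mul]
    by_cases hc : c = b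
    · subst hc
      simp
    rw [Pi.single_eq_of_ne hc]
    by_cases hc' : c = a
    · subst hc'
      ring
    have : c ∉ ({a, b} : Set ι) := by rintro (h | h); exacts [hc' h, hc h]
    simp [h1 c this, k1 c this]
  refine ⟨_, _, _, p1, p2, ?_, e⟩
  obtain ⟨L, hL, -⟩ := isAut_of_mem_W (w⁻¹).2
  have e' := congrArg (fun v => htL ι (L v)) e
  simp only [map_add, map_zsmul, ← hL, smul_eq_mul] at e'
  have q1 : 0 < htL ι (R.α ((w⁻¹ : R.W).1 (R.simple b))) := isPos_iff_ht.1 w1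
  have q2 : ¬ 0 < htL ι (R.α ((w⁻¹ : R.W).1 r)) := fun h => w2 (isPos_iff_ht.2 h)
  have q3 : 0 < htL ι (R.α ((w⁻¹ : R.W).1 k)) := isPos_iff_ht.1 w3
  by_contra h
  nlinarith [mul_pos p1 q3, mul_nonneg p2.le (neg_nonneg.2 (not_lt.1 q2)),
    mul_nonneg (neg_nonneg.2 (not_lt.1 h)) q1.le]

omit [Fintype Φ] in
theorem not_cone {k : Φ} (h : R.A i j = 0) (hr : R.InJ {i} r) (hs : R.InJ {j} s) :
    ¬ Cone R r s k := fun hk => by
  have hij : i ≠ j := by
    rintro rfl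
    rw [R.A_diag] at h
    omega
  have h1 : R.InJ {i, j} k := hk.inJ (fun c hc => hr c fun e => hc (.inl e))
    fun c hc => hs c fun e => hc (.inr e)
  obtain ⟨m, a, b, -, h2, h3, e⟩ := hk
  have e1 := congrFun e i
  have e2 := congrFun e j
  simp only [Pi.add_apply, Pi.smul_apply, smul_eq_mul, hr j hij.symm, hs i hij, mul_zero, add_zero,
    zero_add] at e1 e2
  have r1 : R.α r i ≠ 0 := fun e => R.α_ne_zero r (funext fun c => by
    by_cases hc : c = i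
    exacts [hc ▸ e, hr c hc])
  have r2 : R.α s j ≠ 0 := fun e => R.α_ne_zero s (funext fun c => by
    by_cases hc : c = j
    exacts [hc ▸ e, hs c hc])
  have k1 : R.α k i ≠ 0 := fun e => mul_ne_zero h2.ne' r1 (by rw [← e1, e, mul_zero])
  have k2 : R.α k j ≠ 0 := fun e => mul_ne_zero h3.ne' r2 (by rw [← e2, e, mul_zero])
  have key : ∀ k, R.InJ {i, j} k → R.IsPos k → R.α k i = 0 ∨ R.α k j = 0 := fun k h1 h2 => by
    rcases pos_of_zero h h1 h2 with rfl | rfl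
    · exact .inr (by rw [R.α_simple, Pi.single_eq_of_ne hij.symm])
    · exact .inl (by rw [R.α_simple, Pi.single_eq_of_ne hij])
  rcases isPos_or_neg (R := R) k with h4 | h4
  · exact (key k h1 h4).elim k1 k2
  · have := key _ h1.neg h4
    simp only [R.α_neg, Pi.neg_apply, neg_eq_zero] at this
    exact this.elim k1 k2

variable (hR : Good R)
include hR

/-- The commutator is trivial on all panels of the chambers in both half-apartments: a panel is
interior to `hf r` or to `hf s`, and the other element stabilizes it (`conj_mem_Tr_of`). -/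
theorem comm_mem_Tr (h1 : s ≠ r) (hx : x ∈ F.U r) (hy : y ∈ F.U s) (hr : w ∈ hf R r)
    (hs : w ∈ hf R s) (i : ι) : ⁅x, y⁆ ∈ F.Tr (F.ch w) i := by
  haveI : Nontrivial ι := Fintype.one_lt_card_iff_nontrivial.1 (by have := hR.three; omega)
  rw [commutatorElement_def]
  by_cases h2 : w * R.sW i ∈ hf R r
  · have h3 := mem_U.1 hx w hr i h2
    have h4 := conj_mem_Tr_of (.inl (mem_Fx.1 (U_le_Fx s hy) w hs)) (inv_mem h3)
    simpa only [mul_assoc] using mul_mem h3 h4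
  by_cases h3 : w * R.sW i ∈ hf R s
  · have h4 := mem_U.1 hy w hs i h3
    exact mul_mem (conj_mem_Tr_of (.inl (mem_Fx.1 (U_le_Fx r hx) w hr)) h4) (inv_mem h4)
  exact absurd ((w⁻¹ : R.W).1.injective (((mul_sW_notMem_hf hs).1 h3).trans
    ((mul_sW_notMem_hf hr).1 h2).symm)) h1

theorem exists_fix_across (h1 : s ≠ r) (hx : x ∈ F.U r) (hy : y ∈ F.U s) (hr : R.IsPos r)
    (hs : R.IsPos s) (l : List ι) (hl : ∀ i ∈ l, i ∈ J) (hl' : len R.sW (wp R.sW l) = l.length)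
    (k1 : wp R.sW l ∈ hf R s) (k2 : wp R.sW l ∉ hf R r) :
    ∃ v ∈ WJ R J, v ∈ hf R s ∧ v ∉ hf R r ∧ ⁅x, y⁆ • F.ch v = F.ch v := by
  induction l using List.reverseRecOn with
  | nil => exact absurd (one_mem_hf.2 hr) k2
  | append_singleton l i ih =>
    have h2 := R.invGen.reduced_left hl'
    have h3 := Cfsg.Lib.St.wp_mem_WJ (s := R.sW) hl
    rw [wp_append, wp_singleton] at hl' k1 k2 h3
    have h4 : wp R.sW l ∈ hf R s := by_contra fun h => by
      have h5 := (mul_sW_notMem_hf (mem_hf_neg.2 h)).1 fun h' => mem_hf_neg.1 h' k1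
      have h6 := len_mul_sW_of_neg (w := wp R.sW l) (i := i) (by
        rw [← h5]
        change ¬ R.IsPos ((wp R.sW l).1 ((wp R.sW l).1⁻¹ _))
        rwa [apply_inv, isPos_neg_iff, not_not])
      simp only [List.length_append, List.length_singleton] at hl'
      omega
    by_cases h5 : wp R.sW l ∈ hf R r
    · exact ⟨_, h3, k1, k2, (mem_Tr.1 (comm_mem_Tr hR h1 hx hy h5 h4 i)).2 _ (ad_ch _ i)⟩
    · exact ih (fun j hj => hl j (List.mem_append_left _ hj)) h2 h4 h5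

variable (hM : F.Mo)
include hM

theorem comm_std {a b : ι} (hab : a ≠ b) (h1 : R.InJ {a, b} r) (h2 : R.IsPos r)
    (h3 : r ≠ R.simple b) (hx : x ∈ F.U r) (hy : y ∈ F.U (R.simple b)) :
    ⁅x, y⁆ ∈ F.US {k | Cone R r (R.simple b) k} := by
  haveI : Nontrivial ι := ⟨a, b, hab⟩
  have hb : b ∈ ({a, b} : Set ι) := .inr rfl
  have hL : ∀ {k}, R.InJ {a, b} k → F.U k ≤ F.LJ {a, b} := fun hk =>
    (U_le_Fx _).trans (Fx_hf_le_LJ hk)
  have sb : R.sW b ∈ WJ R {a, b} := Cfsg.Lib.St.simple_mem_WJ hb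
  have hz : ∀ k, R.InJ {a, b} k → (R.sW b * lg R {a, b} ∈ hf R k ↔ R.sW b ∉ hf R k) :=
    fun k hk => by
      have e : (lg R {a, b})⁻¹ = lg R {a, b} := inv_eq_of_mul_eq_one_right (lg_mul_self _)
      have e' : (R.sW b)⁻¹ = R.sW b := R.invGen.inv b
      rw [mem_hf, mem_hf, mul_inv_rev, e, e']
      change R.IsPos ((lg R {a, b}).1 (R.sref b k)) ↔ ¬ R.IsPos (R.sref b k)
      refine ⟨fun h h' => (isPos_lg h').1 h (hk.sref hb), fun h => by_contra fun h' => ?_⟩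
      refine (isPos_lg (J := {a, b}) (isPos_neg_iff.2 h)).1 ?_ (hk.sref hb).neg
      rwa [(isAut_of_mem_W (lg R {a, b}).2).neg, isPos_neg_iff]
  have hs : ∀ k, R.sW b ∈ hf R k ↔ R.IsPos (R.sref b k) := fun k => by
    rw [mem_hf, R.invGen.inv b, coe_sW]
  have g1 : ⁅x, y⁆ ∈ F.LJ {a, b} := by
    have := hL h1 hx
    have := hL (inJ_simple_iff.2 hb) hy
    rw [commutatorElement_def]
    exact mul_mem (mul_mem (mul_mem ‹_› ‹_›) (inv_mem ‹_›)) (inv_mem ‹_›)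
  have g2 := comm_mem_Tr hR h3.symm hx hy (one_mem_hf.2 h2) (one_mem_hf.2 (isPos_simple b))
  have z1 := mul_mem sb (lg_mem (R := R) {a, b})
  obtain ⟨l, l1, l2, l3⟩ := R.invGen.exists_reduced_of_mem_closure R.exchange z1
  obtain ⟨v, v1, v2, v3, v4⟩ := exists_fix_across hR h3.symm hx hy h2 (isPos_simple b) l l1
    (by rw [l2, l3]) (by
      rw [l2, hz _ (inJ_simple_iff.2 hb), hs, sref_simple, isPos_neg_iff, not_not]
      exact isPos_simple b) (by
      rw [l2, hz _ h1, not_not, hs]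
      exact h2.sref h3)
  set z := R.sW b * lg R {a, b} with hzz
  have n1 := F.ov_nr v
  have d1 : F.D (v⁻¹ * z) (F.ch 1) ((F.nr v)⁻¹ • ⁅x, y⁆ • F.ch z) := by
    have := (D_smul (F.nr v)⁻¹).2 ((D_smul ⁅x, y⁆).2 (F.D_ch v z))
    rwa [v4, n1.inv.smul_ch, inv_mul_cancel] at this
  obtain ⟨u, hu, eu⟩ := exists_US_smul hR hM d1
  have A1 : ∀ k ∈ v.1 '' {k | R.IsPos k ∧ v⁻¹ * z ∉ hf R k}, R.InJ {a, b} k ∧ R.sW b ∈ hf R k ∧
      R.IsPos k ∧ k ≠ R.simple b ∧ Cone R r (R.simple b) k := by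
    rintro _ ⟨k, ⟨k1, k2⟩, rfl⟩
    have k3 : v ∈ hf R (v.1 k) := by simpa using (mul_mem_hf (w := v)).2 (one_mem_hf.2 k1)
    have k4 : z ∉ hf R (v.1 k) := fun h => k2 ((mul_mem_hf (w := v)).1 (by simpa using h))
    have k5 : R.InJ {a, b} (v.1 k) := by_contra fun h => k4 (by
      simpa using mul_mem_hf_of_not_inJ k3 (fun h' => h ((inJ_of_mem_WJ (inv_mem v1)).1 h'))
        (mul_mem (inv_mem v1) z1))
    have k6 : R.sW b ∈ hf R (v.1 k) := by_contra fun h => k4 ((hz _ k5).2 h)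
    have k7 : v.1 k ≠ R.simple b := fun e => by
      rw [e, hs, sref_simple, isPos_neg_iff] at k6
      exact k6 (isPos_simple b)
    have k8 : v.1 k ≠ R.neg (R.simple b) := fun e => mem_hf_neg.1 (e ▸ k3) v2
    have k9 := (isPos_sref_iff k7 k8).1 ((hs _).1 k6)
    exact ⟨k5, k6, k9, k7, cone_of_hf hab h1 h2 h3 k5 k9 k7 v2 v3 k3⟩
  have u1 := n1.conj_mem_US hu
  set u' := F.nr v * u * (F.nr v)⁻¹ with hu'
  have u2 : u' • F.ch z = ⁅x, y⁆ • F.ch z := by
    rw [hu', mul_smul, mul_smul, n1.inv.smul_ch, eu, smul_inv_smul]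
  have u3 : u' ∈ F.LJ {a, b} := US_le.2 (fun k hk => hL (A1 k hk).1) u1
  have u4 : u' • F.ch (R.sW b) = F.ch (R.sW b) :=
    mem_Fx.1 (US_le_Fx hR _ u1) _ fun k hk => (A1 k hk).2.1
  have u5 : ∀ i, u' ∈ F.Tr (F.ch 1) i := fun i => US_le.2 (fun k hk g hg => by
    obtain ⟨-, -, k1, k2, m, c, d, m1, c1, d1, e⟩ := A1 k hk
    refine mem_U.1 hg 1 (one_mem_hf.2 k1) i (by_contra fun h => ?_)
    obtain rfl : k = R.simple i := (mul_sW_notMem_hf (one_mem_hf.2 k1)).1 h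
    have e1 := congrFun e b
    simp only [R.α_simple, Pi.add_apply, Pi.smul_apply, smul_eq_mul, Pi.single_eq_same,
      Pi.single_eq_of_ne (show b ≠ i from fun e => k2 (e ▸ rfl))] at e1
    nlinarith [mul_nonneg c1.le (h2 b)]) u1
  have g3 : ⁅x, y⁆ • F.ch (R.sW b) = F.ch (R.sW b) := by
    simpa using (mem_Tr.1 (g2 b)).2 _ (ad_ch 1 b)
  have g4 : u'⁻¹ * ⁅x, y⁆ ∈ F.H := mem_H_of_LJ (mul_mem (inv_mem u3) g1) sb
    (by rw [mul_smul, g3, inv_smul_eq_iff, u4]) (by rw [mul_smul, inv_smul_eq_iff, u2])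
  rw [← inv_mul_eq_one.1 (rigid g4 fun i => mul_mem (inv_mem (u5 i)) (g2 i))]
  exact US_le.2 (fun k hk => U_le_US (A1 k hk).2.2.2.2) u1

/-- **Commutator relations.**  By `exists_pair_std` (and `Ov.conj_mem_US`, `Cone.map`) let `s = -α_b`,
`r > 0` in `Φ_J`, `J = {a, b}`.  The gallery `y₀ = 1, y₁ = s_b, y₂ = s_b s_a, …, y_m = lg J` crosses the walls
`γ₁ = α_b, γ₂ = s_b α_a, …, γ_m = α_a`, `r = γ_j`, `j ≥ 2`, and `γ_k ∈ Cone r s` for `k > j` (coordinates).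
`g = [x, y] ∈ LJ J` is trivial on all panels of `y₁, …, y_{j-1}`, so fixes `y₀, …, y_j`.  Multiply by
elements of `U γ_{j+1}, …, U γ_m` (`Mf.trans`) to fix `y_{j+1}, …, y_m`; these are trivial on all panels
of `y₁`.  `mem_H_of_LJ`, `rigid`. -/
theorem comm_mem (h1 : s ≠ r) (h2 : s ≠ R.neg r) (hx : x ∈ F.U r) (hy : y ∈ F.U s) :
    ⁅x, y⁆ ∈ F.US {k | Cone R r s k} := by
  obtain ⟨w, a, b, k, hab, k1, k2, rfl, rfl⟩ := exists_pair_std h1 h2
  have k3 : k ≠ R.simple b := fun e => h2 (by rw [e, (isAut_of_mem_W w.2).neg])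
  have e1 : w.1 k = (w * R.sW b).1 (R.sref b k) := by
    change _ = w.1 (R.sref b (R.sref b k))
    rw [sref_sref]
  have e2 : w.1 (R.neg (R.simple b)) = (w * R.sW b).1 (R.simple b) := by
    change _ = w.1 (R.sref b _)
    rw [sref_simple]
  rw [e1] at hx
  rw [e2] at hy
  rw [e1, e2] at h1 ⊢
  obtain ⟨x', hx', rfl⟩ := ((F.ov_nr (w * R.sW b)).cj_U _).ge hx
  obtain ⟨y', hy', rfl⟩ := ((F.ov_nr (w * R.sW b)).cj_U _).ge hy
  have h3 := (F.ov_nr (w * R.sW b)).conj_mem_US (comm_std hR hM hab (k1.sref (.inr rfl))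
    (k2.sref k3) (fun e => h1 (by rw [e])) hx' hy')
  rw [← map_commutatorElement]
  refine US_le.2 (fun c hc => U_le_US ?_) h3
  obtain ⟨c, hc, rfl⟩ := hc
  exact (Cone.map _).2 hc

theorem commute_of (h1 : s ≠ r) (h2 : s ≠ R.neg r) (h : ∀ k, ¬ Cone R r s k) (hx : x ∈ F.U r)
    (hy : y ∈ F.U s) : Commute x y :=
  commutatorElement_eq_one_iff_commute.1 (Subgroup.mem_bot.1
    (US_le.2 (fun k hk => absurd hk (h k)) (comm_mem hR hM h1 h2 hx hy)))

theorem comm_mem_one {k₀ : Φ} (h1 : s ≠ r) (h2 : s ≠ R.neg r) (h : ∀ k, Cone R r s k → k = k₀)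
    (hx : x ∈ F.U r) (hy : y ∈ F.U s) : ⁅x, y⁆ ∈ F.U k₀ :=
  US_le.2 (fun k hk => (congrArg F.U (h k hk)).le) (comm_mem hR hM h1 h2 hx hy)

theorem commute_GJ (h : R.A i j = 0) (hx : x ∈ F.GJ {i}) (hy : y ∈ F.GJ {j}) : Commute x y := by
  have hij : i ≠ j := by
    rintro rfl
    rw [R.A_diag] at h
    omega
  have k1 : ∀ {r s}, R.InJ {i} r → R.InJ {j} s → s ≠ r := fun {r s} hr hs e =>
    R.α_ne_zero r (funext fun c => by
      by_cases hc : c = i
      exacts [e ▸ hs c (hc ▸ hij), hr c hc])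
  have k2 : ∀ {r s}, R.InJ {i} r → R.InJ {j} s → ∀ y ∈ F.U s,
      F.U r ≤ Subgroup.centralizer {y} := fun hr hs y hy x hx =>
    Subgroup.mem_centralizer_singleton_iff.2
      (commute_of hR hM (k1 hr hs) (k1 hr.neg hs) (fun _ => not_cone h hr hs) hx hy).eq
  have k3 : ∀ {s}, R.InJ {j} s → F.U s ≤ Subgroup.centralizer {x} := fun hs y hy => by
    have : F.GJ {i} ≤ Subgroup.centralizer {y} := iSup₂_le fun k hk =>
      sup_le (k2 (inJ_simple_iff.2 hk) hs y hy) (k2 (inJ_simple_iff.2 hk).neg hs y hy)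
    exact Subgroup.mem_centralizer_singleton_iff.2
      (Subgroup.mem_centralizer_singleton_iff.1 (this hx)).symm
  have : F.GJ {j} ≤ Subgroup.centralizer {x} := iSup₂_le fun k hk =>
    sup_le (k3 (inJ_simple_iff.2 hk)) (k3 (inJ_simple_iff.2 hk).neg)
  exact (Subgroup.mem_centralizer_singleton_iff.1 (this hy)).symm

/-- `U αᵢ` normalizes the group of a closed set of positive roots without `αᵢ`. -/
theorem conj_mem_US {A : Set Φ} (hA : ∀ k ∈ A, k ≠ r ∧ k ≠ R.neg r ∧ ∀ k', Cone R r k k' → k' ∈ A)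
    (hx : x ∈ F.U r) (hy : y ∈ F.US A) : x * y * x⁻¹ ∈ F.US A := by
  have : F.US A ≤ (F.US A).comap (MulAut.conj x).toMonoidHom := US_le.2 fun k hk y hy => by
    have h1 := mul_mem (US_le.2 (fun k' hk' => U_le_US ((hA k hk).2.2 k' hk'))
      (comm_mem hR hM (hA k hk).1 (hA k hk).2.1 hx hy)) (U_le_US hk hy)
    rw [commutatorElement_def, inv_mul_cancel_right] at h1
    exact h1
  exact this hy

theorem US_inf_H_aux (hx' : x ∈ F.H) (v : R.W) (n : ℕ) : ∀ w : R.W, len R.sW (w⁻¹ * v) = n →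
    x ∈ F.US {k | w ∈ hf R k ∧ v ∉ hf R k} → x = 1 := by
  induction n with
  | zero =>
    intro w h hx
    obtain rfl := inv_mul_eq_one.1 (R.invGen.eq_one_of_len h)
    exact Subgroup.mem_bot.1 (US_le.2 (fun k hk => absurd hk.1 hk.2) hx)
  | succ n ih =>
    intro w h hx
    obtain ⟨i, v', e, h'⟩ := R.invGen.exists_left_descent h
    have e' : (w * R.sW i)⁻¹ * v = v' := by
      rw [mul_inv_rev, mul_assoc, e, inv_mul_cancel_left]
    have r1 : w ∈ hf R (w.1 (R.simple i)) := by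
      simpa using (mul_mem_hf (w := w)).2 (one_mem_hf.2 (isPos_simple i))
    have r2 : v ∉ hf R (w.1 (R.simple i)) := fun hv => by
      have h1 := mem_hf_simple.1 ((mul_mem_hf (w := w) (x := w⁻¹ * v)).1 (by simpa using hv))
      rw [h, e, R.invGen.cancel_left] at h1
      omega
    have r3 : ∀ {k}, w ∈ hf R k → (w * R.sW i ∉ hf R k ↔ k = w.1 (R.simple i)) := fun hk => by
      rw [mul_sW_notMem_hf hk]
      exact Equiv.Perm.inv_eq_iff_eq
    set A := {k | w ∈ hf R k ∧ v ∉ hf R k ∧ k ≠ w.1 (R.simple i)} with hA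
    have a1 : ∀ k ∈ A, w * R.sW i ∈ hf R k := fun k hk => by_contra fun h => hk.2.2 ((r3 hk.1).1 h)
    have n0 : ∀ x ∈ F.U (w.1 (R.simple i)), ∀ y ∈ F.US A, x * y * x⁻¹ ∈ F.US A :=
      fun x hx y hy => conj_mem_US hR hM (fun k hk => by
        have h1 : k ≠ R.neg (w.1 (R.simple i)) := fun e => mem_hf_neg.1 (e ▸ hk.1) r1
        exact ⟨hk.2.2, h1, fun k' hk' => ⟨hk'.mem_hf r1 hk.1, mem_hf_neg.1
          ((cone_neg hk').mem_hf (mem_hf_neg.2 r2) (mem_hf_neg.2 hk.2.1)),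
            (hk'.ne hk.2.2 h1).1⟩⟩) hx hy
    have n1 : F.U (w.1 (R.simple i)) ≤ Subgroup.normalizer (F.US A : Set G) :=
      fun x hx => Subgroup.mem_normalizer_iff.2 fun y => ⟨n0 x hx y, fun h => by
        simpa [mul_assoc] using n0 _ (inv_mem hx) _ h⟩
    have n2 : x ∈ (F.US A : Set G) * (F.U (w.1 (R.simple i)) : Set G) := by
      rw [← Subgroup.coe_mul_of_right_le_normalizer_left _ _ n1]
      refine US_le.2 (fun k hk => ?_) hx
      by_cases e : k = w.1 (R.simple i)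
      · exact e ▸ le_sup_right
      · exact (U_le_US (A := A) ⟨hk.1, hk.2, e⟩).trans le_sup_left
    obtain ⟨a, ha, u, hu, rfl⟩ := n2
    obtain rfl : u = 1 := eq_one_of_US hR a1 ((r3 r1).2 rfl) hu (by
      simpa using mul_mem (Subgroup.mem_sup_left (inv_mem ha)) (Subgroup.mem_sup_right hx'))
    refine ih (w * R.sW i) (by rw [e', h']) ?_
    change a * 1 ∈ _
    rw [mul_one]
    exact US_le.2 (fun k hk => U_le_US (A := {k | w * R.sW i ∈ hf R k ∧ v ∉ hf R k})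
      ⟨a1 k hk, hk.2.1⟩) ha

/-- `U⁺ ⊓ H = 1`.  WLOG `w = 1`.  Induction on `len v`: `US {k > 0 | v ∉ hf k} ⊓ H = ⊥`; for `v = sᵢ v'`
the group is `U αᵢ * nᵢ (US …v') nᵢ⁻¹` (`conj_mem_US`), the second factor fixes `ch sᵢ`,
`eq_one_of_fix`.  Take `v = lg univ`. -/
theorem US_inf_H {A : Set Φ} (hA : ∀ k ∈ A, w ∈ hf R k) (hx : x ∈ F.US A) (hx' : x ∈ F.H) :
    x = 1 :=
  US_inf_H_aux hR hM hx' (w * lg R Set.univ) _ w rfl (US_le.2 (fun k hk => U_le_US
    (A := {k | w ∈ hf R k ∧ w * lg R Set.univ ∉ hf R k})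
      ⟨hA k hk, fun h => mul_lg_mem_hf.1 h (hA k hk)⟩) hx)

end Cfsg.Lib.TB.Fr
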