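import Cfsg.Agent.Lib.TB.CoxD

/-!
S1143 (docs/TB.md): the diagram of a finite irreducible BN-pair is positive definite.
-/

set_option autoImplicit false

namespace Cfsg.Lib.TB

open Cfsg.Lib.BN Cfsg.Lib.Chev Cfsg.Lib.CharDeg.FH

namespace H17

/-- One step of the rank two recursion. -/
def st (c X Y : ℝ) (p : ℝ × ℝ) : ℝ × ℝ := (X + c * (Y + c * p.1 - p.2) - p.1, Y + c * p.1 - p.2)

theorem refl_pow {V : Type*} [AddCommGroup V] [Module ℝ V] {f g : V →ₗ[ℝ] ℝ} {x y : V} {c : ℝ}
    (h1 : f x = 2) (h2 : g y = 2) (h3 : f y = -c) (h4 : g x = -c) (k : ℕ) (v : V) :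
    (((1 - f.smulRight x) * (1 - g.smulRight y) : Module.End ℝ V) ^ k) v =
      v - ((st c (f v) (g v))^[k] 0).1 • x - ((st c (f v) (g v))^[k] 0).2 • y := by
  induction k with
  | zero => simp
  | succ k ih =>
    rw [pow_succ', Module.End.mul_apply, ih, Function.iterate_succ_apply']
    generalize (st c (f v) (g v))^[k] 0 = p
    simp only [Module.End.mul_apply, LinearMap.sub_apply, Module.End.one_apply,
      LinearMap.smulRight_apply, map_sub, map_smul, h1, h2, h3, h4, st]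
    module

theorem st_iter {m : ℕ} (hm : m ∈ ({2, 3, 4, 6, 8} : Set ℕ)) (X Y : ℝ) :
    (st (2 * Real.cos (Real.pi / m)) X Y)^[m] 0 = 0 := by
  have q2 : √2 * √2 = 2 := Real.mul_self_sqrt (by norm_num)
  have q3 : √3 * √3 = 3 := Real.mul_self_sqrt (by norm_num)
  have q8 : √(2 + √2) * √(2 + √2) = 2 + √2 := Real.mul_self_sqrt (by positivity)
  rcases hm with rfl | rfl | rfl | rfl | rfl <;> push_cast
  · simp [st, Function.iterate_succ_apply']
  · simp [st, Function.iterate_succ_apply']; ring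
  · rw [Real.cos_pi_div_four]
    simp only [st, Function.iterate_succ_apply', Function.iterate_zero_apply, Prod.ext_iff,
      Prod.fst_zero, Prod.snd_zero]
    constructor <;> grind
  · rw [Real.cos_pi_div_six]
    simp only [st, Function.iterate_succ_apply', Function.iterate_zero_apply, Prod.ext_iff,
      Prod.fst_zero, Prod.snd_zero]
    constructor <;> grind
  · rw [Real.cos_pi_div_eight]
    generalize √(2 + √2) = a at *
    generalize √2 = b at *
    simp only [st, Function.iterate_succ_apply', Function.iterate_zero_apply, Prod.ext_iff,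
      Prod.fst_zero, Prod.snd_zero]
    constructor <;> grind

theorem pow_sW {G : Type*} [Group G] (P : BNPair G) (s t : P.S) (k : ℕ) :
    (sW P s * sW P t) ^ k = 1 ↔ ((s : G) * t) ^ k ∈ P.B := by
  rw [← toW_eq_one_iff P (pow_mem (mul_mem (P.subset s.2) (P.subset t.2)) k)]
  rfl

end H17

open H17

/-- The geometric representation.  `B i j = -cos (π / m i j)`, `ρ i v = v - 2 B(eᵢ, v) eᵢ` on `S → ℝ`.
`(ρ i * ρ j) ^ m i j = 1` (on the plane of `eᵢ, eⱼ` and its `B`-orthogonal complement, or Mathlib's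
`Module.reflection_mul_reflection_pow` with Chebyshev polynomials, or by hand: `c = 2 cos (π / m)` has
`c = 0, 1`, `c² = 2, 3`, `(c² - 2)² = 2`); `InvGen.exists_lift`.  Let `Φ (u, v) = ∑ w, ⟪w u, w v⟫`, positive
definite and invariant; invariance under `ρ i` gives `Φ (eᵢ, v) = cᵢ B (eᵢ, v)`, `cᵢ = Φ (eᵢ, eᵢ) > 0`;
`cᵢ = cⱼ` if `B i j ≠ 0`, so `B i j = Φ (eᵢ, eⱼ) / √(cᵢ cⱼ)`. -/
theorem pos_of_finite {S W : Type*} [Fintype S] [Group W] [Finite W] {s : S → W} (h : InvGen s)
    (hE : Exchange s) (hs : Function.Injective s)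
    (hm : ∀ i j, i ≠ j → orderOf (s i * s j) ∈ ({2, 3, 4, 6, 8} : Set ℕ)) (x : S → ℝ) (hx : x ≠ 0) :
    0 < ∑ i, ∑ j, -Real.cos (Real.pi / orderOf (s i * s j)) * x i * x j := by
  classical
  have := Fintype.ofFinite W
  let B : S → S → ℝ := fun i j => -Real.cos (Real.pi / orderOf (s i * s j))
  have Bd : ∀ i, B i i = 1 := fun i => by simp [B, h.sq]
  have Bs : ∀ i j, B i j = B j i := fun i j => by
    simp only [B]
    rw [← orderOf_inv (s i * s j), mul_inv_rev, h.inv, h.inv]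
  let f : S → (S → ℝ) →ₗ[ℝ] ℝ := fun i => ∑ j, (2 * B i j) • LinearMap.proj j
  have hf : ∀ i v, f i v = ∑ j, 2 * B i j * v j := fun i v => by simp [f]
  have hf' : ∀ i j, f i (Pi.single j 1) = 2 * B i j := fun i j => by simp [hf, Pi.single_apply]
  have f2 : ∀ i, f i (Pi.single i 1) = 2 := fun i => by rw [hf', Bd, mul_one]
  let ρ : S → Module.End ℝ (S → ℝ) := fun i => 1 - (f i).smulRight (Pi.single i 1)
  have hρ : ∀ i v, ρ i v = v - f i v • Pi.single i 1 := fun i v => rfl
  have sq : ∀ i, ρ i * ρ i = 1 := fun i => LinearMap.ext fun v => by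
    rw [Module.End.mul_apply, hρ, hρ, map_sub, map_smul, f2, Module.End.one_apply, smul_eq_mul]
    module
  obtain ⟨φ', hφ'⟩ := h.exists_lift hE (f := fun i => (⟨ρ i, ρ i, sq i, sq i⟩ : (Module.End ℝ _)ˣ))
      (fun i => Units.ext (sq i)) fun i j n hn => Units.ext <| by
    rw [Units.val_pow_eq_pow_val, Units.val_mul, Units.val_one]
    by_cases e : i = j
    · rw [e, sq, one_pow]
    obtain ⟨k, rfl⟩ := orderOf_dvd_of_pow_eq_one hn
    rw [pow_mul, show (ρ i * ρ j) ^ orderOf (s i * s j) = 1 from LinearMap.ext fun v => ?_, one_pow]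
    rw [refl_pow (c := 2 * Real.cos (Real.pi / orderOf (s i * s j))) (f2 i) (f2 j)
      (by rw [hf']; simp [B]) (by rw [hf', Bs]; simp [B]), st_iter (hm i j e)]
    simp
  let φ : W →* Module.End ℝ (S → ℝ) := (Units.coeHom _).comp φ'
  have hφ : ∀ i, φ (s i) = ρ i := fun i => congrArg Units.val (hφ' i)
  let Φ : (S → ℝ) →ₗ[ℝ] (S → ℝ) →ₗ[ℝ] ℝ := ∑ w, (dotProductBilin ℝ ℝ).compl₁₂ (φ w) (φ w)
  have hΦ : ∀ u v, Φ u v = ∑ w, φ w u ⬝ᵥ φ w v := fun u v => by simp [Φ, LinearMap.sum_apply]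
  have pos : ∀ u, u ≠ 0 → 0 < Φ u u := fun u hu => by
    rw [hΦ]
    refine Finset.sum_pos' (fun w _ => Finset.sum_nonneg fun _ _ => mul_self_nonneg _) ⟨1, Finset.mem_univ _, ?_⟩
    rw [map_one, Module.End.one_apply]
    exact lt_of_le_of_ne (Finset.sum_nonneg fun _ _ => mul_self_nonneg _) fun e => hu (dotProduct_self_eq_zero.1 e.symm)
  have sy : ∀ u v, Φ u v = Φ v u := fun u v => by simp only [hΦ, dotProduct_comm]
  have inv : ∀ i u v, Φ (ρ i u) (ρ i v) = Φ u v := fun i u v => by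
    simp only [hΦ, ← hφ, ← Module.End.mul_apply, ← map_mul]
    exact Equiv.sum_comp (Equiv.mulRight (s i)) fun w => φ w u ⬝ᵥ φ w v
  let c : S → ℝ := fun i => Φ (Pi.single i 1) (Pi.single i 1)
  have c0 : ∀ i, 0 < c i := fun i => pos _ fun e => by simpa using congrFun e i
  have key : ∀ i v, Φ (Pi.single i 1) v = c i / 2 * f i v := fun i v => by
    have := inv i (Pi.single i 1) v
    simp only [hρ, f2, map_sub, map_smul, LinearMap.sub_apply, LinearMap.smul_apply,
      smul_eq_mul] at this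
    simp only [c]
    linarith
  have cc : ∀ i j, B i j = 0 ∨ c i = c j := fun i j => by
    have := sy (Pi.single i 1) (Pi.single j 1)
    rw [key, key, hf', hf', Bs j i] at this
    rcases mul_eq_zero.1 (show B i j * (c i - c j) = 0 by linarith) with e | e
    exacts [.inl e, .inr (by linarith)]
  let u : S → ℝ := fun i => x i / √(c i)
  have hu : u ≠ 0 := fun e => hx (funext fun i => by
    simpa [u, (Real.sqrt_pos.2 (c0 i)).ne'] using congrFun e i)
  refine (pos u hu).trans_eq ?_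
  conv_lhs => enter [1, 2]; rw [pi_eq_sum_univ' u]
  rw [map_sum, LinearMap.sum_apply]
  refine Finset.sum_congr rfl fun i _ => ?_
  rw [map_smul, LinearMap.smul_apply, key, hf, smul_eq_mul, ← mul_assoc, Finset.mul_sum]
  refine Finset.sum_congr rfl fun j _ => ?_
  change _ = B i j * x i * x j
  rcases cc i j with e | e
  · simp [e]
  · have h1 := Real.mul_self_sqrt (c0 j).le
    have h2 := (Real.sqrt_pos.2 (c0 j)).ne'
    simp only [u, e]
    field_simp
    rw [Real.sq_sqrt (c0 j).le]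

/-- `feit_higman` for the rank two residue `BNU.res` (see its use in `Lib/BNU`). -/
theorem order_mem {G : Type*} [Group G] [Finite G] (P : BNPair G) {i j : P.S} (h : i ≠ j) :
    orderOf (sW P i * sW P j) ∈ ({2, 3, 4, 6, 8} : Set ℕ) := by
  have h0 : 0 < orderOf (sW P i * sW P j) := orderOf_pos _
  have h1 : orderOf (sW P i * sW P j) ≠ 1 := fun e => h (sW_injective P (by
    rw [orderOf_eq_one_iff, mul_eq_one_iff_eq_inv, (invGen P).inv] at e; exact e))
  by_cases h2 : orderOf (sW P i * sW P j) = 2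
  · exact .inl h2
  have hJ : ({i.1, j.1} : Set G) ⊆ P.S := by
    rintro _ (rfl | rfl)
    exacts [i.2, j.2]
  let i' : (Cfsg.Lib.BNU.res P hJ).S := ⟨⟨i, mem_parabolic_of_mem (.inl rfl)⟩, .inl rfl⟩
  let j' : (Cfsg.Lib.BNU.res P hJ).S := ⟨⟨j, mem_parabolic_of_mem (.inr rfl)⟩, .inr rfl⟩
  have e : orderOf (sW _ i' * sW _ j') = orderOf (sW P i * sW P j) :=
    orderOf_eq_orderOf_iff.2 fun k => by rw [pow_sW, pow_sW]; rfl
  have := feit_higman (Cfsg.Lib.BNU.res P hJ) (i := i') (j := j')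
    (fun k => k.2.imp (fun r => Subtype.ext (Subtype.ext r)) fun r => Subtype.ext (Subtype.ext r))
    (by omega)
  rw [e] at this
  exact .inr this

theorem pd_of_bn {G : Type*} [Group G] [Finite G] (P : BNPair G) [Fintype P.S]
    (hirr : P.Irreducible) : PD fun i j : P.S => orderOf (sW P i * sW P j) := by
  refine ⟨fun i j => ?_, fun i => by simp [sW_sq], fun i j h => order_mem P h, fun J h1 h2 => ?_,
    pos_of_finite (invGen P) (exchange P) (sW_injective P) fun i j h => order_mem P h⟩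
  · rw [← orderOf_inv (sW P i * sW P j), mul_inv_rev, (invGen P).inv, (invGen P).inv]
  · obtain ⟨_, ⟨i, hi, rfl⟩, t, ht, h⟩ := hirr (Subtype.val '' J) (by rintro _ ⟨i, -, rfl⟩; exact i.2)
      (h1.image _) (let ⟨j, hj⟩ := h2; ⟨j, j.2, by simpa using hj⟩)
    refine ⟨i, hi, ⟨t, ht.1⟩, fun r => ht.2 ⟨_, r, rfl⟩, fun e => h ?_⟩
    have h3 := pow_orderOf_eq_one (sW P i * sW P ⟨t, ht.1⟩)
    rw [e, pow_two, ← mul_assoc] at h3
    nth_rewrite 2 [← (invGen P).inv i, ← (invGen P).inv ⟨t, ht.1⟩] at h3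
    exact (toW_eq_one_iff P (mul_mem (mul_mem (mul_mem (P.subset i.2) (P.subset ht.1))
      (inv_mem (P.subset i.2))) (inv_mem (P.subset ht.1)))).1 h3

end Cfsg.Lib.TB
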