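import Cfsg.Agent.Lib.TB.CoxD

/-!
S1143 (docs/TB.md): the shape of a positive definite diagram.

`w i j = 2 cos (π / m i j)` for `i ≠ j` is `0` (`m = 2`), `1` (`m = 3`), `√2` (`m = 4`), and has square `≥ 3`
for `m = 6, 8`.  Forbidden configurations come from `PD.test`:
star `∑ⱼ w² < 4` (`y = 2` at the centre, `wⱼ` at the neighbours), cycles (`y = 1`), `D̃` (`1, 1, 2, …, 2, 1, 1`),
`B̃` (`1, 1, 2, …, 2, √2`), `C̃` (`1, √2, …, √2, 1`), `Ẽ₆`, `Ẽ₇`, `Ẽ₈`, `F̃₄` (`1, 2, 3, 2√2, √2`).
-/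

set_option autoImplicit false
set_option linter.unusedSectionVars false

namespace Cfsg.Lib.TB.PD

variable {S : Type*} [Fintype S] {m : S → S → ℕ} (h : PD m)
include h

/-- Extend `y` by zero; `2 Q (y) = ∑ᵢ yᵢ (2 yᵢ - ∑ⱼ w i j yⱼ) ≤ 0`. -/
theorem test {T : Type*} [Fintype T] {e : T → S} (he : Function.Injective e) (w : T → T → ℝ)
    (hw : ∀ s t, s ≠ t → w s t ≤ 2 * Real.cos (Real.pi / m (e s) (e t))) (hw' : ∀ t, w t t = 0)
    (y : T → ℝ) (hy : ∀ t, 0 ≤ y t) (hy' : y ≠ 0) (H : ∀ t, 2 * y t ≤ ∑ s, w t s * y s) : False := by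
  classical
  have hx : Function.extend e y 0 ≠ 0 := fun r => hy' (funext fun t => by
    rw [← he.extend_apply y 0 t, r]; rfl)
  have h1 := h.pos _ hx
  have key : ∀ φ : S → ℝ, (∀ i, i ∉ Set.range e → φ i = 0) → ∑ i, φ i = ∑ t, φ (e t) := fun φ k => by
    rw [← Finset.sum_image (s := Finset.univ) (g := e) fun _ _ _ _ r => he r]
    exact (Finset.sum_subset (Finset.subset_univ _) fun i _ hi => k i (by simpa using hi)).symm
  have z : ∀ i, i ∉ Set.range e → Function.extend e y 0 i = 0 := fun i hi =>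
    Function.extend_apply' _ _ _ hi
  rw [key _ fun i hi => by simp [z i hi]] at h1
  have h2 : ∀ t, ∑ j, -Real.cos (Real.pi / m (e t) j) * Function.extend e y 0 (e t) *
      Function.extend e y 0 j ≤ 0 := fun t => by
    rw [key _ fun i hi => by simp [z i hi]]
    simp only [he.extend_apply]
    have h3 : ∀ s, -Real.cos (Real.pi / m (e t) (e s)) * y t * y s ≤
        (if s = t then y t * y t else 0) - y t / 2 * (w t s * y s) := fun s => by
      split_ifs with r
      · subst r
        simp [h.diag, hw']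
      · have := hw t s (Ne.symm r)
        nlinarith [mul_nonneg (hy t) (hy s)]
    refine (Finset.sum_le_sum fun s _ => h3 s).trans ?_
    rw [Finset.sum_sub_distrib, ← Finset.mul_sum]
    simp only [Finset.sum_ite_eq', Finset.mem_univ, if_true]
    nlinarith [H t, hy t]
  exact absurd h1 (not_lt.2 (Finset.sum_nonpos fun t _ => h2 t))

omit h in
/-- The weights. -/
noncomputable def Wt (m : S → S → ℕ) (i j : S) : ℝ := 2 * Real.cos (Real.pi / m i j)

omit h in
/-- Adjacency. -/
def Adj (m : S → S → ℕ) (i j : S) : Prop := i ≠ j ∧ m i j ≠ 2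

theorem adj_symm {i j : S} (a : Adj m i j) : Adj m j i := ⟨a.1.symm, h.symm i j ▸ a.2⟩

theorem Wt_cases {i j : S} (hij : i ≠ j) : (m i j = 2 ∧ Wt m i j = 0) ∨ (m i j = 3 ∧ Wt m i j = 1) ∨
    (m i j = 4 ∧ Wt m i j = √2) ∨ ((m i j = 6 ∨ m i j = 8) ∧ √3 ≤ Wt m i j) := by
  unfold Wt
  rcases h.val i j hij with e | e | e | e | e <;> rw [e] <;> push_cast
  · simp
  · simp
  · refine .inr (.inr (.inl ⟨trivial, ?_⟩))
    rw [Real.cos_pi_div_four]; ring
  · refine .inr (.inr (.inr ⟨.inl trivial, ?_⟩))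
    rw [Real.cos_pi_div_six]; linarith
  · refine .inr (.inr (.inr ⟨.inr trivial, ?_⟩))
    rw [Real.cos_pi_div_eight]
    have := Real.sqrt_le_sqrt (show (3 : ℝ) ≤ 2 + √2 by have := Real.one_le_sqrt.2 (show (1 : ℝ) ≤ 2 by norm_num); linarith)
    linarith

omit h in
theorem sqrt_le : (1 : ℝ) ≤ √2 ∧ √2 ≤ √3 ∧ √2 * √2 = 2 ∧ √3 * √3 = 3 :=
  ⟨Real.one_le_sqrt.2 (by norm_num), Real.sqrt_le_sqrt (by norm_num),
    Real.mul_self_sqrt (by norm_num), Real.mul_self_sqrt (by norm_num)⟩

theorem Wt_nonneg {i j : S} (hij : i ≠ j) : 0 ≤ Wt m i j := by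
  have := sqrt_le
  rcases h.Wt_cases hij with e | e | e | e <;> linarith [e.2]

theorem one_le_Wt {i j : S} (a : Adj m i j) : 1 ≤ Wt m i j := by
  have := sqrt_le
  rcases h.Wt_cases a.1 with e | e | e | e
  · exact absurd e.1 a.2
  all_goals linarith [e.2]

theorem two_le_Wt {i j : S} (a : Adj m i j) (a' : m i j ≠ 3) : √2 ≤ Wt m i j := by
  have := sqrt_le
  rcases h.Wt_cases a.1 with e | e | e | e
  · exact absurd e.1 a.2
  · exact absurd e.1 a'
  all_goals linarith [e.2]

theorem three_le_Wt {i j : S} (a : Adj m i j) (a' : m i j ≠ 3) (a'' : m i j ≠ 4) :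
    √3 ≤ Wt m i j := by
  rcases h.Wt_cases a.1 with e | e | e | e
  exacts [absurd e.1 a.2, absurd e.1 a', absurd e.1 a'', e.2]

theorem Wt_symm (i j : S) : Wt m i j = Wt m j i := by rw [Wt, Wt, h.symm]

omit h in
/-- The local condition of the test. -/
def Ok (m : S → S → ℕ) (N : ℕ) (F : ℕ → S) (y : ℕ → ℝ) (t : ℕ) : Prop :=
  ∃ A : Finset ℕ, (∀ s ∈ A, s < N ∧ s ≠ t) ∧ 2 * y t ≤ ∑ s ∈ A, Wt m (F t) (F s) * y s

theorem testN {N : ℕ} {F : ℕ → S} (inj : ∀ i < N, ∀ j < N, F i = F j → i = j) (y : ℕ → ℝ)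
    (hy : ∀ t, 0 ≤ y t) {t₀ : ℕ} (h0 : t₀ < N) (h1 : y t₀ ≠ 0) (H : ∀ t < N, Ok m N F y t) :
    False := by
  refine h.test (T := Fin N) (e := fun t => F t) (fun s t e => Fin.ext (inj _ s.2 _ t.2 e))
    (fun s t => if s = t then 0 else Wt m (F s) (F t)) (fun s t r => by rw [if_neg r]; rfl)
    (fun t => if_pos rfl) (fun t => y t) (fun t => hy t) (fun r => h1 (congrFun r ⟨t₀, h0⟩)) fun t => ?_
  obtain ⟨A, h2, h3⟩ := H t t.2
  refine h3.trans ?_
  have e : ∑ s : Fin N, (if t = s then 0 else Wt m (F t) (F s)) * y s =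
      ∑ s ∈ Finset.range N, (if t.1 = s then 0 else Wt m (F t) (F s)) * y s := by
    rw [Finset.sum_range]
    simp only [Fin.ext_iff]
  rw [e, Finset.sum_congr rfl (g := fun s => (if t.1 = s then 0 else Wt m (F t) (F s)) * y s)
    fun s hs => by rw [if_neg (h2 s hs).2.symm]]
  refine Finset.sum_le_sum_of_subset_of_nonneg (fun s hs => Finset.mem_range.2 (h2 s hs).1)
    fun s hs _ => mul_nonneg ?_ (hy s)
  split_ifs with r
  exacts [le_rfl, h.Wt_nonneg fun e => r (inj _ t.2 _ (Finset.mem_range.1 hs) e)]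

section Ok

variable {N : ℕ} {F : ℕ → S} {y : ℕ → ℝ} {t : ℕ}

omit h

theorem ok0 (e : y t = 0) : Ok m N F y t := ⟨∅, by simp, by simp [e]⟩

theorem ok1 (a : ℕ) {u : ℝ} (k : a < N ∧ a ≠ t) (ka : u ≤ Wt m (F t) (F a)) (hy : ∀ t, 0 ≤ y t)
    (e : 2 * y t ≤ u * y a) : Ok m N F y t :=
  ⟨{a}, by simpa using k, by
    rw [Finset.sum_singleton]; nlinarith [hy a]⟩

theorem ok2 (a b : ℕ) {u v : ℝ} (k : a < N ∧ a ≠ t ∧ b < N ∧ b ≠ t ∧ a ≠ b)
    (ka : u ≤ Wt m (F t) (F a)) (kb : v ≤ Wt m (F t) (F b)) (hy : ∀ t, 0 ≤ y t)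
    (e : 2 * y t ≤ u * y a + v * y b) : Ok m N F y t :=
  ⟨{a, b}, by simp only [Finset.mem_insert, Finset.mem_singleton]; omega, by
    rw [Finset.sum_pair k.2.2.2.2]; nlinarith [hy a, hy b]⟩

theorem ok3 (a b c : ℕ) {u v w : ℝ}
    (k : a < N ∧ a ≠ t ∧ b < N ∧ b ≠ t ∧ c < N ∧ c ≠ t ∧ a ≠ b ∧ a ≠ c ∧ b ≠ c)
    (ka : u ≤ Wt m (F t) (F a)) (kb : v ≤ Wt m (F t) (F b)) (kc : w ≤ Wt m (F t) (F c))
    (hy : ∀ t, 0 ≤ y t) (e : 2 * y t ≤ u * y a + v * y b + w * y c) : Ok m N F y t :=
  ⟨{a, b, c}, by simp only [Finset.mem_insert, Finset.mem_singleton]; omega, by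
    rw [Finset.sum_insert (by simp only [Finset.mem_insert, Finset.mem_singleton]; omega),
      Finset.sum_pair k.2.2.2.2.2.2.2.2]
    nlinarith [hy a, hy b, hy c]⟩

theorem ok4 (a b c d : ℕ)
    (k : a < N ∧ a ≠ t ∧ b < N ∧ b ≠ t ∧ c < N ∧ c ≠ t ∧ d < N ∧ d ≠ t ∧ a ≠ b ∧ a ≠ c ∧ a ≠ d ∧
      b ≠ c ∧ b ≠ d ∧ c ≠ d)
    (ka : 1 ≤ Wt m (F t) (F a)) (kb : 1 ≤ Wt m (F t) (F b)) (kc : 1 ≤ Wt m (F t) (F c))
    (kd : 1 ≤ Wt m (F t) (F d)) (hy : ∀ t, 0 ≤ y t) (e : 2 * y t ≤ y a + y b + y c + y d) :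
    Ok m N F y t :=
  ⟨{a, b, c, d}, by simp only [Finset.mem_insert, Finset.mem_singleton]; omega, by
    rw [Finset.sum_insert (by simp only [Finset.mem_insert, Finset.mem_singleton]; omega),
      Finset.sum_insert (by simp only [Finset.mem_insert, Finset.mem_singleton]; omega),
      Finset.sum_pair k.2.2.2.2.2.2.2.2.2.2.2.2.2]
    nlinarith [hy a, hy b, hy c, hy d]⟩

end Ok

omit h in
/-- `F 0, …, F (n - 1)` is a path, followed by `k` further nodes. -/
structure Pa (m : S → S → ℕ) (n k : ℕ) (F : ℕ → S) : Prop where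
  inj : ∀ i < n + k, ∀ j < n + k, F i = F j → i = j
  adj : ∀ i, i + 1 < n → Adj m (F i) (F (i + 1))

section Pa

variable {n k : ℕ} {F : ℕ → S} (p : Pa m n k F)
include p

theorem up {i j : ℕ} (e : i + 1 = j ∧ j < n) : 1 ≤ Wt m (F i) (F j) := by
  obtain ⟨rfl, e⟩ := e
  exact h.one_le_Wt (p.adj i e)

theorem dn {i j : ℕ} (e : j + 1 = i ∧ i < n) : 1 ≤ Wt m (F i) (F j) := by
  rw [h.Wt_symm]; exact h.up p e

theorem rev : Pa m n k fun i => if i < n then F (n - 1 - i) else F i := by
  refine ⟨fun i hi j hj e => ?_, fun i hi => ?_⟩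
  · split_ifs at e <;> have := p.inj _ (by omega) _ (by omega) e <;> omega
  · rw [if_pos (by omega), if_pos hi, show n - 1 - i = n - 1 - (i + 1) + 1 by omega]
    exact h.adj_symm (p.adj _ (by omega))

theorem no_chord {i j : ℕ} (h1 : i + 1 < j) (h2 : j < n) (a : Adj m (F i) (F j)) : False := by
  have hy : ∀ t, (0 : ℝ) ≤ if i ≤ t ∧ t ≤ j then 1 else 0 := fun t => by split_ifs <;> norm_num
  refine h.testN p.inj _ hy (t₀ := i) (by omega) (by rw [if_pos (by omega)]; norm_num) fun t ht => ?_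
  by_cases e : i ≤ t ∧ t ≤ j
  swap
  · exact ok0 (if_neg e)
  by_cases e1 : t = i
  · subst e1
    refine ok2 (t + 1) j (by omega) (h.up p (by omega)) (h.one_le_Wt a) hy ?_
    split_ifs <;> first | omega | norm_num
  by_cases e2 : t = j
  · subst e2
    refine ok2 (t - 1) i (by omega) (h.dn p (by omega)) (h.one_le_Wt (h.adj_symm a)) hy ?_
    split_ifs <;> first | omega | norm_num
  · refine ok2 (t - 1) (t + 1) (by omega) (h.dn p (by omega)) (h.up p (by omega)) hy ?_
    split_ifs <;> first | omega | norm_num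

theorem no_two {i j : ℕ} (hk : 0 < k) (h1 : i < j) (h2 : j < n) (a : Adj m (F n) (F i))
    (a' : Adj m (F n) (F j)) : False := by
  have hy : ∀ t, (0 : ℝ) ≤ if i ≤ t ∧ t ≤ j ∨ t = n then 1 else 0 := fun t => by
    split_ifs <;> norm_num
  refine h.testN p.inj _ hy (t₀ := i) (by omega) (by rw [if_pos (by omega)]; norm_num) fun t ht => ?_
  by_cases e : i ≤ t ∧ t ≤ j ∨ t = n
  swap
  · exact ok0 (if_neg e)
  by_cases e0 : t = n
  · subst e0
    refine ok2 i j (by omega) (h.one_le_Wt a) (h.one_le_Wt a') hy ?_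
    split_ifs <;> first | omega | norm_num
  by_cases e1 : t = i
  · subst e1
    refine ok2 (t + 1) n (by omega) (h.up p (by omega)) (h.one_le_Wt (h.adj_symm a)) hy ?_
    split_ifs <;> first | omega | norm_num
  by_cases e2 : t = j
  · subst e2
    refine ok2 (t - 1) n (by omega) (h.dn p (by omega)) (h.one_le_Wt (h.adj_symm a')) hy ?_
    split_ifs <;> first | omega | norm_num
  · refine ok2 (t - 1) (t + 1) (by omega) (h.dn p (by omega)) (h.up p (by omega)) hy ?_
    split_ifs <;> first | omega | norm_num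

set_option maxHeartbeats 1000000 in
theorem no_E6 {c : ℕ} (hk : 1 < k) (h1 : 2 ≤ c) (h2 : c + 2 < n) (a : Adj m (F n) (F c))
    (a' : Adj m (F n) (F (n + 1))) : False := by
  have hy : ∀ t, (0 : ℝ) ≤ if t = c then 3 else if t + 1 = c ∨ t = c + 1 ∨ t = n then 2 else
      if t + 2 = c ∨ t = c + 2 ∨ t = n + 1 then 1 else 0 := fun t => by
    split_ifs <;> norm_num
  refine h.testN p.inj _ hy (t₀ := c) (by omega) (by rw [if_pos rfl]; norm_num) fun t ht => ?_
  by_cases e : t = c ∨ t + 1 = c ∨ t = c + 1 ∨ t = n ∨ t + 2 = c ∨ t = c + 2 ∨ t = n + 1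
  swap
  · exact ok0 (by split_ifs <;> first | omega | rfl)
  rcases e with e | e | e | e | e | e | e
  · subst e
    refine ok3 (t - 1) (t + 1) n (by omega) (h.dn p (by omega)) (h.up p (by omega))
      (h.one_le_Wt (h.adj_symm a)) hy ?_
    split_ifs <;> first | omega | norm_num
  · refine ok2 (t - 1) (t + 1) (by omega) (h.dn p (by omega)) (h.up p (by omega)) hy ?_
    split_ifs <;> first | omega | norm_num
  · refine ok2 (t - 1) (t + 1) (by omega) (h.dn p (by omega)) (h.up p (by omega)) hy ?_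
    split_ifs <;> first | omega | norm_num
  · subst e
    refine ok2 c (t + 1) (by omega) (h.one_le_Wt a) (h.one_le_Wt a') hy ?_
    split_ifs <;> first | omega | norm_num
  · refine ok1 (t + 1) (by omega) (h.up p (by omega)) hy ?_
    split_ifs <;> first | omega | norm_num
  · refine ok1 (t - 1) (by omega) (h.dn p (by omega)) hy ?_
    split_ifs <;> first | omega | norm_num
  · subst e
    refine ok1 n (by omega) (h.one_le_Wt (h.adj_symm a')) hy ?_
    split_ifs <;> first | omega | norm_num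

theorem no_D {c d : ℕ} (hk : 1 < k) (h1 : 0 < c) (h2 : c ≤ d) (h3 : d + 1 < n) {x x' : ℕ}
    (hx : x = n ∧ x' = n + 1 ∨ x = n + 1 ∧ x' = n) (a : Adj m (F x) (F c))
    (a' : Adj m (F x') (F d)) : False := by
  have hy : ∀ t, (0 : ℝ) ≤ if c ≤ t ∧ t ≤ d then 2 else
      if t + 1 = c ∨ t = d + 1 ∨ t = n ∨ t = n + 1 then 1 else 0 := fun t => by
    split_ifs <;> norm_num
  refine h.testN p.inj _ hy (t₀ := c) (by omega) (by rw [if_pos (by omega)]; norm_num) fun t ht => ?_
  by_cases e : (c ≤ t ∧ t ≤ d) ∨ t + 1 = c ∨ t = d + 1 ∨ t = x ∨ t = x'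
  swap
  · exact ok0 (by split_ifs <;> first | omega | rfl)
  rcases e with e | e | e | e | e
  · by_cases e1 : t = c
    · subst e1
      by_cases e2 : t = d
      · subst e2
        refine ok4 (t - 1) (t + 1) x x' (by omega) (h.dn p (by omega)) (h.up p (by omega))
          (h.one_le_Wt (h.adj_symm a)) (h.one_le_Wt (h.adj_symm a')) hy ?_
        split_ifs <;> first | omega | norm_num
      · refine ok3 (t - 1) (t + 1) x (by omega) (h.dn p (by omega)) (h.up p (by omega))
          (h.one_le_Wt (h.adj_symm a)) hy ?_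
        split_ifs <;> first | omega | norm_num
    by_cases e2 : t = d
    · subst e2
      refine ok3 (t - 1) (t + 1) x' (by omega) (h.dn p (by omega)) (h.up p (by omega))
        (h.one_le_Wt (h.adj_symm a')) hy ?_
      split_ifs <;> first | omega | norm_num
    · refine ok2 (t - 1) (t + 1) (by omega) (h.dn p (by omega)) (h.up p (by omega)) hy ?_
      split_ifs <;> first | omega | norm_num
  · refine ok1 (t + 1) (by omega) (h.up p (by omega)) hy ?_
    split_ifs <;> first | omega | norm_num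
  · refine ok1 (t - 1) (by omega) (h.dn p (by omega)) hy ?_
    split_ifs <;> first | omega | norm_num
  · subst e
    refine ok1 c (by omega) (h.one_le_Wt a) hy ?_
    split_ifs <;> first | omega | norm_num
  · subst e
    refine ok1 d (by omega) (h.one_le_Wt a') hy ?_
    split_ifs <;> first | omega | norm_num

theorem no_B3 {c : ℕ} (hk : 0 < k) (h1 : 0 < c) (h2 : c + 1 < n) (a : Adj m (F n) (F c)) :
    m (F n) (F c) = 3 := by
  by_contra a'
  obtain ⟨q1, -, q2, -⟩ := sqrt_le
  have hy : ∀ t, (0 : ℝ) ≤ if t = c then 2 else if t + 1 = c ∨ t = c + 1 then 1 else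
      if t = n then √2 else 0 := fun t => by
    split_ifs <;> norm_num
  refine h.testN p.inj _ hy (t₀ := c) (by omega) (by rw [if_pos rfl]; norm_num) fun t ht => ?_
  by_cases e : t = c ∨ t + 1 = c ∨ t = c + 1 ∨ t = n
  swap
  · exact ok0 (by split_ifs <;> first | omega | rfl)
  rcases e with e | e | e | e
  · subst e
    refine ok3 (t - 1) (t + 1) n (by omega) (h.dn p (by omega)) (h.up p (by omega))
      (h.Wt_symm _ _ ▸ h.two_le_Wt a a') hy ?_
    split_ifs <;> first | omega | linarith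
  · refine ok1 (t + 1) (by omega) (h.up p (by omega)) hy ?_
    split_ifs <;> first | omega | norm_num
  · refine ok1 (t - 1) (by omega) (h.dn p (by omega)) hy ?_
    split_ifs <;> first | omega | norm_num
  · subst e
    refine ok1 c (by omega) (h.two_le_Wt a a') hy ?_
    split_ifs <;> first | omega | linarith

theorem no_B {c d : ℕ} (hk : 0 < k) (h1 : 0 < c) (h2 : c ≤ d) (h3 : d + 1 < n)
    (a : Adj m (F n) (F c)) : m (F d) (F (d + 1)) = 3 := by
  by_contra a'
  have a2 := h.two_le_Wt (p.adj d h3) a'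
  obtain ⟨q1, -, q2, -⟩ := sqrt_le
  have hy : ∀ t, (0 : ℝ) ≤ if c ≤ t ∧ t ≤ d then 2 else if t + 1 = c ∨ t = n then 1 else
      if t = d + 1 then √2 else 0 := fun t => by
    split_ifs <;> norm_num
  refine h.testN p.inj _ hy (t₀ := c) (by omega) (by rw [if_pos (by omega)]; norm_num) fun t ht => ?_
  by_cases e : (c ≤ t ∧ t ≤ d) ∨ t + 1 = c ∨ t = d + 1 ∨ t = n
  swap
  · exact ok0 (by split_ifs <;> first | omega | rfl)
  rcases e with e | e | e | e
  · by_cases e1 : t = c
    · subst e1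
      by_cases e2 : t = d
      · subst e2
        refine ok3 (t - 1) (t + 1) n (by omega) (h.dn p (by omega)) a2
          (h.one_le_Wt (h.adj_symm a)) hy ?_
        split_ifs <;> first | omega | linarith
      · refine ok3 (t - 1) (t + 1) n (by omega) (h.dn p (by omega)) (h.up p (by omega))
          (h.one_le_Wt (h.adj_symm a)) hy ?_
        split_ifs <;> first | omega | norm_num
    by_cases e2 : t = d
    · subst e2
      refine ok2 (t - 1) (t + 1) (by omega) (h.dn p (by omega)) a2 hy ?_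
      split_ifs <;> first | omega | linarith
    · refine ok2 (t - 1) (t + 1) (by omega) (h.dn p (by omega)) (h.up p (by omega)) hy ?_
      split_ifs <;> first | omega | norm_num
  · refine ok1 (t + 1) (by omega) (h.up p (by omega)) hy ?_
    split_ifs <;> first | omega | norm_num
  · subst e
    refine ok1 d (by omega) (h.Wt_symm _ _ ▸ a2) hy ?_
    split_ifs <;> first | omega | linarith
  · subst e
    refine ok1 c (by omega) (h.one_le_Wt a) hy ?_
    split_ifs <;> first | omega | norm_num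

omit h in
theorem ext {x : S} (hx : ∀ i < n + k, F i ≠ x) : Pa m n (k + 1) (Function.update F (n + k) x) := by
  refine ⟨fun i hi j hj e => ?_, fun i hi => ?_⟩
  · simp only [Function.update_apply] at e
    split_ifs at e with e1 e2 e2
    · omega
    · exact absurd e.symm (hx j (by omega))
    · exact absurd e (hx i (by omega))
    · exact p.inj i (by omega) j (by omega) e
  · rw [Function.update_of_ne (by omega), Function.update_of_ne (by omega)]
    exact p.adj i hi

omit h in
theorem branch {c j : ℕ} (hc : c < n) (hj : j ≤ k) (a : Adj m (F c) (F n))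
    (a' : ∀ i, i + 1 < j → Adj m (F (n + i)) (F (n + i + 1))) :
    Pa m (c + 1 + j) 0 fun i => if i ≤ c then F i else F (n + (i - c - 1)) := by
  refine ⟨fun i hi i' hi' e => ?_, fun i hi => ?_⟩
  · split_ifs at e <;> have := p.inj _ (by omega) _ (by omega) e <;> omega
  · split_ifs with e1 e2
    · exact p.adj i (by omega)
    · rw [show i = c by omega, show n + (c + 1 - c - 1) = n by omega]; exact a
    · omega
    · rw [show n + (i + 1 - c - 1) = n + (i - c - 1) + 1 by omega]
      exact a' _ (by omega)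

end Pa

/-- Take a longest path `f : Fin n → S` (injective, consecutive nodes adjacent).  Non-consecutive nodes
are not adjacent (cycles).  A node `x` off the path adjacent to `f c` has `0 < c < n - 1` (maximality),
the three bonds at `f c` are single (star), `x` has no other neighbour (on the path: cycle; off the
path: by maximality both arms have length `≥ 2`, `Ẽ₆`), there is no second such `x'` (star, `D̃`), all
bonds of the path are single (`B̃`).  `conn`. -/
theorem shape : (∃ n, ∃ σ : Fin n ≃ S, ∀ i j, i ≠ j →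
      (m (σ i) (σ j) ≠ 2 ↔ i.val + 1 = j ∨ j.val + 1 = i)) ∨
    ∃ n, ∃ σ : Option (Fin n) ≃ S, ∃ c : Fin n, 0 < c.val ∧ c.val + 1 < n ∧
      (∀ i j, i ≠ j → m (σ (some i)) (σ (some j)) = if i.val + 1 = j ∨ j.val + 1 = i then 3 else 2) ∧
      ∀ i, m (σ none) (σ (some i)) = if i = c then 3 else 2 := by
  classical
  rcases isEmpty_or_nonempty S with hS | ⟨⟨s₀⟩⟩
  · exact .inl ⟨0, Equiv.equivOfIsEmpty _ _, fun i => i.elim0⟩
  obtain ⟨n, ⟨F, p⟩, n0, mx⟩ : ∃ n, (∃ F, Pa m n 0 F) ∧ 0 < n ∧ ∀ k F, Pa m k 0 F → k ≤ n := by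
    have b : ∀ k F, Pa m k 0 F → k ≤ Fintype.card S := fun k F p => by
      simpa using Fintype.card_le_of_injective (fun i : Fin k => F i)
        fun i j e => Fin.ext (p.inj _ i.2 _ j.2 e)
    have p1 : Pa m 1 0 fun _ => s₀ := ⟨fun i _ j _ _ => by omega, fun i _ => by omega⟩
    exact ⟨Nat.findGreatest (fun n => ∃ F, Pa m n 0 F) (Fintype.card S),
      Nat.findGreatest_spec (P := fun n => ∃ F, Pa m n 0 F) (b _ _ p1) ⟨_, p1⟩,
      Nat.le_findGreatest (P := fun n => ∃ F, Pa m n 0 F) (b _ _ p1) ⟨_, p1⟩,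
      fun k F p => Nat.le_findGreatest (b _ _ p) ⟨F, p⟩⟩
  have chord : ∀ {k F}, Pa m n k F → ∀ i j : Fin n, i ≠ j →
      (m (F i) (F j) ≠ 2 ↔ i.val + 1 = j ∨ j.val + 1 = i) := fun {k F} p i j hij => by
    have ne : F i ≠ F j := fun e => hij (Fin.ext (p.inj _ (by omega) _ (by omega) e))
    have hij' : i.val ≠ j := fun e => hij (Fin.ext e)
    refine ⟨fun e => by_contra fun r => ?_, ?_⟩
    · rcases lt_or_gt_of_ne hij' with q | q
      · exact h.no_chord p (by omega) j.2 ⟨ne, e⟩
      · exact h.no_chord p (by omega) i.2 (h.adj_symm ⟨ne, e⟩)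
    · rintro (e | e)
      · exact (e ▸ p.adj i (by omega) : Adj m (F i) (F j)).2
      · exact (h.adj_symm (e ▸ p.adj j (by omega) : Adj m (F j) (F i))).2
  by_cases hall : ∀ x, ∃ i < n, F i = x
  · refine .inl ⟨n, Equiv.ofBijective (fun i : Fin n => F i)
      ⟨fun i j e => Fin.ext (p.inj _ i.2 _ j.2 e), fun x => ?_⟩, chord p⟩
    obtain ⟨i, hi, e⟩ := hall x
    exact ⟨⟨i, hi⟩, e⟩
  -- branching
  have br : ∀ {k F c j}, Pa m n k F → c < n → j ≤ k → Adj m (F n) (F c) →
      (∀ i, i + 1 < j → Adj m (F (n + i)) (F (n + i + 1))) → j ≤ c ∧ c + j < n := by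
    intro k F c j p hc hj a a'
    have b1 := mx _ _ (branch p hc hj (h.adj_symm a) a')
    have b2 := mx _ _ (branch (h.rev p) (c := n - 1 - c) (by omega) hj (by
      simp only [if_pos (show n - 1 - c < n by omega), lt_irrefl, if_false,
        show n - 1 - (n - 1 - c) = c by omega]
      exact h.adj_symm a) fun i hi => by
        rw [if_neg (by omega), if_neg (by omega)]; exact a' i hi)
    omega
  push Not at hall
  obtain ⟨_, ⟨c, hc, rfl⟩, x, hx, a⟩ := h.conn {x | ∃ i < n, F i = x} ⟨_, 0, n0, rfl⟩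
    (let ⟨x, hx⟩ := hall; ⟨x, fun ⟨i, hi, e⟩ => hx i hi e⟩)
  have hx' : ∀ i < n + 0, F i ≠ x := fun i hi e => hx ⟨i, hi, e⟩
  obtain ⟨F, p, a⟩ : ∃ F, Pa m n 1 F ∧ Adj m (F n) (F c) := ⟨_, ext p hx', by
    rw [Nat.add_zero, Function.update_self, Function.update_of_ne hc.ne]
    exact h.adj_symm ⟨hx' c hc, a⟩⟩
  obtain ⟨c1, c2⟩ := br p hc le_rfl a fun i hi => by omega
  have hall : ∀ x, ∃ i < n + 1, F i = x := by
    by_contra hall
    push Not at hall
    obtain ⟨_, ⟨d, hd, rfl⟩, x, hx, a'⟩ := h.conn {x | ∃ i < n + 1, F i = x} ⟨_, 0, by omega, rfl⟩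
      (let ⟨x, hx⟩ := hall; ⟨x, fun ⟨i, hi, e⟩ => hx i hi e⟩)
    have hx' : ∀ i < n + 1, F i ≠ x := fun i hi e => hx ⟨i, hi, e⟩
    obtain ⟨F, p, a, a'⟩ : ∃ F, Pa m n 2 F ∧ Adj m (F n) (F c) ∧ Adj m (F (n + 1)) (F d) :=
      ⟨_, ext p hx', by
        rwa [Function.update_of_ne (by omega), Function.update_of_ne (by omega)], by
        rw [Function.update_self, Function.update_of_ne hd.ne]
        exact h.adj_symm ⟨hx' d hd, a'⟩⟩
    by_cases e : d = n
    · subst e
      obtain ⟨d1, d2⟩ := br p hc le_rfl a fun i hi => by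
        obtain rfl : i = 0 := by omega
        exact h.adj_symm a'
      exact h.no_E6 p (by omega) d1 d2 a (h.adj_symm a')
    · obtain ⟨d1, d2⟩ := br (c := d) (j := 1)
        (show Pa m n 1 (Function.update F n (F (n + 1))) from
          ext (k := 0) ⟨fun i hi j hj => p.inj i (by omega) j (by omega), p.adj⟩
            fun i hi r => by have := p.inj _ (by omega) _ (by omega) r; omega)
        (by omega) le_rfl (by rwa [Function.update_self, Function.update_of_ne e])
        fun i hi => by omega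
      rcases le_total c d with q | q
      · exact h.no_D p (by omega) c1 q d2 (.inl ⟨rfl, rfl⟩) a a'
      · exact h.no_D p (by omega) d1 q c2 (.inr ⟨rfl, rfl⟩) a' a
  have three : ∀ d, d + 1 < n → m (F d) (F (d + 1)) = 3 := fun d hd => by
    by_cases q : c ≤ d
    · exact h.no_B p one_pos c1 q hd a
    · have := h.no_B (h.rev p) (c := n - 1 - c) (d := n - 2 - d) one_pos (by omega) (by omega)
        (by omega) (by
          simp only [if_pos (show n - 1 - c < n by omega), lt_irrefl, if_false,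
            show n - 1 - (n - 1 - c) = c by omega]
          exact a)
      rwa [if_pos (by omega), if_pos (by omega), show n - 1 - (n - 2 - d) = d + 1 by omega,
        show n - 1 - (n - 2 - d + 1) = d by omega, h.symm] at this
  refine .inr ⟨n, Equiv.ofBijective (fun o : Option (Fin n) => o.elim (F n) fun i => F i)
    ⟨?_, fun x => ?_⟩, ⟨c, hc⟩, c1, c2, fun i j hij => ?_, fun i => ?_⟩
  · rintro (_ | i) (_ | j) e
    · rfl
    · have := p.inj _ (by omega) _ (by omega) e; omega
    · have := p.inj _ (by omega) _ (by omega) e; omega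
    · exact congrArg some (Fin.ext (p.inj _ (by omega) _ (by omega) e))
  · obtain ⟨i, hi, e⟩ := hall x
    by_cases q : i = n
    exacts [⟨none, q ▸ e⟩, ⟨some ⟨i, by omega⟩, e⟩]
  · change m (F i) (F j) = _
    split_ifs with q
    · rcases q with q | q
      · rw [← q]; exact three i (by omega)
      · rw [h.symm, ← q]; exact three j (by omega)
    · exact not_not.1 (mt (chord p i j hij).1 q)
  · change m (F n) (F i) = _
    split_ifs with q
    · rw [q]; exact h.no_B3 p one_pos c1 c2 a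
    · by_contra r
      have a' : Adj m (F n) (F i) := ⟨fun e => by have := p.inj _ (by omega) _ (by omega) e; omega, r⟩
      rcases lt_or_gt_of_ne (show i.val ≠ c from fun e => q (Fin.ext e)) with q' | q'
      · exact h.no_two p one_pos q' hc a' a
      · exact h.no_two p one_pos q' i.2 a a'

end Cfsg.Lib.TB.PD
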