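import Cfsg.Agent.Lib.TB.Cox2

/-!
S1143 (docs/TB.md): the list of diagrams (`A_A`, `A_B`, `A_D`, `RE6_A`, `RE7_A`, `RE8_A`, `RF4_A`).
-/

set_option autoImplicit false
set_option linter.unusedSectionVars false

namespace Cfsg.Lib.TB.PD

variable {S : Type*} [Fintype S] {m : S → S → ℕ} (h : PD m)
include h

open Cfsg.Lib.Chev RootSys

section Pa

variable {n k : ℕ} {F : ℕ → S} (p : Pa m n k F)
include p

theorem no_G {d : ℕ} (h1 : 0 < d) (h2 : d + 1 < n) :
    m (F d) (F (d + 1)) = 3 ∨ m (F d) (F (d + 1)) = 4 := by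
  by_contra a
  rw [not_or] at a
  have a2 := h.three_le_Wt (p.adj d h2) a.1 a.2
  obtain ⟨q1, q3, -, q2⟩ := sqrt_le
  have hy : ∀ t, (0 : ℝ) ≤ if t = d then 2 else if t + 1 = d then 1 else
      if t = d + 1 then √3 else 0 := fun t => by
    split_ifs <;> norm_num
  refine h.testN p.inj _ hy (t₀ := d) (by omega) (by rw [if_pos rfl]; norm_num) fun t ht => ?_
  by_cases e : t = d ∨ t + 1 = d ∨ t = d + 1
  swap
  · exact ok0 (by split_ifs <;> first | omega | rfl)
  rcases e with e | e | e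
  · subst e
    refine ok2 (t - 1) (t + 1) (by omega) (h.dn p (by omega)) a2 hy ?_
    split_ifs <;> first | omega | linarith
  · refine ok1 (t + 1) (by omega) (h.up p (by omega)) hy ?_
    split_ifs <;> first | omega | norm_num
  · subst e
    refine ok1 d (by omega) (h.Wt_symm _ _ ▸ a2) hy ?_
    split_ifs <;> first | omega | linarith

theorem no_C {c d : ℕ} (h1 : c < d) (h2 : d + 1 < n) (a : m (F c) (F (c + 1)) ≠ 3)
    (a' : m (F d) (F (d + 1)) ≠ 3) : False := by
  have a1 := h.two_le_Wt (p.adj c (by omega)) a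
  have a2 := h.two_le_Wt (p.adj d h2) a'
  obtain ⟨q1, -, q2, -⟩ := sqrt_le
  have hy : ∀ t, (0 : ℝ) ≤ if c < t ∧ t ≤ d then √2 else if t = c ∨ t = d + 1 then 1 else 0 :=
    fun t => by split_ifs <;> norm_num
  refine h.testN p.inj _ hy (t₀ := c) (by omega)
    (by rw [if_neg (by omega), if_pos (by omega)]; norm_num) fun t ht => ?_
  by_cases e : (c < t ∧ t ≤ d) ∨ t = c ∨ t = d + 1
  swap
  · exact ok0 (by split_ifs <;> first | omega | rfl)
  rcases e with e | e | e
  · by_cases e1 : t = c + 1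
    · subst e1
      by_cases e2 : c + 1 = d
      · subst e2
        refine ok2 c (c + 1 + 1) (by omega) (h.Wt_symm _ _ ▸ a1) a2 hy ?_
        split_ifs <;> first | omega | linarith
      · refine ok2 c (c + 1 + 1) (by omega) (h.Wt_symm _ _ ▸ a1) (h.up p (by omega)) hy ?_
        split_ifs <;> first | omega | linarith
    by_cases e2 : t = d
    · subst e2
      refine ok2 (t - 1) (t + 1) (by omega) (h.dn p (by omega)) a2 hy ?_
      split_ifs <;> first | omega | linarith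
    · refine ok2 (t - 1) (t + 1) (by omega) (h.dn p (by omega)) (h.up p (by omega)) hy ?_
      split_ifs <;> first | omega | linarith
  · subst e
    refine ok1 (t + 1) (by omega) a1 hy ?_
    split_ifs <;> first | omega | linarith
  · subst e
    refine ok1 d (by omega) (h.Wt_symm _ _ ▸ a2) hy ?_
    split_ifs <;> first | omega | linarith

theorem no_F {d : ℕ} (h1 : 2 ≤ d) (h2 : d + 2 < n) (a : m (F d) (F (d + 1)) ≠ 3) : False := by
  have a2 := h.two_le_Wt (p.adj d (by omega)) a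
  obtain ⟨q1, -, q2, -⟩ := sqrt_le
  have hy : ∀ t, (0 : ℝ) ≤ if t + 2 = d then 1 else if t + 1 = d then 2 else if t = d then 3 else
      if t = d + 1 then 2 * √2 else if t = d + 2 then √2 else 0 := fun t => by
    split_ifs <;> norm_num
  refine h.testN p.inj _ hy (t₀ := d - 2) (by omega) (by rw [if_pos (by omega)]; norm_num)
    fun t ht => ?_
  by_cases e : t + 2 = d ∨ t + 1 = d ∨ t = d ∨ t = d + 1 ∨ t = d + 2
  swap
  · exact ok0 (by split_ifs <;> first | omega | rfl)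
  rcases e with e | e | e | e | e
  · refine ok1 (t + 1) (by omega) (h.up p (by omega)) hy ?_
    split_ifs <;> first | omega | linarith
  · refine ok2 (t - 1) (t + 1) (by omega) (h.dn p (by omega)) (h.up p (by omega)) hy ?_
    split_ifs <;> first | omega | linarith
  · subst e
    refine ok2 (t - 1) (t + 1) (by omega) (h.dn p (by omega)) a2 hy ?_
    split_ifs <;> first | omega | linarith
  · subst e
    refine ok2 d (d + 1 + 1) (by omega) (h.Wt_symm _ _ ▸ a2) (h.up p (by omega)) hy ?_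
    split_ifs <;> first | omega | linarith
  · refine ok1 (t - 1) (by omega) (h.dn p (by omega)) hy ?_
    split_ifs <;> first | omega | linarith

theorem arm {c l r : ℕ} {y : ℕ → ℝ} (hk : 0 < k) (h0 : 0 < l) (h1 : l ≤ c) (h2 : c + r < n)
    (h3 : 0 < r) (a : Adj m (F n) (F c)) (hy : ∀ t, 0 ≤ y t) (y0 : y c ≠ 0)
    (y1 : ∀ t, t ≠ n → t + l < c ∨ c + r < t → y t = 0)
    (y2 : 2 * y c ≤ y (c - 1) + y (c + 1) + y n) (y3 : 2 * y n ≤ y c)
    (y4 : 2 * y (c - l) ≤ y (c - l + 1)) (y5 : 2 * y (c + r) ≤ y (c + r - 1))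
    (y6 : ∀ t, c < t + l → t < c + r → t ≠ c → 2 * y t ≤ y (t - 1) + y (t + 1)) : False := by
  refine h.testN p.inj _ hy (t₀ := c) (by omega) y0 fun t ht => ?_
  by_cases e1 : t = n
  · subst e1
    exact ok1 c (by omega) (h.one_le_Wt a) hy (by linarith)
  by_cases e2 : t + l < c ∨ c + r < t
  · exact ok0 (y1 t e1 e2)
  by_cases e3 : t = c
  · subst e3
    exact ok3 (t - 1) (t + 1) n (by omega) (h.dn p (by omega)) (h.up p (by omega))
      (h.one_le_Wt (h.adj_symm a)) hy (by linarith)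
  by_cases e4 : t = c - l
  · subst e4
    exact ok1 (c - l + 1) (by omega) (h.up p (by omega)) hy (by linarith)
  by_cases e5 : t = c + r
  · subst e5
    exact ok1 (c + r - 1) (by omega) (h.dn p (by omega)) hy (by linarith)
  · exact ok2 (t - 1) (t + 1) (by omega) (h.dn p (by omega)) (h.up p (by omega)) hy
      (by linarith [y6 t (by omega) (by omega) e3])

theorem arm' {c l r : ℕ} (y : ℕ → ℕ) (hk : 0 < k) (h0 : 0 < l) (h1 : l ≤ c) (h2 : c + r < n)
    (h3 : 0 < r) (a : Adj m (F n) (F c)) (y0 : y c ≠ 0)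
    (y1 : ∀ t, t ≠ n → t + l < c ∨ c + r < t → y t = 0)
    (y2 : 2 * y c ≤ y (c - 1) + y (c + 1) + y n) (y3 : 2 * y n ≤ y c)
    (y4 : 2 * y (c - l) ≤ y (c - l + 1)) (y5 : 2 * y (c + r) ≤ y (c + r - 1))
    (y6 : ∀ t, c < t + l → t < c + r → t ≠ c → 2 * y t ≤ y (t - 1) + y (t + 1)) : False :=
  h.arm p (y := fun t => (y t : ℝ)) hk h0 h1 h2 h3 a (fun _ => Nat.cast_nonneg _)
    (by exact_mod_cast y0) (fun t e e' => by exact_mod_cast y1 t e e') (by exact_mod_cast y2)
    (by exact_mod_cast y3) (by exact_mod_cast y4) (by exact_mod_cast y5)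
    fun t e e' e'' => by exact_mod_cast y6 t e e' e''

theorem no_E7 {c : ℕ} (hk : 0 < k) (h1 : 3 ≤ c) (h2 : c + 3 < n) (a : Adj m (F n) (F c)) : False := by
  refine h.arm' p (l := 3) (r := 3) (fun t => if t = n then 2 else if t ≤ c then t + 4 - c else c + 4 - t)
    hk (by omega) h1 h2 (by omega) a ?_ (fun t _ _ => ?_) ?_ ?_ ?_ ?_ fun t _ _ _ => ?_ <;>
  split_ifs <;> omega

theorem no_E8 {c : ℕ} (hk : 0 < k) (h1 : 2 ≤ c) (h2 : c + 5 < n) (a : Adj m (F n) (F c)) : False := by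
  refine h.arm' p (l := 2) (r := 5)
    (fun t => if t = n then 3 else if t ≤ c then 2 * t + 6 - 2 * c else c + 6 - t)
    hk (by omega) h1 h2 (by omega) a ?_ (fun t _ _ => ?_) ?_ ?_ ?_ ?_ fun t _ _ _ => ?_ <;>
  split_ifs <;> omega

end Pa

/-- No labels `6, 8` (star), at most one label `4` (`C̃`); if it is not at an end then `n = 4` (`F̃₄`).
Reverse the path if necessary (`Fin.revPerm`). -/
theorem path {n : ℕ} (hn : 3 ≤ n) (σ : Fin n ≃ S)
    (hσ : ∀ i j, i ≠ j → (m (σ i) (σ j) ≠ 2 ↔ i.val + 1 = j ∨ j.val + 1 = i)) : Ty m := by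
  obtain ⟨F, hF⟩ : ∃ F : ℕ → S, ∀ i : Fin n, F i = σ i :=
    ⟨fun i => if e : i < n then σ ⟨i, e⟩ else σ ⟨0, by omega⟩, fun i => dif_pos i.2⟩
  have p : Pa m n 0 F := by
    refine ⟨fun i hi j hj e => ?_, fun i hi => ?_⟩
    · rw [hF ⟨i, hi⟩, hF ⟨j, hj⟩] at e
      exact congrArg Fin.val (σ.injective e)
    · rw [hF ⟨i, by omega⟩, hF ⟨i + 1, hi⟩]
      have e : (⟨i, by omega⟩ : Fin n) ≠ ⟨i + 1, hi⟩ := by simp
      exact ⟨σ.injective.ne e, (hσ _ _ e).2 (.inl rfl)⟩
  have rv : ∀ d, d + 1 < n → m (if n - 2 - d < n then F (n - 1 - (n - 2 - d)) else F (n - 2 - d))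
      (if n - 2 - d + 1 < n then F (n - 1 - (n - 2 - d + 1)) else F (n - 2 - d + 1)) =
        m (F d) (F (d + 1)) := fun d hd => by
    rw [if_pos (by omega), if_pos (by omega), show n - 1 - (n - 2 - d) = d + 1 by omega,
      show n - 1 - (n - 2 - d + 1) = d by omega, h.symm]
  obtain ⟨d, hd, h3⟩ : ∃ d, (d + 1 < n → m (F d) (F (d + 1)) = 4 ∧ (d = 0 ∨ d + 2 = n ∨ n = 4)) ∧
      ∀ c, c + 1 < n → c ≠ d → m (F c) (F (c + 1)) = 3 := by
    by_cases e : ∀ c, c + 1 < n → m (F c) (F (c + 1)) = 3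
    · exact ⟨n, fun r => by omega, fun c hc _ => e c hc⟩
    push Not at e
    obtain ⟨d, h1, h2⟩ := e
    refine ⟨d, fun _ => ⟨?_, ?_⟩, fun c hc e => by_contra fun r => ?_⟩
    · by_cases e : 0 < d
      · exact (h.no_G p e h1).resolve_left h2
      · have := h.no_G (h.rev p) (d := n - 2 - d) (by omega) (by omega)
        rw [rv d h1] at this
        exact this.resolve_left h2
    · by_contra r
      by_cases e : 2 ≤ d
      · exact h.no_F p e (by omega) h2
      · exact h.no_F (h.rev p) (d := n - 2 - d) (by omega) (by omega) (by rwa [rv d h1])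
    · rcases lt_or_gt_of_ne e with q | q
      exacts [h.no_C p q h1 r h2, h.no_C p q hc h2 r]
  have hm : ∀ i j : Fin n, m (σ i) (σ j) = if i.val = j then 1 else
      if i.val + 1 = j ∨ j.val + 1 = i then (if i.val = d ∧ j.val = d + 1 ∨ j.val = d ∧ i.val = d + 1
        then 4 else 3) else 2 := fun i j => by
    split_ifs with e1 e2 e3
    · rw [Fin.ext e1, h.diag]
    · rcases e3 with e3 | e3
      · rw [← hF, ← hF, e3.1, e3.2]; exact (hd (by omega)).1
      · rw [h.symm, ← hF, ← hF, e3.1, e3.2]; exact (hd (by omega)).1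
    · rcases e2 with e2 | e2
      · rw [← hF, ← hF, ← e2]; exact h3 _ (by omega) (by omega)
      · rw [h.symm, ← hF, ← hF, ← e2]; exact h3 _ (by omega) (by omega)
    · exact not_not.1 (mt (hσ i j fun e => e1 (congrArg Fin.val e)).1 e2)
  by_cases e : d + 1 < n
  swap
  · refine .inl ⟨n, hn, σ, fun i j => ?_⟩
    rw [hm, A_A, A_A]
    simp only [Fin.ext_iff]
    split_ifs <;> first | omega | rfl
  by_cases e1 : d + 2 = n
  · refine .inr (.inl ⟨n, hn, σ, fun i j => ?_⟩)
    rw [hm, A_B, A_B]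
    simp only [Fin.ext_iff]
    split_ifs <;> first | omega | rfl
  by_cases e2 : d = 0
  · refine .inr (.inl ⟨n, hn, Fin.revPerm.trans σ, fun i j => ?_⟩)
    rw [Equiv.trans_apply, Equiv.trans_apply, hm, A_B, A_B]
    simp only [Fin.ext_iff, Fin.revPerm_apply, Fin.val_rev]
    split_ifs <;> first | omega | rfl
  obtain rfl : n = 4 := by have := (hd e).2; omega
  obtain rfl : d = 1 := by omega
  refine .inr (.inr (.inr (.inr (.inr (.inr ⟨σ, fun i j => ?_⟩)))))
  rw [hm, Twisted.RF4_A]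
  revert i j
  decide

omit h in
/-- The Coxeter matrix of a fork. -/
def fm (n c : ℕ) : Option (Fin n) → Option (Fin n) → ℕ
  | none, none => 1
  | none, some i => if i.val = c then 3 else 2
  | some i, none => if i.val = c then 3 else 2
  | some i, some j => if i.val = j then 1 else if i.val + 1 = j ∨ j.val + 1 = i then 3 else 2

omit h in
theorem fm_rev {n c : ℕ} (hc : c < n) (a b : Option (Fin n)) :
    fm n c (a.map Fin.rev) (b.map Fin.rev) = fm n (n - 1 - c) a b := by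
  rcases a with _ | i <;> rcases b with _ | j <;>
    simp only [Option.map, fm, Fin.val_rev] <;> split_ifs <;> omega

theorem fork' {n c : ℕ} (σ : Option (Fin n) ≃ S) (h0 : 0 < c) (h1 : c + 1 < n) (h2 : c + 2 = n ∨ c = 2)
    (hm : ∀ a b, m (σ a) (σ b) = fm n c a b) (h8 : ¬ (2 ≤ c ∧ c + 5 < n)) : Ty m := by
  by_cases e : c + 2 = n
  · obtain ⟨n, rfl⟩ : ∃ k, n = k + 3 := ⟨n - 3, by omega⟩
    refine .inr (.inr (.inl ⟨n, finSuccEquivLast.trans σ, fun i j => ?_⟩))
    rw [Equiv.trans_apply, Equiv.trans_apply, hm, A_D, A_D]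
    induction i using Fin.lastCases <;> induction j using Fin.lastCases <;>
      simp only [finSuccEquivLast_last, finSuccEquivLast_castSucc, fm, Fin.ext_iff, Fin.val_last,
        Fin.val_castSucc, and_true] <;> split_ifs <;> first | omega | rfl
  obtain rfl : c = 2 := by omega
  obtain rfl | rfl | rfl : n = 5 ∨ n = 6 ∨ n = 7 := by omega
  · refine .inr (.inr (.inr (.inl ⟨(finSuccEquiv' 1).trans σ, fun i j => ?_⟩)))
    rw [Equiv.trans_apply, Equiv.trans_apply, hm, RE6_A]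
    revert i j
    decide
  · refine .inr (.inr (.inr (.inr (.inl ⟨(finSuccEquiv' 1).trans σ, fun i j => ?_⟩))))
    rw [Equiv.trans_apply, Equiv.trans_apply, hm, RE7_A]
    revert i j
    decide
  · refine .inr (.inr (.inr (.inr (.inr (.inl ⟨(finSuccEquiv' 1).trans σ, fun i j => ?_⟩)))))
    rw [Equiv.trans_apply, Equiv.trans_apply, hm, RE8_A]
    revert i j
    decide

theorem fork_pa {n c : ℕ} (σ : Option (Fin n) ≃ S) (h1 : c < n)
    (hm : ∀ a b, m (σ a) (σ b) = fm n c a b) : ∃ F, Pa m n 1 F ∧ Adj m (F n) (F c) := by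
  refine ⟨fun i => if e : i < n then σ (some ⟨i, e⟩) else σ none, ⟨fun i hi j hj e => ?_,
    fun i hi => ?_⟩, ?_⟩
  · split_ifs at e <;> simp at e <;> omega
  · rw [dif_pos (by omega), dif_pos hi]
    exact ⟨by simp, by simp [hm, fm]⟩
  · simp only [lt_irrefl, dif_neg, not_false_iff, dif_pos h1]
    exact ⟨by simp, by simp [hm, fm]⟩

/-- The arms have lengths `1`, `c`, `n - 1 - c`; WLOG `n - 1 - c ≤ c` or the reverse.  One of length `1`:
`D_{n+1}` (`none ↦` the last node).  Otherwise `Ẽ₇` excludes `(3, 3)`, `Ẽ₈` excludes `(2, 5)`: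
`c = 2`, `n = 5, 6, 7`, the path is `0, 2, 3, 4, …` and `none ↦ 1`. -/
theorem fork {n : ℕ} (σ : Option (Fin n) ≃ S) (c : Fin n) (h0 : 0 < c.val) (h1 : c.val + 1 < n)
    (h2 : ∀ i j, i ≠ j → m (σ (some i)) (σ (some j)) = if i.val + 1 = j ∨ j.val + 1 = i then 3 else 2)
    (h3 : ∀ i, m (σ none) (σ (some i)) = if i = c then 3 else 2) : Ty m := by
  have hm : ∀ a b, m (σ a) (σ b) = fm n c a b := by
    rintro (_ | i) (_ | j)
    · exact h.diag _
    · simp only [h3, fm, Fin.ext_iff]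
    · rw [h.symm]; simp only [h3, fm, Fin.ext_iff]
    · by_cases e : i = j
      · simp [e, h.diag, fm]
      · rw [h2 i j e, fm, if_neg (fun r => e (Fin.ext r))]
  have hm' : ∀ a b, m (((Equiv.optionCongr Fin.revPerm).trans σ) a)
      (((Equiv.optionCongr Fin.revPerm).trans σ) b) = fm n (n - 1 - c) a b := fun a b => by
    rw [← fm_rev c.2, ← hm]; rfl
  obtain ⟨F, p, a⟩ := h.fork_pa σ c.2 hm
  obtain ⟨F', p', a'⟩ := h.fork_pa _ (by omega) hm'
  have e7 : ¬ (3 ≤ c.val ∧ c.val + 3 < n) := fun e => h.no_E7 p one_pos e.1 e.2 a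
  have e8 : ¬ (2 ≤ c.val ∧ c.val + 5 < n) := fun e => h.no_E8 p one_pos e.1 e.2 a
  have e8' : ¬ (2 ≤ n - 1 - c.val ∧ n - 1 - c.val + 5 < n) := fun e =>
    h.no_E8 p' one_pos e.1 e.2 a'
  by_cases e : c.val + 2 = n ∨ c.val = 2
  · exact h.fork' σ h0 h1 e hm e8
  · exact h.fork' _ (by omega) (by omega) (by omega) hm' e8'

theorem ty (h3 : 3 ≤ Fintype.card S) : Ty m := by
  rcases h.shape with ⟨n, σ, hσ⟩ | ⟨n, σ, c, h0, h1, h2, h3⟩
  · exact h.path (by rwa [← Fintype.card_congr σ, Fintype.card_fin] at h3) σ hσ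
  · exact h.fork σ c h0 h1 h2 h3

end Cfsg.Lib.TB.PD
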