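import Cfsg.Agent.Lib.TB.Def
import Cfsg.Prelude.Def_Classification2
import Cfsg.Agent.Lib.Twisted.F4
import Cfsg.Agent.Lib.Twisted.E6Data
import Cfsg.Agent.Lib.Chev.CertE7
import Cfsg.Agent.Lib.Chev.CertE8

/-!
S1143 (docs/TB.md): Coxeter diagrams, definitions.
-/

set_option autoImplicit false

noncomputable section

namespace Cfsg.Lib.TB

open Cfsg.Lib.BN Cfsg.Lib.Chev Cfsg.Lib.CharDeg.FH

/-- A connected positive definite Coxeter diagram with labels in `{2, 3, 4, 6, 8}`. -/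
structure PD {S : Type*} [Fintype S] (m : S → S → ℕ) : Prop where
  symm : ∀ i j, m i j = m j i
  diag : ∀ i, m i i = 1
  val : ∀ i j, i ≠ j → m i j = 2 ∨ m i j = 3 ∨ m i j = 4 ∨ m i j = 6 ∨ m i j = 8
  conn : ∀ J : Set S, J.Nonempty → Jᶜ.Nonempty → ∃ i ∈ J, ∃ j ∉ J, m i j ≠ 2
  pos : ∀ x : S → ℝ, x ≠ 0 → 0 < ∑ i, ∑ j, -Real.cos (Real.pi / m i j) * x i * x j

/-- The diagram is that of `R`; `LabW s R σ` is `Lab (fun i j => orderOf (s i * s j)) R σ`. -/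
def Lab {ι Φ : Type} [Fintype ι] [DecidableEq ι] {S : Type*} (m : S → S → ℕ) (R : RootSys ι Φ)
    (σ : ι ≃ S) : Prop :=
  ∀ i j, m (σ i) (σ j) = RootSys.bondOrder (R.A i j * R.A j i)

/-- `E₇` with literal index types. -/
def RE7 : RootSys (Fin 7) (Fin 126) := checkedE7.R

/-- `E₈` with literal index types. -/
def RE8 : RootSys (Fin 8) (Fin 240) := checkedE8.R

theorem RE6_A : Twisted.RE6.A = ![![2, 0, -1, 0, 0, 0], ![0, 2, 0, -1, 0, 0], ![-1, 0, 2, -1, 0, 0],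
    ![0, -1, -1, 2, -1, 0], ![0, 0, 0, -1, 2, -1], ![0, 0, 0, 0, -1, 2]] := by
  change (fun i j : Fin 6 => AN Lie.chevE6 i j) = _
  decide +kernel

theorem RE7_A : RE7.A = ![![2, 0, -1, 0, 0, 0, 0], ![0, 2, 0, -1, 0, 0, 0], ![-1, 0, 2, -1, 0, 0, 0],
    ![0, -1, -1, 2, -1, 0, 0], ![0, 0, 0, -1, 2, -1, 0], ![0, 0, 0, 0, -1, 2, -1],
    ![0, 0, 0, 0, 0, -1, 2]] := by
  change (fun i j : Fin 7 => AN Lie.chevE7 i j) = _
  decide +kernel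

theorem RE8_A : RE8.A = ![![2, 0, -1, 0, 0, 0, 0, 0], ![0, 2, 0, -1, 0, 0, 0, 0],
    ![-1, 0, 2, -1, 0, 0, 0, 0], ![0, -1, -1, 2, -1, 0, 0, 0], ![0, 0, 0, -1, 2, -1, 0, 0],
    ![0, 0, 0, 0, -1, 2, -1, 0], ![0, 0, 0, 0, 0, -1, 2, -1], ![0, 0, 0, 0, 0, 0, -1, 2]] := by
  change (fun i j : Fin 8 => AN Lie.chevE8 i j) = _
  decide +kernel

/-- The list of diagrams. -/
def Ty {S : Type*} (m : S → S → ℕ) : Prop :=
  (∃ n, 3 ≤ n ∧ ∃ σ, Lab m (rootA n) σ) ∨ (∃ n, 3 ≤ n ∧ ∃ σ, Lab m (rootB n) σ) ∨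
    (∃ n, ∃ σ, Lab m (rootD (n := n + 4) (by omega)) σ) ∨ (∃ σ, Lab m Twisted.RE6 σ) ∨
    (∃ σ, Lab m RE7 σ) ∨ (∃ σ, Lab m RE8 σ) ∨ ∃ σ, Lab m Twisted.RF4 σ

/-- The panel parameters of a BN-pair. -/
def qv {G : Type*} [Group G] (P : BNPair G) (s : P.S) : ℕ :=
  {d | Pos P (sW P s) ((1 : G) : G ⧸ P.B) d}.ncard

/-- The conclusion of the theorem. -/
def Tgt (G : Type*) [Group G] : Prop :=
  IsPSL G ∨ IsPSp G ∨ IsPSU G ∨ IsPOmegaOdd G ∨ IsPOmegaPlus G ∨ IsPOmegaMinus G ∨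
    IsExceptionalLieType G

/-- There is a simple group of Lie type with a frame of type `R` and parameters `q`. -/
def Mod {ι Φ : Type} [Fintype ι] [DecidableEq ι] (R : RootSys ι Φ) (q : ι → ℕ) : Prop :=
  ∃ (M : Type) (_ : Group M) (_ : Finite M) (_ : IsSimpleGroup M), Tgt M ∧ HasFr M R q

/-- The parameters for `B_n`. -/
def qB (n x y : ℕ) (i : Fin n) : ℕ := if i.val + 1 = n then y else x

end Cfsg.Lib.TB
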