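import Cfsg.Agent.Lib.BNU.Weyl
import Cfsg.Agent.Lib.St.Tits
import Cfsg.Agent.Lib.Chev.CT
import Cfsg.Agent.Lib.Chev.RootComb
import Cfsg.Agent.Lib.Chev.ClTypes

/-!
Tits' theorem on finite BN-pairs of rank at least three (S1143): definitions.  See `docs/TB.md`.

`Fr G R`: a saturated, faithful BN-pair whose Weyl group is identified with the Weyl group `R.W` of a
root system.  Chambers `X = G ⧸ B`, the apartment `ch w`, half-apartments `hf R r`, and the
*intrinsic* root groups `U r` (everything trivial on the panels interior to `hf R r`).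
-/

set_option autoImplicit false

noncomputable section

namespace Cfsg.Lib.TB

open Cfsg.Lib.BN Cfsg.Lib.Chev Cfsg.Lib.CharDeg.FH Matrix
open scoped MatrixGroups commutatorElement

variable {ι Φ : Type} [Fintype ι] [DecidableEq ι]

/-- Single bond. -/
def Sb (R : RootSys ι Φ) (i j : ι) : Prop := R.A i j = -1 ∧ R.A j i = -1

/-- Double bond. -/
def Db (R : RootSys ι Φ) (i j : ι) : Prop := R.A i j * R.A j i = 2

/-- Simply laced. -/
def Lac (R : RootSys ι Φ) : Prop := ∀ i j, i ≠ j → R.A i j = 0 ∨ Sb R i j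

/-- The properties of the diagrams `A_n, B_n, D_n, E_n, F₄` of rank at least three that are used. -/
structure Good (R : RootSys ι Φ) : Prop where
  conn : R.Conn
  three : 3 ≤ Fintype.card ι
  cases : ∀ i j, i ≠ j → R.A i j = 0 ∨ Sb R i j ∨ Db R i j
  tri : ∀ i j, Db R i j → ∃ u, (Sb R u i ∧ R.A u j = 0) ∨ (Sb R u j ∧ R.A u i = 0)

/-- A system of involutions has the diagram of `R`. -/
def LabW {S W : Type*} [Group W] (s : S → W) (R : RootSys ι Φ) (σ : ι ≃ S) : Prop :=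
  ∀ i j, orderOf (s (σ i) * s (σ j)) = RootSys.bondOrder (R.A i j * R.A j i)

/-- The half-apartment of the root `r`. -/
def hf (R : RootSys ι Φ) (r : Φ) : Set R.W := {w | R.IsPos ((w⁻¹ : R.W).1 r)}

/-- `k` lies in the open cone spanned by `r` and `s`. -/
def Cone (R : RootSys ι Φ) (r s k : Φ) : Prop :=
  ∃ m i j : ℤ, 0 < m ∧ 0 < i ∧ 0 < j ∧ m • R.α k = i • R.α r + j • R.α s

/-- The standard parabolic subgroup of the Weyl group. -/
abbrev WJ (R : RootSys ι Φ) (J : Set ι) : Subgroup R.W := Cfsg.Lib.St.WJ R.sW J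

/-- The minimal representatives of the cosets `W_J w`. -/
def DJ (R : RootSys ι Φ) (J : Set ι) : Set R.W := {w | ∀ i ∈ J, w ∈ hf R (R.simple i)}

/-- The longest element of `W_J`. -/
def lg (R : RootSys ι Φ) [Fintype Φ] (J : Set ι) : R.W :=
  (Cfsg.Lib.St.exists_longest R.invGen R.exchange J).choose

/-- The six roots of a single bond `a - b`; `rt i j` is "`εᵢ - εⱼ`". -/
def rt (R : RootSys ι Φ) (a b : ι) : Fin 3 → Fin 3 → Φ :=
  ![![R.simple a, R.simple a, R.sref a (R.simple b)],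
    ![R.neg (R.simple a), R.simple a, R.simple b],
    ![R.neg (R.sref a (R.simple b)), R.neg (R.simple b), R.simple a]]

/-- The elementary matrices of `SL₃`. -/
def xe {K : Type*} [Field K] (i j : Fin 3) (t : K) : SL(3, K) :=
  if h : i ≠ j then SpecialLinearGroup.transvection h t else 1

/-- The monomial matrices `w_ij(t)` of `SL₃`. -/
def we {K : Type*} [Field K] (i j : Fin 3) (t : K) : SL(3, K) := xe i j t * xe j i (-t⁻¹) * xe i j t

/-- An additive parametrization of a subgroup by a field. -/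
structure Par {G K : Type*} [Group G] [Field K] (A : Subgroup G) (p : K → G) : Prop where
  add : ∀ s t, p (s + t) = p s * p t
  inj : Function.Injective p
  mem : ∀ g, g ∈ A ↔ ∃ t, p t = g

/-- A saturated faithful BN-pair with Weyl group `R.W`. -/
structure Fr (G : Type*) [Group G] (R : RootSys ι Φ) where
  P : BNPair G
  σ : ι ≃ P.S
  e : R.W ≃* Weyl P
  he : ∀ i, e (R.sW i) = sW P (σ i)
  sat : ∀ g : G, (∀ n ∈ P.N, g • (n : G ⧸ P.B) = n) → g ∈ P.N
  core : ∀ g : G, (∀ c : G ⧸ P.B, g • c = c) → g = 1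

namespace Fr

variable {G : Type*} [Group G] {R : RootSys ι Φ} (F : Fr G R)

/-- Chambers. -/
abbrev X : Type _ := G ⧸ F.P.B

/-- Weyl distance. -/
def D (w : R.W) (c d : F.X) : Prop := Pos F.P (F.e w) c d

/-- `i`-adjacent (and distinct). -/
def Ad (i : ι) (c d : F.X) : Prop := F.D (R.sW i) c d

/-- Same `J`-residue. -/
def Rs (J : Set ι) (c d : F.X) : Prop := ∃ w ∈ WJ R J, F.D w c d

/-- `g ∈ N` lies over `w`. -/
def Ov (g : G) (w : R.W) : Prop := ∃ hg : g ∈ F.P.N, toW F.P hg = F.e w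

/-- The distinguished elements of `N`. -/
def n (i : ι) : G := F.σ i

/-- A representative of `w` in `N`. -/
def nr (w : R.W) : G := (exists_toW F.P (F.e w)).choose

/-- The chambers of the apartment. -/
def ch (w : R.W) : F.X := (F.nr w : G ⧸ F.P.B)

/-- The panel parameters. -/
def q (i : ι) : ℕ := {d | F.Ad i (F.ch 1) d}.ncard

/-- The pointwise stabilizer of a set of chambers. -/
def Fix (A : Set F.X) : Subgroup G := ⨅ c ∈ A, MulAction.stabilizer G c

/-- The pointwise stabilizer of a set of chambers of the apartment. -/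
def Fx (A : Set R.W) : Subgroup G := F.Fix (F.ch '' A)

/-- The pointwise stabilizer of the apartment (`= B ⊓ N`). -/
def H : Subgroup G := F.Fx Set.univ

/-- Trivial on the `i`-panel of `c`. -/
def Tr (c : F.X) (i : ι) : Subgroup G := F.Fix {d | d = c ∨ F.Ad i c d}

/-- Trivial on the `J`-residue of `c`. -/
def TrJ (J : Set ι) (c : F.X) : Subgroup G := F.Fix {d | F.Rs J c d}

/-- The standard parabolic subgroup. -/
def PJ (J : Set ι) : Subgroup G := F.P.parabolic (F.n '' J)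

/-- The Levi complement: the stabilizer of the `J`-residue of `ch 1` and of the opposite one. -/
def LJ (J : Set ι) : Subgroup G := F.Fx (DJ R J) ⊔ Subgroup.closure (F.n '' J)

/-- The root group: trivial on all panels interior to the half-apartment. -/
def U (r : Φ) : Subgroup G := ⨅ (w ∈ hf R r) (i : ι) (_ : w * R.sW i ∈ hf R r), F.Tr (F.ch w) i

/-- The local version of `U`, in the `J`-residue of `ch 1`. -/
def Ul (J : Set ι) (r : Φ) : Subgroup G :=
  ⨅ (w ∈ WJ R J) (_ : w ∈ hf R r) (i ∈ J) (_ : w * R.sW i ∈ hf R r), F.Tr (F.ch w) i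

/-- The Moufang condition for the root `r`. -/
def Mf (r : Φ) : Prop := ∀ y ∈ F.Fx (hf R r), ∃ u ∈ F.U r, u⁻¹ * y ∈ F.H

/-- The Moufang condition. -/
def Mo : Prop := ∀ r, F.Mf r

/-- The subgroup generated by the root groups of `± αᵢ`, `i ∈ J`. -/
def GJ (J : Set ι) : Subgroup G := ⨆ i ∈ J, F.U (R.simple i) ⊔ F.U (R.neg (R.simple i))

/-- The subgroup generated by the root groups of a set of roots. -/
def US (A : Set Φ) : Subgroup G := ⨆ k ∈ A, F.U k

/-- Elations with centre the `b`-panel of `c`, in the `{a, b}`-residue (a projective plane). -/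
def El (c : F.X) (a b : ι) : Set G :=
  {g | g ∈ F.Tr c b ∧ ∀ d, F.Ad a c d → g • d = d → g ∈ F.Tr c a}

/-- Some element of `B ⊓ L_J` is trivial on the `t`-panel but not on the `J`-residue. -/
def NT (J : Set ι) (t : ι) : Prop :=
  ∃ y ∈ F.Fx (DJ R J), y ∈ F.Tr (F.ch 1) t ∧ y ∉ F.TrJ J (F.ch 1)

/-- For a double bond `a = b`: the two root groups of type `a` in `U_{ab}` commute. -/
def Ab (a b : ι) : Prop :=
  ∀ x ∈ F.U (R.simple a), ∀ y ∈ F.U (R.sref b (R.simple a)), Commute x y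

/-- A standard pair of parametrizations of `U (± αᵢ)`. -/
structure Std {K : Type*} [Field K] (i : ι) (p m : K → G) : Prop where
  hp : Par (F.U (R.simple i)) p
  hm : Par (F.U (R.neg (R.simple i))) m
  ov : ∀ t, t ≠ 0 → F.Ov (p t * m (-t⁻¹) * p t) (R.sW i)

/-- A homomorphism from `SL₃(K)` that parametrizes the six root groups of the bond `a - b`. -/
def A2 {K : Type*} [Field K] (a b : ι) (ψ : SL(3, K) →* G) : Prop :=
  ∀ i j, i ≠ j → Par (F.U (rt R a b i j)) fun t => ψ (xe i j t)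

/-- Coordinates for the projective plane of a single bond, with respect to a subgroup `L`. -/
structure Crd (a b : ι) (L : Subgroup G) (K : Type) [Field K] where
  pt : F.X → Projectivization K (Fin 3 → K)
  ln : F.X → Submodule K (Fin 3 → K)
  rk : ∀ c, Module.finrank K (ln c) = 2
  inc : ∀ c, F.Rs {a, b} (F.ch 1) c → (pt c).submodule ≤ ln c
  inj : ∀ c d, F.Rs {a, b} (F.ch 1) c → F.Rs {a, b} (F.ch 1) d → pt c = pt d → ln c = ln d → c = d
  surj : ∀ (p : Projectivization K (Fin 3 → K)) (l : Submodule K (Fin 3 → K)),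
    Module.finrank K l = 2 → p.submodule ≤ l → ∃ c, F.Rs {a, b} (F.ch 1) c ∧ pt c = p ∧ ln c = l
  ada : ∀ c d, F.Rs {a, b} (F.ch 1) c →
    (F.Ad a c d ↔ F.Rs {a, b} (F.ch 1) d ∧ ln d = ln c ∧ d ≠ c)
  adb : ∀ c d, F.Rs {a, b} (F.ch 1) c →
    (F.Ad b c d ↔ F.Rs {a, b} (F.ch 1) d ∧ pt d = pt c ∧ d ≠ c)
  sl : ∀ A : SL(3, K), ∃ g ∈ L, ∀ c, F.Rs {a, b} (F.ch 1) c → pt (g • c) = A • pt c
  nrm : ∀ l ∈ L, ∀ g ∈ L, ∀ A : SL(3, K), (∀ c, F.Rs {a, b} (F.ch 1) c → pt (g • c) = A • pt c) →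
    ∃ A' : SL(3, K), ∀ c, F.Rs {a, b} (F.ch 1) c → pt ((l * g * l⁻¹) • c) = A' • pt c
  std0 : (pt (F.ch 1)).submodule = K ∙ Pi.single 0 1
  std1 : (pt (F.ch (R.sW a))).submodule = K ∙ Pi.single 1 1
  std2 : (pt (F.ch (R.sW b * R.sW a))).submodule = K ∙ Pi.single 2 1

/-- The group theoretic content of the coordinates: `(g, A) ∈ Rel` if `g ∈ L` acts on the plane
as `A`. -/
structure PlD (a b : ι) (L : Subgroup G) (K : Type) [Field K] where
  Rel : Subgroup (G × SL(3, K))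
  mem : ∀ {g A}, (g, A) ∈ Rel → g ∈ L
  surj : ∀ A, ∃ g, (g, A) ∈ Rel
  ker : ∀ {g A}, (g, A) ∈ Rel → (g ∈ F.TrJ {a, b} (F.ch 1) ↔ A ∈ Subgroup.center SL(3, K))
  ker' : ∀ g ∈ L, g ∈ F.TrJ {a, b} (F.ch 1) → (g, 1) ∈ Rel
  nrm : ∀ l ∈ L, ∀ {g A}, (g, A) ∈ Rel → ∃ A', (l * g * l⁻¹, A') ∈ Rel
  root : ∀ i j, i ≠ j → ∀ g ∈ L, (∃ t, (g, xe i j t) ∈ Rel) ↔ g ∈ F.Ul {a, b} (rt R a b i j)
  upper : ∀ {g A}, (g, A) ∈ Rel → A 1 0 = 0 → A 2 0 = 0 → A 2 1 = 0 → g • F.ch 1 = F.ch 1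
  card : Nat.card K = F.q a
  trans : ∀ d, F.Ad b (F.ch (R.sW a)) d →
    ∃ t, ∀ g, (g, xe 0 2 t) ∈ Rel → g • F.ch (R.sW a * R.sW b) = d
  el : ∀ {g s t}, (g, xe 0 2 s * xe 1 2 t) ∈ Rel →
    g ∈ F.Tr (F.ch 1) a ∧ ∃ z, (z = F.ch 1 ∨ F.Ad a (F.ch 1) z) ∧ g ∈ F.Tr z b
  nsub : ∀ N : Subgroup G, N ≤ L → (∀ g ∈ N, g • F.ch 1 = F.ch 1) →
    (∀ l ∈ L, l • F.ch 1 = F.ch 1 → ∀ g ∈ N, l * g * l⁻¹ ∈ N) → ¬ N ≤ F.TrJ {a, b} (F.ch 1) →
    ∀ t, ∃ y ∈ N, (y, xe 0 2 t) ∈ Rel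
  metab : ∀ g₁ ∈ L ⊓ F.Fx {1, R.sW a}, ∀ g₂ ∈ L ⊓ F.Fx {1, R.sW a}, ∀ g₃ ∈ L ⊓ F.Fx {1, R.sW a},
    ∀ g₄ ∈ L ⊓ F.Fx {1, R.sW a}, ⁅⁅g₁, g₂⁆, ⁅g₃, g₄⁆⁆ ∈ F.Tr (F.ch 1) a

end Fr

section
variable {G G' : Type*} [Group G] [Group G']

/-- `Z` lies in `A × A'` and projects onto both factors. -/
structure Gr (Z : Subgroup (G × G')) (A : Subgroup G) (A' : Subgroup G') : Prop where
  le : ∀ z ∈ Z, z.1 ∈ A ∧ z.2 ∈ A'
  left : ∀ a ∈ A, ∃ a', (a, a') ∈ Z
  right : ∀ a' ∈ A', ∃ a, (a, a') ∈ Z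

/-- `D` is a graph modulo the subgroups `H`, `H'`. -/
def Loc (H : Subgroup G) (H' : Subgroup G') (D : Subgroup (G × G')) : Prop :=
  ∀ z ∈ D, (z.2 = 1 → z.1 ∈ H) ∧ (z.1 = 1 → z.2 ∈ H')

variable {R : RootSys ι Φ}

/-- Graphs for the root groups of `± αᵢ`. -/
structure Gr2 (F : Fr G R) (F' : Fr G' R) (i : ι) (Z : Subgroup (G × G') × Subgroup (G × G')) :
    Prop where
  pos : Gr Z.1 (F.U (R.simple i)) (F'.U (R.simple i))
  neg : Gr Z.2 (F.U (R.neg (R.simple i))) (F'.U (R.neg (R.simple i)))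

/-- Compatible graphs for two nodes. -/
def Loc2 (F : Fr G R) (F' : Fr G' R) (Z Z' : Subgroup (G × G') × Subgroup (G × G')) : Prop :=
  Loc F.H F'.H (Z.1 ⊔ Z.2 ⊔ (Z'.1 ⊔ Z'.2))

/-- `G` has a frame of type `R` with the panel parameters `q`. -/
def HasFr (G : Type*) [Group G] (R : RootSys ι Φ) (q : ι → ℕ) : Prop := ∃ F : Fr G R, ∀ i, F.q i = q i

end

/-- A finite generalized quadrangle of order `(s, t)`. -/
structure GQ (P L : Type*) where
  I : P → L → Prop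
  s : ℕ
  t : ℕ
  uniq : ∀ {p q l m}, I p l → I q l → I p m → I q m → p = q ∨ l = m
  proj : ∀ p l, ¬ I p l → ∃! x : P × L, I p x.2 ∧ I x.1 x.2 ∧ I x.1 l
  cardL : ∀ l, {p | I p l}.ncard = s + 1
  cardP : ∀ p, {l | I p l}.ncard = t + 1

end Cfsg.Lib.TB
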