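import Cfsg.Agent.Lib.TB.ModT

/-!
S1143 (docs/TB.md): the end of the proof.
-/

set_option autoImplicit false

namespace Cfsg.Lib.TB

open Cfsg.Lib.BN Cfsg.Lib.Chev Cfsg.Lib.Twisted

theorem pow_ne_pow {q a b : ℕ} (hq : 2 ≤ q) (h : a ≠ b) : q ^ a ≠ q ^ b :=
  fun e => h (Nat.pow_right_injective hq e)

theorem Alw.iff {q r : ℕ} {ab ab' : Prop} (h : Alw q r ab) (h' : Alw q r ab') (hq : 2 ≤ q)
    (hr : r ≠ q ∨ Even q) : ab ↔ ab' := by
  have key : ∀ {ab ab' : Prop}, Alw q r ab → Alw q r ab' → ab → ab' := by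
    intro ab ab' h h' hab
    have h1 : r = q ∨ r = q ^ 2 := by
      rcases h with h | h | h | ⟨q₀, -, h, -⟩
      exacts [.inl h.1, .inr h.1, absurd hab h.2.1, absurd hab h]
    rcases h' with h' | h' | ⟨h2, -, h3⟩ | ⟨q₀, rfl, -, h2⟩
    · exact h'.2
    · exact h'.2
    · exact (hr.elim (fun h => h h2) (Nat.not_even_iff_odd.2 h3)).elim
    · have h0 : 2 ≤ q₀ := by
        by_contra h0
        interval_cases q₀ <;> omega
      rw [← pow_mul] at h1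
      rcases h1 with rfl | rfl <;> rcases h2 with h2 | h2
      · exact (pow_ne_pow h0 (by decide) (h2.trans (pow_one _).symm)).elim
      · exact (pow_ne_pow h0 (by decide) h2).elim
      · exact (pow_ne_pow h0 (by decide) (h2.trans (pow_one _).symm)).elim
      · exact (pow_ne_pow h0 (by decide) h2).elim
  exact ⟨key h h', key h' h⟩

theorem Alw.not_cube {q : ℕ} {ab : Prop} (hq : 2 ≤ q) (h : Alw (q ^ 3) (q ^ 2) ab) : False := by
  rcases h with h | h | h | ⟨q₀, h1, -, h2 | h2⟩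
  · exact pow_ne_pow hq (by decide) h.1
  · exact pow_ne_pow hq (by decide) (h.1.trans (pow_mul _ _ _).symm)
  · exact pow_ne_pow hq (by decide) h.1
  · rw [← h2, ← pow_mul] at h1
    exact pow_ne_pow hq (by decide) h1
  · have h3 : q ^ 9 = q ^ 4 := by
      calc q ^ 9 = (q ^ 3) ^ 3 := by ring
        _ = (q₀ ^ 3) ^ 2 := by rw [h1]; ring
        _ = q ^ 4 := by rw [← h2]; ring
    exact pow_ne_pow hq (by decide) h3

variable {G : Type*} [Group G] [Finite G] [IsSimpleGroup G]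

theorem tgt_lc {ι Φ : Type} [Fintype ι] [DecidableEq ι] [Fintype Φ] {R : RootSys ι Φ} (hR : Lc R)
    (hm : ∀ q, IsPrimePow q → Mod R fun _ => q) (F : Fr G R) : Tgt G := by
  obtain ⟨h1, h2, a, b, d, h3, h4⟩ := hR
  obtain ⟨M, _, _, _, h5, F', h6⟩ := hm _ (F.isPrimePow_q h3)
  obtain ⟨e⟩ := h4.iso_sb h1 (F.mo_lac h1 h2) (F'.mo_lac h1 h2) h3 (h6 a).symm
  exact h5.congr e

theorem tgt_db {ι Φ : Type} [Fintype ι] [DecidableEq ι] [Fintype Φ] {R : RootSys ι Φ} (hR : Good R)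
    (hM : ∀ (M : Type) [Group M] [Finite M] (F : Fr M R), F.Mo) {u a b : ι} {d : ι → ℕ}
    (h : T3 R u a b) (hT : Tree R a b d) {F : Fr G R} (hF : F.Mo) {q : ι → ℕ} (hm : Mod R q)
    (ha : F.q a = q a) (hb : F.q b = q b) (hr : F.q b ≠ F.q a ∨ Even (F.q a)) : Tgt G := by
  obtain ⟨M, _, _, _, h5, F', h6⟩ := hm
  have h7 := h.alw hR (hM M F')
  rw [h6, h6, ← ha, ← hb] at h7
  obtain ⟨e⟩ := hT.iso_db hR hF (hM M F') h (ha.trans (h6 a).symm) (hb.trans (h6 b).symm)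
    ((h.alw hR hF).iff h7 (F.two_le_q a) hr)
  exact h5.congr e

theorem tgt_B {n : ℕ} (hn : 3 ≤ n) (F : Fr G (rootB n)) : Tgt G := by
  obtain ⟨u, a, b, d, h, hT, ha, hb⟩ := tree_B hn
  have hR := good_B hn
  have hF := F.mo_B hR
  have hM : ∀ (M : Type) [Group M] [Finite M] (F : Fr M (rootB n)), F.Mo := fun M _ _ F => F.mo_B hR
  have hq := F.isPrimePow_q h.ua.symm
  have h2 := F.two_le_q a
  have e1 : ∀ x y, qB n x y a = x := fun x y => if_neg (by omega)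
  have e2 : ∀ x y, qB n x y b = y := fun x y => if_pos hb
  by_cases h0 : F.q b = F.q a
  · rcases (F.q a).even_or_odd with he | ho
    · exact tgt_db hR hM h hT hF (mod_C hq hn) rfl h0 (.inr he)
    · obtain ⟨M, M', _, _, _, _, _, _, t, t', ⟨E, hE⟩, ⟨E', hE'⟩, hne⟩ := mod_BC hq hn ho
      by_cases h1 : F.Ab a b ↔ E.Ab a b
      · obtain ⟨e⟩ := hT.iso_db hR hF (hM M E) h (hE a).symm (h0.trans (hE b).symm) h1
        exact t.congr e
      · have h3 : ¬ (E.Ab a b ↔ E'.Ab a b) := fun h3 => hne.false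
          (hT.iso_db hR (hM M E) (hM M' E') h ((hE a).trans (hE' a).symm)
            ((hE b).trans (hE' b).symm) h3).some
        obtain ⟨e⟩ := hT.iso_db hR hF (hM M' E') h (hE' a).symm (h0.trans (hE' b).symm) (by tauto)
        exact t'.congr e
  rcases h.alw hR hF with h1 | h1 | h1 | ⟨q₀, h1, -, h3⟩
  · exact absurd h1.1 h0
  · exact tgt_db hR hM h hT hF (mod_2D hq hn) (e1 _ _).symm (h1.1.trans (e2 _ _).symm) (.inl h0)
  · exact absurd h1.1 h0
  · have hq₀ : IsPrimePow q₀ := (isPrimePow_pow_iff two_ne_zero).1 (h1 ▸ hq)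
    rcases h3 with h3 | h3
    · exact tgt_db hR hM h hT hF (mod_2A_even hq₀ hn) (h1.trans (e1 _ _).symm)
        (h3.trans (e2 _ _).symm) (.inl h0)
    · exact tgt_db hR hM h hT hF (mod_2A_odd hq₀ hn) (h1.trans (e1 _ _).symm)
        (h3.trans (e2 _ _).symm) (.inl h0)

omit [IsSimpleGroup G] in
theorem exists_ab (F : Fr G RF4) (h : F.q 1 = F.q 2) :
    ∃ F' : Fr G RF4, F'.q 2 = F.q 2 ∧ F'.q 1 = F.q 2 ∧ F'.Ab 2 1 := by
  by_cases h1 : F.Ab 2 1
  · exact ⟨F, rfl, h, h1⟩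
  · obtain ⟨F', h2, h3⟩ := F.exists_rev
    exact ⟨F', (h2 2).trans h, h2 1, h3.2 (t3_F.ab_of_not good_F (F.mo_F good_F) h1 h)⟩

theorem tgt_F (F : Fr G RF4) : Tgt G := by
  have hM : ∀ (M : Type) [Group M] [Finite M] (F : Fr M RF4), F.Mo := fun M _ _ F => F.mo_F good_F
  have hq := F.isPrimePow_q sb_F.2
  by_cases h0 : F.q 1 = F.q 2
  · obtain ⟨M, _, _, _, t, E, hE⟩ := mod_F hq
    obtain ⟨F', f1, f2, f3⟩ := exists_ab F h0
    obtain ⟨E', e1, e2, e3⟩ := exists_ab E ((hE 1).trans (hE 2).symm)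
    obtain ⟨e⟩ := tree_F.iso_db good_F (F'.mo_F good_F) (hM M E') t3_F
      (f1.trans (e1.trans (hE 2)).symm) (f2.trans (e2.trans (hE 2)).symm) (iff_of_true f3 e3)
    exact t.congr e
  obtain ⟨F', h1, -⟩ := F.exists_rev
  have h2 : F'.q 2 = F.q 1 := h1 2
  have h3 : F'.q 1 = F.q 2 := h1 1
  rcases t3_F.alw good_F (F.mo_F good_F) with h4 | h4 | h4 | ⟨q₀, h4, -, h5⟩
  · exact absurd h4.1 h0
  · exact tgt_db good_F hM t3_F tree_F (F'.mo_F good_F) (mod_2E6 hq) (h2.trans h4.1) h3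
      (.inl (by rw [h2, h3]; exact Ne.symm h0))
  · exact absurd h4.1 h0
  · have hq₀ : IsPrimePow q₀ := (isPrimePow_pow_iff two_ne_zero).1 (h4 ▸ hq)
    rcases h5 with h5 | h5
    · exact tgt_db good_F hM t3_F tree_F (F.mo_F good_F) (mod_2E6 hq₀) h4 h5 (.inl h0)
    · have := t3_F.alw good_F (F'.mo_F good_F)
      rw [h2, h3, h4, h5] at this
      exact (this.not_cube hq₀.two_le).elim

theorem tits (P : BNPair G) (h3 : 3 ≤ P.rank) (hirr : P.Irreducible) : Tgt G := by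
  rcases exists_ty P h3 hirr with
    ⟨m, hm, σ, h⟩ | ⟨m, hm, σ, h⟩ | ⟨m, σ, h⟩ | ⟨σ, h⟩ | ⟨σ, h⟩ | ⟨σ, h⟩ | ⟨σ, h⟩
  · have : Nonempty (Fin m) := ⟨⟨0, by omega⟩⟩
    exact tgt_lc (lc_A hm) (fun _ hq => mod_A hq hm) (exists_fr P h).choose
  · have : Nonempty (Fin m) := ⟨⟨0, by omega⟩⟩
    exact tgt_B hm (exists_fr P h).choose
  · exact tgt_lc (lc_D m) (fun _ hq => mod_D hq m) (exists_fr P h).choose
  · exact tgt_lc lc_E6 (fun _ hq => mod_E6 hq) (exists_fr P h).choose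
  · exact tgt_lc lc_E7 (fun _ hq => mod_E7 hq) (exists_fr P h).choose
  · exact tgt_lc lc_E8 (fun _ hq => mod_E8 hq) (exists_fr P h).choose
  · exact tgt_F (exists_fr P h).choose

end Cfsg.Lib.TB
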