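import Cfsg.Agent.Lib.TB.Def

/-!
S1143 (docs/TB.md): finite generalized quadrangles.
-/

set_option autoImplicit false
set_option linter.unusedSectionVars false

namespace Cfsg.Lib.TB.GQ

variable {P L : Type*} [Finite P] [Finite L] (Q : GQ P L)

open Finset

/-- Collinear. -/
def Co (p q : P) : Prop := ∃ l, Q.I p l ∧ Q.I q l

variable {Q}

theorem Co.symm {p q : P} (h : Q.Co p q) : Q.Co q p := let ⟨l, a, b⟩ := h; ⟨l, b, a⟩

/-- No triangles. -/
theorem tri {p q z : P} {l : L} (hp : Q.I p l) (hq : Q.I q l) (h : p ≠ q) (a : Q.Co z p) (b : Q.Co z q) : Q.I z l := by_contra fun n => by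
  obtain ⟨m, a, a'⟩ := a
  obtain ⟨m', b, b'⟩ := b
  exact h (congrArg Prod.fst ((Q.proj z l n).unique (y₁ := (p, m)) (y₂ := (q, m')) ⟨a, a', hp⟩ ⟨b, b', hq⟩))

variable (Q)

open Classical in
theorem card_nb [Fintype P] (p : P) (S : Finset L) (h : ∀ l ∈ S, Q.I p l) : #{z | z ≠ p ∧ ∃ l ∈ S, Q.I z l} = #S * Q.s := by
  have : ({z | z ≠ p ∧ ∃ l ∈ S, Q.I z l} : Finset P) = S.biUnion fun l => ({z | Q.I z l} : Finset P).erase p := by
    ext; simp [and_left_comm]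
  rw [this, card_biUnion fun l a m b n => disjoint_left.2 fun z c d => by
    simp only [mem_erase, mem_filter, mem_univ, true_and] at c d
    exact (Q.uniq c.2 (h l a) d.2 (h m b)).elim c.1 n, ← smul_eq_mul, ← sum_const]
  refine sum_congr rfl fun l a => ?_
  have := Q.cardL l
  rw [Set.ncard_eq_toFinset_card', Set.toFinset_ofPred] at this
  rw [card_erase_of_mem (by simpa using h l a), this]; rfl

open Classical in
theorem card_lines [Fintype L] (p : P) : #{l | Q.I p l} = Q.t + 1 := by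
  have := Q.cardP p
  rwa [Set.ncard_eq_toFinset_card', Set.toFinset_ofPred] at this

open Classical in
theorem card_perp [Fintype P] {p q : P} (h : ¬ Q.Co p q) : #{z | Q.Co z p ∧ Q.Co z q} = Q.t + 1 := by
  have := Fintype.ofFinite L
  rw [← Q.card_lines p]
  refine card_bij (fun z a => (mem_filter.1 a).2.1.choose) (fun z a => by simpa using (mem_filter.1 a).2.1.choose_spec.2)
    (fun z a z' a' e => by_contra fun n => ?_) fun l a => ?_
  · have b := (mem_filter.1 a).2.1.choose_spec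
    have b' := (mem_filter.1 a').2.1.choose_spec
    exact h ⟨_, b.2, tri b.1 (e ▸ b'.1) n (mem_filter.1 a).2.2.symm (mem_filter.1 a').2.2.symm⟩
  · have a : Q.I p l := by simpa using a
    obtain ⟨⟨z, m⟩, ⟨b, c, d⟩, -⟩ := Q.proj q l fun b => h ⟨l, a, b⟩
    have k : z ∈ ({z | Q.Co z p ∧ Q.Co z q} : Finset P) := by simpa using ⟨⟨l, d, a⟩, m, c, b⟩
    have f := (mem_filter.1 k).2.1.choose_spec
    exact ⟨z, k, (Q.uniq f.1 f.2 d a).resolve_left fun e => h ⟨m, e ▸ c, b⟩⟩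

/-- **Higman's inequality.**  Fix non-collinear points `x, y`; `T = {x,y}^⊥` has `t + 1` points, pairwise
non-collinear.  For `z` in the set `V` of points collinear with neither `x` nor `y` let `t_z` be the
number of points of `T` collinear with `z`.  `|V| = d = s²t - st - s + t` (there are
`(s+1)(st+1)` points, `1 + s(t+1)` collinear with a given one), `Σ t_z = (t+1)(t-1)s`,
`Σ t_z (t_z - 1) = (t+1)t(t-1)`.  Cauchy–Schwarz `d Σ t_z² ≥ (Σ t_z)²` gives
`t (s-1) (s² - t) ≥ 0`. -/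
theorem higman [Nonempty P] (hs : 2 ≤ Q.s) (ht : 1 ≤ Q.t) : Q.t ≤ Q.s ^ 2 := by
  classical
  have := Fintype.ofFinite P
  have := Fintype.ofFinite L
  obtain ⟨x⟩ := ‹Nonempty P›
  have rf : ∀ p, Q.Co p p := fun p => let ⟨l, a⟩ := card_pos.1 ((Nat.succ_pos _).trans_eq (Q.card_lines p).symm); ⟨l, (mem_filter.1 a).2, (mem_filter.1 a).2⟩
  have n1 : ∀ p, #{z | z ≠ p ∧ Q.Co z p} = (Q.t + 1) * Q.s := fun p => by
    rw [← Q.card_lines p, ← Q.card_nb p _ fun l a => (mem_filter.1 a).2]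
    exact congrArg _ (filter_congr fun z _ => by simp [Co, and_comm])
  have n3 : ∀ {u p l}, Q.I u l → Q.I p l → u ≠ p → ∀ m, Q.I u m → m ≠ l → ∀ z ≠ u, Q.I z m → ¬ Q.Co z p := fun a b c m d e z f g k =>
    (Q.uniq g d (tri a b c ⟨m, g, d⟩ k) a).elim f e
  have n2 : #{z | ¬ Q.Co z x} * (Q.t + 1) = (Q.t + 1) * Q.s * (Q.t * Q.s) := by
    rw [← n1 x]
    refine card_mul_eq_card_mul (fun z u => Q.Co u z) (fun z a => ?_) fun u a => ?_
    · have a := (mem_filter.1 a).2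
      rw [← Q.card_perp a, bipartiteAbove, filter_filter]
      exact congrArg _ (filter_congr fun u _ => ⟨fun b => ⟨b.2, b.1.2⟩, fun b => ⟨⟨fun e => a (e ▸ b.1.symm), b.2⟩, b.1⟩⟩)
    · obtain ⟨a, l, b, c⟩ := (mem_filter.1 a).2
      have := Q.card_nb u (({l | Q.I u l} : Finset L).erase l) fun m d => (mem_filter.1 (mem_erase.1 d).2).2
      rw [card_erase_of_mem (by simpa using b), Q.card_lines, Nat.add_sub_cancel] at this
      rw [← this, bipartiteBelow, filter_filter]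
      refine congrArg _ (filter_congr fun z _ => ⟨fun ⟨d, m, e, f⟩ => ⟨fun k => d ⟨l, k ▸ b, c⟩, m, by simpa using ⟨fun k => d ⟨l, k ▸ f, c⟩, e⟩, f⟩,
        fun ⟨d, m, e, f⟩ => ?_⟩)
      simp only [mem_erase, mem_filter, mem_univ, true_and] at e
      exact ⟨n3 b c a m e.2 e.1 z d f, m, e.2, f⟩
  rw [mul_assoc, mul_comm, Nat.mul_right_inj (by omega)] at n2
  obtain ⟨y, hy⟩ := card_pos.1 (n2 ▸ by positivity : 0 < #{z | ¬ Q.Co z x})
  replace hy := (mem_filter.1 hy).2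
  set V : Finset P := {z | ¬ Q.Co z x ∧ ¬ Q.Co z y} with hV
  set T : Finset P := {z | Q.Co z y ∧ Q.Co z x} with hT
  have cT : #T = Q.t + 1 := Q.card_perp hy
  have cV : #V + (Q.t + 1) * Q.s + 1 = Q.s * (Q.t * Q.s) + (Q.t + 1) := by
    have a := card_filter_add_card_filter_not (s := ({z | ¬ Q.Co z x} : Finset P)) (Q.Co · y)
    have b := card_filter_add_card_filter_not (s := ({z | Q.Co z y} : Finset P)) (Q.Co · x)
    have c := card_filter_add_card_filter_not (s := ({z | Q.Co z y} : Finset P)) (· = y)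
    simp only [filter_filter] at a b c
    rw [filter_congr (q := (· = y)) (fun z _ => ⟨fun e => e.2, fun e => ⟨e ▸ rf _, e⟩⟩), card_eq_one.2 ⟨y, by ext; simp⟩,
      filter_congr (q := fun z => z ≠ y ∧ Q.Co z y) (fun z _ => and_comm), n1] at c
    rw [filter_congr (q := fun z => Q.Co z y ∧ ¬ Q.Co z x) (fun z _ => and_comm), n2] at a
    rw [← hT, cT] at b
    rw [← hV] at a
    omega
  have c1 : ∀ u ∈ T, #{z ∈ V | Q.Co u z} = (Q.t - 1) * Q.s := fun u a => by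
    obtain ⟨⟨l, a1, a2⟩, m, b1, b2⟩ := (mem_filter.1 a).2
    have ne : l ≠ m := fun e => hy ⟨l, a2, e ▸ b2⟩
    have := Q.card_nb u ((({l | Q.I u l} : Finset L).erase l).erase m) fun m d => (mem_filter.1 (mem_erase.1 (mem_erase.1 d).2).2).2
    rw [card_erase_of_mem (by simpa using ⟨ne.symm, b1⟩), card_erase_of_mem (by simpa using a1), Q.card_lines, Nat.add_sub_cancel] at this
    rw [← this, filter_filter]
    refine congrArg _ (filter_congr fun z _ => ⟨fun ⟨d, n, e, f⟩ => ⟨fun k => d.1 ⟨m, k ▸ b1, b2⟩, n,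
      by simpa using ⟨fun k => d.1 ⟨m, k ▸ f, b2⟩, fun k => d.2 ⟨l, k ▸ f, a2⟩, e⟩, f⟩, fun ⟨d, n, e, f⟩ => ?_⟩)
    simp only [mem_erase, mem_filter, mem_univ, true_and] at e
    exact ⟨⟨n3 b1 b2 (fun k => hy ⟨l, a2, k ▸ a1⟩) n e.2.2 e.1 z d f, n3 a1 a2 (fun k => hy ⟨m, k ▸ b1, b2⟩) n e.2.2 e.2.1 z d f⟩, n, e.2.2, f⟩
  have c2 : ∀ u ∈ T, ∀ u' ∈ T, u' ≠ u → #{z ∈ V | Q.Co u z ∧ Q.Co u' z} = Q.t - 1 := fun u a u' a' e => by
    have a := (mem_filter.1 a).2
    have a' := (mem_filter.1 a').2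
    have k : ¬ Q.Co u u' := fun ⟨l, b, b'⟩ => hy ⟨l, tri b' b e a'.1.symm a.1.symm, tri b' b e a'.2.symm a.2.symm⟩
    have ne : y ≠ x := fun e => hy (e ▸ rf _)
    have : ∀ p, Q.Co u p → Q.Co u' p → ∀ z ≠ p, Q.Co u z → Q.Co u' z → ¬ Q.Co z p := fun p b b' z n c c' ⟨l, d, d'⟩ =>
      k ⟨l, tri d d' n c b, tri d d' n c' b'⟩
    rw [show Q.t - 1 = Q.t + 1 - 1 - 1 from rfl, ← Q.card_perp k, ← card_erase_of_mem (a := x) (by simpa using ⟨a.2.symm, a'.2.symm⟩),
      ← card_erase_of_mem (a := y) (by simpa using ⟨ne, a.1.symm, a'.1.symm⟩)]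
    refine congrArg _ (Finset.ext fun z => ?_)
    simp only [hV, mem_erase, mem_filter, mem_univ, true_and]
    exact ⟨fun ⟨b, c⟩ => ⟨fun e => b.2 (e ▸ rf _), fun e => b.1 (e ▸ rf _), c.1.symm, c.2.symm⟩,
      fun ⟨b, b', c, c'⟩ => ⟨⟨this x a.2 a'.2 z b' c.symm c'.symm, this y a.1 a'.1 z b c.symm c'.symm⟩, c.symm, c'.symm⟩⟩
  have s1 : ∑ z ∈ V, #{u ∈ T | Q.Co u z} = (Q.t + 1) * ((Q.t - 1) * Q.s) := by
    simp only [card_filter]
    rw [sum_comm, ← cT, ← smul_eq_mul, ← sum_const]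
    exact sum_congr rfl fun u a => by rw [← c1 u a, card_filter]
  have s2 : ∑ z ∈ V, #{u ∈ T | Q.Co u z} ^ 2 = (Q.t + 1) * ((Q.t - 1) * Q.s + Q.t * (Q.t - 1)) := by
    simp only [card_filter, sq, sum_mul_sum, ite_zero_mul_ite_zero, mul_one]
    rw [sum_comm, ← cT, ← smul_eq_mul, ← sum_const]
    refine sum_congr rfl fun u a => ?_
    rw [sum_comm, ← add_sum_erase _ _ a, ← c1 u a, card_filter, sum_congr rfl fun u' a' => (card_filter _ _).symm.trans
      (c2 u a u' (mem_erase.1 a').2 (mem_erase.1 a').1), sum_const, card_erase_of_mem a, cT]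
    simp
  have cs := sq_sum_le_card_mul_sum_sq (s := V) (f := fun z => #{u ∈ T | Q.Co u z})
  rw [s1, s2] at cs
  generalize #V = d at cs cV
  generalize Q.s = s at *
  obtain ⟨t, e⟩ := Nat.exists_eq_add_of_le' ht
  rw [e] at cs cV ⊢
  rw [Nat.add_sub_cancel] at cs
  obtain rfl | h := t.eq_zero_or_pos
  · nlinarith
  have k : (t + 2) * t * s ^ 2 ≤ d * (s + t + 1) :=
    Nat.le_of_mul_le_mul_left (c := (t + 2) * t) (by rw [Nat.cast_id] at cs; exact (le_of_eq (by ring)).trans (cs.trans_eq (by ring))) (by positivity)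
  by_contra! n
  zify at *
  have : (d : ℤ) = s * ((t + 1) * s) + (t + 2) - (t + 2) * s - 1 := by linarith
  rw [this] at k
  nlinarith [mul_pos (mul_pos (by linarith : (0 : ℤ) < t + 1) (by linarith : (0 : ℤ) < s - 1)) (by linarith : (0 : ℤ) < t + 1 - s ^ 2)]

/-- A full subquadrangle (possibly degenerate). -/
structure Full (A : Set P) (B : Set L) : Prop where
  full : ∀ l ∈ B, ∀ p, Q.I p l → p ∈ A
  join : ∀ p ∈ A, ∀ p' ∈ A, p ≠ p' → ∀ l, Q.I p l → Q.I p' l → l ∈ B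

variable {Q} in
theorem Full.le {A : Set P} {B : Set L} (h : Q.Full A B) {p q : P} (hq : q ∈ A) (n : ¬ Q.Co p q) :
    {m | m ∈ B ∧ Q.I p m}.ncard ≤ {m | m ∈ B ∧ Q.I q m}.ncard := by
  have k : ∀ m, ∃ x : P × L, Q.I p m → Q.I q x.2 ∧ Q.I x.1 x.2 ∧ Q.I x.1 m := fun m => by
    by_cases a : Q.I p m
    · exact (Q.proj q m fun b => n ⟨m, a, b⟩).exists.imp fun _ b _ => b
    · exact ⟨(p, m), fun b => absurd b a⟩
  choose f hf using k
  refine Set.ncard_le_ncard_of_injOn (fun m => (f m).2) (fun m a => ?_) fun m a m' a' e => by_contra fun ne => ?_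
  · obtain ⟨b, c, d⟩ := hf m a.2
    exact ⟨h.join q hq _ (h.full m a.1 _ d) (fun e => n ⟨m, a.2, e ▸ d⟩) _ b c, b⟩
  · obtain ⟨b, c, d⟩ := hf m a.2
    obtain ⟨b', c', d'⟩ := hf m' a'.2
    beta_reduce at e
    refine n ⟨_, tri c (e ▸ c') (fun k => ?_) ⟨m, a.2, d⟩ ⟨m', a'.2, d'⟩, b⟩
    exact (Q.uniq a.2 d a'.2 (k ▸ d')).elim (fun k => n ⟨_, k ▸ c, b⟩) ne

theorem third (hs : 2 ≤ Q.s) (m : L) (p q : P) : ∃ z, Q.I z m ∧ z ≠ p ∧ z ≠ q := by
  by_contra! n
  have := Set.ncard_le_ncard (s := {p | Q.I p m}) (t := {p, q}) fun z a => (em (z = p)).imp_right (n z a)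
  have := Set.ncard_insert_le p {q}
  have := Set.ncard_singleton q
  have := Q.cardL m
  omega

variable {Q} in
theorem Full.eq (hs : 2 ≤ Q.s) {A : Set P} {B : Set L} (h : Q.Full A B) {m n : L} (hm : m ∈ B) (hn : n ∈ B) (k : ∀ p, Q.I p m → ¬ Q.I p n)
    {p q : P} (hp : Q.I p m) (hq : Q.I q m) : {l | l ∈ B ∧ Q.I p l ∧ l ≠ m}.ncard = {l | l ∈ B ∧ Q.I q l ∧ l ≠ m}.ncard := by
  obtain ⟨z, a, b, c⟩ := Q.third hs m p q
  obtain ⟨⟨w, l⟩, ⟨d, e, f⟩, -⟩ := Q.proj z n (k z a)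
  have g : ∀ p, Q.I p m → z ≠ p → {l | l ∈ B ∧ Q.I p l ∧ l ≠ m}.ncard + 1 = {l | l ∈ B ∧ Q.I w l}.ncard := fun p hp b => by
    have n' : ¬ Q.Co w p := fun c => k w (tri a hp b ⟨l, e, d⟩ c) f
    rw [← (h.le (h.full n hn w f) fun c => n' c.symm).antisymm (h.le (h.full m hm p hp) n'),
      ← Set.ncard_sdiff_singleton_add_one (s := {l | l ∈ B ∧ Q.I p l}) (a := m) ⟨hm, hp⟩]
    exact congrArg (Set.ncard · + 1) (Set.ext fun l => and_assoc.symm)
  exact Nat.succ_injective ((g p hp b).trans (g q hq c).symm)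

/-- Two nested full subquadrangles that contain two skew lines `E`, `E'`; `x` on `E`.
The number of lines of a full subquadrangle through one of its points is the same for two
non-collinear points (projection), hence for two collinear points `p, p'` on a line `m` of it: take a
third point `p''` of `m`, a second line of the subquadrangle through `p''` (project `p''` to a line
skew to `m`) and a point on it.  Let `y ≠ x` be a point of `l`; `y ∈ A ∖ A'`.  The pairs `(z, M)`,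
`z ≠ x` on `E`, `M ≠ E` a line of `B'` through `z`, inject into the lines `≠ l` of `B` through `y`:
`(z, M) ↦` the line from `y` to `M` (a line through `y` has at most one point of `A'`). -/
theorem sub (hs : 2 ≤ Q.s) {A A' : Set P} {B B' : Set L} (h : Q.Full A B) (h' : Q.Full A' B')
    (hB : B' ⊆ B) {E E' l : L} (hE : E ∈ B') (hE' : E' ∈ B') (hEE : ∀ p, Q.I p E → ¬ Q.I p E')
    {x : P} (hx : Q.I x E) (hl : l ∈ B) (hl' : l ∉ B') (hxl : Q.I x l) :
    Q.s * {m | m ∈ B' ∧ Q.I x m ∧ m ≠ E}.ncard ≤ {m | m ∈ B ∧ Q.I x m ∧ m ≠ E}.ncard := by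
  classical
  have := Fintype.ofFinite P
  have := Fintype.ofFinite L
  have xA := h'.full E hE x hx
  obtain ⟨y, hy, yx, -⟩ := Q.third hs l x x
  have yA : ∀ M ∈ B', ¬ Q.I y M := fun M a b => hl' (h'.join y (h'.full M a y b) x xA yx l hy hxl)
  have e1 : {m | m ∈ B ∧ Q.I x m ∧ m ≠ E}.ncard = {m | m ∈ B ∧ Q.I x m ∧ m ≠ l}.ncard := by
    have g : ∀ m ∈ B, Q.I x m → {l | l ∈ B ∧ Q.I x l ∧ l ≠ m}.ncard + 1 = {l | l ∈ B ∧ Q.I x l}.ncard := fun m a b => by
      rw [← Set.ncard_sdiff_singleton_add_one (s := {l | l ∈ B ∧ Q.I x l}) (a := m) ⟨a, b⟩]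
      exact congrArg (Set.ncard · + 1) (Set.ext fun l => and_assoc.symm)
    exact Nat.succ_injective ((g E (hB hE) hx).trans (g l hl hxl).symm)
  rw [e1, h.eq hs hl (hB hE') (fun p a b => hl' (h'.join p (h'.full E' hE' p b) x xA (fun e => hEE p (e ▸ hx) b) l a hxl)) hxl hy]
  have k : ∀ M, ∃ w : P × L, M ∈ B' → Q.I y w.2 ∧ Q.I w.1 w.2 ∧ Q.I w.1 M := fun M => by
    by_cases a : M ∈ B'
    · exact (Q.proj y M (yA M a)).exists.imp fun _ b _ => b
    · exact ⟨(y, M), fun b => absurd b a⟩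
  choose f hf using k
  have c := Q.cardL E
  rw [Set.ncard_eq_toFinset_card', Set.toFinset_ofPred] at c
  calc _ = #((({z | Q.I z E} : Finset P).erase x).sigma fun z => ({m | m ∈ B' ∧ Q.I z m ∧ m ≠ E} : Finset L)) := by
        rw [card_sigma, sum_congr rfl fun z a => ?_, sum_const, card_erase_of_mem (by simpa using hx), c]; · rfl
        rw [h'.eq hs hE hE' hEE hx (mem_filter.1 (mem_erase.1 a).2).2, Set.ncard_eq_toFinset_card', Set.toFinset_ofPred]
    _ ≤ _ := ?_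
  rw [← Set.ncard_coe_finset]
  refine Set.ncard_le_ncard_of_injOn (fun p => (f p.2).2) (fun p a => ?_) fun p a p' a' e => ?_
  · simp only [coe_sigma, Set.mem_sigma_iff, mem_coe, mem_erase, mem_filter, mem_univ, true_and] at a
    obtain ⟨b, c, d⟩ := hf _ a.2.1
    refine ⟨h.join y (h.full l hl y hy) _ (h.full _ (hB a.2.1) _ d) (fun e => yA _ a.2.1 (e ▸ d)) _ b c, b, fun e => ?_⟩
    by_cases g : (f p.2).1 = x
    · exact (Q.uniq a.2.2.1 (g ▸ d) a.1.2 hx).elim a.1.1 a.2.2.2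
    · exact hl' (h'.join _ (h'.full _ a.2.1 _ d) x xA g l (e ▸ c) hxl)
  · simp only [coe_sigma, Set.mem_sigma_iff, mem_coe, mem_erase, mem_filter, mem_univ, true_and] at a a'
    obtain ⟨b, c, d⟩ := hf _ a.2.1
    obtain ⟨b', c', d'⟩ := hf _ a'.2.1
    beta_reduce at e
    have g : (f p.2).1 = (f p'.2).1 := by_contra fun n =>
      yA _ (h'.join _ (h'.full _ a.2.1 _ d) _ (h'.full _ a'.2.1 _ d') n _ c (e ▸ c')) b
    have := (Q.proj (f p.2).1 E fun k => yA E hE (tri hx a.1.2 a.1.1.symm ⟨l, hy, hxl⟩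
      ⟨_, b, (Q.uniq d a.2.2.1 k a.1.2).resolve_right a.2.2.2 ▸ c⟩)).unique (y₁ := (p.1, p.2)) (y₂ := (p'.1, p'.2))
      ⟨d, a.2.2.1, a.1.2⟩ ⟨g ▸ d', a'.2.2.1, a'.1.2⟩
    exact Sigma.ext (congrArg Prod.fst this) (heq_of_eq (congrArg Prod.snd this))

end Cfsg.Lib.TB.GQ
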