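import Cfsg.Agent.Lib.TB.Res
import Cfsg.Agent.Lib.TB.GQ

/-!
S1143 (helper3): the generalized quadrangle of a double bond.
-/

set_option autoImplicit false
set_option linter.unusedSectionVars false

namespace Cfsg.Lib.TB

open Cfsg.Lib.BN Cfsg.Lib.Chev RootSys H17

variable {ι Φ : Type} [Fintype ι] [DecidableEq ι] {R : RootSys ι Φ} [Fintype Φ] {a b i : ι}

theorem len_sW (a : ι) : len R.sW (R.sW a) = 1 := by
  simpa using len_mul_sW_of_pos (R := R) (w := 1) (isPos_simple a)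

theorem len_sW2 (h : a ≠ b) : len R.sW (R.sW a * R.sW b) = 2 := by
  rw [len_mul_sW_of_pos (isPos_sref_simple h), len_sW]

theorem Db.len3 (h : Db R a b) : len R.sW (R.sW a * R.sW b * R.sW a) = 3 := by
  rw [len_mul_sW_of_pos (by rw [W_mul, coe_sW, coe_sW, h.sref_sref]; exact isPos_sref_simple h.ne.symm), len_sW2 h.ne]

theorem Db.fix3 (h : Db R a b) : (R.sW a * R.sW b * R.sW a).1 (R.simple b) = R.simple b := by
  rw [W_mul, W_mul, coe_sW, coe_sW, h.symm.sref_sref, R.sref_sref]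

theorem Db.len4 (h : Db R a b) : len R.sW (R.sW a * R.sW b * R.sW a * R.sW b) = 4 := by
  rw [len_mul_sW_of_pos (by rw [h.fix3]; exact isPos_simple b), h.len3]

namespace GQ

variable {P L : Type*} {Q : GQ P L}

theorem meet [Finite P] [Finite L] {l m n : L} {p x y : P} (hl : Q.I p l) (hm : Q.I p m) (ne : l ≠ m) (a : Q.I x l) (a' : Q.I x n) (b : Q.I y m)
    (b' : Q.I y n) : Q.I p n := by
  by_cases e : x = y
  · exact (Q.uniq a hl (e ▸ b) hm).resolve_right ne ▸ a'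
  · exact tri a' b' e ⟨l, hl, a⟩ ⟨m, hm, b⟩

theorem fix_of_skew {f : P → P} {g : L → L} (h : ∀ p l, Q.I p l → Q.I (f p) (g l)) {l m : L} (hl : g l = l) (hm : ∀ x, Q.I x m → f x = x)
    (k : ∀ x, Q.I x m → ¬ Q.I x l) {p : P} (hp : Q.I p l) : f p = p := by
  obtain ⟨⟨x, n⟩, ⟨a, b, c⟩, -⟩ := Q.proj p m fun a => k p a hp
  exact congrArg Prod.fst ((Q.proj x l (k x c)).unique (y₁ := (f p, g n)) (y₂ := (p, n)) ⟨hm x c ▸ h _ _ b, h _ _ a, hl ▸ h _ _ hp⟩ ⟨b, a, hp⟩)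

end GQ

namespace Fr

variable {G : Type*} [Group G] {F : Fr G R} {c d z : F.X} {w : R.W} {J : Set ι} {g : G}

theorem D.len_step (h : F.D w c d) (h' : F.Rs {i} d z) : ∃ v, F.D v c z ∧ len R.sW v ≤ len R.sW w + 1 := by
  rcases rs_one.1 h' with rfl | h'
  · exact ⟨w, h, by omega⟩
  · exact (h.mul_ad h').elim (⟨_, ·, by simpa [len_sW] using R.invGen.len_mul_le w (R.sW i)⟩) (⟨w, ·, by omega⟩)

theorem Ad.rs1 (h : F.Ad i c d) : F.Rs {i} c d := rs_one.2 (.inr h)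

theorem Rs.ad (h : F.Rs {i} c d) (ne : d ≠ c) : F.Ad i c d := (rs_one.1 h).resolve_left ne

theorem Ad.d2 (h : a ≠ b) (k1 : F.Ad a c d) (k2 : F.Ad b d z) : F.D (R.sW a * R.sW b) c z :=
  D.mul_of_lt (by rw [len_sW, len_sW2 h]; omega) k1 k2

theorem D.d3 (h : Db R a b) (k1 : F.D (R.sW a * R.sW b) c d) (k2 : F.Ad a d z) : F.D (R.sW a * R.sW b * R.sW a) c z :=
  D.mul_of_lt (by rw [h.len3, len_sW2 h.ne]; omega) k1 k2

theorem D.d4 (h : Db R a b) (k1 : F.D (R.sW a * R.sW b * R.sW a) c d) (k2 : F.Ad b d z) : F.D (R.sW a * R.sW b * R.sW a * R.sW b) c z :=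
  D.mul_of_lt (by rw [h.len3, h.len4]; omega) k1 k2

theorem Rs.eq_of (h : a ≠ b) (k : F.Rs {a} c d) (k' : F.Rs {b} c d) : d = c := by_contra fun n => h ((k.ad n).eq_of (k'.ad n))

theorem chain (h : Db R a b) (k : F.Rs {a, b} c d) : ∃ c₁ c₂ c₃, F.Rs {b} c c₁ ∧ F.Rs {a} c₁ c₂ ∧ F.Rs {b} c₂ c₃ ∧ F.Rs {a} c₃ d := by
  obtain ⟨w, hw, k⟩ := k
  obtain ⟨x₁, p₁, x₂, p₂, x₃, p₃, x₄, p₄, rfl⟩ : ∃ x₁ ∈ WJ R {b}, ∃ x₂ ∈ WJ R {a}, ∃ x₃ ∈ WJ R {b}, ∃ x₄ ∈ WJ R {a}, w = x₁ * x₂ * x₃ * x₄ := by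
    have A : R.sW a ∈ WJ R {a} := sW_mem_WJ rfl
    have B : R.sW b ∈ WJ R {b} := sW_mem_WJ rfl
    rcases (mem_WJ_db h).1 hw with e | e | e | e | e | e | e | e
    exacts [⟨1, one_mem _, 1, one_mem _, 1, one_mem _, 1, one_mem _, by simp [e]⟩, ⟨1, one_mem _, _, A, 1, one_mem _, 1, one_mem _, by simp [e]⟩,
      ⟨_, B, 1, one_mem _, 1, one_mem _, 1, one_mem _, by simp [e]⟩, ⟨1, one_mem _, _, A, _, B, 1, one_mem _, by simp [e]⟩,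
      ⟨_, B, _, A, 1, one_mem _, 1, one_mem _, by simp [e]⟩, ⟨1, one_mem _, _, A, _, B, _, A, by simp [e]⟩,
      ⟨_, B, _, A, _, B, 1, one_mem _, by simp [e]⟩, ⟨_, B, _, A, _, B, _, A, e.trans h.braid⟩]
  obtain ⟨c₃, k, k₄⟩ := k.split
  obtain ⟨c₂, k, k₃⟩ := k.split
  obtain ⟨c₁, k₁, k₂⟩ := k.split
  exact ⟨c₁, c₂, c₃, ⟨_, p₁, k₁⟩, ⟨_, p₂, k₂⟩, ⟨_, p₃, k₃⟩, _, p₄, k₄⟩

theorem chain_uniq (h : Db R a b) {c₁ c₂ c₃ d₁ d₂ d₃ : F.X} (k1 : F.Ad a c₁ c₂) (k2 : F.Ad b c₂ c₃) (l1 : F.Ad a d₁ d₂) (l2 : F.Ad b d₂ d₃)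
    (e1 : F.Rs {b} d₁ c₁) (e3 : F.Rs {a} c₃ d₃) : c₂ = d₂ := by
  have l := l1.d2 h.ne l2
  have n := len_sW2 (R := R) h.ne
  obtain rfl : c₁ = d₁ := by_contra fun m => by
    have k := ((e1.ad m).d2 h.ne.symm k1).d3 h.symm k2
    rcases rs_one.1 e3 with rfl | e
    · have := h.symm.len3; rw [k.unique l] at this; omega
    · have := h.symm.len4; rw [(k.d4 h.symm e).unique l] at this; omega
  obtain rfl : d₃ = c₃ := by_contra fun m => by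
    have := h.len3; rw [((k1.d2 h.ne k2).d3 h (e3.ad m)).unique l] at this; omega
  exact Rs.eq_of h.ne (l1.symm.rs1.trans k1.rs1) (l2.rs1.trans k2.symm.rs1)

/-- The chambers of the `J`-residue of `ch 1`. -/
abbrev Rz (F : Fr G R) (J : Set ι) : Type _ := {c : F.X // F.Rs J (F.ch 1) c}

/-- The `i`-panels in the `J`-residue of `ch 1`. -/
def Vx (F : Fr G R) (J : Set ι) (i : ι) : Type _ :=
  Quotient (⟨fun c d => F.Rs {i} c.1 d.1, fun _ => .refl _ _, .symm, .trans⟩ : Setoid (F.Rz J))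

/-- The `i`-panel of a chamber. -/
def vx (i : ι) (c : F.Rz J) : F.Vx J i := Quotient.mk _ c

theorem vx_eq {c d : F.Rz J} : vx i c = vx i d ↔ F.Rs {i} c.1 d.1 := Quotient.eq

theorem vx_surj (p : F.Vx J i) : ∃ c, vx i c = p := Quotient.exists_rep p

instance finVx [Finite G] : Finite (F.Vx J i) := Quotient.finite _

/-- The action on chambers. -/
def sz (hg : g ∈ F.PJ J) (c : F.Rz J) : F.Rz J := ⟨g • c.1, rs_smul_of_PJ hg c.2⟩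

/-- The action on panels. -/
def sv (hg : g ∈ F.PJ J) : F.Vx J i → F.Vx J i := Quotient.map (sz hg) fun _ _ h => (Rs_smul g).2 h

theorem sv_vx (hg : g ∈ F.PJ J) (c : F.Rz J) : sv hg (vx i c) = vx i (sz hg c) := rfl

theorem ncard_vx [Finite G] (h : a ≠ b) (ha : a ∈ J) (l : F.Vx J a) : {p : F.Vx J b | ∃ c, vx b c = p ∧ vx a c = l}.ncard = F.q a + 1 := by
  obtain ⟨c, rfl⟩ := vx_surj l
  rw [← card_ad a c.1, ← Set.ncard_insert_of_notMem (a := c.1) (fun k => Ad.ne k rfl)]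
  refine (Set.ncard_congr (fun d k => vx b ⟨d, c.2.trans ((rs_one.2 k).mono (by simpa))⟩) (fun d k => by exact ⟨_, rfl, vx_eq.2 (rs_one.2 k).symm⟩)
    (fun d d' k k' e => (Rs.eq_of h ((rs_one.2 k).symm.trans (rs_one.2 k')) (vx_eq.1 e)).symm) ?_).symm
  rintro _ ⟨d, rfl, e⟩
  exact ⟨d, rs_one.1 (vx_eq.1 e).symm, rfl⟩

variable (F) in
/-- Points = `b`-panels, lines = `a`-panels. -/
noncomputable def gq [Finite G] (h : Db R a b) : GQ (F.Vx {a, b} b) (F.Vx {a, b} a) where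
  I p l := ∃ c, vx b c = p ∧ vx a c = l
  s := F.q a
  t := F.q b
  uniq := by
    rintro _ _ _ _ ⟨c₁, rfl, rfl⟩ ⟨c₂, rfl, e₂⟩ ⟨c₄, e₄, rfl⟩ ⟨c₃, e₃, e₃'⟩
    by_contra! n
    have k1 := (vx_eq.1 e₂).symm.ad fun e => n.1 (congrArg _ (Subtype.ext e).symm)
    have k2 := (vx_eq.1 e₃).symm.ad fun e => n.2 (by rw [← e₃', Subtype.ext e, e₂])
    have k3 := (vx_eq.1 e₄).symm.ad fun e => n.2 (congrArg _ (Subtype.ext e).symm)
    have k4 := (vx_eq.1 e₃').symm.ad fun e => n.1 (by rw [← e₃, Subtype.ext e, e₄])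
    have e := (k1.d2 h.ne k2).unique (k3.d2 h.ne.symm k4)
    have := h.len3
    rw [e, mul_assoc, sW_mul_self, mul_one, len_sW] at this
    omega
  proj := fun p l n => by
    obtain ⟨c, rfl⟩ := vx_surj p
    obtain ⟨d, rfl⟩ := vx_surj l
    refine existsUnique_of_exists_of_unique ?_ ?_
    · obtain ⟨c₁, c₂, c₃, k₁, k₂, k₃, k₄⟩ := chain h (c.2.symm.trans d.2)
      have r₁ := c.2.trans (k₁.mono (J := {a, b}) (by simp))
      have r₂ := r₁.trans (k₂.mono (by simp))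
      exact ⟨(vx b ⟨c₂, r₂⟩, vx a ⟨c₁, r₁⟩), ⟨_, vx_eq.2 k₁.symm, rfl⟩, ⟨_, rfl, vx_eq.2 k₂.symm⟩,
        ⟨c₃, r₂.trans (k₃.mono (by simp))⟩, vx_eq.2 k₃.symm, vx_eq.2 k₄⟩
    · have K : ∀ x : F.Vx {a, b} b × F.Vx {a, b} a, (∃ e, vx b e = vx b c ∧ vx a e = x.2) ∧ (∃ e, vx b e = x.1 ∧ vx a e = x.2) ∧
          (∃ e, vx b e = x.1 ∧ vx a e = vx a d) → ∃ c₁ c₂ c₃ : F.Rz {a, b}, x = (vx b c₂, vx a c₂) ∧ F.Rs {b} c₁.1 c.1 ∧ F.Ad a c₁.1 c₂.1 ∧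
          F.Ad b c₂.1 c₃.1 ∧ F.Rs {a} c₃.1 d.1 := by
        rintro ⟨x, m⟩ ⟨⟨c₁, e₁, rfl⟩, ⟨c₂, rfl, e₂⟩, c₃, e₃, e₄⟩
        exact ⟨c₁, c₂, c₃, by rw [e₂], vx_eq.1 e₁, (vx_eq.1 e₂).symm.ad fun e => n ⟨c₃, by rw [e₃, Subtype.ext e, e₁], e₄⟩,
          (vx_eq.1 e₃).symm.ad fun e => n ⟨c₁, e₁, e₂.symm.trans (by rw [← Subtype.ext e, e₄])⟩, vx_eq.1 e₄⟩
      intro x y hx hy
      obtain ⟨c₁, c₂, c₃, rfl, k₁, k₂, k₃, k₄⟩ := K x hx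
      obtain ⟨d₁, d₂, d₃, rfl, l₁, l₂, l₃, l₄⟩ := K y hy
      rw [Subtype.ext (chain_uniq h k₂ k₃ l₂ l₃ (l₁.trans k₁.symm) (k₄.trans l₄.symm))]
  cardL := ncard_vx h.ne (by simp)
  cardP p := by simpa only [and_comm] using ncard_vx h.ne.symm (by simp) p

end Fr

end Cfsg.Lib.TB
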