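import Cfsg.Agent.Lib.TB.Res
import Cfsg.Agent.Lib.TB.GQI_a

/-!
S1143 (docs/TB.md): the generalized quadrangle of a double bond `a = b`: the vertices are the
`a`-panels and the `b`-panels in the `{a, b}`-residue of `ch 1`, incident if they share a chamber
(`mem_WJ_db`, `gate`, `Ad.mul`, `D.split`).
-/

set_option autoImplicit false
set_option linter.unusedSectionVars false

namespace Cfsg.Lib.TB.Fr

open Cfsg.Lib.BN Cfsg.Lib.Chev RootSys H17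

variable {ι Φ : Type} [Fintype ι] [DecidableEq ι] {R : RootSys ι Φ} [Fintype Φ]
variable {G : Type*} [Group G] [Finite G] {F : Fr G R} {a b : ι}

theorem q_le_sq (h : Db R a b) : F.q b ≤ F.q a ^ 2 := by
  have : Nonempty (F.Vx {a, b} b) := ⟨vx b ⟨_, .refl _ _⟩⟩
  exact (F.gq h).higman (two_le_q a) (one_le_two.trans (two_le_q b))

/-- A chamber of the apartment. -/
noncomputable def cz (F : Fr G R) {J : Set ι} {x : R.W} (hx : x ∈ WJ R J) : F.Rz J := ⟨F.ch x, rs_ch.2 (by simpa using hx)⟩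

theorem D_ch1 (w : R.W) : F.D w (F.ch 1) (F.ch w) := by simpa using D_ch (F := F) 1 w

theorem len_le3 {c c₁ c₂ d : F.X} {w : R.W} {i j k : ι} (h : F.D w c d) (k₁ : F.Rs {i} c c₁) (k₂ : F.Rs {j} c₁ c₂) (k₃ : F.Rs {k} c₂ d) :
    len R.sW w ≤ 3 := by
  obtain ⟨_, e₁, l₁⟩ := (D_one.2 rfl).len_step k₁
  obtain ⟨_, e₂, l₂⟩ := e₁.len_step k₂
  obtain ⟨_, e₃, l₃⟩ := e₂.len_step k₃
  rw [h.unique e₃]
  rw [len_one] at l₁
  omega

theorem skew (h : Db R a b) {c d : F.Rz {a, b}} (k : F.D (R.sW a * R.sW b * R.sW a * R.sW b) c.1 d.1) (p : F.Vx {a, b} b)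
    (e : (F.gq h).I p (vx a c)) : ¬ (F.gq h).I p (vx a d) := by
  rintro ⟨d', rfl, e'⟩
  obtain ⟨c', e₁, e⟩ := e
  have := len_le3 k (vx_eq.1 e).symm (vx_eq.1 e₁) (vx_eq.1 e')
  rw [h.len4] at this
  omega

theorem full (h : Db R a b) {g : G} (hg : g ∈ F.Fx (WJ R {a, b}) ∧ g ∈ F.Tr (F.ch 1) a ∧ g ∈ F.Tr (F.ch (R.sW b)) a) (k : g ∈ F.PJ {a, b})
    {l : F.Vx {a, b} a} (hl : sv k l = l) {p : F.Vx {a, b} b} (hp : (F.gq h).I p l) : sv k p = p := by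
  have A : R.sW a ∈ WJ R {a, b} := sW_mem_WJ (by simp)
  have B : R.sW b ∈ WJ R {a, b} := sW_mem_WJ (by simp)
  have S : ∀ {l m}, sv k l = l → (∀ x, (F.gq h).I x m → sv k x = x) → (∀ x, (F.gq h).I x m → ¬ (F.gq h).I x l) → ∀ p, (F.gq h).I p l → sv k p = p :=
    fun a b c _ => GQ.fix_of_skew (Q := F.gq h) (by rintro _ _ ⟨c, rfl, rfl⟩; exact ⟨sz k c, rfl, rfl⟩) a b c
  have T : ∀ {x} (hx : x ∈ WJ R {a, b}), g ∈ F.Tr (F.ch x) a → ∀ p, (F.gq h).I p (vx a (F.cz hx)) → sv k p = p := by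
    rintro x hx t _ ⟨c, rfl, e⟩
    exact congrArg (vx b) (Subtype.ext (mem_Fix.1 t _ (rs_one.1 (vx_eq.1 e).symm)))
  have X : ∀ {x} (hx : x ∈ WJ R {a, b}), sv k (vx a (F.cz hx)) = vx a (F.cz hx) := fun hx =>
    congrArg (vx a) (Subtype.ext (mem_Fx.1 hg.1 _ hx))
  have A3 := mul_mem (mul_mem A B) A
  have A4 := mul_mem A3 B
  have d1 : F.D (R.sW a * R.sW b * R.sW a * R.sW b) (F.cz (one_mem _) : F.Rz {a, b}).1 (F.cz A4).1 := D_ch1 _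
  have d2 : F.D (R.sW a * R.sW b * R.sW a * R.sW b) (F.cz B).1 (F.cz A3).1 := by
    have := D_ch (F := F) (R.sW b) (R.sW a * R.sW b * R.sW a)
    rwa [sW_inv, ← mul_assoc, ← mul_assoc, ← h.braid] at this
  have f1 := T (one_mem _) hg.2.1
  have f2 := T B hg.2.2
  have f4 := S (X A4) f1 (skew h d1)
  have f3 := S (X A3) f2 (skew h d2)
  have M : ∀ {c d : F.Rz {a, b}}, F.Ad b c.1 d.1 → (∀ p, (F.gq h).I p (vx a c) → sv k p = p) → (∀ p, (F.gq h).I p (vx a d) → sv k p = p) →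
      sv k p = p ∨ (F.gq h).I (vx b c) l := fun {c d} e u v => by
    by_contra! n
    obtain ⟨x, x1, x2⟩ : ∃ x, (F.gq h).I x (vx a c) ∧ (F.gq h).I x l := by_contra fun m => n.1 (S hl u (fun x a b => m ⟨x, a, b⟩) p hp)
    obtain ⟨y, y1, y2⟩ : ∃ x, (F.gq h).I x (vx a d) ∧ (F.gq h).I x l := by_contra fun m => n.1 (S hl v (fun x a b => m ⟨x, a, b⟩) p hp)
    exact n.2 (GQ.meet ⟨c, rfl, rfl⟩ ⟨d, vx_eq.2 e.symm.rs1, rfl⟩ (fun m => e.ne (Rs.eq_of h.ne (vx_eq.1 m) e.rs1).symm) x1 x2 y1 y2)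
  refine (M (c := F.cz (one_mem _)) (d := F.cz B) (D_ch1 _) f1 f2).elim id fun ⟨c, c1, c2⟩ => (M (ad_ch _ b).symm f4 f3).resolve_right fun ⟨d, e1, e2⟩ => ?_
  have := len_le3 d1 (vx_eq.1 c1).symm (vx_eq.1 (c2.trans e2.symm)) (vx_eq.1 e1)
  rw [h.len4] at this
  omega

/-- Points = `b`-panels, lines = `a`-panels (`s = q a`, `t = q b`), `x` = the `b`-panel of `ch 1`,
`E₁`, `E₂` = the `a`-panels of `ch 1`, `ch s_b`.  The fixed points and lines of a set of elements as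
in `hA` form a full subquadrangle: a fixed line skew to a pointwise fixed line is pointwise fixed
(projection), so the four lines `E₁, E₂, E₃, E₄` of the apartment are; a fixed line `L ≠ Eᵢ` is skew
to one of them (no triangles).  Lines through `x` correspond to the chambers of the panel.
`GQ.sub`. -/
theorem sub_fix (h : Db R a b) {A A' : Set G} (hAA : A ⊆ A')
    (hA : ∀ g ∈ A', g ∈ F.Fx (WJ R {a, b}) ∧ g ∈ F.Tr (F.ch 1) a ∧ g ∈ F.Tr (F.ch (R.sW b)) a)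
    {d : F.X} (hd : F.Ad b (F.ch 1) d) (h1 : ∀ g ∈ A, g • d = d) (h2 : ∃ g ∈ A', g • d ≠ d) :
    F.q a * {d | F.Ad b (F.ch 1) d ∧ ∀ g ∈ A', g • d = d}.ncard ≤
      {d | F.Ad b (F.ch 1) d ∧ ∀ g ∈ A, g • d = d}.ncard := by
  have A4 : R.sW a * R.sW b * R.sW a * R.sW b ∈ WJ R {a, b} := lg_db h ▸ lg_mem _
  have o : ∀ g ∈ A', g • F.ch 1 = F.ch 1 := fun g m => mem_Fx.1 (hA g m).1 1 (one_mem _)
  have P : ∀ g ∈ A', g ∈ F.PJ {a, b} := fun g m => mem_PJ.2 (by rw [o g m]; exact .refl _ _)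
  have U : ∀ S : Set G, ∀ hS : S ⊆ A', (F.gq h).Full {p | ∀ g (m : g ∈ S), sv (P g (hS m)) p = p} {l | ∀ g (m : g ∈ S), sv (P g (hS m)) l = l} :=
    fun S hS => ⟨fun l a p b g m => full h (hA g (hS m)) _ (a g m) b, by
      rintro _ u _ v n _ ⟨c, rfl, rfl⟩ ⟨c', rfl, e⟩ g m
      exact (((F.gq h).uniq ⟨c, rfl, rfl⟩ ⟨c', rfl, e⟩ ⟨sz _ c, u g m, rfl⟩ ⟨sz _ c', v g m, congrArg (sv _) e⟩).resolve_left n).symm⟩
  have N : ∀ S : Set G, ∀ hS : S ⊆ A', {d | F.Ad b (F.ch 1) d ∧ ∀ g ∈ S, g • d = d}.ncard =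
      {m | m ∈ {l | ∀ g (m : g ∈ S), sv (P g (hS m)) l = l} ∧ (F.gq h).I (vx b (F.cz (one_mem _))) m ∧ m ≠ vx a (F.cz (one_mem _))}.ncard := fun S hS => by
    refine Set.ncard_congr (fun d k => vx a ⟨d, k.1.rs (by simp)⟩) (fun d k => ⟨fun g m => congrArg (vx a) (Subtype.ext (k.2 g m)),
      ⟨_, vx_eq.2 k.1.symm.rs1, rfl⟩, fun e => k.1.ne (Rs.eq_of h.ne (vx_eq.1 e) k.1.symm.rs1)⟩)
      (fun d d' k k' e => (Rs.eq_of h.ne (vx_eq.1 e) (k.1.symm.rs1.trans k'.1.rs1)).symm) ?_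
    rintro _ ⟨u, ⟨d, e, rfl⟩, n⟩
    have r := (vx_eq.1 e).symm
    exact ⟨d, ⟨r.ad fun e => n (congrArg _ (Subtype.ext e)), fun g m => Rs.eq_of h.ne (vx_eq.1 (u g m)).symm
      (r.symm.trans (by have := (Rs_smul g).2 r; rwa [show g • (F.cz (one_mem _) : F.Rz {a, b}).1 = _ from o g (hS m)] at this))⟩, rfl⟩
  rw [N A hAA, N A' le_rfl]
  refine (F.gq h).sub (two_le_q a) (U A hAA) (U A' le_rfl) (fun l u g m => u g (hAA m)) (E := vx a (F.cz (one_mem _))) (E' := vx a (F.cz A4)) (l := vx a ⟨d, hd.rs (by simp)⟩)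
    (fun g m => congrArg (vx a) (Subtype.ext (o g m))) (fun g m => congrArg (vx a) (Subtype.ext (mem_Fx.1 (hA g m).1 _ A4)))
    (skew h (D_ch1 _)) ⟨_, rfl, rfl⟩ (fun g m => congrArg (vx a) (Subtype.ext (h1 g m))) (fun u => ?_) ⟨_, vx_eq.2 hd.symm.rs1, rfl⟩
  obtain ⟨g, m, n⟩ := h2
  exact n (Rs.eq_of h.ne (vx_eq.1 (u g m)).symm (hd.symm.rs1.trans (by have := (Rs_smul g).2 hd.rs1; rwa [o g m] at this)))

/-- The `b`-panel of `d` is opposite to that of `ch 1`. -/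
def Op (F : Fr G R) (a b : ι) (d : F.X) : Prop :=
  F.D (R.sW a * R.sW b * R.sW a) (F.ch 1) d ∨ F.D (R.sW a * R.sW b * R.sW a * R.sW b) (F.ch 1) d

section

variable (h : Db R a b)
include h

set_option quotPrecheck false in
local notation "𝔱" => R.sW a * R.sW b * R.sW a

theorem bt_eq : R.sW b * 𝔱 = 𝔱 * R.sW b := by rw [h.braid]; simp only [mul_assoc]

omit h in
theorem t_inv : (𝔱)⁻¹ = 𝔱 := by simp only [mul_inv_rev, sW_inv, mul_assoc]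

omit h in
theorem Op.rs {d d' : F.X} (o : F.Op a b d) (r : F.Rs {b} d d') : F.Op a b d' := by
  rcases rs_one.1 r with rfl | r
  · exact o
  rcases o with o | o
  · exact (o.mul_ad r).symm
  · have := o.mul_ad r
    rwa [mul_assoc _ (R.sW b), sW_mul_self, mul_one] at this

theorem Op.smul {d : F.X} {g : G} (m : g ∈ F.PJ {b}) (o : F.Op a b d) : F.Op a b (g • d) := by
  rcases rs_one.1 (mem_PJ.1 m) with r | r
  · exact o.imp (fun o => r ▸ (D_smul g).2 o) fun o => r ▸ (D_smul g).2 o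
  rcases o with o | o
  · have := (r.mul ((D_smul g).2 o)).symm
    rwa [bt_eq h] at this
  · have := r.mul ((D_smul g).2 o)
    rwa [← bt_eq h, sW_cancel, bt_eq h] at this

theorem rs_top {k : G} (hk : k ∈ F.LJ {b}) : F.Rs {b} (F.ch (𝔱 * R.sW b)) (k • F.ch (𝔱 * R.sW b)) := by
  have A : ∀ u ∈ F.Fx (hf R (R.simple b)), F.Rs {b} (F.ch (𝔱 * R.sW b)) (u • F.ch (𝔱 * R.sW b)) := fun u m => by
    have := (Rs_smul u).2 (ad_ch (F := F) 𝔱 b).rs1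
    rw [mem_Fx.1 m _ (by rw [mem_hf, t_inv, h.fix3]; exact isPos_simple b)] at this
    exact (ad_ch _ b).symm.rs1.trans this
  rcases mem_LJ_one hk with u | ⟨u, hu, v, hv, rfl⟩
  · exact A k u
  · rw [mul_smul, mul_smul]
    refine (A u hu).trans ((Rs_smul u).2 (.trans ?_ ((Rs_smul _).2 (A v hv))))
    rw [(ov_n b).smul_ch, ← bt_eq h, sW_cancel, bt_eq h]
    exact (ad_ch _ b).symm.rs1

theorem mem_LJ_top {l : G} (m : l ∈ F.LJ {a, b}) (m' : l ∈ F.PJ {b}) (r : F.Rs {b} (F.ch (𝔱 * R.sW b)) (l • F.ch (𝔱 * R.sW b))) : l ∈ F.LJ {b} := by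
  obtain ⟨k, kL, k1, k2⟩ := exists_LJ_one (rs_one.1 (mem_PJ.1 m')) ((Ad_smul l).2 (D_ch1 _))
  have f1 : (k⁻¹ * l) • F.ch 1 = F.ch 1 := by rw [mul_smul, ← k1, inv_smul_smul]
  have f2 : (k⁻¹ * l) • F.ch (R.sW b) = F.ch (R.sW b) := by rw [mul_smul, ← k2, inv_smul_smul]
  have d := D_ch (F := F) (𝔱 * R.sW b) (R.sW b)
  rw [mul_inv_rev, t_inv, sW_inv, bt_eq h, mul_assoc _ (R.sW b), sW_mul_self, mul_one] at d
  have f3 := gate (by rw [bt_eq h, h.len3, h.len4]; omega) (Or.imp_left Eq.symm (rs_one.1 (by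
    rw [← Rs_smul k, mul_smul, smul_inv_smul]; exact (rs_top h kL).symm.trans r))) d (f2 ▸ (D_smul (k⁻¹ * l)).2 d)
  simpa using mul_mem kL (H_le_LJ _ (mem_H_of_LJ (mul_mem (inv_mem (LJ_mono (by simp) kL)) m) (one_mem _) f1 (by rw [one_mul, lg_db h, ← f3])))

variable (hM : F.Mf (R.simple a)) {Q : Subgroup G} (h1 : F.U (R.simple a) ≤ Q) (Nb : F.LJ {b} ≤ Subgroup.normalizer (Q : Set G))
include hM h1 Nb

theorem move0 {c d : F.X} (r : F.Rs {b} (F.ch (𝔱 * R.sW b)) c) (r' : F.Rs {a} c d) (o : F.Op a b d) :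
    ∃ z ∈ F.LJ {a, b} ⊓ F.PJ {b}, z ∈ Q ∧ F.Rs {b} (z • F.ch (𝔱 * R.sW b)) d := by
  obtain ⟨g, m, rfl⟩ : ∃ g ∈ F.LJ {b}, g • F.ch (𝔱 * R.sW b) = c := by
    rcases eq_or_ne c (F.ch 𝔱) with e | e
    · exact ⟨F.n b, n_mem_LJ (Set.mem_singleton b), by rw [(ov_n b).smul_ch, ← bt_eq h, sW_cancel, e]⟩
    obtain ⟨g, m, e'⟩ := exists_Fx (r := R.simple b) (by rw [t_inv]; exact h.fix3) (((ad_ch 𝔱 b).rs1.trans r).ad e)
    exact ⟨g, Fx_hf_le_LJ (inJ_simple_iff.2 (Set.mem_singleton b)) m, e'⟩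
  have o' := o.smul h (inv_mem (LJ_le_PJ _ m))
  replace r' : F.Rs {a} (F.ch (R.sW b * R.sW a * R.sW b * R.sW a)) (g⁻¹ • d) := by rwa [← Rs_smul g, smul_inv_smul, ← h.braid]
  have ne : g⁻¹ • d ≠ F.ch (R.sW b * R.sW a * R.sW b) := fun e => by
    have k := D_ch1 (F := F) (R.sW b * R.sW a * R.sW b)
    rw [← e] at k
    have l3 := h.symm.len3
    have l4 := h.len4
    rcases o' with o' | o'
    · rw [o'.unique k, mul_assoc _ (R.sW b), sW_mul_self, mul_one, len_sW2 h.ne.symm] at l4; omega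
    · rw [o'.unique k] at l4; omega
  obtain ⟨u, hu, e⟩ := hM.trans (w := R.sW b * R.sW a * R.sW b) (by rw [t_inv]; exact h.symm.fix3) (((ad_ch _ a).rs1.trans r').ad ne)
  have : Nontrivial ι := ⟨a, b, h.ne⟩
  have uF := U_le_Fx _ hu
  have gM : g ∈ F.LJ {a, b} ⊓ F.PJ {b} := ⟨LJ_mono (by simp) m, LJ_le_PJ _ m⟩
  refine ⟨g * u * g⁻¹, mul_mem (mul_mem gM ⟨Fx_hf_le_LJ (inJ_simple_iff.2 (by simp)) uF, mem_PJ.2 (by rw [fix_one_of_hf uF]; exact .refl _ _)⟩) (inv_mem gM),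
    (Subgroup.mem_normalizer_iff.1 (Nb m) u).1 (h1 hu), ?_⟩
  rw [← h.braid, eq_inv_smul_iff] at e
  rw [← e, mul_smul, mul_smul, Rs_smul, Rs_smul, ← Rs_smul g, smul_inv_smul]
  exact r

theorem move {k : G} (m : k ∈ F.LJ {a, b} ⊓ F.PJ {b}) (m' : k ∈ Subgroup.normalizer (Q : Set G)) {c d : F.X}
    (r : F.Rs {b} (k • F.ch (𝔱 * R.sW b)) c) (r' : F.Rs {a} c d) (o : F.Op a b d) :
    ∃ z ∈ F.LJ {a, b} ⊓ F.PJ {b}, z ∈ Q ∧ F.Rs {b} (z • k • F.ch (𝔱 * R.sW b)) d := by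
  obtain ⟨z, n, n', e⟩ := move0 h hM h1 Nb (c := k⁻¹ • c) (d := k⁻¹ • d) (by rwa [← Rs_smul k, smul_inv_smul]) ((Rs_smul _).2 r') (o.smul h (inv_mem m.2))
  exact ⟨_, mul_mem (mul_mem m n) (inv_mem m), (Subgroup.mem_normalizer_iff.1 m' z).1 n', by
    rw [mul_smul, inv_smul_smul, mul_smul, ← smul_inv_smul k d, Rs_smul]; exact e⟩

end

/-- Points = `b`-panels, lines = `a`-panels; apartment: points `p₀ ∋ 1`, `p₁ = s_a p₀`,
`p₂ = s_a s_b s_a p₀`, `p₃ = s_b s_a p₀`; lines `l₀ ∋ 1`, `l₁ = s_a s_b l₀ = p₁p₂`,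
`l₂ = s_b s_a s_b l₀ = p₃p₂`, `l₃ = s_b l₀ = p₀p₃`.  `y` fixes `p₁, l₀, p₀, l₃, p₃`; `U α_a` is transitive on
`l₂ ∖ p₃`, `U (s_b α_a) = n_b (U α_a) n_b⁻¹ ≤ Q` on `l₁ ∖ p₁` (`Mf.trans`).  Let `x = y p₂`,
`x' = a₁ p₂ ≠ p₂, p₃` on `l₂` (`a₁ ∈ U α_a`), `z` the point of `y l₁` collinear with `x'`; `z ≠ p₁`, so
`z = s x` with `s ∈ y (U (s_b α_a)) y⁻¹ ≤ Q` (`hf (s_a α_b) ⊇ DJ`).  `a₁⁻¹ z` is on a line `g l₂` through
`p₂`, `g ∈ LJ {b}` (it fixes `p₀`, `p₂` and is transitive on the lines through `p₂`; it normalizes `Q`),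
and is not collinear with `p₀`; so `a₁⁻¹ z = a' p₂`, `a' ∈ g (U α_a) g⁻¹`.  `l = (s⁻¹ a₁ a')⁻¹ y ∈ LJ {a,b}`
fixes `p₀` and `p₂`; correct it by `exists_LJ_one` to fix `ch 1`, `ch s_b`; then it fixes the
apartment of the residue, `mem_H_of_LJ`. -/
theorem exists_short (h : Db R a b) (hM : F.Mf (R.simple a)) {Q : Subgroup G}
    (h1 : F.U (R.simple a) ≤ Q) (h2 : ∀ g ∈ F.Fx (DJ R {a, b}), ∀ z ∈ Q, g * z * g⁻¹ ∈ Q)
    (h3 : ∀ z ∈ Q, F.n b * z * (F.n b)⁻¹ ∈ Q) {y : G} (hy : y ∈ F.Fx (hf R (R.sref a (R.simple b)))) :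
    ∃ z ∈ Q, z⁻¹ * y ∈ F.LJ {b} := by
  have N : F.Fx (DJ R {a, b}) ≤ Subgroup.normalizer (Q : Set G) := fun g m => Subgroup.mem_normalizer_fintype (h2 g m)
  have Nb : F.LJ {b} ≤ Subgroup.normalizer (Q : Set G) := sup_le ((Fx_anti (A := DJ R {a, b}) fun w hw i hi => hw i (.inr hi)).trans N)
    ((Subgroup.closure_le _).2 (by rintro _ ⟨_, rfl, rfl⟩; exact Subgroup.mem_normalizer_fintype h3))
  have y1 : y • F.ch 1 = F.ch 1 := mem_Fx.1 hy 1 (one_mem_hf.2 (isPos_sref_simple h.ne))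
  have ya : y • F.ch (R.sW a) = F.ch (R.sW a) := mem_Fx.1 hy _ (by rw [mem_hf, sW_inv, coe_sW, R.sref_sref]; exact isPos_simple b)
  have yL : y ∈ F.LJ {a, b} := Fx_hf_le_LJ ((inJ_simple_iff.2 (by simp)).sref (by simp)) hy
  have yM : y ∈ F.LJ {a, b} ⊓ F.PJ {b} := ⟨yL, mem_PJ.2 (by rw [y1]; exact .refl _ _)⟩
  obtain ⟨e, e1, e2⟩ := (ad_ch (F := F) (R.sW b * R.sW a * R.sW b) a).exists_third
  have de := (D_ch1 _).d4 h.symm e1
  rw [← h.braid] at de e2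
  have dc : F.D (R.sW a * R.sW b) (F.ch 1) (y • F.ch (R.sW a * R.sW b)) := by rw [← y1]; exact (D_smul y).2 (D_ch1 _)
  obtain ⟨c₁, c₂, c₃, k₁, k₂, k₃, k₄⟩ := chain h (Rs.trans (Rs.symm ⟨_, lg_db h ▸ lg_mem _, de⟩)
    ⟨_, mul_mem (sW_mem_WJ (by simp)) (sW_mem_WJ (by simp)), dc⟩)
  have o3 : F.Op a b c₃ := .inl (dc.d3 h (k₄.symm.ad fun n => by
    have k := D_ch (F := F) (R.sW a) (R.sW a * (R.sW b * R.sW a * R.sW b))
    rw [inv_mul_cancel_left, ← mul_assoc, ← mul_assoc] at k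
    have r : F.Rs {b} (F.ch (R.sW a)) c₃ := by rw [n, ← ya]; exact (Rs_smul y).2 (ad_ch _ b).rs1
    have := len_le3 (k.d4 h.symm e2) (r.trans k₃.symm) k₂.symm k₁.symm
    rw [h.symm.len4] at this
    omega))
  obtain ⟨z₁, n₁, q₁, r₁⟩ := move0 h hM h1 Nb (.refl _ _) e2.rs1 (.inr de)
  obtain ⟨z₂, n₂, q₂, r₂⟩ := move h hM h1 Nb n₁ (Subgroup.le_normalizer q₁) (r₁.trans k₁) k₂ (o3.rs k₃.symm)
  obtain ⟨z₃, n₃, q₃, r₃⟩ := move h hM h1 Nb yM (N (mem_Fx_DJ yL y1)) ((Rs_smul y).2 (ad_ch _ b).symm.rs1)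
    (((Rs_smul y).2 (ad_ch _ a).symm.rs1).trans k₄.symm) o3
  have m := mul_mem (inv_mem (mul_mem (mul_mem (inv_mem n₃) n₂) n₁)) yM
  refine ⟨_, mul_mem (mul_mem (inv_mem q₃) q₂) q₁, mem_LJ_top h m.1 m.2 ?_⟩
  rw [← Rs_smul (z₂ * z₁), ← mul_smul (z₂ * z₁), show z₂ * z₁ * ((z₃⁻¹ * z₂ * z₁)⁻¹ * y) = z₃ * y by group, mul_smul, mul_smul]
  exact (r₂.trans k₃).trans r₃.symm

end Cfsg.Lib.TB.Fr
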