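import Cfsg.Agent.Lib.TB.Res

/-!
S1143 (docs/TB.md): propagation of triviality on panels through a half-apartment.
-/

set_option autoImplicit false
set_option linter.unusedSectionVars false

namespace Cfsg.Lib.TB.Fr

open Cfsg.Lib.BN Cfsg.Lib.Chev RootSys H17

variable {ι Φ : Type} [Fintype ι] [DecidableEq ι] {R : RootSys ι Φ} [Fintype Φ]
variable {G : Type*} [Group G] {F : Fr G R} {w : R.W} {g : G} {r : Φ}

theorem α_sref_self (i : ι) (s : Φ) : R.α (R.sref i s) i = R.α s i - R.pair (R.simple i) s := by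
  simp [α_sref', R.α_simple]

theorem step0 {u a b : ι} (h1 : Sb R u a) (h2 : Db R a b) (h3 : R.A u b = 0) (hg : g ∈ F.Fx (hf R r)) (hp : R.IsPos r) (hb : R.α r b ≠ 0)
    (hu : R.α r u = 0) (hu' : R.pair (R.simple u) r ≠ 0) (h : ∀ i, g ∈ F.Tr (F.ch 1) i) :
    (R.sref b r = r → g ∈ F.Tr (F.ch (R.sW b)) a) ∧ (R.sref a r = r → g ∈ F.Tr (F.ch (R.sW a)) b) := by
  have ub := ne_of_zero h3
  have U : R.sW u ∈ WJ R {u, a} := sW_mem_WJ (by simp)
  have A : R.sW a ∈ WJ R {u, a} := sW_mem_WJ (by simp)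
  have n1 : ¬ R.InJ {u, a} r := fun k => hb (k b (by simp [ub.symm, h2.ne.symm]))
  have n2 : ¬ R.InJ {a, b} (R.sref u r) := fun k => hu' (by simpa [α_sref_self, hu] using k u (by simp [ub, h1.ne]))
  have o := one_mem_hf.2 hp
  have m : ∀ x ∈ WJ R {u, a}, x ∈ hf R r := fun x k => by simpa using mul_mem_hf_of_not_inJ o n1 k
  have t1 := rigid_hf hg o n1 fun i _ => h i
  have p : ∀ x ∈ WJ R {u, a}, ∀ i ∈ ({u, a} : Set ι), g ∈ F.Tr (F.ch x) i := fun x k i => mem_Tr_of_TrJ t1 (rs_ch.2 (by simpa using k))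
  have t2 : g ∈ F.TrJ {a, b} (F.ch (R.sW u)) := rigid_hf hg (m _ U) (by rwa [sW_inv]) (by
    rintro i (rfl | rfl)
    exacts [p _ U _ (by simp), Tr_digon h3 (by simpa using ad_ch (F := F) 1 u) (h _) (mem_Fx.1 hg _ (m _ U))])
  refine ⟨fun e => ?_, fun e => ?_⟩
  · have B : R.sW b ∈ hf R r := by rw [mem_hf, sW_inv, coe_sW, e]; exact hp
    have n3 : ¬ R.InJ {u, a} (((R.sW b)⁻¹ : R.W).1 r) := by rwa [sW_inv, coe_sW, e]
    refine mem_Tr_of_TrJ (J := {u, a}) (rigid_hf hg (mul_mem_hf_of_not_inJ B n3 U)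
      (by rwa [mul_inv_rev, W_mul, inJ_of_mem_WJ (inv_mem U)]) ?_) ((ad_ch _ u).symm.rs (by simp)) (by simp)
    rintro i (rfl | rfl)
    · exact (ad_ch (F := F) (R.sW b) i).Tr_eq ▸ Tr_digon (A_zero_symm h3) (by simpa using ad_ch (F := F) 1 b) (h _) (mem_Fx.1 hg _ B)
    · exact sW_comm h3 ▸ mem_Tr_of_TrJ t2 ((ad_ch _ b).rs (by simp)) (by simp)
  · have X := mul_mem (mul_mem U A) U
    have t3 : g ∈ F.TrJ {a, b} (F.ch (R.sW u * R.sW a * R.sW u)) := rigid_hf hg (m _ X) (by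
      rwa [h1.braid, mul_inv_rev, mul_inv_rev, sW_inv, sW_inv, W_mul, W_mul, inJ_of_mem_WJ (sW_mem_WJ (by simp)), coe_sW, coe_sW, e]) (by
      rintro i (rfl | rfl)
      exacts [p _ X _ (by simp), Tr_digon h3 (ad_ch _ u) (mem_Tr_of_TrJ t2 ((ad_ch _ a).rs (by simp)) (by simp)) (mem_Fx.1 hg _ (m _ X))])
    refine Tr_digon h3 (ad_ch _ u).symm (mem_Tr_of_TrJ t3 (h1.braid ▸ (ad_ch _ a).symm.rs (by simp)) (by simp)) (mem_Fx.1 hg _ (m _ A))

theorem step1 (hR : Good R) {v t : ι} (h2 : Db R v t) (hg : g ∈ F.Fx (hf R (R.sref t (R.simple v)))) (h : ∀ i, g ∈ F.Tr (F.ch 1) i) :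
    g ∈ F.Tr (F.ch (R.sW v)) t := by
  have c := db_cases h2
  have p := isPos_sref_simple (R := R) h2.ne.symm
  obtain ⟨u, ⟨h1, h3⟩ | ⟨h1, h3⟩⟩ := hR.tri v t h2
  · refine (step0 h1 h2 h3 hg p ?_ ?_ ?_ h).2 h2.sref_sref
    · rw [α_sref_self, pair_simple_simple, R.α_simple, Pi.single_eq_of_ne h2.ne.symm]; omega
    · rw [α_sref_of_ne R (ne_of_zero h3), R.α_simple, Pi.single_eq_of_ne h1.ne]
    · rw [pair_sref_right, pair_simple_simple, h3, h1.1]; omega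
  · refine (step0 h1 h2.symm h3 hg p ?_ ?_ ?_ h).1 h2.sref_sref
    · rw [α_sref_of_ne R h2.ne, R.α_simple, Pi.single_eq_same]; omega
    · rw [α_sref_of_ne R h1.ne, R.α_simple, Pi.single_eq_of_ne (ne_of_zero h3)]
    · rw [pair_sref_right, pair_simple_simple, pair_simple_simple, h3, h1.1]; omega

/-- One step.  Let `ρ = w⁻¹ r > 0`, and let `t ≠ v` with `w sᵥ s_t ∈ hf r` (`t = v`: `Ad.Tr_eq`), i.e.
`sᵥ ρ ≠ α_t`; `J = {v, t}`.  If `ρ ∉ Φ_J`: `rigid_hf`.  Otherwise `ρ` is not simple (`h3`), so the bond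
is double (`pos_of_zero`, `pos_of_sb`) and `ρ` has support `J`; all panels of `ch w` are interior.
Take `u`, `J = {a, b}` with `Sb u a`, `A u b = 0` (`Good.tri`).  `g` is trivial on the plane
`R_{ua}(w)` (`rigid_hf`), `g ∈ Tr (w s_u) b` (`Tr_digon`), hence trivial on `R_{ab}(w s_u)`
(`s_u ρ` has `u` in its support).
* `v = b, t = a`: `Tr (w s_u s_b) a`; `Tr (w s_b) u` (digon) `= Tr (w s_b s_u) u`, `s_b s_u = s_u s_b`;
  `s_u s_b ρ ∉ Φ_{ua}` (its `b`-coordinate is not `0`, else `s_b ρ = α_a`), `rigid_hf` for `{u, a}` at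
  `w s_b s_u` gives `Tr (w s_b) a`.
* `v = a, t = b`: `Tr (w s_u s_a) b`, digon: `Tr (w s_u s_a s_u) b`; `Tr (w s_u s_a s_u) a` (plane);
  `s_u s_a s_u ρ = s_a s_u s_a ρ ∉ Φ_{ab}` (`s_a ρ ≠ α_b` has `a` in its support); `rigid_hf` gives
  `Tr (w s_u s_a s_u s_a) b = Tr (w s_a s_u) b`; digon: `Tr (w s_a) b`. -/
theorem step (hR : Good R) (hg : g ∈ F.Fx (hf R r)) (hw : w ∈ hf R r) {v : ι}
    (hv : w * R.sW v ∈ hf R r) (h3 : ∀ t, (w⁻¹ : R.W).1 r = R.simple t → R.A v t = 0)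
    (h : ∀ i, w * R.sW i ∈ hf R r → g ∈ F.Tr (F.ch w) i) :
    ∀ i, w * R.sW v * R.sW i ∈ hf R r → g ∈ F.Tr (F.ch (w * R.sW v)) i := by
  intro t ht
  obtain rfl | ne := eq_or_ne v t
  · exact (ad_ch (F := F) w v).Tr_eq ▸ h v hv
  by_cases hJ : R.InJ {v, t} ((w⁻¹ : R.W).1 r)
  swap
  · exact mem_Tr_of_TrJ (rigid_hf hg hw hJ fun i hi => h i (mul_mem_hf_of_not_inJ hw hJ (sW_mem_WJ hi))) ((ad_ch _ v).rs (by simp)) (by simp)
  have n1 : (w⁻¹ : R.W).1 r ≠ R.simple v := fun e => (mul_sW_notMem_hf hw).2 e hv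
  have n2 : (w⁻¹ : R.W).1 r ≠ R.sref v (R.simple t) := fun e => (mul_sW_notMem_hf hv).2 (by
    rw [mul_inv_rev, W_mul, sW_inv, coe_sW, e, R.sref_sref]) ht
  rcases hR.cases v t ne with c | c | c
  · exact absurd (((pos_of_zero c hJ hw).resolve_left n1).trans (sref_of_zero c).symm) n2
  · have := h3 t (((pos_of_sb c hJ hw).resolve_left n1).resolve_right n2)
    rw [c.1] at this; omega
  have d := db_cases c
  have e := (((pos_of_db c hJ hw).resolve_left n1).resolve_left fun e => by have := h3 t e; omega).resolve_left n2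
  have hn := ov_nr (F := F) w
  have := (conj_mem_Tr (F.nr w)).2 (step1 (g := (F.nr w)⁻¹ * g * F.nr w) hR c (hn.conj_mem_hf.1 (by
    rw [← e, W_apply_inv]; convert hg using 1; group)) fun i => (conj_mem_Tr (F.nr w)).1 (by
      rw [hn.smul_ch, mul_one]
      convert h i (by_contra fun k => ?_) using 1
      · group
      rw [mul_sW_notMem_hf hw] at k
      have k1 := congrArg (R.α · v) (e.symm.trans k)
      simp only [α_sref_of_ne R ne, R.α_simple, Pi.single_eq_same] at k1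
      rw [Pi.single_eq_of_ne fun q => n1 (by rw [k, q])] at k1
      omega))
  rw [hn.smul_ch] at this
  convert this using 1; group

/-- **Propagation.**  First move to a chamber `w₀` with `ρ₀ = w₀⁻¹ r` dominant (if `ρ > 0` is not
simple and `pair αᵥ ρ < 0` then `sᵥ ρ` is higher, positive, not simple; `exists_ht_bound`).  Then
induction on `len x` for the chambers `w₀ x`: `x = x' sᵥ` with `x' αᵥ > 0`; `x'⁻¹ ρ₀ > 0`; if
`x'⁻¹ ρ₀ = α_t` then `A v t = pair (x' αᵥ) ρ₀ ≥ 0` (`pair_eq_sum`), `v ≠ t`, so `A v t = 0`. -/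
theorem mem_U_of_deep (hR : Good R) (hg : g ∈ F.Fx (hf R r)) (hw : w ∈ hf R r)
    (hw' : ∀ i, (w⁻¹ : R.W).1 r ≠ R.simple i) (h : ∀ i, g ∈ F.Tr (F.ch w) i) : g ∈ F.U r := by
  obtain ⟨M, hM⟩ := exists_ht_bound (R := R)
  obtain ⟨w, hw, hd, h⟩ : ∃ w ∈ hf R r, (∀ i, 0 ≤ R.pair (R.simple i) ((w⁻¹ : R.W).1 r)) ∧ ∀ i, w * R.sW i ∈ hf R r → g ∈ F.Tr (F.ch w) i := by
    replace h : ∀ i, w * R.sW i ∈ hf R r → g ∈ F.Tr (F.ch w) i := fun i _ => h i
    obtain ⟨n, hn⟩ : ∃ n : ℕ, M - R.ht ((w⁻¹ : R.W).1 r) ≤ n := ⟨_, Int.self_le_toNat _⟩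
    induction n generalizing w with
    | zero => have := hM ((w⁻¹ : R.W).1 r); omega
    | succ n ih =>
      by_cases hd : ∀ i, 0 ≤ R.pair (R.simple i) ((w⁻¹ : R.W).1 r)
      · exact ⟨w, hw, hd, h⟩
      obtain ⟨v, hv⟩ := not_forall.1 hd
      have m : w * R.sW v ∈ hf R r := by_contra fun k => hw' v ((mul_sW_notMem_hf hw).1 k)
      have e : R.ht (((w * R.sW v)⁻¹ : R.W).1 r) = R.ht ((w⁻¹ : R.W).1 r) - R.pair (R.simple v) ((w⁻¹ : R.W).1 r) := by
        rw [mul_inv_rev, W_mul, sW_inv, coe_sW, ht_sref]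
      have p := IsPos.ht_pos hw
      exact ih m (fun i k => by rw [k, ht_simple] at e; omega) (step hR hg hw m (fun t k => absurd k (hw' t)) h) (by omega)
  refine mem_U.2 fun x hx => ?_
  obtain ⟨x, rfl⟩ : ∃ y, x = w * y := ⟨w⁻¹ * x, (mul_inv_cancel_left w x).symm⟩
  obtain ⟨n, hn⟩ : ∃ n, len R.sW x = n := ⟨_, rfl⟩
  induction n generalizing x with
  | zero => rw [R.invGen.eq_one_of_len hn, mul_one]; exact h
  | succ n ih =>
    obtain ⟨v, y, rfl, l⟩ := R.invGen.exists_right_descent hn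
    have p := len_lt_iff.1 (by omega : len R.sW y < len R.sW (y * R.sW v))
    rw [← mul_assoc] at hx ⊢
    have e : ∀ k, ((w * y)⁻¹ : R.W).1 r = k → (w⁻¹ : R.W).1 r = y.1 k := fun k e => by rw [← e, mul_inv_rev, W_mul, W_apply_inv]
    have m : w * y ∈ hf R r := by_contra fun k => by
      have := (mul_sW_notMem_hf hx (i := v)).1 (by rwa [mul_assoc, sW_mul_self, mul_one])
      rw [mul_inv_rev, W_mul, sW_inv, coe_sW] at this
      have := e _ ((R.sref_sref v _).symm.trans (by rw [this, sref_simple]))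
      rw [(W_aut _).neg] at this
      exact isPos_neg_iff.1 (this ▸ hw) p
    refine step hR hg m hx (fun t k => le_antisymm (R.A_nonpos fun q => (mul_sW_notMem_hf m).2 (q ▸ k) hx) ?_) (ih y m l)
    rw [← pair_simple_simple, ← (W_aut y).pair, ← e _ k, pair_eq_sum]
    exact Finset.sum_nonneg fun i _ => mul_nonneg (R.co_nonneg_iff.2 (p i)) (hd i)

end Cfsg.Lib.TB.Fr
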