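import Cfsg.Agent.Lib.TB.NT
import Cfsg.Agent.Lib.TB.Prop
import Cfsg.Agent.Lib.Twisted.F4

/-!
S1143 (docs/TB.md): the Moufang condition.
-/

set_option autoImplicit false
set_option linter.unusedSectionVars false

namespace Cfsg.Lib.TB.Fr

open Cfsg.Lib.BN Cfsg.Lib.Chev RootSys H17
open scoped MatrixGroups commutatorElement

variable {ι Φ : Type} [Fintype ι] [DecidableEq ι] {R : RootSys ι Φ} [Fintype Φ]
variable {G : Type*} [Group G] [Finite G] {F : Fr G R} {a b u : ι}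

/-- The elements of `L` centralizing `K` modulo `M`. -/
def cmod (L K M : Subgroup G) (h : ∀ l ∈ L, ∀ x ∈ M, l * x * l⁻¹ ∈ M) : Subgroup G where
  carrier := {g | g ∈ L ∧ ∀ k ∈ K, ⁅g, k⁆ ∈ M}
  one_mem' := ⟨one_mem _, fun k _ => by simp⟩
  mul_mem' {x y} hx hy := ⟨mul_mem hx.1 hy.1, fun k m => by
    convert mul_mem (h _ hx.1 _ (hy.2 k m)) (hx.2 k m) using 1; simp only [commutatorElement_def]; group⟩
  inv_mem' {x} hx := ⟨inv_mem hx.1, fun k m => by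
    convert h _ (inv_mem hx.1) _ (inv_mem (hx.2 k m)) using 1; simp only [commutatorElement_def]; group⟩

theorem fix_of_Ul (h : a ≠ b) {r : Φ} {g : G} (hg : g ∈ F.Ul {a, b} r) {x : R.W} (hx : x ∈ WJ R {a, b}) (hw : x ∈ hf R r) : g • F.ch x = F.ch x := by
  have : x * R.sW a ∈ hf R r ∨ x * R.sW b ∈ hf R r := by
    by_contra hc
    rw [not_or, mul_sW_notMem_hf hw, mul_sW_notMem_hf hw] at hc
    exact h (R.simple_injective (hc.1.symm.trans hc.2))
  rcases this with h | h <;> exact (mem_Tr.1 (mem_Ul.1 hg x hx hw _ (by simp) h)).1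

theorem PlD.cov {K : Type} [Field K] {L C : Subgroup G} (D : F.PlD a b L K) (n : ∀ l ∈ L, ∀ x ∈ C, l * x * l⁻¹ ∈ C)
    (h : ∀ c, ∃ g ∈ C, (g, xe 0 2 c) ∈ D.Rel) (A : SL(3, K)) : ∃ g ∈ C, (g, A) ∈ D.Rel := by
  let N := (D.Rel ⊓ C.prod ⊤).map (MonoidHom.snd _ _)
  have m : ∀ A, A ∈ N ↔ ∃ g ∈ C, (g, A) ∈ D.Rel := fun A => ⟨fun ⟨z, k, e⟩ => ⟨z.1, k.2.1, e ▸ k.1⟩, fun ⟨g, k, k'⟩ => ⟨_, ⟨k', k, trivial⟩, rfl⟩⟩
  have c : ∀ B, ∀ A ∈ N, B * A * B⁻¹ ∈ N := fun B A k => by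
    obtain ⟨l, hl⟩ := D.surj B
    obtain ⟨g, k, k'⟩ := (m A).1 k
    exact (m _).2 ⟨_, n l (D.mem hl) g k, mul_mem (mul_mem hl k') (inv_mem hl)⟩
  have : N.Normal := ⟨fun A k B => c B A k⟩
  have cm : ∀ {i j k}, i ≠ j → j ≠ k → i ≠ k → ((∀ t, xe i j t ∈ N) ∨ ∀ t, xe j k t ∈ N) → ∀ t, xe i k t ∈ N := fun h1 h2 h3 k t => by
    rw [← mul_one t, ← xe_comm h1 h2 h3, commutatorElement_def]
    rcases k with k | k
    · rw [mul_assoc, mul_assoc, ← mul_assoc (xe _ _ 1)]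
      exact mul_mem (k _) (by simpa using c _ _ (inv_mem (k t)))
    · exact mul_mem (c _ _ (k _)) (inv_mem (k _))
  have h02 := fun t => (m _).2 (h t)
  have h01 := cm (by decide) (by decide) (by decide : (0 : Fin 3) ≠ 1) (.inl h02)
  have h12 := cm (by decide) (by decide) (by decide : (1 : Fin 3) ≠ 2) (.inr h02)
  have h21 := cm (by decide) (by decide) (by decide : (2 : Fin 3) ≠ 1) (.inr h01)
  have h10 := cm (by decide) (by decide) (by decide : (1 : Fin 3) ≠ 0) (.inl h12)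
  have h20 := cm (by decide) (by decide) (by decide : (2 : Fin 3) ≠ 0) (.inl h21)
  refine (m A).1 ((eq_top_of_xe fun i j n => ?_).ge (Subgroup.mem_top A))
  fin_cases i <;> fin_cases j <;> first | exact absurd rfl n | assumption

theorem PlD.r02 {K : Type} [Field K] (h : Sb R a b) (D : F.PlD a b (F.LJ {a, b}) K) {g : G} {c : K} (k : (g, xe 0 2 c) ∈ D.Rel) :
    g ∈ F.Fx (hf R (R.sref a (R.simple b))) ∧ ∀ i ∈ ({a, b} : Set ι), g ∈ F.Tr (F.ch 1) i := by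
  have u : g ∈ F.Ul {a, b} (R.sref a (R.simple b)) := (D.root 0 2 (by decide) g (D.mem k)).1 ⟨c, k⟩
  have o := one_mem_hf.2 (isPos_sref_simple (R := R) h.ne)
  refine ⟨mem_Fx_hf (D.mem k) ((inJ_simple_iff.2 (by simp)).sref (by simp)) fun x => fix_of_Ul h.ne u,
    fun i hi => mem_Ul.1 u 1 (one_mem _) o i hi (by_contra fun e => ?_)⟩
  have e := (mul_sW_notMem_hf o).1 e
  have e1 := congrArg (R.α · a) e
  have e2 := congrArg (R.α · b) e
  simp only [inv_one, OneMemClass.coe_one, Equiv.Perm.one_apply, α_sref_self, α_sref_of_ne R h.ne.symm, pair_simple_simple, h.1, R.α_simple] at e1 e2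
  rcases hi with rfl | rfl
  exacts [by simp [h.ne.symm] at e2, by simp [h.ne] at e1]

/-- `J = {a, b}`, `L = LJ J`, `D : PlD a b L K`, `γ = s_a α_b`, `K₀ = L ⊓ TrJ J ≤ H` (`mem_H_of_TrJ`),
`Y t = Fx (DJ J) ⊓ Tr 1 t`, `K t = K₀ ⊓ Tr 1 t` for `t ∉ J`.
1. `nsub`: every `xe 0 2 c` has a lift in `Y t`.  Such a lift `y` is in `Ul J γ` (`root`), in
   `Fx (hf γ)` (`mem_Fx_hf`), so trivial on the `{a, t}`-residue (`rigid_hf`).  Fix `c₀ ≠ 0`:
   `n_a⁻¹ y n_a ∈ Tr 1 t` is in `Ul J α_b`, lies over `xe 1 2 c₁`, `c₁ ≠ 0`, and any two such elements (for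
   different `t`) differ by an element of `K₀`.
2. `K t` is normal in `L`: `k ∈ K t ≤ H` is trivial on the `{a, t}`- and `{b, t}`-residues (`rigidJ_ch`),
   so `n_a`, `n_b` normalize it.  `C t = {g ∈ L | [g, K₀] ≤ K t}` is normal in `L` and contains `Y t`, so
   covers `SL₃(K)` (normal closure of the `xe 0 2 c`; conjugate by lifts).  As `SL₃(K)` is perfect the
   intersection `C` of the `C t` covers `SL₃(K)` (commutators; induction on a finite set), and `C`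
   centralizes `K₀` (`rigid`).
3. `y = [y_a, y_b]` with `y_a ∈ C` over `xe 0 1 c`, `y_b` over `xe 1 2 c₁` (both fix `ch 1`): on the
   `t`-panel `y_b` acts as an element of `K₀`, so `y ∈ Tr 1 t`; `y` lies over `xe 0 2 (c c₁)`, so
   `y ∈ U γ` (`mem_U_of_deep` at `w = 1`).  `trans`, `mf_of_trans` with `w = s_a`, `i = b`. -/
theorem mf_plane (hR : Good R) (h : Sb R a b) (hN : ∀ t ∉ ({a, b} : Set ι), F.NT {a, b} t) :
    F.Mf (R.simple b) := by
  classical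
  obtain ⟨K, _, _, ⟨D⟩⟩ := exists_plD_LJ (F := F) h
  have := good_nontrivial hR
  set L := F.LJ {a, b} with hL
  let K₀ := L ⊓ F.TrJ {a, b} (F.ch 1)
  have n0 : ∀ l ∈ L, ∀ x ∈ K₀, l * x * l⁻¹ ∈ K₀ := fun l m x k =>
    Subgroup.mem_inf.2 ⟨mul_mem (mul_mem m k.1) (inv_mem m), conj_mem_TrJ_of_PJ (LJ_le_PJ _ m) k.2⟩
  have kT : ∀ x ∈ K₀, ∀ i ∈ ({a, b} : Set ι), x ∈ F.Tr (F.ch 1) i := fun x k i => mem_Tr_of_TrJ k.2 (.refl _ _)
  have cT : ∀ {t l x}, l • F.ch 1 = F.ch 1 → x ∈ F.Tr (F.ch 1) t → l * x * l⁻¹ ∈ F.Tr (F.ch 1) t := fun e => conj_mem_Tr_of (.inl e)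
  have cn : ∀ {i t x l}, l ∈ F.LJ {i} → x ∈ F.TrJ {i, t} (F.ch 1) → l * x * l⁻¹ ∈ F.Tr (F.ch 1) t := fun m k =>
    mem_Tr_of_TrJ (conj_mem_TrJ_of_PJ (LJ_le_PJ _ (LJ_mono (by simp) m)) k) (.refl _ _) (by simp)
  have s1 : ∀ t ∉ ({a, b} : Set ι), ∀ c, ∃ y ∈ F.Fx (DJ R {a, b}) ⊓ F.Tr (F.ch 1) t, (y, xe 0 2 c) ∈ D.Rel := fun t ht =>
    D.nsub _ (inf_le_left.trans (Fx_DJ_le _)) (fun g m => (mem_Tr.1 m.2).1) (fun l m e g k =>
      Subgroup.mem_inf.2 ⟨mul_mem (mul_mem (mem_Fx_DJ m e) k.1) (inv_mem (mem_Fx_DJ m e)), cT e k.2⟩) fun k => let ⟨y, a, b, c⟩ := hN t ht; c (k ⟨a, b⟩)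
  have nT : ∀ t, ∀ l ∈ L, ∀ x ∈ K₀ ⊓ F.Tr (F.ch 1) t, l * x * l⁻¹ ∈ K₀ ⊓ F.Tr (F.ch 1) t := fun t l m =>
    fun x => (Subgroup.mem_normalizer_iff.1 ((sup_le (fun l m => Subgroup.mem_normalizer_fintype fun x k =>
      ⟨n0 l (Fx_DJ_le _ m) x k.1, cT (mem_Fx.1 m 1 (one_mem_DJ _)) k.2⟩) ((Subgroup.closure_le _).2 (by
        rintro _ ⟨i, hi, rfl⟩
        exact Subgroup.mem_normalizer_fintype fun x k => ⟨n0 _ (n_mem_LJ hi) x k.1, cn (n_mem_LJ (Set.mem_singleton i)) (rigidJ_ch (by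
          rintro _ (rfl | rfl)
          exacts [kT x k.1 _ hi, k.2]) fun y _ => mem_H.1 (mem_H_of_TrJ k.1.1 k.1.2) _)⟩)) :
      L ≤ Subgroup.normalizer (↑(K₀ ⊓ F.Tr (F.ch 1) t) : Set G)) m) x).1
  have nC : ∀ t, ∀ l ∈ L, ∀ x ∈ cmod L K₀ _ (nT t), l * x * l⁻¹ ∈ cmod L K₀ _ (nT t) := fun t l m x k =>
    ⟨mul_mem (mul_mem m k.1) (inv_mem m), fun z hz => by
      convert nT t l m _ (k.2 _ (n0 _ (inv_mem m) z hz)) using 1; simp only [commutatorElement_def]; group⟩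
  have s2 : ∀ T : Finset ι, (∀ t ∈ T, t ∉ ({a, b} : Set ι)) → ∀ A, ∃ g ∈ L ⊓ ⨅ t ∈ T, cmod L K₀ _ (nT t), (g, A) ∈ D.Rel := fun T => by
    induction T using Finset.induction_on with
    | empty => exact fun _ A => let ⟨g, k⟩ := D.surj A; ⟨g, by simpa using D.mem k, k⟩
    | insert t T _ ih =>
      intro hT
      have N : ∀ T : Finset ι, ∀ l ∈ L, ∀ x ∈ L ⊓ ⨅ t ∈ T, cmod L K₀ _ (nT t), l * x * l⁻¹ ∈ L ⊓ ⨅ t ∈ T, cmod L K₀ _ (nT t) := fun T l m x k => by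
        simp only [Subgroup.mem_inf, Subgroup.mem_iInf] at k ⊢
        exact ⟨mul_mem (mul_mem m k.1) (inv_mem m), fun t e => nC t l m x (k.2 t e)⟩
      refine D.cov (N _) fun c => ?_
      obtain ⟨g, m, k⟩ := ih (fun t e => hT t (Finset.mem_insert_of_mem e)) (xe 0 1 c)
      obtain ⟨g', m', k'⟩ := D.cov (nC t) (fun c => let ⟨y, p, q⟩ := s1 t (hT t (Finset.mem_insert_self _ _)) c
        ⟨y, ⟨D.mem q, fun z hz => Subgroup.mem_inf.2 ⟨mul_mem (n0 _ (D.mem q) z hz) (inv_mem hz), by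
          rw [commutatorElement_def, mul_assoc, mul_assoc, ← mul_assoc z]
          exact mul_mem p.2 (cT (mem_TrJ.1 hz.2 _ (.refl _ _)) (inv_mem p.2))⟩⟩, q⟩) (xe 1 2 1)
      refine ⟨⁅g, g'⁆, ?_, by
        rw [← mul_one c, ← xe_comm (j := 1) (by decide) (by decide) (by decide)]
        exact mul_mem (mul_mem (mul_mem k k') (inv_mem k)) (inv_mem k')⟩
      rw [Finset.iInf_insert, inf_left_comm, commutatorElement_def]
      exact Subgroup.mem_inf.2 ⟨mul_mem (nC t g m.1 g' m') (inv_mem m'), by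
        rw [mul_assoc, mul_assoc, ← mul_assoc g']
        exact mul_mem m (N T g' m'.1 _ (inv_mem m))⟩
  have s3 : ∀ A, ∃ g, (g, A) ∈ D.Rel ∧ ∀ k ∈ K₀, ⁅g, k⁆ = 1 := fun A => by
    obtain ⟨g, m, k⟩ := s2 (Finset.univ.filter (· ∉ ({a, b} : Set ι))) (fun t e => (Finset.mem_filter.1 e).2) A
    simp only [Subgroup.mem_inf, Subgroup.mem_iInf] at m
    refine ⟨g, k, fun z hz => ?_⟩
    have p := mul_mem (n0 g m.1 z hz) (inv_mem hz)
    refine rigid (x := 1) (mem_H_of_TrJ p.1 p.2) fun i => ?_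
    by_cases e : i ∈ ({a, b} : Set ι)
    exacts [kT _ p i e, ((m.2 i (by simpa using e)).2 z hz).2]
  obtain ⟨y₀, k₀⟩ := D.surj (xe 0 2 1)
  have na : F.n a ∈ L := n_mem_LJ (by simp)
  obtain ⟨c₁, k₁⟩ := (D.root 1 2 (by decide) (F.n a * y₀ * (F.n a)⁻¹) (mul_mem (mul_mem na (D.mem k₀)) (inv_mem na))).2 (by
    have := ((ov_n a).conj_mem_Ul (sW_mem_WJ (by simp))).2 ((D.root 0 2 (by decide) y₀ (D.mem k₀)).1 ⟨1, k₀⟩)
    rwa [show (R.sW a).1 (rt R a b 0 2) = rt R a b 1 2 from R.sref_sref _ _] at this)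
  have c0 : c₁ ≠ 0 := fun e => by
    have := conj_mem_TrJ_of_PJ (inv_mem (LJ_le_PJ _ na)) ((D.ker k₁).2 (by rw [e, xe_zero]; exact one_mem _))
    rw [show (F.n a)⁻¹ * (F.n a * y₀ * (F.n a)⁻¹) * (F.n a)⁻¹⁻¹ = y₀ by group, D.ker k₀, xe_mem_center (by decide)] at this
    exact one_ne_zero this
  have := (mf_of_trans (F := F) (r := R.sref a (R.simple b)) (w := R.sW a) (i := b) (by rw [sW_inv, coe_sW, R.sref_sref]) fun d hd => ?_).map (R.sW a)
  · rwa [coe_sW, R.sref_sref] at this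
  obtain ⟨c, hc⟩ := D.trans d hd
  obtain ⟨g, k, z⟩ := s3 (xe 0 1 (c / c₁))
  have r : (⁅g, F.n a * y₀ * (F.n a)⁻¹⁆, xe 0 2 c) ∈ D.Rel := by
    rw [← div_mul_cancel₀ c c0, ← xe_comm (j := 1) (by decide) (by decide) (by decide)]
    exact mul_mem (mul_mem (mul_mem k k₁) (inv_mem k)) (inv_mem k₁)
  refine ⟨_, mem_U_of_deep hR (D.r02 h r).1 (one_mem_hf.2 (isPos_sref_simple h.ne)) (fun i e => ?_) fun t => ?_, hc _ r⟩
  · have e1 := congrArg (R.α · a) e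
    have e2 := congrArg (R.α · b) e
    simp only [inv_one, OneMemClass.coe_one, Equiv.Perm.one_apply, α_sref_self, α_sref_of_ne R h.ne.symm, pair_simple_simple, h.1, R.α_simple] at e1 e2
    obtain rfl | n := eq_or_ne b i
    exacts [by simp [h.ne] at e1, by simp [n] at e2]
  by_cases ht : t ∈ ({a, b} : Set ι)
  · exact (D.r02 h r).2 t ht
  obtain ⟨y, p, q⟩ := s1 t ht 1
  have y1 := cn (n_mem_LJ (Set.mem_singleton a)) (rigid_hf (J := {a, t}) (D.r02 h q).1 (one_mem_hf.2 (isPos_sref_simple h.ne)) (fun e => by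
    simpa [α_sref_of_ne R h.ne.symm, R.α_simple] using e b (by rintro (e | e); exacts [h.ne e.symm, ht (.inr e.symm)])) (by
      rintro _ (rfl | rfl)
      exacts [(D.r02 h q).2 _ (by simp), p.2]))
  have q' : (y⁻¹ * y₀, (xe 0 2 1)⁻¹ * xe 0 2 1) ∈ D.Rel := mul_mem (inv_mem q) k₀
  have y2 := z _ (n0 _ na _ ⟨D.mem q', (D.ker q').2 (by simp)⟩)
  convert mul_mem (cT (D.upper k (by simp [xe01]) (by simp [xe01]) (by simp [xe01])) y1) (inv_mem y1) using 1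
  rw [commutatorElement_def] at y2 ⊢
  calc _ = g * (F.n a * y * (F.n a)⁻¹) * g⁻¹ * (g * (F.n a * (y⁻¹ * y₀) * (F.n a)⁻¹) * g⁻¹ * (F.n a * (y⁻¹ * y₀) * (F.n a)⁻¹)⁻¹) *
      (F.n a * y * (F.n a)⁻¹)⁻¹ := by group
    _ = _ := by rw [y2, mul_one]

/-- `J = {a, b}`; `Q` = the elements `g ∈ TrJ J 1` with `g ∈ Tr 1 v` for `v ∉ {u, a, b}` and
`g ∈ El c u a` for all `c` in the `J`-residue: a subgroup (`El_mul`) normalized by `PJ J`
(`conj_mem_Tr_of_PJ`, `conj_mem_El`).  `U α_u ≤ Q`: `rigid_hf`, and it is a `p`-group (`Mf.of_sb`,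
`Mf.card`, `isPrimePow_q`, `mem_El`).  Let `w = s_a s_u`, `w α_a = α_u`, `w α_b = s_a α_b`,
`ε = w s_a α_b` (positive, not simple), `m` over `w`.  `exists_short` for `m⁻¹ Q m`
(`m (Fx (DJ J)) m⁻¹ ≤ B` as `w⁻¹ ∈ DJ J`; `m n_b m⁻¹` is over `s_a s_b s_a ∈ W_J`): for `y ∈ Fx (hf ε)` there
is `z ∈ Q` with `l = m⁻¹ z⁻¹ y m ∈ LJ {b}`; `z⁻¹ y` fixes `ch x`, `x ∈ W_J ⊆ hf ε`, so `l ∈ H`
(`mem_H_of_LJ_one` with `w⁻¹`, `w⁻¹ lg J`).  Then `z ∈ Q ⊓ Fx (hf ε)` is trivial on all panels of `ch 1`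
(it fixes `ch s_u`), `mem_U_of_deep`.  `Mf.map`. -/
theorem mf_short (hR : Good R) (h1 : Sb R u a) (h2 : Db R a b) (h3 : R.A u b = 0)
    (h4 : ∀ v, v ≠ u → v ≠ a → v ≠ b → R.A a v = 0 ∧ R.A b v = 0) (hM : F.Mf (R.simple a)) :
    F.Mf (R.simple b) := by
  have := good_nontrivial hR
  have ub := ne_of_zero h3
  have uJ : u ∉ ({a, b} : Set ι) := by simp [h1.ne, ub]
  let Q : Subgroup G :=
    { carrier := {g | g ∈ F.TrJ {a, b} (F.ch 1) ∧ (∀ v, v ≠ u → v ≠ a → v ≠ b → g ∈ F.Tr (F.ch 1) v) ∧ ∀ c, F.Rs {a, b} (F.ch 1) c → g ∈ F.El c u a}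
      one_mem' := ⟨one_mem _, fun _ _ _ _ => one_mem _, fun _ _ => ⟨one_mem _, fun _ _ _ => one_mem _⟩⟩
      mul_mem' := fun x y => ⟨mul_mem x.1 y.1, fun v p q r => mul_mem (x.2.1 v p q r) (y.2.1 v p q r), fun c k => El_mul h1 (x.2.2 c k) (y.2.2 c k)⟩
      inv_mem' := fun x => ⟨inv_mem x.1, fun v p q r => inv_mem (x.2.1 v p q r), fun c k => El_inv (x.2.2 c k)⟩ }
  have nQ : ∀ k ∈ F.PJ {a, b}, ∀ z ∈ Q, k * z * k⁻¹ ∈ Q := fun k m z x => ⟨conj_mem_TrJ_of_PJ m x.1, fun v p q r =>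
    conj_mem_Tr_of_PJ (by rintro _ (rfl | rfl); exacts [(h4 v p q r).1, (h4 v p q r).2]) m (x.2.1 v p q r) x.1, fun c e => by
      rw [← smul_inv_smul k c, conj_mem_El]; exact x.2.2 _ (rs_smul_of_PJ (inv_mem m) e)⟩
  have uQ : F.U (R.simple u) ≤ Q := fun g m => by
    have o := one_mem_hf.2 (isPos_simple (R := R) u)
    have t : ∀ v, v ≠ u → g ∈ F.Tr (F.ch 1) v := fun v n => mem_U.1 m 1 o v (by_contra fun e => n (R.simple_injective ((mul_sW_notMem_hf o).1 e)).symm)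
    have j := rigid_hf (U_le_Fx _ m) o (fun e => uJ (inJ_simple_iff.1 e)) fun i hi => t i fun e => uJ (e ▸ hi)
    obtain ⟨p, n, hp, n0, pn⟩ := (isPrimePow_nat_iff _).1 (isPrimePow_q (F := F) h1)
    refine ⟨j, fun v p _ _ => t v p, fun c e => mem_El (m := n) h1 hp (pn ▸ dvd_pow_self p n0.ne') (mem_Tr_of_TrJ j e (by simp)) ?_⟩
    rw [pn, ← (hM.of_sb h1.symm).card hR (w := 1) rfl]
    exact congrArg Subtype.val (pow_card_eq_one' (x := (⟨g, m⟩ : F.U _)))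
  have hn := ov_nr (F := F) (R.sW a * R.sW u)
  generalize F.nr (R.sW a * R.sW u) = m at hn
  have wa : (R.sW a * R.sW u).1 (R.simple a) = R.simple u := by rw [W_mul, coe_sW, coe_sW, h1.symm.sref_eq, R.sref_sref]
  have wb : (R.sW a * R.sW u).1 (R.simple b) = R.sref a (R.simple b) := by rw [W_mul, coe_sW, coe_sW, sref_of_zero h3]
  have pb := isPos_sref_simple (R := R) h2.ne
  have mb : (R.sW a * R.sW u)⁻¹ ∈ hf R (R.simple b) := by rw [mem_hf, inv_inv, wb]; exact pb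
  set ε := (R.sW a * R.sW u).1 (R.sref a (R.simple b)) with hε
  have εu : 0 < R.α ε u := by
    have := db_cases h2
    rw [hε, W_mul, coe_sW, coe_sW, α_sref_of_ne R h1.ne, α_sref_self, α_sref_of_ne R h1.ne, R.α_simple, Pi.single_eq_of_ne ub, pair_sref_right,
      pair_simple_simple, pair_simple_simple, h3, h1.1]
    omega
  have εb : R.α ε b = 1 := by
    rw [hε, W_mul, coe_sW, coe_sW, α_sref_of_ne R h2.ne.symm, α_sref_of_ne R ub.symm, α_sref_of_ne R h2.ne.symm, R.α_simple, Pi.single_eq_same]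
  have o := one_mem_hf.2 (isPos_of_pos εu)
  have ns : ∀ i, ((1 : R.W)⁻¹ : R.W).1 ε ≠ R.simple i := fun i (e : ε = _) => by
    rw [e, R.α_simple] at εu εb
    obtain rfl | n := eq_or_ne u i
    exacts [by simp [ub.symm] at εb, by simp [n] at εu]
  have : F.Mf ε := fun y hy => by
    obtain ⟨z, hz, l⟩ := exists_short h2 hM (Q := Q.comap (MulAut.conj m).toMonoidHom) (y := m⁻¹ * y * m)
      (fun g k => uQ (wa ▸ hn.conj_mem_U.2 k)) (fun g k z x => by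
        have := nQ (m * g * m⁻¹) (mem_PJ.2 (by
          rw [mul_smul, mul_smul, hn.inv.smul_ch, mul_one, mem_Fx.1 k, hn.smul_ch, mul_inv_cancel]
          · exact .refl _ _
          rintro i (rfl | rfl)
          exacts [by rw [mem_hf, inv_inv, wa]; exact isPos_simple u, mb])) _ x
        simpa [mul_assoc] using this) (fun z x => by
        have := nQ _ (LJ_le_PJ _ (((hn.mul (ov_n b)).mul hn.inv).mem_LJ (by
          rw [mul_inv_rev, sW_inv, sW_inv, mul_assoc _ _ (R.sW b), sW_comm h3, mul_assoc, mul_assoc, sW_cancel]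
          exact mul_mem (sW_mem_WJ (by simp)) (mul_mem (sW_mem_WJ (by simp)) (sW_mem_WJ (by simp)))))) _ x
        simpa [mul_assoc] using this) (hn.conj_mem_hf.1 (by convert hy using 1; group))
    replace hz : m * z * m⁻¹ ∈ Q := hz
    have f : ∀ x ∈ WJ R {a, b}, (z⁻¹ * (m⁻¹ * y * m)) • F.ch ((R.sW a * R.sW u)⁻¹ * x) = F.ch ((R.sW a * R.sW u)⁻¹ * x) := fun x k => by
      have e := mem_TrJ.1 hz.1 _ (rs_ch.2 (by simpa using k))
      rw [mul_smul, mul_smul, smul_eq_iff_eq_inv_smul, hn.inv.smul_ch] at e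
      rw [mul_smul, mul_smul, mul_smul, hn.smul_ch, mul_inv_cancel_left, mem_Fx.1 hy x (by
        simpa using mul_mem_hf_of_not_inJ o (fun e => εu.ne' (e u uJ)) k), hn.inv.smul_ch, inv_smul_eq_iff, e]
    have hH := hn.conj_H (mem_H_of_LJ_one l (by simpa using mb) (by
      rw [mem_hf, mul_inv_rev, inv_inv, lg_inv, W_mul, wb, isPos_lg pb, not_not]
      exact (inJ_simple_iff.2 (by simp)).sref (by simp)) (f 1 (one_mem _)) (f _ (lg_mem _)))
    replace hH : (m * z * m⁻¹)⁻¹ * y ∈ F.H := by simpa [mul_assoc] using hH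
    have zF : m * z * m⁻¹ ∈ F.Fx (hf R ε) := by simpa using mul_mem hy (inv_mem (H_le_Fx _ hH))
    refine ⟨_, mem_U_of_deep hR zF o ns fun v => ?_, hH⟩
    obtain rfl | n := eq_or_ne v u
    · exact (hz.2.2 _ (.refl _ _)).2 _ (ad_ch 1 v) (mem_Fx.1 zF _ (by_contra fun e => ns v ((mul_sW_notMem_hf o).1 e)))
    by_cases k : v ∈ ({a, b} : Set ι)
    · exact mem_Tr_of_TrJ hz.1 (.refl _ _) k
    · exact hz.2.1 v n (fun e => k (.inl e)) fun e => k (.inr e)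
  have := (this.map (R.sW a * R.sW u)⁻¹).map (R.sW a)
  rwa [hε, W_inv_apply, coe_sW, R.sref_sref] at this

theorem q_const (hR : Good R) (hL : Lac R) (i j : ι) : F.q i = F.q j := by_contra fun n => by
  obtain ⟨k, a, l, b, c⟩ := hR.conn {j | F.q i = F.q j} ⟨i, rfl⟩ ⟨j, n⟩
  exact b (a.trans (q_eq ((hL k l (by rintro rfl; exact b a)).resolve_left c)))

/-- `nt_plane` (`q_const`; every node has a neighbour), `mf_plane`, `Mf.of_sb`, `Conn`. -/
theorem mo_lac (hR : Good R) (hL : Lac R) : F.Mo := by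
  have := good_nontrivial hR
  have nb : ∀ t, ∃ t', Sb R t t' := fun t => by
    obtain ⟨_, rfl, j, b, c⟩ := hR.conn {t} ⟨t, rfl⟩ (let ⟨j, e⟩ := exists_ne t; ⟨j, e⟩)
    exact ⟨j, (hL _ j fun e => b e.symm).resolve_left c⟩
  obtain ⟨a⟩ : Nonempty ι := inferInstance
  obtain ⟨b, h⟩ := nb a
  have m := mf_plane (F := F) hR h fun t ht => let ⟨_, h'⟩ := nb t; nt_plane h ht h' (q_const (F := F) hR hL t a ▸ Nat.le_self_pow two_ne_zero _)
  refine mo_of_simple fun j => by_contra fun n => ?_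
  obtain ⟨k, p, l, q, c⟩ := hR.conn {j | F.Mf (R.simple j)} ⟨b, m⟩ ⟨j, n⟩
  exact q (Mf.of_sb p ((hL k l (by rintro rfl; exact q p)).resolve_left c))

theorem sb_B {n : ℕ} {i j : Fin n} (h : i.val + 1 = j) (h' : j.val + 1 < n) : Sb (rootB n) i j := by
  constructor <;> simp only [A_B, Fin.ext_iff] <;> split_ifs <;> omega

theorem q_B {n : ℕ} (F : Fr G (rootB n)) {i j : Fin n} (hi : i.val + 1 < n) (hj : j.val + 1 < n) :
    F.q i = F.q j := by
  have : ∀ k (h : k + 1 < n), F.q ⟨k, by omega⟩ = F.q ⟨0, by omega⟩ := fun k => by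
    induction k with
    | zero => exact fun _ => rfl
    | succ k ih => exact fun h => (q_eq (sb_B rfl h)).symm.trans (ih (by omega))
  exact (this i hi).trans (this j hj).symm

/-- The plane `{n-3, n-2}`, `nt_quad` for `t = n - 1`, `nt_plane` for `t < n - 3`; `mf_short`. -/
theorem mo_B {n : ℕ} (hR : Good (rootB n)) (F : Fr G (rootB n)) : F.Mo := by
  obtain ⟨n, rfl⟩ : ∃ m, n = m + 3 := Nat.exists_eq_add_of_le' (by simpa using hR.three)
  have h : Sb (rootB (n + 3)) ⟨n, by omega⟩ ⟨n + 1, by omega⟩ := sb_B rfl (by simp)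
  have h' : Db (rootB (n + 3)) ⟨n + 1, by omega⟩ ⟨n + 2, by omega⟩ := by simp [Db, A_B]
  have h0 : (rootB (n + 3)).A ⟨n, by omega⟩ ⟨n + 2, by omega⟩ = 0 := by simp [A_B]; omega
  have m := mf_plane (F := F) hR h fun t ht => by
    by_cases e : t = ⟨n + 2, by omega⟩
    · exact e ▸ nt_quad h h' h0
    have l : t.val < n := by have := t.2; simp [Fin.ext_iff] at ht e; omega
    exact nt_plane h ht (t' := ⟨t + 1, by omega⟩) (sb_B rfl (by simp; omega))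
      (q_B F (i := t) (j := ⟨n, by omega⟩) (by omega) (by simp) ▸ Nat.le_self_pow two_ne_zero _)
  have k : ∀ k (l : k ≤ n + 1), F.Mf ((rootB (n + 3)).simple ⟨n + 1 - k, by omega⟩) := fun k => by
    induction k with
    | zero => exact fun _ => m
    | succ k ih => exact fun l => (ih (by omega)).of_sb (sb_B (by simp; omega) (by simp; omega)).symm
  refine mo_of_simple fun i => ?_
  by_cases e : i = ⟨n + 2, by omega⟩
  · refine e ▸ mf_short hR h h' h0 (fun v p q r => ?_) m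
    have := v.2
    simp only [ne_eq, Fin.ext_iff] at p q r
    constructor <;> simp only [A_B, Fin.ext_iff] <;> split_ifs <;> omega
  · have := i.2
    simp only [Fin.ext_iff] at e
    convert k (n + 1 - i) (by omega) using 2
    exact Fin.ext (by simp; omega)

/-- The planes `{0, 1}` and `{2, 3}`; `nt_plane`, `q_eq`, `q_le_sq`. -/
theorem mo_F (hR : Good Twisted.RF4) (F : Fr G Twisted.RF4) : F.Mo := by
  have h1 : Sb Twisted.RF4 0 1 := by simp [Sb, Twisted.RF4_A]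
  have h2 : Db Twisted.RF4 1 2 := by simp [Db, Twisted.RF4_A]
  have h3 : Sb Twisted.RF4 3 2 := by simp [Sb, Twisted.RF4_A]
  have l1 := q_le_sq (F := F) h2
  have l2 := q_le_sq (F := F) h2.symm
  have e1 := q_eq (F := F) h1
  have e3 := q_eq (F := F) h3
  have m1 := mf_plane (F := F) hR h1 fun t ht => by
    obtain rfl | rfl : t = 2 ∨ t = 3 := by revert t; decide
    exacts [nt_plane h1 ht h3.symm (e1 ▸ l1), nt_plane h1 ht h3 (e1 ▸ e3 ▸ l1)]
  have m2 := mf_plane (F := F) hR h3 fun t ht => by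
    obtain rfl | rfl : t = 0 ∨ t = 1 := by revert t; decide
    exacts [nt_plane h3 ht h1 (e1 ▸ e3 ▸ l2), nt_plane h3 ht h1.symm (e3 ▸ l2)]
  refine mo_of_simple fun i => ?_
  fin_cases i
  exacts [m1.of_sb h1.symm, m1, m2, m2.of_sb h3.symm]

end Cfsg.Lib.TB.Fr
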