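import Cfsg.Agent.Lib.TB.Cox1
import Cfsg.Agent.Lib.TB.Bas

/-!
S1143 (docs/TB.md): frames from BN-pairs.
-/

set_option autoImplicit false

namespace Cfsg.Lib.TB

open Cfsg.Lib.BN Cfsg.Lib.Chev Cfsg.Lib.CharDeg.FH

variable {ι Φ : Type} [Fintype ι] [DecidableEq ι] {R : RootSys ι Φ} [Fintype Φ] {G : Type*} [Group G]

namespace H17

theorem exists_equiv {ι ι' W W' : Type*} [Group W] [Group W'] {s : ι → W} {s' : ι' → W'}
    (h : InvGen s) (hE : Exchange s) (h' : InvGen s') (hE' : Exchange s') (σ : ι ≃ ι')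
    (e : ∀ i j, orderOf (s' (σ i) * s' (σ j)) = orderOf (s i * s j)) :
    ∃ φ : W ≃* W', ∀ i, φ (s i) = s' (σ i) := by
  obtain ⟨φ, hφ⟩ := h.exists_lift hE (f := fun i => s' (σ i)) (fun i => h'.sq _) fun i j n hn => by
    rwa [← orderOf_dvd_iff_pow_eq_one, e, orderOf_dvd_iff_pow_eq_one]
  obtain ⟨ψ, hψ⟩ := h'.exists_lift hE' (f := fun i => s (σ.symm i)) (fun i => h.sq _)
    fun i j n hn => by
      rwa [← orderOf_dvd_iff_pow_eq_one, ← e, σ.apply_symm_apply, σ.apply_symm_apply,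
        orderOf_dvd_iff_pow_eq_one]
  refine ⟨MonoidHom.toMulEquiv φ ψ (MonoidHom.eq_of_eqOn_dense h.gen ?_)
    (MonoidHom.eq_of_eqOn_dense h'.gen ?_), hφ⟩ <;> rintro _ ⟨i, rfl⟩ <;> simp [hφ, hψ]

variable (P : BNPair G)

/-- The pointwise stabilizer of the apartment. -/
def satH : Subgroup G := ⨅ n ∈ P.N, MulAction.stabilizer G (n : G ⧸ P.B)

variable {P}

theorem mem_satH {g : G} : g ∈ satH P ↔ ∀ n ∈ P.N, n⁻¹ * g * n ∈ P.B := by
  simp only [satH, Subgroup.mem_iInf, MulAction.mem_stabilizer_iff, MulAction.Quotient.smul_coe,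
    smul_eq_mul, eq_comm (a := ((g * _ : G) : G ⧸ P.B)), QuotientGroup.eq, mul_assoc]

theorem satH_le : satH P ≤ P.B := fun g hg => by simpa using mem_satH.1 hg 1 (one_mem _)

theorem le_satH : P.B ⊓ P.N ≤ satH P := fun g hg => mem_satH.2 fun n hn => by
  simpa using P.conj_mem _ (inv_mem hn) g hg

theorem N_le_norm : P.N ≤ Subgroup.normalizer (satH P : Set G) := by
  have key : ∀ n ∈ P.N, ∀ g ∈ satH P, n * g * n⁻¹ ∈ satH P := fun n hn g hg =>
    mem_satH.2 fun m hm => by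
      convert mem_satH.1 hg _ (mul_mem (inv_mem hn) hm) using 1; group
  exact fun n hn => Subgroup.mem_normalizer_iff.2 fun g => ⟨key n hn g, fun h => by
    convert key _ (inv_mem hn) _ h using 1; group⟩

theorem exists_of_sup {g : G} (hg : g ∈ P.N ⊔ satH P) : ∃ n ∈ P.N, ∃ k ∈ satH P, g = n * k := by
  have : g ∈ ((P.N ⊔ satH P : Subgroup G) : Set G) := hg
  rw [Subgroup.coe_mul_of_left_le_normalizer_right _ _ N_le_norm] at this
  obtain ⟨n, hn, k, hk, e⟩ := this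
  exact ⟨n, hn, k, hk, e.symm⟩

theorem inf_le_satH : P.B ⊓ (P.N ⊔ satH P) ≤ satH P := fun g hg => by
  obtain ⟨n, hn, k, hk, rfl⟩ := exists_of_sup hg.2
  exact mul_mem (le_satH ⟨(Subgroup.mul_mem_cancel_right _ (satH_le hk)).1 hg.1, hn⟩) hk

variable (P) in
/-- The saturation. -/
def sat : BNPair G where
  B := P.B
  N := P.N ⊔ satH P
  S := P.S
  sup_eq_top := eq_top_iff.2 (P.sup_eq_top.ge.trans (sup_le_sup_left le_sup_left _))
  conj_mem n hn t ht := satH_le ((Subgroup.mem_normalizer_iff.1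
    (sup_le N_le_norm Subgroup.le_normalizer hn) t).1 (inf_le_satH ht))
  subset _ hs := Subgroup.mem_sup_left (P.subset hs)
  sq_mem := P.sq_mem
  inj := P.inj
  closure_sup := le_antisymm (sup_le ((Subgroup.closure_le _).2 fun _ hs =>
      Subgroup.mem_sup_left (P.subset hs)) inf_le_right)
    (sup_le (P.closure_sup.ge.trans (sup_le_sup_left (inf_le_inf_left _ le_sup_left) _))
      (le_sup_of_le_right (le_inf satH_le le_sup_right)))
  mul_mem_union s hs n' hn' b hb := by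
    obtain ⟨n, hn, k, hk, rfl⟩ := exists_of_sup hn'
    have hk' := satH_le hk
    refine (P.mul_mem_union s hs n hn b hb).imp ?_ ?_ <;>
      simp only [DoubleCoset.mem_doubleCoset] <;> rintro ⟨x, hx, y, hy, e⟩ <;>
      exact ⟨x, hx, k⁻¹ * y * k, mul_mem (mul_mem (inv_mem hk') hy) hk', by
        rw [← mul_assoc, e]; group⟩
  conj_ne := P.conj_ne

end H17

open H17

/-- Saturation: `H' = {g | ∀ n ∈ N, g • n B = n B} ≤ B` is normalized by `N`; `P' = (B, N ⊔ H', S)` is a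
BN-pair with `B ⊓ N' = H'`, `Weyl P ≃* Weyl P'`, the same cells.  `R.W ≃* Weyl P'` by
`InvGen.exists_lift` in both directions (`orderOf_sref_mul`).  The core of `B` is a proper normal
subgroup (`not_mem_B`). -/
theorem exists_fr [IsSimpleGroup G] [Nonempty ι] (P : BNPair G) {σ : ι ≃ P.S}
    (h : LabW (sW P) R σ) : HasFr G R fun i => qv P (σ i) := by
  obtain ⟨e, he⟩ := exists_equiv R.invGen R.exchange (invGen (sat P)) (exchange _) σ fun i j => by
    rw [← Subgroup.orderOf_coe (R.sW i * R.sW j), Subgroup.coe_mul, R.coe_sW, R.coe_sW,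
      R.orderOf_sref_mul, ← h i j]
    exact orderOf_eq_orderOf_iff.2 fun k => by rw [pow_sW, pow_sW]; rfl
  refine ⟨⟨sat P, σ, e, he, fun g hg => Subgroup.mem_sup_right ?_, fun g hg => ?_⟩, fun i => ?_⟩
  · simp only [satH, Subgroup.mem_iInf]
    exact fun n hn => hg n (Subgroup.mem_sup_left hn)
  · rcases (MulAction.toPermHom G (G ⧸ P.B)).normal_ker.eq_bot_or_eq_top with k | k
    · exact Subgroup.mem_bot.1 (k ▸ (Equiv.ext hg : g ∈ (MulAction.toPermHom G (G ⧸ P.B)).ker))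
    · obtain ⟨i⟩ := ‹Nonempty ι›
      have h1 : ((σ i : G)) ∈ (MulAction.toPermHom G (G ⧸ P.B)).ker := k ▸ Subgroup.mem_top _
      have h2 : (σ i : G) • ((1 : G) : G ⧸ P.B) = (1 : G) :=
        Equiv.congr_fun (MonoidHom.mem_ker.1 h1) ((1 : G) : G ⧸ P.B)
      rw [MulAction.Quotient.smul_coe, eq_comm, QuotientGroup.eq] at h2
      exact absurd (by simpa using h2) (not_mem_B P (σ i).2)
  · unfold qv
    rw [Fr.q, Fr.ch_one]
    congr 1
    ext d
    rw [Set.mem_ofPred_eq, Fr.ad_iff]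
    exact (cell_iff _).trans (cell_iff (P := P) _).symm

/-- The graph automorphism `φ` of `W(F₄)`, `φ sᵢ = s_{3-i}` (`exists_lift`): `F' = (P, σ ∘ rev, e ∘ φ)`,
`F'.ch w = F.ch (φ w)`, `F'.Tr c i = F.Tr c i.rev`, `φ (hf αᵢ) = hf α_{3-i}` (`mem_hf_simple`), so
`F'.U αᵢ = F.U α_{3-i}`; the other root group is the conjugate under `F'.n 1 = F.n 2` (`Ov.conj_mem_U`). -/
theorem Fr.exists_rev (F : Fr G Twisted.RF4) : ∃ F' : Fr G Twisted.RF4,
    (∀ i, F'.q i = F.q i.rev) ∧ (F'.Ab 2 1 ↔ F.Ab 1 2) := by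
  obtain ⟨φ, hφ⟩ := exists_equiv Twisted.RF4.invGen Twisted.RF4.exchange Twisted.RF4.invGen
    Twisted.RF4.exchange Fin.revPerm fun i j => by
      simp only [← Subgroup.orderOf_coe (_ * _ : Twisted.RF4.W), Subgroup.coe_mul, RootSys.coe_sW,
        RootSys.orderOf_sref_mul, Twisted.RF4_A]
      revert i j
      decide
  let F' : Fr G Twisted.RF4 := ⟨F.P, Fin.revPerm.trans F.σ, φ.trans F.e, fun i => by
    rw [MulEquiv.trans_apply, hφ, F.he]; rfl, F.sat, F.core⟩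
  have h1 : ∀ w, F'.ch w = F.ch (φ w) := fun w => rfl
  have h2 : ∀ i c d, F'.Ad i c d ↔ F.Ad i.rev c d := fun i c d => by
    rw [Fr.ad_iff, Fr.ad_iff]; rfl
  have h3 : ∀ c i, F'.Tr c i = F.Tr c i.rev := fun c i => by
    ext g; simp only [Fr.mem_Tr, h2]; rfl
  have h4 : ∀ w, len Twisted.RF4.sW (φ w) = len Twisted.RF4.sW w := fun w =>
    (Fr.len_e (F := F) _).symm.trans (Fr.len_e (F := F') w)
  have h5 : ∀ i w, φ w ∈ hf Twisted.RF4 (Twisted.RF4.simple i.rev) ↔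
      w ∈ hf Twisted.RF4 (Twisted.RF4.simple i) := fun i w => by
    rw [mem_hf_simple, mem_hf_simple, h4, ← h4 (_ * w), map_mul, hφ]; rfl
  have h6 : ∀ i, F'.U (Twisted.RF4.simple i) = F.U (Twisted.RF4.simple i.rev) := fun i => by
    ext g
    rw [Fr.mem_U, Fr.mem_U, φ.surjective.forall (p := fun w => w ∈ hf _ (Twisted.RF4.simple i.rev) → _)]
    refine forall_congr' fun w => ?_
    rw [h5, Fin.revPerm.surjective.forall (p := fun j => φ w * Twisted.RF4.sW j ∈ _ → _)]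
    simp only [← hφ, ← map_mul, h5]
    simp only [h1, h3, Fin.revPerm_apply]
  refine ⟨F', fun i => ?_, ?_⟩
  · simp only [Fr.q, h1, h2, map_one]
    rfl
  · have e1 := (Fr.ov_n (F := F') 1).cj_U (Twisted.RF4.simple 2)
    have e2 := (Fr.ov_n (F := F) 2).cj_U (Twisted.RF4.simple 1)
    rw [RootSys.coe_sW] at e1 e2
    rw [Fr.Ab, Fr.Ab, ← e1, ← e2, h6]
    rfl

end Cfsg.Lib.TB
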