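import Cfsg.Agent.Lib.TB.B3M
import Cfsg.Agent.Lib.TB.Act

/-!
S1143 (docs/TB.md): the uniqueness theorem.
-/

set_option autoImplicit false

namespace Cfsg.Lib.TB

open Cfsg.Lib.BN Cfsg.Lib.Chev RootSys

variable {ι Φ : Type} [Fintype ι] [DecidableEq ι] {R : RootSys ι Φ}

/-- The diagram is a tree grown from the edge `a, b` by single bonds. -/
structure Tree (R : RootSys ι Φ) (a b : ι) (d : ι → ℕ) : Prop where
  zero : ∀ i, d i = 0 ↔ i = a ∨ i = b
  par : ∀ j, d j ≠ 0 → ∃ i, Sb R i j ∧ d i < d j ∧ ∀ k, k ≠ j → R.A k j ≠ 0 → d k ≤ d j → k = i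

variable [Fintype Φ] {G G' : Type*} [Group G] [Group G'] [Finite G] [Finite G'] {F : Fr G R}
  {F' : Fr G' R} {u a b : ι} {d : ι → ℕ} (hR : Good R) (hM : F.Mo) (hM' : F'.Mo) (hT : Tree R a b d)
include hR hM hM' hT

theorem Tree.exists_gr (h : ∃ Z Z', Gr2 F F' a Z ∧ Gr2 F F' b Z' ∧ Loc2 F F' Z Z') (hab : a ≠ b)
    (n : ℕ) : ∃ Z : ι → Subgroup (G × G') × Subgroup (G × G'),
      (∀ i, d i ≤ n → Gr2 F F' i (Z i) ∧ Loc F.H F'.H ((Z i).1 ⊔ (Z i).2)) ∧
      ∀ i j, i ≠ j → R.A i j ≠ 0 → d i ≤ n → d j ≤ n → Loc2 F F' (Z i) (Z j) := by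
  induction n with
  | zero =>
    obtain ⟨Z, Z', h1, h2, h3⟩ := h
    refine ⟨fun i => if i = a then Z else Z', fun i hi => ?_, fun i j hij _ hi hj => ?_⟩
    · rcases (hT.zero i).1 (Nat.le_zero.1 hi) with rfl | rfl
      · simpa using ⟨h1, h3.left⟩
      · simpa [hab.symm] using ⟨h2, h3.symm.left⟩
    · rcases (hT.zero i).1 (Nat.le_zero.1 hi) with rfl | rfl <;>
        rcases (hT.zero j).1 (Nat.le_zero.1 hj) with rfl | rfl
      · exact absurd rfl hij
      · simpa [hab.symm] using h3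
      · simpa [hab.symm] using h3.symm
      · exact absurd rfl hij
  | succ n ih =>
    obtain ⟨Z, h1, h2⟩ := ih
    have key : ∀ j, ∃ Y, d j = n + 1 → Gr2 F F' j Y ∧ (∃ k, Loc2 F F' (Z k) Y) ∧
        ∀ k, k ≠ j → R.A k j ≠ 0 → d k ≤ n + 1 → d k ≤ n ∧ Loc2 F F' (Z k) Y := by
      intro j
      by_cases hj : d j = n + 1
      · obtain ⟨i, hi, hi', hi''⟩ := hT.par j (by omega)
        obtain ⟨Y, hY, hY'⟩ := ext_sb hR hM hi hM' (h1 i (by omega)).1 (h1 i (by omega)).2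
        refine ⟨Y, fun _ => ⟨hY, ⟨i, hY'⟩, fun k k1 k2 k3 => ?_⟩⟩
        obtain rfl := hi'' k k1 k2 (by omega)
        exact ⟨by omega, hY'⟩
      · exact ⟨Z j, fun e => absurd e hj⟩
    choose Y hY using key
    refine ⟨fun i => if d i = n + 1 then Y i else Z i, fun i hi => ?_, fun i j hij hA hi hj => ?_⟩
    · by_cases e : d i = n + 1
      · obtain ⟨y1, ⟨k, y2⟩, -⟩ := hY i e
        simpa [e] using ⟨y1, y2.symm.left⟩
      · simpa [e] using h1 i (by omega)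
    · by_cases e : d j = n + 1
      · obtain ⟨y1, y2⟩ := (hY j e).2.2 i hij hA hi
        have : d i ≠ n + 1 := by omega
        simpa [e, this] using y2
      · by_cases e' : d i = n + 1
        · obtain ⟨y1, y2⟩ := (hY i e').2.2 j hij.symm (fun h0 => hA (A_zero_symm h0)) hj
          simpa [e, e'] using y2.symm
        · simpa [e, e'] using h2 i j hij hA (by omega) (by omega)

variable [IsSimpleGroup G] [IsSimpleGroup G']

theorem Tree.iso (h : ∃ Z Z', Gr2 F F' a Z ∧ Gr2 F F' b Z' ∧ Loc2 F F' Z Z') (hab : a ≠ b) :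
    Nonempty (G ≃* G') := by
  obtain ⟨Z, h1, h2⟩ := hT.exists_gr hR hM hM' h hab (Finset.univ.sup d)
  have e : ∀ i, d i ≤ Finset.univ.sup d := fun i => Finset.le_sup (Finset.mem_univ i)
  exact act hR hM hM' Z (fun i => (h1 i (e i)).1) fun i j hij hA => h2 i j hij hA (e i) (e j)

theorem Tree.iso_sb (h : Sb R a b) (hq : F.q a = F'.q a) : Nonempty (G ≃* G') :=
  hT.iso hR hM hM' (base_sb hR hM h hM' hq) h.ne

theorem Tree.iso_db (h : T3 R u a b) (hq : F.q a = F'.q a) (hq' : F.q b = F'.q b)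
    (hab : F.Ab a b ↔ F'.Ab a b) : Nonempty (G ≃* G') :=
  hT.iso hR hM hM' (base_db hR hM h hM' hq hq' hab) h.db.ne

end Cfsg.Lib.TB
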