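import Cfsg.Agent.Lib.TB.CoxD
import Cfsg.Agent.Lib.TB.Uniq

/-!
S1143 (docs/TB.md): the diagrams have the properties that were used.
-/

set_option autoImplicit false

namespace Cfsg.Lib.TB

open Cfsg.Lib.Chev

/-- Simply laced trees. -/
def Lc {ι Φ : Type} [Fintype ι] [DecidableEq ι] (R : RootSys ι Φ) : Prop :=
  Good R ∧ Lac R ∧ ∃ a b d, Sb R a b ∧ Tree R a b d

namespace H17

variable {ι Φ : Type} [Fintype ι] [DecidableEq ι] {R : RootSys ι Φ}

theorem conn_of_tree {a b : ι} {d : ι → ℕ} (h : Tree R a b d) (hab : R.A a b ≠ 0) : R.Conn := by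
  intro J ⟨i, hi⟩ ⟨j, hj⟩
  by_contra hc
  push Not at hc
  have e : ∀ i j, R.A i j ≠ 0 → (i ∈ J ↔ j ∈ J) := fun i j h =>
    ⟨fun hi => by_contra fun hj => h (hc i hi j hj),
      fun hj => by_contra fun hi => h (A_zero_symm (hc j hj i hi))⟩
  have key : ∀ n i, d i = n → (i ∈ J ↔ a ∈ J) := fun n => by
    induction n using Nat.strong_induction_on with
    | _ n ih =>
      rintro i rfl
      by_cases h0 : d i = 0
      · rcases (h.zero i).1 h0 with rfl | rfl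
        exacts [Iff.rfl, (e _ _ hab).symm]
      · obtain ⟨k, h1, h2, -⟩ := h.par i h0
        exact (e k i (by rw [h1.1]; omega)).symm.trans (ih _ h2 k rfl)
  exact hj ((key _ j rfl).2 ((key _ i rfl).1 hi))

theorem lc_of {a b : ι} {d : ι → ℕ} (h3 : 3 ≤ Fintype.card ι) (hl : Lac R) (hab : Sb R a b)
    (h : Tree R a b d) : Lc R := by
  refine ⟨⟨conn_of_tree h (by rw [hab.1]; omega), h3, fun i j e => (hl i j e).imp_right .inl,
    fun i j e => ?_⟩, hl, a, b, d, hab, h⟩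
  have e' : R.A i j * R.A j i = 2 := e
  rcases hl i j e.ne with k | k
  · simp [k] at e'
  · simp [k.1, k.2] at e'

end H17

open H17

theorem lc_A {n : ℕ} (hn : 3 ≤ n) : Lc (rootA n) := by
  refine lc_of (a := ⟨0, by omega⟩) (b := ⟨1, by omega⟩) (d := fun i => i.val - 1) (by simpa)
    (fun i j e => ?_) (by simp [Sb, A_A]) ⟨fun i => by simp only [Fin.ext_iff]; omega, fun j hj =>
      ⟨⟨j - 1, by omega⟩, ?_, by simp only; omega, fun k h1 h2 h3 => ?_⟩⟩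
  · simp only [Sb, A_A, ne_eq, Fin.ext_iff] at e ⊢
    split_ifs <;> omega
  · simp only [Sb, A_A, Fin.ext_iff]
    split_ifs <;> omega
  · simp only [A_A, ne_eq, Fin.ext_iff] at h1 h2 ⊢
    split_ifs at h2 <;> omega

theorem lc_D (n : ℕ) : Lc (rootD (n := n + 4) (by omega)) := by
  refine lc_of (a := ⟨0, by omega⟩) (b := ⟨1, by omega⟩) (d := fun i => i.val - 1) (by simp)
    (fun i j e => ?_) (by simp [Sb, A_D]) ⟨fun i => by simp only [Fin.ext_iff]; omega, fun j hj =>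
      ⟨⟨if j.val = n + 3 then n + 1 else j - 1, by split_ifs <;> omega⟩, ?_,
        by simp only; split_ifs <;> omega, fun k h1 h2 h3 => ?_⟩⟩
  · simp only [Sb, A_D, ne_eq, Fin.ext_iff] at e ⊢
    split_ifs <;> omega
  · simp only [Sb, A_D, Fin.ext_iff]
    split_ifs <;> omega
  · simp only [A_D, ne_eq, Fin.ext_iff] at h1 h2 ⊢
    split_ifs at h2 ⊢ <;> omega

theorem lc_E6 : Lc Twisted.RE6 := by
  refine lc_of (a := 0) (b := 2) (d := ![0, 2, 0, 1, 2, 3]) (by simp) ?_ ?_ ⟨by decide, ?_⟩ <;>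
    simp only [Lac, Sb, RE6_A] <;> decide

theorem lc_E7 : Lc RE7 := by
  refine lc_of (a := 0) (b := 2) (d := ![0, 2, 0, 1, 2, 3, 4]) (by simp) ?_ ?_ ⟨by decide, ?_⟩ <;>
    simp only [Lac, Sb, RE7_A] <;> decide

theorem lc_E8 : Lc RE8 := by
  refine lc_of (a := 0) (b := 2) (d := ![0, 2, 0, 1, 2, 3, 4, 5]) (by simp) ?_ ?_ ⟨by decide, ?_⟩ <;>
    simp only [Lac, Sb, RE8_A] <;> decide

theorem good_B {n : ℕ} (hn : 3 ≤ n) : Good (rootB n) := by
  refine ⟨conn_B n, by simpa, fun i j e => ?_, fun i j e => ⟨⟨n - 3, by omega⟩, ?_⟩⟩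
  · simp only [Sb, Db, A_B, ne_eq, Fin.ext_iff] at e ⊢
    split_ifs <;> omega
  · have e' : i.val + 2 = n ∧ j.val + 1 = n ∨ j.val + 2 = n ∧ i.val + 1 = n := by
      simp only [Db, A_B, Fin.ext_iff] at e
      split_ifs at e <;> omega
    rcases e' with e' | e'
    · refine .inl ⟨⟨?_, ?_⟩, ?_⟩ <;> simp only [A_B, Fin.ext_iff] <;> split_ifs <;> omega
    · refine .inr ⟨⟨?_, ?_⟩, ?_⟩ <;> simp only [A_B, Fin.ext_iff] <;> split_ifs <;> omega

theorem tree_B {n : ℕ} (hn : 3 ≤ n) : ∃ (u a b : Fin n) (d : Fin n → ℕ), T3 (rootB n) u a b ∧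
    Tree (rootB n) a b d ∧ a.val + 2 = n ∧ b.val + 1 = n := by
  refine ⟨⟨n - 3, by omega⟩, ⟨n - 2, by omega⟩, ⟨n - 1, by omega⟩, fun i => n - 2 - i.val,
    ⟨?_, ?_, ?_, ?_⟩, ⟨fun i => by simp only [Fin.ext_iff]; omega, fun j hj =>
      ⟨⟨j + 1, by omega⟩, ?_, by simp only; omega, fun k h1 h2 h3 => ?_⟩⟩,
    by simp only; omega, by simp only; omega⟩
  iterate 5
    simp only [Sb, A_B, Fin.ext_iff]
    split_ifs <;> omega
  simp only [A_B, ne_eq, Fin.ext_iff] at h1 h2 ⊢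
  split_ifs at h2 <;> omega

theorem good_F : Good Twisted.RF4 := by
  refine ⟨conn_of_tree (a := 2) (b := 1) (d := ![1, 0, 0, 1]) ⟨by decide, ?_⟩ ?_, by simp, ?_, ?_⟩ <;>
    simp only [Sb, Db, Twisted.RF4_A] <;> decide

theorem t3_F : T3 Twisted.RF4 3 2 1 := by
  refine ⟨?_, ?_, ?_, ?_⟩ <;> simp only [Sb, Twisted.RF4_A] <;> decide

theorem tree_F : Tree Twisted.RF4 2 1 ![1, 0, 0, 1] := by
  refine ⟨by decide, ?_⟩
  simp only [Sb, Twisted.RF4_A]
  decide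

theorem sb_F : Sb Twisted.RF4 0 1 ∧ Sb Twisted.RF4 2 3 := by
  simp only [Sb, Twisted.RF4_A]
  decide

end Cfsg.Lib.TB
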