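import Cfsg.Agent.Lib.TB.Cox1
import Cfsg.Agent.Lib.TB.Cox3
import Cfsg.Agent.Lib.TB.Sat
import Cfsg.Agent.Lib.TB.Typ
import Cfsg.Agent.Lib.TB.Mf

/-!
S1143 (docs/TB.md): unequal parameters determine the type.
-/

set_option autoImplicit false

namespace Cfsg.Lib.TB

open Cfsg.Lib.BN Cfsg.Lib.Chev

variable {G : Type*} [Group G] [Finite G]

theorem exists_ty (P : BNPair G) (h3 : 3 ≤ P.rank) (hirr : P.Irreducible) :
    Ty fun i j : P.S => orderOf (sW P i * sW P j) := by
  have := Fintype.ofFinite P.S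
  exact (pd_of_bn P hirr).ty (by rwa [← Nat.card_eq_fintype_card])

/-- An irreducible BN-pair with the parameters `q`. -/
def Irr (G : Type*) [Group G] {κ : Type} (q : κ → ℕ) : Prop :=
  ∃ (P : BNPair G) (τ : κ ≃ P.S), P.Irreducible ∧ ∀ k, qv P (τ k) = q k

variable [IsSimpleGroup G]

theorem Lc.qv_eq {ι Φ : Type} [Fintype ι] [DecidableEq ι] [Fintype Φ] {R : RootSys ι Φ} (hR : Lc R)
    {P : BNPair G} {σ : ι ≃ P.S} (h : LabW (sW P) R σ) (s t : P.S) : qv P s = qv P t := by
  have : Nonempty ι := ⟨σ.symm s⟩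
  obtain ⟨F, hF⟩ := exists_fr P h
  simpa [hF] using F.q_const hR.1 hR.2.1 (σ.symm s) (σ.symm t)

theorem Irr.cases {n : ℕ} (hn : 3 ≤ n) {q : Fin n → ℕ} (h : Irr G q) {i j : Fin n} (hij : q i ≠ q j) :
    (∃ ρ : Fin n ≃ Fin n, HasFr G (rootB n) fun i => q (ρ i)) ∨
      ∃ ρ : Fin 4 ≃ Fin n, HasFr G Twisted.RF4 fun i => q (ρ i) := by
  obtain ⟨P, τ, hirr, hq⟩ := h
  have e : ∀ s, qv P s = q (τ.symm s) := fun s => by rw [← hq, τ.apply_symm_apply]
  have hne : qv P (τ i) ≠ qv P (τ j) := by rwa [hq, hq]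
  rcases exists_ty P (by rwa [BNPair.rank, ← Nat.card_congr τ, Nat.card_fin]) hirr with
    ⟨m, hm, σ, h⟩ | ⟨m, hm, σ, h⟩ | ⟨m, σ, h⟩ | ⟨σ, h⟩ | ⟨σ, h⟩ | ⟨σ, h⟩ | ⟨σ, h⟩
  · exact absurd ((lc_A hm).qv_eq h _ _) hne
  · obtain rfl : m = n := by simpa using Fintype.card_congr (σ.trans τ.symm)
    have : Nonempty (Fin m) := ⟨i⟩
    exact .inl ⟨σ.trans τ.symm, by simpa only [e, Equiv.trans_apply] using exists_fr P h⟩
  · exact absurd ((lc_D m).qv_eq h _ _) hne
  · exact absurd (lc_E6.qv_eq h _ _) hne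
  · exact absurd (lc_E7.qv_eq h _ _) hne
  · exact absurd (lc_E8.qv_eq h _ _) hne
  · exact .inr ⟨σ.trans τ.symm, by simpa only [e, Equiv.trans_apply] using exists_fr P h⟩

theorem Irr.hasFr_B {n x y : ℕ} (hn : 3 ≤ n) (hxy : x ≠ y) (h : Irr G (qB n x y)) :
    HasFr G (rootB n) (qB n x y) := by
  have key : ∀ {i j : Fin n}, i.val + 1 = n → qB n x y i = qB n x y j → j = i := fun hi e => by
    by_contra hne
    refine hxy ?_
    rw [qB, qB, if_pos hi, if_neg fun h => hne (Fin.ext (by omega))] at e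
    exact e.symm
  let l : Fin n := ⟨n - 1, by omega⟩
  have hl : l.val + 1 = n := by simp only [l]; omega
  rcases h.cases hn (i := l) (j := ⟨0, by omega⟩) (fun e => by
    have := congrArg Fin.val (key hl e)
    simp only [l] at this
    omega) with ⟨ρ, F, hF⟩ | ⟨ρ, F, hF⟩ <;> simp only at hF
  · have h1 : ρ l = l := by
      by_contra hne
      obtain ⟨k, hk⟩ := ρ.surjective l
      have h2 : k.val + 1 < n := by
        have : k ≠ l := fun e => hne (e ▸ hk)
        have : k.val ≠ l.val := fun e => this (Fin.ext e)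
        omega
      obtain ⟨j, hj, hj'⟩ : ∃ j : Fin n, j ≠ k ∧ j.val + 1 < n := by
        by_cases h0 : k.val = 0
        · exact ⟨⟨1, by omega⟩, fun e => by simp [← e] at h0, by simp only; omega⟩
        · exact ⟨⟨0, by omega⟩, fun e => h0 (by rw [← e]), by simp only; omega⟩
      have := F.q_B h2 hj'
      rw [hF, hF, hk] at this
      exact hj (ρ.injective ((key hl this).trans hk.symm))
    refine ⟨F, fun i => (hF i).trans ?_⟩
    have : (ρ i).val + 1 = n ↔ i.val + 1 = n := by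
      have e : ∀ k : Fin n, k.val + 1 = n ↔ k = l := fun k => by rw [Fin.ext_iff]; omega
      rw [e, e, ← ρ.injective.eq_iff (a := i), h1]
    simp only [qB, this]
  · obtain ⟨k, hk⟩ := ρ.surjective l
    have h1 := F.q_eq sb_F.1
    have h2 := F.q_eq sb_F.2
    rw [hF, hF] at h1 h2
    exfalso
    fin_cases k <;> simp only [Fin.reduceFinMk, Fin.zero_eta, Fin.mk_one] at hk
    · exact absurd (ρ.injective ((key hl (hk ▸ h1)).trans hk.symm)) (by decide)
    · exact absurd (ρ.injective ((key hl (hk ▸ h1.symm)).trans hk.symm)) (by decide)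
    · exact absurd (ρ.injective ((key hl (hk ▸ h2)).trans hk.symm)) (by decide)
    · exact absurd (ρ.injective ((key hl (hk ▸ h2.symm)).trans hk.symm)) (by decide)

theorem Irr.hasFr_F {x y : ℕ} (hxy : x ≠ y) (h : Irr G ![x, x, y, y]) :
    HasFr G Twisted.RF4 ![x, x, y, y] := by
  have e : ∀ i : Fin 4, ![x, x, y, y] i = if i.val < 2 then x else y := fun i => by
    fin_cases i <;> rfl
  have key : ∀ {i j : Fin 4}, ![x, x, y, y] i = ![x, x, y, y] j → (i.val < 2 ↔ j.val < 2) := by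
    intro i j h
    rw [e, e] at h
    split_ifs at h <;> omega
  rcases h.cases (by omega) (i := 0) (j := 2) hxy with ⟨ρ, F, hF⟩ | ⟨ρ, F, hF⟩ <;>
    simp only at hF
  · have h1 := F.q_B (i := 0) (j := 1) (by decide) (by decide)
    have h2 := F.q_B (i := 0) (j := 2) (by decide) (by decide)
    rw [hF, hF] at h1 h2
    have h1 := key h1
    have h2 := key h2
    have h3 : ∀ i j, i ≠ j → (ρ i).val ≠ (ρ j).val := fun i j h e => h (ρ.injective (Fin.ext e))
    have := h3 0 1 (by decide)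
    have := h3 0 2 (by decide)
    have := h3 1 2 (by decide)
    omega
  · have h1 := F.q_eq sb_F.1
    have h2 := F.q_eq sb_F.2
    rw [hF, hF] at h1 h2
    have h1 := key h1
    have h2 := key h2
    have h3 : ∀ i j, i ≠ j → (ρ i).val ≠ (ρ j).val := fun i j h e => h (ρ.injective (Fin.ext e))
    have := h3 0 1 (by decide)
    have := h3 0 2 (by decide)
    have := h3 1 2 (by decide)
    have := h3 0 3 (by decide)
    have := h3 1 3 (by decide)
    have := h3 2 3 (by decide)
    by_cases h0 : (ρ 0).val < 2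
    · have k1 : (ρ 1).val < 2 := by omega
      have k2 : ¬ (ρ 2).val < 2 := by omega
      have k3 : ¬ (ρ 3).val < 2 := by omega
      refine ⟨F, fun i => ?_⟩
      rw [hF, e]
      fin_cases i <;> simp [h0, k1, k2, k3]
    · have k1 : ¬ (ρ 1).val < 2 := by omega
      have k2 : (ρ 2).val < 2 := by omega
      have k3 : (ρ 3).val < 2 := by omega
      obtain ⟨F', h4, -⟩ := F.exists_rev
      refine ⟨F', fun i => ?_⟩
      rw [h4, hF, e]
      fin_cases i <;> simp [Fin.rev, h0, k1, k2, k3]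

end Cfsg.Lib.TB
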