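import Cfsg.Agent.Lib.TB.ModI
import Cfsg.Agent.Lib.St.Lie
import Cfsg.Agent.Lib.Twisted.Transfer
import Cfsg.Agent.S0821

/-!
S1143 (docs/TB.md): the BN-pair of a `LieDat`, and the untwisted models.  Copy the constructions of
`Lib/PMin/Fam.lean` (`rank_PSL`, `rank_PSp`, `bad_POmegaOdd`, `bad_POmegaPlus`, `bad_group`, `bad_E6D4`);
simplicity and finiteness: `St.simple_of_lie`, `St.finite_of_lie`; the field is a `GaloisField`.
-/

set_option autoImplicit false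

namespace Cfsg.Lib.TB

open Cfsg.Lib.BN Cfsg.Lib.Chev Cfsg.Lib.St Cfsg.Lib.Twisted Subgroup

variable {p : ℕ} {G : Type*} [Group G]

/-- `P = bnCongr D.tw.bn D.e`, `τ k = nk k` (`nk_injective`), `IsTw.irreducible`, `irr_of_conn`,
`exists_weylHom`; the chambers adjacent to `B` are the `x nₖ B`, `x ∈ X k` (or use `PMin.relIndex_P`:
`qv + 1` is the index of `B` in the minimal parabolic). -/
theorem exists_bn (D : LieDat p G) : ∃ (P : BNPair G) (τ : D.κ ≃ P.S), P.Irreducible ∧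
    (∀ k l, orderOf (sW P (τ k) * sW P (τ l)) = orderOf (D.T.s k * D.T.s l)) ∧
    ∀ k, qv P (τ k) = Nat.card (D.S.X k) := by
  let P := bnCongr D.tw.bn D.e
  have hB : ∀ {g : G}, g ∈ P.B ↔ (D.e g : D.G) ∈ D.C.B := fun {g} => mem_sub (g := D.e g)
  let τ : D.κ ≃ P.S := Equiv.ofBijective (fun k => ⟨D.e.symm (D.tw.nk k), k, by simp⟩)
    ⟨fun k l h => D.tw.nk_injective (D.e.symm.injective (congrArg Subtype.val h)),
      fun ⟨s, k, hk⟩ => ⟨k, Subtype.ext (by simp [hk])⟩⟩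
  have hτ : ∀ k, D.e (τ k) = D.tw.nk k := fun k => D.e.apply_symm_apply _
  have hF := D.tw.faithful
  refine ⟨P, τ, fun J hJ ⟨a, ha⟩ ⟨b, hb, hb'⟩ => ?_, fun k l => ?_, fun k => ?_⟩
  · obtain ⟨_, ⟨s, hs, rfl⟩, t, ⟨h1, h2⟩, h3⟩ := D.tw.irreducible (irr_of_conn D.conn) (D.e '' J)
      (by rintro _ ⟨s, hs, rfl⟩; exact hJ hs) ⟨_, a, ha, rfl⟩
      ⟨D.e b, hb, fun ⟨c, hc, e⟩ => hb' (D.e.injective e ▸ hc)⟩
    obtain ⟨t, rfl⟩ := D.e.surjective t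
    exact ⟨s, hs, t, ⟨h1, fun h => h2 ⟨t, h, rfl⟩⟩, fun h => h3 (mem_sub.2 (by simpa using hB.1 h))⟩
  · refine orderOf_eq_orderOf_iff.2 fun m => ?_
    have h1 : D.C.NW ((D.tw.nk k * D.tw.nk l : D.L) ^ m : D.L) ((D.T.s k * D.T.s l) ^ m) := by
      induction m with
      | zero => simpa using ChevSys.nw_one (C := D.C)
      | succ m ih =>
        rw [pow_succ (D.T.s k * D.T.s l), pow_succ]
        exact ih.mul ((D.tw.nw_nk k).mul (D.tw.nw_nk l))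
    rw [← hF.nw_mem_B_iff h1, ← hτ, ← hτ, ← map_mul, ← map_pow, ← hB,
      ← toW_eq_one_iff P (P.N.pow_mem (P.N.mul_mem (P.subset (τ k).2) (P.subset (τ l).2)) m)]
    rfl
  · have hn := D.tw.nw_nk k
    let f : D.S.X k → G ⧸ P.B := fun x => (D.e.symm (⟨x, D.tw.pos k x.2⟩ * D.tw.nk k) : G)
    have h1 : Function.Injective f := fun x y h => by
      have h2 := hB.1 (QuotientGroup.eq.1 h)
      have h3 := NW.inv_conj_mem hn (T := negJ D.R (D.T.J k)) (fun r hr => wJ_mem_posJ.1 hr)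
        (mul_mem (inv_mem x.2.1) y.2.1)
      have h4 := hF.eq_one_of_B_V (by simpa [mul_assoc] using h2) (XS_negJ_le_V _ h3)
      exact Subtype.ext (inv_mul_eq_one.1 ((conj_eq_one_iff (a := (D.tw.nk k : D.G)⁻¹)).1
        (by rwa [inv_inv])))
    rw [qv, ← Nat.card_range_of_injective h1, Nat.card_coe_set_eq]
    congr 1
    ext d
    obtain ⟨g, rfl⟩ := QuotientGroup.mk_surjective d
    rw [Set.mem_ofPred_eq, CharDeg.FH.pos_mk, inv_one, one_mul]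
    constructor
    · intro h
      obtain ⟨b, hb, c, hc, e⟩ := h.inv.eq_rep (hn := inv_mem (P.subset (τ k).2))
      obtain ⟨u, hu, a, ha, e1⟩ := D.C.mem_B_iff.1 (hB.1 hb)
      obtain ⟨a', ha', u', hu', e2⟩ := D.C.mem_B_iff'.1 (hB.1 hc)
      have h2 := hn.inv.mul (ChevSys.nw_of_mem_H ha')
      rw [mul_one, Sym.s_inv] at h2
      have h3 := (((cellJ_self (J := Set.univ) h2).H_mul ha).mul_left
        (XS_posJ_univ (C := D.C) ▸ hu)).mul_right (XS_posJ_univ (C := D.C) ▸ hu')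
      obtain ⟨-, v, hv, m, -, h4, x, hx, e3⟩ := D.tw.of_cell (D.e g⁻¹).2 (w := D.T.s k) (by
        simpa [e, e1, e2, hτ, mul_assoc] using h3)
      refine ⟨⟨x⁻¹, inv_mem ⟨Uw_wJ (C := D.C) _ ▸ hx.1, D.tw.le_fix hx.2⟩⟩,
        QuotientGroup.eq.2 (hB.2 ?_)⟩
      have h5 := h4.mul hn
      rw [Sym.s_mul_self] at h5
      have h6 := inv_mem (mul_mem (D.C.U_le_B hv.1) (D.C.H_le_B h5.mem_H))
      have e4 : (D.e g : D.G) = (v * m * x)⁻¹ := by simp [← e3]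
      simpa [e4, mul_assoc] using h6
    · rintro ⟨x, e⟩
      have h2 := QuotientGroup.eq.1 e
      have h3 := ((cell_sW (τ k)).mul_left (b := D.e.symm ⟨x, D.tw.pos k x.2⟩)
        (hB.2 (by simpa using D.C.U_le_B (XS_posJ_le_U _ x.2.1)))).mul_right h2
      have e4 : (τ k : G) = D.e.symm (D.tw.nk k) := rfl
      simpa [e4, mul_assoc] using h3

theorem irr_of_lieDat (D : LieDat p G) {κ : Type} (e : κ ≃ D.κ) {q : κ → ℕ}
    (h : ∀ k, Nat.card (D.S.X (e k)) = q k) : Irr G q := by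
  obtain ⟨P, τ, h1, -, h2⟩ := exists_bn D
  exact ⟨P, e.trans τ, h1, fun k => (h2 _).trans (h k)⟩

/-- As in `PMin.Bad.quot`. -/
theorem card_X_quot (D : LieDat p G) (hc : center D.L ≤ (center D.G).subgroupOf D.L) (k : D.κ) :
    Nat.card ((D.quot hc).S.X k) = Nat.card (D.S.X k) := by
  rw [show (D.quot hc).S.X k = _ from twistMap_X D.top (S := D.S) (σ' := (D.quot hc).S.σ)
    (fun _ => rfl) D.tw.faithful (QuotientGroup.ker_mk' _).le k]
  refine (Nat.card_congr (Equiv.ofBijective ((QuotientGroup.mk' _).subgroupMap _)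
    ⟨(injective_iff_map_eq_one _).2 fun a ha => Subtype.ext ?_,
      MonoidHom.subgroupMap_surjective _ _⟩)).symm
  exact D.tw.faithful.eq_one_of_U_H (XS_posJ_le_U _ a.2.1) ((D.tw.faithful.mem_center_iff
    D.top).1 ((QuotientGroup.eq_one_iff _).1 (congrArg Subtype.val ha))).1

theorem trivSym_s {ι Φ : Type} [Fintype ι] [DecidableEq ι] [Fintype Φ] (R : RootSys ι Φ) (k : ι) :
    (trivSym R).s k = R.sref k :=
  (eq_wJ (sref_mem_WJ (J := (trivSym R).J k) rfl) fun i hi => by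
    obtain rfl : i = k := hi
    rw [R.sref_simple, RootSys.isPos_neg_iff, not_not]
    exact RootSys.isPos_simple i).symm

theorem card_triv_X {ι Φ : Type} [Fintype ι] [DecidableEq ι] [Fintype Φ] {R : RootSys ι Φ}
    {F H : Type} [Field F] [Group H] {C : ChevSys R F H} (hF : C.Faithful) (k : ι) :
    Nat.card ((trivTwist C).X k) = Nat.card F := by
  rw [triv_X]
  exact (Nat.card_congr (Equiv.ofBijective (fun t : F => (⟨C.x (R.simple k) t,
    C.mem_XS_singleton.2 ⟨t, rfl⟩⟩ : C.XS {R.simple k}))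
    ⟨fun _ _ h => hF.x_inj (congrArg Subtype.val h), fun ⟨g, hg⟩ =>
      (C.mem_XS_singleton.1 hg).imp fun _ h => Subtype.ext h.symm⟩)).symm

theorem hasFr_of_lieDat [IsSimpleGroup G] {ι Φ : Type} [Fintype ι] [DecidableEq ι] [Fintype Φ]
    {R : RootSys ι Φ} (D : LieDat p G) (e : ι ≃ D.κ) {q : ι → ℕ}
    (h1 : ∀ i j, orderOf (D.T.s (e i) * D.T.s (e j)) = RootSys.bondOrder (R.A i j * R.A j i))
    (h2 : ∀ i, Nat.card (D.S.X (e i)) = q i) : HasFr G R q := by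
  have := D.finite
  have : Nonempty ι := e.nonempty
  obtain ⟨P, τ, -, h3, h4⟩ := exists_bn D
  obtain ⟨F, hF⟩ := exists_fr (R := R) P (σ := e.trans τ) fun i j => (h3 _ _).trans (h1 i j)
  exact ⟨F, fun i => (hF i).trans ((h4 _).trans (h2 i))⟩

/-- `D = ((ofChev C ..).quot ..).congr e`; `D.T.s k = R.sref k`, `orderOf_sref_mul`, `triv_X`,
`exists_fr`. -/
theorem hasFr_chev [IsSimpleGroup G] {ι Φ Φ' : Type} [Fintype ι] [DecidableEq ι] [Nonempty ι]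
    [Fintype Φ] [Fintype Φ'] {R : RootSys ι Φ} {R' : RootSys ι Φ'} {F H : Type} [Field F] [Finite F]
    [Group H] (C : ChevSys R F H) (hF : C.Faithful) (htop : C.grp = ⊤) (hc : R.Conn) (hM : C.HMul)
    (e : G ≃* H ⧸ center H) (hA : ∀ i j, R'.A i j * R'.A j i = R.A i j * R.A j i) :
    HasFr G R' fun _ => Nat.card F := by
  have hz : center (⊤ : Subgroup H) ≤ (center H).subgroupOf ⊤ := fun _ ha =>
    mem_center_iff.2 fun g => congrArg Subtype.val (mem_center_iff.1 ha ⟨g, trivial⟩)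
  refine hasFr_of_lieDat (p := ringChar F) (((LieDat.ofChev C hF htop hc hM).quot hz).congr e)
    (Equiv.refl ι) (fun i j => ?_) fun i =>
      (card_X_quot (LieDat.ofChev (p := ringChar F) C hF htop hc hM) hz i).trans (card_triv_X hF i)
  rw [hA, ← R.orderOf_sref_mul, ← trivSym_s, ← trivSym_s]
  rfl

theorem hasFr_group {D : Lie.ChevalleyDatum} {c : Cert} (h : Checked D c) (hc : h.R.Conn)
    [Nonempty (Fin D.rank)] (F : Type) [Field F] [Finite F] [IsSimpleGroup (D.group F)] :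
    HasFr (D.group F) h.R fun _ => Nat.card F := by
  refine hasFr_of_lieDat (p := ringChar F) (LieDat.ofChev _ (h.gsys_faithful F) (h.gsys_grp F) hc
    (h.gsys_adjoint F).hMul) (Equiv.refl (Fin D.rank)) (fun i j => ?_) fun i => card_triv_X (h.gsys_faithful F) i
  rw [← h.R.orderOf_sref_mul, ← trivSym_s, ← trivSym_s]
  rfl

theorem Tgt.congr {G' : Type*} [Group G'] (h : Tgt G') (e : G ≃* G') : Tgt G := by
  rcases h with ⟨F, _, _, n, h, h', ⟨f⟩⟩ | ⟨F, _, _, n, h, h', ⟨f⟩⟩ |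
    ⟨F, _, _, n, q, hF, h, h', ⟨f⟩⟩ | ⟨F, _, _, n, h, h', ⟨f⟩⟩ | ⟨F, _, _, n, h, ⟨f⟩⟩ |
    ⟨F, _, _, n, a, b, h, h', ⟨f⟩⟩ | h
  · exact .inl ⟨F, _, _, n, h, h', ⟨e.trans f⟩⟩
  · exact .inr (.inl ⟨F, _, _, n, h, h', ⟨e.trans f⟩⟩)
  · exact .inr (.inr (.inl ⟨F, _, _, n, q, hF, h, h', ⟨e.trans f⟩⟩))
  · exact .inr (.inr (.inr (.inl ⟨F, _, _, n, h, h', ⟨e.trans f⟩⟩)))
  · exact .inr (.inr (.inr (.inr (.inl ⟨F, _, ‹_›, n, h, ⟨e.trans f⟩⟩))))
  · exact .inr (.inr (.inr (.inr (.inr (.inl ⟨F, _, ‹_›, n, a, b, h, h', ⟨e.trans f⟩⟩)))))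
  refine .inr (.inr (.inr (.inr (.inr (.inr ?_)))))
  refine h.imp ?_ (Or.imp ?_ (Or.imp ?_ (Or.imp ?_ (Or.imp ?_ (Or.imp ?_ (Or.imp ?_ (Or.imp ?_
    (Or.imp ?_ (Or.imp ?_ ?_)))))))))
  · exact fun ⟨F, _, _, h, ⟨f⟩⟩ => ⟨F, _, _, h, ⟨e.trans f⟩⟩
  iterate 4 exact fun ⟨F, _, _, ⟨f⟩⟩ => ⟨F, _, ‹_›, ⟨e.trans f⟩⟩
  iterate 5 exact fun ⟨F, _, _, q, h, h', ⟨f⟩⟩ => ⟨F, _, _, q, h, h', ⟨e.trans f⟩⟩
  exact fun ⟨f⟩ => ⟨e.trans f⟩

theorem exists_gf {q : ℕ} (hq : IsPrimePow q) :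
    ∃ (F : Type) (_ : Field F) (_ : Fintype F), Fintype.card F = q := by
  obtain ⟨p, k, hp, hk, rfl⟩ := (isPrimePow_nat_iff q).1 hq
  have := Fact.mk hp
  have := Fintype.ofFinite (GaloisField p k)
  exact ⟨GaloisField p k, inferInstance, this, by
    rw [← Nat.card_eq_fintype_card, GaloisField.card p k hk.ne']⟩

theorem mod_of_lie {ι Φ : Type} [Fintype ι] [DecidableEq ι] {R : RootSys ι Φ} {q : ι → ℕ} {M : Type}
    [Group M] (h : IsLieTypeChar p M) (h1 : Tgt M) (h2 : IsSimpleGroup M → HasFr M R q) : Mod R q :=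
  ⟨M, _, finite_of_lie h, simple_of_lie h, h1, h2 (simple_of_lie h)⟩

theorem hasFr_PSp {n : ℕ} (hn : 3 ≤ n) (F : Type) [Field F] [Finite F] [IsSimpleGroup (PSp n F)] :
    HasFr (PSp n F) (rootB n) fun _ => Nat.card F := by
  have : Nonempty (Fin n) := ⟨⟨0, by omega⟩⟩
  refine hasFr_chev (realSp F n).sys (realSp F _).faithful (realSp F _).grp_eq
    (conn_C _) (realSp F _).hMul (MulEquiv.refl _) fun i j => ?_
  simp only [A_B, A_C, Fin.ext_iff]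
  split_ifs <;> omega

variable {q : ℕ} (hq : IsPrimePow q)
include hq

theorem mod_A {n : ℕ} (hn : 3 ≤ n) : Mod (rootA n) fun _ => q := by
  obtain ⟨F, _, _, rfl⟩ := exists_gf hq
  have : Nonempty (Fin n) := ⟨⟨0, by omega⟩⟩
  refine mod_of_lie (p := ringChar F) (M := Matrix.ProjectiveSpecialLinearGroup (Fin (n + 1)) F)
    (.inl ⟨F, _, ‹_›, inferInstance, n + 1, by omega, by omega, ⟨.refl _⟩⟩)
    (.inl ⟨F, _, ‹_›, n + 1, by omega, by omega, ⟨.refl _⟩⟩) fun _ => ?_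
  rw [← Nat.card_eq_fintype_card]
  exact hasFr_chev (realSL F n).sys (realSL F _).faithful (realSL F _).grp_eq
    (conn_A _) (realSL F _).hMul (MulEquiv.refl _) fun _ _ => rfl

theorem mod_D (n : ℕ) : Mod (rootD (n := n + 4) (by omega)) fun _ => q := by
  obtain ⟨F, _, _, rfl⟩ := exists_gf hq
  obtain ⟨S, h1, h2, h3, -⟩ := exists_omega_D F (n := n + 4) (by omega) (by omega)
  refine mod_of_lie (p := ringChar F) (M := POmega F (quadFormPlus (n + 4) F))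
    (.inr (.inr (.inr (.inr (.inl ⟨F, _, ‹_›, inferInstance, n + 4, by omega, ⟨.refl _⟩⟩)))))
    (.inr (.inr (.inr (.inr (.inl ⟨F, _, ‹_›, n + 4, by omega, ⟨.refl _⟩⟩))))) fun _ => ?_
  rw [← Nat.card_eq_fintype_card]
  exact hasFr_chev S h1 h2 (conn_D _ (by omega)) h3 (Orth.pomegaEquiv (Orth.qPlus _ F))
    fun _ _ => rfl

theorem mod_E6 : Mod RE6 fun _ => q := by
  obtain ⟨F, _, _, rfl⟩ := exists_gf hq
  refine mod_of_lie (p := ringChar F) (M := Lie.chevE6.group F)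
    (.inr (.inr (.inr (.inr (.inr (.inr (.inl ⟨F, _, ‹_›, inferInstance, .inr (.inr (.inl ⟨.refl _⟩))⟩)))))))
    (.inr (.inr (.inr (.inr (.inr (.inr (.inr (.inr (.inl ⟨F, _, ‹_›, ⟨.refl _⟩⟩))))))))) fun _ => ?_
  rw [← Nat.card_eq_fintype_card]
  exact @hasFr_group _ _ checkedE6 (connE6 _) ⟨⟨0, by decide⟩⟩ F _ _ _

theorem mod_E7 : Mod RE7 fun _ => q := by
  obtain ⟨F, _, _, rfl⟩ := exists_gf hq
  refine mod_of_lie (p := ringChar F) (M := Lie.chevE7.group F)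
    (.inr (.inr (.inr (.inr (.inr (.inr (.inl ⟨F, _, ‹_›, inferInstance, .inr (.inr (.inr (.inl ⟨.refl _⟩)))⟩)))))))
    (.inr (.inr (.inr (.inr (.inr (.inr (.inr (.inr (.inr (.inl ⟨F, _, ‹_›, ⟨.refl _⟩⟩)))))))))) fun _ => ?_
  rw [← Nat.card_eq_fintype_card]
  exact @hasFr_group _ _ checkedE7 (connE7 _) ⟨⟨0, by decide⟩⟩ F _ _ _

theorem mod_E8 : Mod RE8 fun _ => q := by
  obtain ⟨F, _, _, rfl⟩ := exists_gf hq
  refine mod_of_lie (p := ringChar F) (M := Lie.chevE8.group F)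
    (.inr (.inr (.inr (.inr (.inr (.inr (.inl ⟨F, _, ‹_›, inferInstance, .inr (.inr (.inr (.inr (⟨.refl _⟩))))⟩)))))))
    (.inr (.inr (.inr (.inr (.inr (.inr (.inr (.inr (.inr (.inr (.inl ⟨F, _, ‹_›, ⟨.refl _⟩⟩))))))))))) fun _ => ?_
  rw [← Nat.card_eq_fintype_card]
  exact @hasFr_group _ _ checkedE8 (connE8 _) ⟨⟨0, by decide⟩⟩ F _ _ _

theorem mod_F : Mod RF4 fun _ => q := by
  obtain ⟨F, _, _, rfl⟩ := exists_gf hq
  refine mod_of_lie (p := ringChar F) (M := Lie.chevF4.group F)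
    (.inr (.inr (.inr (.inr (.inr (.inr (.inl ⟨F, _, ‹_›, inferInstance, .inr (.inl ⟨.refl _⟩)⟩)))))))
    (.inr (.inr (.inr (.inr (.inr (.inr (.inr (.inl ⟨F, _, ‹_›, ⟨.refl _⟩⟩)))))))) fun _ => ?_
  rw [← Nat.card_eq_fintype_card]
  exact @hasFr_group _ _ checkedF4 (connF4 _) ⟨⟨0, by decide⟩⟩ F _ _ _

/-- `PSp_{2n}(q)`. -/
theorem mod_C {n : ℕ} (hn : 3 ≤ n) : Mod (rootB n) fun _ => q := by
  obtain ⟨F, _, _, rfl⟩ := exists_gf hq
  refine mod_of_lie (p := ringChar F) (M := PSp n F)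
    (.inr (.inl ⟨F, _, ‹_›, inferInstance, n, by omega, by omega, ⟨.refl _⟩⟩))
    (.inr (.inl ⟨F, _, ‹_›, n, by omega, by omega, ⟨.refl _⟩⟩)) fun _ => ?_
  rw [← Nat.card_eq_fintype_card]
  exact hasFr_PSp hn F

/-- `PSp_{2n}(q)` and `Ω_{2n+1}(q)`, S0821. -/
theorem mod_BC {n : ℕ} (hn : 3 ≤ n) (ho : Odd q) :
    ∃ (M M' : Type) (_ : Group M) (_ : Group M') (_ : Finite M) (_ : Finite M') (_ : IsSimpleGroup M)
      (_ : IsSimpleGroup M'), Tgt M ∧ Tgt M' ∧ HasFr M (rootB n) (fun _ => q) ∧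
      HasFr M' (rootB n) (fun _ => q) ∧ IsEmpty (M ≃* M') := by
  obtain ⟨F, _, _, rfl⟩ := exists_gf hq
  have : Nonempty (Fin n) := ⟨⟨0, by omega⟩⟩
  have k1 : IsLieTypeChar (ringChar F) (PSp n F) :=
    .inr (.inl ⟨F, _, ‹_›, inferInstance, n, by omega, by omega, ⟨.refl _⟩⟩)
  have k2 : IsLieTypeChar (ringChar F) (POmega F (quadFormOdd n F)) :=
    .inr (.inr (.inr (.inl ⟨F, _, ‹_›, inferInstance, n, hn, ho, ⟨.refl _⟩⟩)))
  have := simple_of_lie k1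
  have := simple_of_lie k2
  obtain ⟨S, h1, h2, h3, -⟩ := exists_omega_B F (n := n) (by omega)
    (Orth.two_ne_zero_of_odd_card ho)
  refine ⟨_, _, _, _, finite_of_lie k1, finite_of_lie k2, ‹_›, ‹_›,
    .inr (.inl ⟨F, _, ‹_›, n, by omega, by omega, ⟨.refl _⟩⟩),
    .inr (.inr (.inr (.inl ⟨F, _, _, n, hn, ho, ⟨.refl _⟩⟩))), ?_, ?_,
    Cfsg.Agent.S0821.result ho n hn⟩ <;> rw [← Nat.card_eq_fintype_card]
  · exact hasFr_PSp hn F
  · exact hasFr_chev S h1 h2 (conn_B _) h3 (Orth.pomegaEquiv (Orth.qOdd _ F)) fun _ _ => rfl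

/-- `²E₆(q)`: `cardX_E6`, `Irr.hasFr_F`. -/
theorem mod_2E6 : Mod RF4 ![q, q, q ^ 2, q ^ 2] := by
  obtain ⟨K, _, _, hK⟩ := exists_gf (hq.pow two_ne_zero)
  obtain ⟨S, hS⟩ := exists_twist_E6 hq hK
  have k1 : IsLieTypeChar (ringChar K) (Lie.twistedE6 K q) := .inr (.inr (.inr (.inr (.inr (.inr (.inr
    (.inl ⟨K, _, _, inferInstance, q, hq, .inl ⟨hK, ⟨.refl _⟩⟩⟩)))))))
  have := finite_of_lie k1
  refine mod_of_lie k1 (.inr (.inr (.inr (.inr (.inr (.inr (.inr (.inr (.inr (.inr (.inr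
    (.inl ⟨K, _, _, q, hq, hK, ⟨.refl _⟩⟩)))))))))))) fun _ => Irr.hasFr_F (fun h => ?_)
      (irr_of_lieDat (p := ringChar K) (LieDat.ofTw checkedE6 (connE6 _) (isTw_E6 hK hS)
        (equivOfMap (subtype_injective _) map_KE6)) (Equiv.refl (Fin 4)) fun k => ?_)
  · have := hq.one_lt
    nlinarith
  · refine (cardX_E6 hK hS hq.one_lt.le k).trans ?_
    fin_cases k <;> simp

end Cfsg.Lib.TB
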