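import Cfsg.Agent.Lib.TB.ModL
import Cfsg.Agent.Lib.KS.FixI

/-!
S1143 (docs/TB.md): the twisted classical models.  Copy `bad_POmegaMinus`, `bad_PSU` of
`Lib/PMin/Fam.lean`; `card_X_one`, `card_X_two`, `KS.mem_X_mid`, `card_X_quot`, `irr_of_lieDat`,
`Irr.hasFr_B`.
-/

set_option autoImplicit false

namespace Cfsg.Lib.TB

open Cfsg.Lib.BN Cfsg.Lib.Chev Cfsg.Lib.St Cfsg.Lib.Twisted Subgroup

open Cfsg.Lib.Twisted.Twist Cfsg.Lib.Orth Cfsg.Lib.Orth.Gam QuadraticMap in
theorem irr_minus {K : Type} [Field K] [Fintype K] {p : ℕ} [CharP K p] {n : ℕ} (hn : 4 ≤ n + 2) {a b : K}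
    (hab : Aniso a b) : Irr (POmega K (quadFormMinus (n + 1) K a b))
      (qB (n + 1) (Nat.card K) (Nat.card K ^ 2)) := by
  obtain ⟨F, _, _, _, -, hF⟩ := GLC.exists_ext K two_ne_zero
  have := Fintype.ofFinite F
  obtain ⟨σ₀, h₀⟩ := Unitary.exists_isBar (Nat.card_eq_fintype_card.symm.trans hF)
  obtain ⟨φ, hφ⟩ := h₀.exists_ringHom rfl
  have := charP_of_injective_ringHom φ.injective p
  have : Fact p.Prime := ⟨CharP.char_is_prime K p⟩
  set σ := RingEquiv.ofBijective σ₀ h₀.bijective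
  have hψ : IsGF (gamD n σ) := isGF_refl_mul (orderOf_bar h₀) _ (by simp [Q_vecD]) (by
    ext x; simp [vecD, Pi.single_apply])
  have hσ : ∀ x, (gamD n σ).σ x = x ↔ x ∈ φ.range := fun x => by rw [gamD_σ]; exact hφ x
  have hQ := nd_qPlus (F := F) (n + 2)
  have hQ₀ := nd_qMinus (n + 1) hab
  have hE : ¬ Exc (qPlus (n + 2) F) := not_exc_of_five_le (by simp; omega)
  have hE₀ : ¬ Exc (qMinus (n + 1) K a b) := not_exc_of_five_le (by simp; omega)
  obtain ⟨D⟩ := nonempty_formData_minus (φ := φ) hQ (m := n + 1) (by simp; omega) hψ.pow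
    hσ hψ.sign hab
  obtain ⟨C, h1, h2, h3, -, hC⟩ := exists_omega_D F (n := n + 2) (by omega) (by omega)
  have h4 : Function.Injective D.jO := fun o o' h => ofO_injective (congrArg Subtype.val
    (D.j_injective ((D.j_ofO o).trans ((congrArg _ h).trans (D.j_ofO o').symm))))
  let f : commutator (O (qMinus (n + 1) K a b)) →* commutator (O (qPlus (n + 2) F)) :=
    (D.jO.comp (Subgroup.subtype _)).codRestrict _ fun o =>
      commutator_mono le_top le_top ((map_commutator ⊤ ⊤ D.jO).le (mem_map_of_mem D.jO o.2))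
  have h5 : Function.Injective f := fun _ _ h => Subtype.ext (h4 (congrArg Subtype.val h))
  have h6 : (twistD σ hC).IsTw f.range := by
    refine isTw_of_le p (isTw_fix h1 h2 (Equiv.swap_apply_self _ _) fun _ => h₀.invol) ?_ ?_
    · rintro _ ⟨o, rfl⟩
      refine Subtype.ext (ofO_injective ((ofO_cj _ (D.jO o)).trans ?_))
      rw [mul_inv_eq_iff_eq_mul]
      exact D.j_ofO o ▸ D.commute_j hQ _
    rintro g hg ⟨k, hk⟩
    obtain ⟨g₀, h7⟩ := D.exists_j_eq (fun x => (hσ x).1) (ofO_σ g.1)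
      (mul_inv_eq_iff_eq_mul.1 ((ofO_cj _ g.1).symm.trans (congrArg (ofO _)
        (show cj _ (gamD n σ) g.1 = g.1 from congrArg Subtype.val hg))))
    obtain ⟨o, ho⟩ : g₀.1 ∈ (ofO _).range := mem_range_ofO.2 ⟨g₀.2, Units.ext (φ.injective (by
      rw [← D.j_c, h7]; simp))⟩
    have h8 : D.jO o = g :=
      ofO_injective (by rw [← h7, ← D.j_ofO]; exact congrArg _ (Subtype.ext ho))
    have h9 : dickson hQ₀ o = 1 := by
      rw [← D.dickson_jO hQ, h8]
      exact congrArg Prod.fst (((ker_dsHom hQ hE).ge g.2 :) : dsHom hQ g = 1)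
    refine ⟨⟨o, ?_⟩, Subtype.ext h8⟩
    rcases eq_or_ne p 2 with rfl | hp
    · exact (commutator_eq_ker_dickson hQ₀ hE₀ CharTwo.two_eq_zero).ge h9
    refine (ker_dsHom hQ₀ hE₀).le (Prod.ext h9 ?_)
    have : spinor hQ₀ o ^ p ^ k = 1 := by
      rw [← map_pow, h4 (a₁ := o ^ p ^ k) (a₂ := 1)
        (by rw [map_pow, h8, map_one]; exact congrArg Subtype.val hk), map_one]
    rcases Int.units_eq_one_or (spinor hQ₀ o) with h | h
    · exact h
    · rw [h, ((Fact.out : p.Prime).odd_of_ne_two hp).pow.neg_one_pow] at this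
      exact absurd this (by decide)
  let E : LieDat p (commutator (O (qMinus (n + 1) K a b))) :=
    { ι := _, Φ := _, κ := _, R := _, T := symD n, F := F, G := _, C := C, S := twistD σ hC
      L := f.range
      tw := h6
      top := h2
      conn := conn_D _ (by omega)
      hMul := h3
      e := MonoidHom.ofInjective h5 }
  have hc : center E.L ≤ (center E.G).subgroupOf E.L := fun z hz => by
    obtain ⟨o, rfl⟩ := E.e.surjective z
    refine (mem_center_commutator_iff hQ hE (by simp; omega)).2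
      (((mem_center_commutator_iff hQ₀ hE₀ (by simp; omega)).1
        ((mem_center_equiv E.e).1 hz)).imp (fun h => ?_) fun h => ?_)
    · exact (congrArg D.jO h).trans (map_one _)
    · refine (congrArg D.jO h).trans (ofO_injective ?_)
      refine (D.j_ofO _).symm.trans (((congrArg _ (Subtype.ext ofO_neg)).trans (D.j_scal _)).trans ?_)
      rw [ofO_neg, show Units.map (φ : K →* F) (-1) = -1 from Units.ext (by simp)]
  have key : ∀ i j : Fin (n + 2), (symD n).orb i = (symD n).orb j ↔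
      i.val = j ∨ i.val = n ∧ j.val = n + 1 ∨ i.val = n + 1 ∧ j.val = n := fun i j =>
    diagSym_orb.trans (by
      simp only [Equiv.swap_apply_def, Fin.ext_iff, apply_ite Fin.val, Fin.val_castSucc,
        Fin.val_last]
      split_ifs <;> omega)
  refine irr_of_lieDat ((E.quot hc).congr (pomegaEquiv (qMinus (n + 1) K a b)))
    (Equiv.ofBijective (fun i : Fin (n + 1) => (symD n).orb i.castSucc) ⟨fun i j h => ?_, fun k => ?_⟩)
    fun k => (card_X_quot E hc _).trans ?_
  · have := (key _ _).1 h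
    simp only [Fin.val_castSucc] at this
    omega
  · obtain ⟨i, rfl⟩ := (symD n).orb_surj k
    refine ⟨⟨min i n, by omega⟩, (key _ _).2 ?_⟩
    simp only [Fin.val_castSucc]
    omega
  · change Nat.card ((twistD σ hC).X ((symD n).orb k.castSucc)) = _
    unfold qB
    split_ifs with h
    · refine (card_X_two (i := k.castSucc) (j := Fin.last _) (Fin.castSucc_lt_last _).ne (fun m => ?_)
        ?_ ?_ ?_ h1 h₀.invol).trans hF
      · simp only [key, List.mem_cons, List.not_mem_nil, or_false, Fin.ext_iff, Fin.val_castSucc,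
          Fin.val_last]
        omega
      · obtain rfl : k = Fin.last _ := Fin.ext (by simpa using h)
        exact Equiv.swap_apply_left _ _
      · obtain rfl : k = Fin.last _ := Fin.ext (by simpa using h)
        exact Equiv.swap_apply_right _ _
      · simp only [A_D, Fin.ext_iff, Fin.val_castSucc, Fin.val_last]
        split_ifs <;> omega
    · refine (card_X_one (S := twistD σ hC) (i := k.castSucc) (fun m => ?_) h1).trans h₀.card_fixed
      simp only [key, List.mem_singleton, Fin.ext_iff, Fin.val_castSucc]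
      omega

open Matrix Cfsg.Lib.Linear Matrix.SpecialLinearGroup Cfsg.Lib.Unitary Cfsg.Lib.Twisted.Twist in
theorem irr_PSU {F : Type} [Field F] [Fintype F] {p : ℕ} [CharP F p] {n m q x : ℕ}
    (hF : Fintype.card F = q ^ 2) (hm : n + 3 = 2 * m ∧ x = q ∨ n + 2 = 2 * m ∧ x = q ^ 3) :
    Irr (PSU (n + 3) F q) (qB m (q ^ 2) x) := by
  obtain ⟨σ₀, h₀⟩ := exists_isBar hF
  obtain ⟨σ, rfl⟩ : ∃ σ : F ≃+* F, σ = σ₀ := ⟨RingEquiv.ofBijective σ₀ h₀.bijective, rfl⟩
  obtain ⟨δ, hδ, hδ'⟩ := h₀.exists_skew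
  obtain ⟨c, hc⟩ : ∃ c : Fˣ, σ c = (-1) ^ n * c := by
    rcases n.even_or_odd with h | h
    exacts [⟨1, by simp [h.neg_one_pow]⟩, ⟨Units.mk0 δ hδ, by simpa [h.neg_one_pow] using hδ'⟩]
  have hJ : ∀ i j, (σ : F →+* F) ((antiJ (n + 3) c).1 i j) = (antiJ (n + 3) c).1 j i := fun i j => by
    by_cases h : i = j.rev
    · have : n + 2 = j.rev.val + j := by simp only [Fin.val_rev]; omega
      have h1 : (-1 : F) ^ n = (-1) ^ (n + 2) := by simp [pow_add]
      simp only [h, antiJ, of_apply, if_true, Fin.rev_rev, map_mul, map_pow, map_neg, map_one,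
        RingHom.coe_coe, hc, h1, this, pow_add]
      rw [mul_right_comm, mul_right_comm _ ((-1) ^ j.val), ← mul_pow, mul_comm]
      simp
    · simp [antiJ, h, Fin.rev_eq_iff.not.1 (Ne.symm h)]
  have hd := (Matrix.isUnits_det_units (antiJ (n + 3) c)).ne_zero
  have hL : (twistSU (n + 2) σ c).Fix = mSU (σ : F →+* F) (antiJ (n + 3) c).1 :=
    Subgroup.ext fun _ => autSU_eq_iff σ c
  obtain ⟨e'⟩ := h₀.nonempty_msuEquiv hJ hd (Fintype.card_fin _)
  let D : LieDat p (SU (n + 3) F q) :=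
    { ι := _, Φ := _, κ := _, R := rootA (n + 2), T := symA _, F := F, G := _
      C := (realSL F (n + 2)).sys
      S := twistSU (n + 2) σ c
      L := _
      tw := isTw_fix (realSL F _).faithful (realSL F _).grp_eq Fin.rev_rev fun _ => h₀.invol
      top := (realSL F _).grp_eq
      conn := conn_A _
      hMul := (realSL F _).hMul
      e := e'.symm.trans (MulEquiv.subgroupCongr hL.symm) }
  have hc : center D.L ≤ (center D.G).subgroupOf D.L := fun z hz => by
    obtain ⟨a, ha⟩ := ((isHerm_gramForm h₀.ne_id h₀.invol hJ hd).mem_center_SUG (by simp)).1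
      ((mem_center_equiv ((MulEquiv.subgroupCongr hL).trans (msuEquiv _ _))).2 hz)
    have : z.1.1 = a • 1 := mulVec_eq_smul_iff.1 ha
    exact mem_center_iff.2 fun g => Subtype.ext (show g.1 * z.1.1 = z.1.1 * g.1 by simp [this])
  have key : ∀ i j : Fin (n + 2), (symA (n + 2)).orb i = (symA _).orb j ↔
      i.val = j ∨ i.val + j = n + 1 := fun i j => diagSym_orb.trans (by
    simp only [Fin.ext_iff, Fin.revPerm_apply, Fin.val_rev]; omega)
  have hle : m ≤ n + 2 := by omega
  refine irr_of_lieDat (D.quot hc)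
    (Equiv.ofBijective (fun i : Fin m => (symA (n + 2)).orb (i.castLE hle)) ⟨fun i j h => ?_, fun k => ?_⟩)
    fun k => (card_X_quot D hc _).trans ?_
  · have := (key _ _).1 h
    simp only [Fin.val_castLE] at this
    omega
  · obtain ⟨i, rfl⟩ := (symA (n + 2)).orb_surj k
    refine ⟨⟨min i (n + 1 - i), by omega⟩, (key _ _).2 ?_⟩
    simp only [Fin.val_castLE]
    omega
  change Nat.card ((twistSU (n + 2) σ c).X ((symA _).orb (k.castLE hle))) = _
  unfold qB
  split_ifs with h
  · rcases hm with ⟨hm, rfl⟩ | ⟨hm, rfl⟩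
    · refine (card_X_one (S := twistSU (n + 2) σ c) (i := k.castLE hle) (fun m => ?_)
        (realSL F _).faithful).trans h₀.card_fixed
      simp only [key, List.mem_singleton, Fin.ext_iff, Fin.val_castLE]
      omega
    · have hi : 2 * (k.castLE hle).val + 2 = n + 2 := by simp only [Fin.val_castLE]; omega
      rw [card_eq_of_param (P := Σ t : F, {w // w + σ w = t * σ t})
        (f := fun y => KS.hs hi y.1 (σ y.1) y.2) ?_ fun g => (KS.mem_X_mid h₀ c hi).trans
          ⟨fun ⟨t, w, h, e⟩ => ⟨⟨t, w, h⟩, e⟩, fun ⟨y, e⟩ => ⟨_, _, y.2.2, e⟩⟩, Nat.card_sigma]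
      · refine (Finset.sum_congr rfl fun t _ => h₀.card_trace_eq (s := t * σ t) (by
          simp [show σ (σ t) = t from h₀.invol t, mul_comm])).trans ?_
        simp [hF, pow_succ]
      · rintro ⟨t, w, h1⟩ ⟨t', w', h2⟩ e
        obtain rfl : t = t' := (KS.ld_hs ..).symm.trans ((congrArg _ e).trans (KS.ld_hs ..))
        obtain rfl : w = w' := by
          simpa [KS.hs, coe_heis] using
            congrFun (congrFun (congrArg (·.1) e) (KS.mid hi 0)) (KS.mid hi 2)
        rfl
  · refine (card_X_two (i := k.castLE hle) (j := (k.castLE hle).rev) (fun e => ?_) (fun m => ?_)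
      rfl (Fin.rev_rev _) ?_ (realSL F _).faithful h₀.invol).trans h₀.card
    · simp only [Fin.ext_iff, Fin.val_castLE, Fin.val_rev] at e
      omega
    · simp only [key, List.mem_cons, List.not_mem_nil, or_false, Fin.ext_iff, Fin.val_castLE,
        Fin.val_rev]
      omega
    · simp only [A_A, Fin.ext_iff, Fin.val_castLE, Fin.val_rev]
      split_ifs <;> omega

theorem mod_PSU {n m q x : ℕ} (hq : IsPrimePow q) (h3 : 3 ≤ m)
    (hm : n + 3 = 2 * m ∧ x = q ∨ n + 2 = 2 * m ∧ x = q ^ 3) : Mod (rootB m) (qB m (q ^ 2) x) := by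
  obtain ⟨F, _, _, hF⟩ := exists_gf (hq.pow two_ne_zero)
  have k1 : IsLieTypeChar (ringChar F) (PSU (n + 3) F q) :=
    .inr (.inr (.inl ⟨F, _, _, inferInstance, n + 3, q, hF, by omega, by omega, ⟨.refl _⟩⟩))
  have := finite_of_lie k1
  refine mod_of_lie k1 (.inr (.inr (.inl ⟨F, _, _, n + 3, q, hF, by omega, by omega, ⟨.refl _⟩⟩)))
    fun _ => Irr.hasFr_B h3 (fun h => ?_) (irr_PSU (p := ringChar F) hF hm)
  have h1 := hq.one_lt
  rcases hm with ⟨-, rfl⟩ | ⟨-, rfl⟩
  · nlinarith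
  · exact absurd (Nat.pow_right_injective h1 h) (by decide)

variable {q n : ℕ} (hq : IsPrimePow q) (hn : 3 ≤ n)
include hq hn

/-- `PΩ⁻_{2n+2}(q)`. -/
theorem mod_2D : Mod (rootB n) (qB n q (q ^ 2)) := by
  obtain ⟨K, _, _, rfl⟩ := exists_gf hq
  obtain ⟨b, hb⟩ := Orth.exists_aniso_one K
  obtain ⟨n, rfl⟩ : ∃ m, n = m + 1 := ⟨n - 1, by omega⟩
  have k1 : IsLieTypeChar (ringChar K) (POmega K (quadFormMinus (n + 1) K 1 b)) :=
    .inr (.inr (.inr (.inr (.inr (.inl
      ⟨K, _, ‹_›, inferInstance, n + 2, 1, b, by omega, hb, ⟨.refl _⟩⟩)))))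
  have := finite_of_lie k1
  refine mod_of_lie k1 (.inr (.inr (.inr (.inr (.inr (.inl
      ⟨K, _, ‹_›, n + 2, 1, b, by omega, hb, ⟨.refl _⟩⟩)))))) fun _ => Irr.hasFr_B hn (fun h => ?_)
    (Nat.card_eq_fintype_card (α := K) ▸ irr_minus (p := ringChar K) (by omega) hb)
  have := hq.one_lt
  nlinarith

/-- `PSU_{2n}(q)`. -/
theorem mod_2A_even : Mod (rootB n) (qB n (q ^ 2) q) :=
  mod_PSU (n := 2 * n - 3) hq hn (.inl ⟨by omega, rfl⟩)

/-- `PSU_{2n+1}(q)`. -/
theorem mod_2A_odd : Mod (rootB n) (qB n (q ^ 2) (q ^ 3)) :=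
  mod_PSU (n := 2 * n - 2) hq hn (.inr ⟨by omega, rfl⟩)

end Cfsg.Lib.TB
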