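import Cfsg.Agent.Lib.TB.PlC
import Cfsg.Agent.Lib.TB.GQI

/-!
S1143 (docs/TB.md): `B ⊓ L_J` does not act faithfully on the neighbouring panels modulo the kernel on
the plane.  Use `D : PlD a b (LJ {a, b}) K` (`exists_plD_LJ`); elements of `LJ` fixing `ch 1` are in
`Fx (DJ J)` (`mem_Fx_DJ`), and `s_t ∈ DJ J` for `t ∉ J`.
-/

set_option autoImplicit false
set_option linter.unusedSectionVars false

namespace Cfsg.Lib.TB.Fr

open Cfsg.Lib.BN Cfsg.Lib.Chev RootSys H17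
open scoped MatrixGroups commutatorElement

variable {ι Φ : Type} [Fintype ι] [DecidableEq ι] {R : RootSys ι Φ} [Fintype Φ]
variable {G : Type*} [Group G] [Finite G] {F : Fr G R} {a b t : ι}

theorem pow_six {X : Type*} [MulAction G X] {S : Set X} (hS : S.Finite) (c : S.ncard ≤ 3) {y : G} (h : ∀ d ∈ S, y • d ∈ S) {d : X} (hd : d ∈ S) :
    y ^ 6 • d = d := by
  have m : ∀ n : ℕ, y ^ n • d ∈ S := fun n => by
    induction n with
    | zero => simpa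
    | succ n ih => rw [pow_succ', mul_smul]; exact h _ ih
  have k : ∀ i j, i < j → j < 4 → y ^ i • d = y ^ j • d → y ^ 6 • d = d := fun i j l l' e => by
    obtain ⟨k, rfl⟩ := Nat.exists_eq_add_of_lt l
    rw [add_assoc, pow_add, mul_smul, smul_left_cancel_iff, eq_comm, MulAction.pow_smul_eq_iff_period_dvd] at e
    refine MulAction.pow_smul_eq_iff_period_dvd.2 (e.trans ?_)
    obtain rfl | rfl | rfl : k = 0 ∨ k = 1 ∨ k = 2 := by omega
    all_goals decide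
  obtain ⟨i, a, j, b, n, e⟩ := Set.exists_ne_map_eq_of_ncard_lt_of_maps_to (s := Set.Iio 4) (by rw [Set.ncard_Iio_nat]; omega) (fun n _ => m n) hS
  exact (lt_or_gt_of_ne n).elim (k i j · b e) (k j i · a e.symm)

theorem sW_mem_DJ {J : Set ι} (ht : t ∉ J) : R.sW t ∈ DJ R J := fun i hi => by
  rw [mem_hf, sW_inv, coe_sW]; exact isPos_sref_simple fun e => ht (e ▸ hi)

theorem PlD.up {K : Type} [Field K] (D : F.PlD a b (F.LJ {a, b}) K) (A : SL(3, K)) (h : A 1 0 = 0 ∧ A 2 0 = 0 ∧ A 2 1 = 0) :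
    ∃ g ∈ F.Fx (DJ R {a, b}), (g, A) ∈ D.Rel :=
  let ⟨g, k⟩ := D.surj A; ⟨g, mem_Fx_DJ (D.mem k) (D.upper k h.1 h.2.1 h.2.2), k⟩

/-- `q a = 2`: an element `y` over `xe 0 1 1 * xe 1 2 1` permutes the at most three chambers of the
`t`-panel other than `ch 1`, `ch s_t`, so `y ^ 6` is trivial there; it lies over `xe 0 2 1`, which is not
central. -/
theorem nt_two (h : Sb R a b) (ht : t ∉ ({a, b} : Set ι)) (h2 : F.q a = 2) (h4 : F.q t ≤ 4) :
    F.NT {a, b} t := by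
  obtain ⟨K, _, _, ⟨D⟩⟩ := exists_plD_LJ (F := F) h
  have c : (2 : K) = 0 := by
    have := FiniteField.cast_card_eq_zero K
    rwa [← Nat.card_eq_fintype_card, D.card, h2] at this
  obtain ⟨y, m, k⟩ := D.up (xe 0 1 1 * xe 1 2 1) (by simp [xe01, xe12])
  have o := mem_Fx.1 m 1 (one_mem_DJ _)
  have o' := mem_Fx.1 m _ (sW_mem_DJ ht)
  refine ⟨y ^ 6, pow_mem m 6, mem_Tr.2 ⟨mem_Fx.1 (pow_mem m 6) 1 (one_mem_DJ _), fun d hd => ?_⟩, fun e => ?_⟩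
  · obtain rfl | n := eq_or_ne d (F.ch (R.sW t))
    · exact mem_Fx.1 (pow_mem m 6) _ (sW_mem_DJ ht)
    refine pow_six (S := {d | F.Ad t (F.ch 1) d} \ {F.ch (R.sW t)}) (Set.toFinite _) ?_ (fun d k => ⟨?_, fun e => k.2 ?_⟩) ⟨hd, n⟩
    · rw [Set.ncard_sdiff_singleton_of_mem (s := {d | F.Ad t (F.ch 1) d}) (D_ch1 _), card_ad]; omega
    · rw [Set.mem_ofPred_eq, ← o]; exact (Ad_smul y).2 k.1
    · exact (smul_left_cancel_iff y).1 (e.trans o'.symm)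
  · have := isDiag_of_center ((D.ker (pow_mem k 6)).1 e) (show (0 : Fin 3) ≠ 2 by decide)
    simp [pow_succ, xe01, xe12] at this
    exact one_ne_zero (α := K) (by linear_combination this - 10 * c)

/-- `q a > 2`: with `λ ≠ 0, 1`, `d = diag (λ, 1, λ⁻¹)` take `g₁, g₃` over `d`, `g₂` over `xe 0 1 1`, `g₄`
over `xe 1 2 1`; `[[g₁, g₂], [g₃, g₄]]` lies over `xe 0 2 ((λ-1)²)` and is trivial on the `t`-panel by
`metab` for the plane `{t, t'}` with `L = PJ {t, t'}`. -/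
theorem nt_plane (h : Sb R a b) (ht : t ∉ ({a, b} : Set ι)) {t' : ι} (h' : Sb R t t')
    (hq : F.q t ≤ F.q a ^ 2) : F.NT {a, b} t := by
  obtain h2 | h2 := (two_le_q (F := F) a).eq_or_lt
  · exact nt_two h ht h2.symm (by rwa [← h2] at hq)
  obtain ⟨K, _, _, ⟨D⟩⟩ := exists_plD_LJ (F := F) h
  obtain ⟨K', _, _, ⟨D'⟩⟩ := exists_plD (F := F) h' le_rfl (fun _ hi => LJ_le_PJ _ (n_mem_LJ hi))
    fun _ hi => (Fx_hf_le_LJ (inJ_simple_iff.2 hi)).trans (LJ_le_PJ _)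
  obtain ⟨l, l0, l1⟩ : ∃ l : K, l ≠ 0 ∧ l ≠ 1 := by
    by_contra! n
    have := Set.ncard_le_ncard (s := Set.univ) (t := {(0 : K), 1}) fun x _ => (em (x = 0)).imp_right (n x)
    rw [Set.ncard_univ, D.card, Set.ncard_pair zero_ne_one] at this
    omega
  obtain ⟨g₁, m₁, k₁⟩ := D.up (hd l * hd' l) (by simp [hd_val l0, hd'_val l0])
  obtain ⟨g₂, m₂, k₂⟩ := D.up (xe 0 1 1) (by simp [xe01])
  obtain ⟨g₄, m₄, k₄⟩ := D.up (xe 1 2 1) (by simp [xe12])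
  have M : ∀ g ∈ F.Fx (DJ R {a, b}), g ∈ F.PJ {t, t'} ⊓ F.Fx {1, R.sW t} := fun g m =>
    ⟨mem_PJ.2 (by rw [mem_Fx.1 m 1 (one_mem_DJ _)]; exact .refl _ _), Fx_anti (by
      rintro _ (rfl | rfl)
      exacts [one_mem_DJ _, sW_mem_DJ ht]) m⟩
  have C : ∀ {H : Type _} [Group H] {S : Subgroup H} {x y : H}, x ∈ S → y ∈ S → ⁅x, y⁆ ∈ S := fun a b =>
    mul_mem (mul_mem (mul_mem a b) (inv_mem a)) (inv_mem b)
  refine ⟨_, C (C m₁ m₂) (C m₁ m₄), D'.metab _ (M _ m₁) _ (M _ m₂) _ (M _ m₁) _ (M _ m₄), fun e => ?_⟩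
  have := (D.ker (C (C k₁ k₂) (C k₁ k₄))).1 e
  have e1 : ⁅hd l * hd' l, xe 0 1 (1 : K)⁆ = xe 0 1 (l - 1) := by
    rw [commutatorElement_def, mul_inv_eq_iff_eq_mul, mul_inv_eq_iff_eq_mul]
    exact Subtype.ext (by simp [hd_val l0, hd'_val l0, xe01, l0])
  have e2 : ⁅hd l * hd' l, xe 1 2 (1 : K)⁆ = xe 1 2 (l - 1) := by
    rw [commutatorElement_def, mul_inv_eq_iff_eq_mul, mul_inv_eq_iff_eq_mul]
    exact Subtype.ext (by simp [hd_val l0, hd'_val l0, xe12, l0])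
  change ⁅⁅hd l * hd' l, xe 0 1 (1 : K)⁆, ⁅hd l * hd' l, xe 1 2 (1 : K)⁆⁆ ∈ _ at this
  rw [e1, e2, xe_comm (by decide) (by decide) (by decide), xe_mem_center (by decide), mul_self_eq_zero, sub_eq_zero] at this
  exact l1 this

/-- The counting lemma: a `p`-group `S` acts on `Ω`, `|Ω| = r`, fixing `ω`; `S` is the union of
`q + 1` subsets `T c`.  (`Ω` = chambers `t`-adjacent to `ch 1`.)  Every point `≠ ω` is fixed by some
`s` acting nontrivially (`|S : ker| ≥ q² > r - 1`), `s ∈ T c`.  `f A` = number of fixed points of `A`,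
`f A ≥ 1`.  `q f {s} ≤ r ≤ q²`; if `Fix (T c) ≠ Fix s` then `q f (T c) ≤ f {s} ≤ q`, so `f (T c) = 1`,
`f {s} = q`, `r = q²`.  If `r < q²`: `r - 1 ≤ (q + 1) (r / q - 1)`, false.  If `r = q²`, `p ∤ r - 1`, `S`
fixes a second point `ω'`, so `f (T c) ≥ 2` and `q² - 2 ≤ (q + 1) (q - 2)`, false. -/
theorem count_false {S Ω I : Type*} [Group S] [Finite S] [Finite Ω] [Finite I] [MulAction S Ω]
    {p q : ℕ} (hp : p.Prime) (hS : IsPGroup p S) (hq : p ∣ q) (h2 : 2 ≤ q)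
    (hI : Nat.card I = q + 1) (hr : Nat.card Ω ≤ q ^ 2) {ω : Ω} (hω : ∀ s : S, s • ω = ω)
    (hk : q ^ 2 ≤ (MulAction.toPermHom S Ω).ker.index) (T : I → Set S) (hT : ∀ s, ∃ c, s ∈ T c)
    (hsub : ∀ c, ∀ A A' : Set S, A ⊆ A' → A' ⊆ T c → ∀ d : Ω, (∀ s ∈ A, s • d = d) →
      (∃ s ∈ A', s • d ≠ d) → q * {d : Ω | ∀ s ∈ A', s • d = d}.ncard ≤
        {d : Ω | ∀ s ∈ A, s • d = d}.ncard) : False := by
  classical
  have := Fact.mk hp
  have := Fintype.ofFinite Ω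
  have := Fintype.ofFinite I
  set Z := {d : Ω | ∀ s : S, s • d = d} with hZ
  have z1 : 1 ≤ Z.ncard := (Set.ncard_pos (Set.toFinite _)).2 ⟨ω, hω⟩
  have z2 : Nat.card Ω < q ^ 2 ∨ 2 ≤ Z.ncard := hr.lt_or_eq.imp_right fun e => by
    obtain ⟨ω', a, b⟩ := hS.exists_fixed_point_of_prime_dvd_card_of_fixed_point Ω (e ▸ hq.trans (dvd_pow_self q two_ne_zero)) hω
    exact (Set.one_lt_ncard (Set.toFinite _)).2 ⟨ω, hω, ω', a, b⟩
  have zl : ∀ A : Set S, Z ⊆ {d : Ω | ∀ s ∈ A, s • d = d} := fun A d k s _ => k s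
  have f1 : ∀ c, ∀ s ∈ T c, ∀ d : Ω, s • d ≠ d → {d : Ω | ∀ s' ∈ ({s} : Set S), s' • d = d}.ncard ≤ Nat.card Ω / q := fun c s m d n => by
    have := hsub c ∅ {s} (by simp) (by simpa) d (by simp) ⟨s, rfl, n⟩
    rw [Nat.le_div_iff_mul_le (by omega), mul_comm]
    simpa using this
  have m1 := Nat.mul_div_le (Nat.card Ω) q
  have m2 : Nat.card Ω / q < q * Z.ncard := by
    rw [Nat.div_lt_iff_lt_mul (by omega)]
    rcases z2 with z | z <;> nlinarith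
  have ex : ∀ H : Subgroup S, H.index < q ^ 2 → ∃ s ∈ H, ∃ d : Ω, s • d ≠ d := fun H l => by
    by_contra! n
    exact absurd (hk.trans (Subgroup.index_antitone fun s m => Equiv.ext (n s m))) l.not_ge
  have cov : Finset.univ \ Z.toFinset ⊆ Finset.univ.biUnion fun c =>
      if ∃ s ∈ T c, ∃ d : Ω, s • d ≠ d then {d : Ω | ∀ s ∈ T c, s • d = d}.toFinset \ Z.toFinset else ∅ := fun x hx => by
    have nx : x ∉ Z := by simpa using hx
    obtain ⟨s, a, d, n⟩ := ex (MulAction.stabilizer S x) (by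
      rw [MulAction.index_stabilizer]
      refine (Set.ncard_lt_ncard (t := Set.univ) (Set.ssubset_univ_iff.2 fun e => ?_)).trans_le (by rwa [Set.ncard_univ])
      obtain ⟨s, e⟩ : ω ∈ MulAction.orbit S x := e ▸ Set.mem_univ ω
      exact nx fun s' => by rw [← inv_smul_smul s x, show s • x = ω from e, hω, hω])
    obtain ⟨c, m⟩ := hT s
    refine Finset.mem_biUnion.2 ⟨c, Finset.mem_univ _, ?_⟩
    rw [if_pos ⟨s, m, d, n⟩, Finset.mem_sdiff, Set.mem_toFinset, Set.mem_toFinset]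
    refine ⟨fun s' m' => by_contra fun n' => ?_, nx⟩
    have := (hsub c {s} (T c) (by simpa) le_rfl x (by simpa using a) ⟨s', m', n'⟩).trans (f1 c s m d n)
    have := Nat.mul_le_mul_left q (Set.ncard_le_ncard (zl (T c)))
    omega
  have b := (Finset.card_le_card cov).trans (Finset.card_biUnion_le_card_mul _ _ (Nat.card Ω / q - Z.ncard) fun c _ => by
    split_ifs with k
    · obtain ⟨s, m, d, n⟩ := k
      rw [Finset.card_sdiff_of_subset (by simpa using zl _), ← Set.ncard_eq_toFinset_card', ← Set.ncard_eq_toFinset_card']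
      exact Nat.sub_le_sub_right ((Set.ncard_le_ncard fun d k => by simpa using k s m).trans (f1 c s m d n)) _
    · simp)
  obtain ⟨s, -, d, n⟩ := ex ⊤ (by rw [Subgroup.index_top]; nlinarith)
  obtain ⟨c, m⟩ := hT s
  have m3 := (Set.ncard_le_ncard (zl _)).trans (f1 c s m d n)
  rw [Finset.card_sdiff_of_subset (Finset.subset_univ _), ← Set.ncard_eq_toFinset_card', Finset.card_univ, Finset.card_univ, ← Nat.card_eq_fintype_card,
    ← Nat.card_eq_fintype_card, hI] at b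
  obtain ⟨k, e⟩ := Nat.exists_eq_add_of_le m3
  rw [e] at b m1 m2
  rw [Nat.add_sub_cancel_left, Nat.sub_le_iff_le_add] at b
  nlinarith

theorem exists_tr (h0 : R.A a t = 0) {c z d : F.X} (r : F.Rs {a} c z) (k : F.Ad t c d) : ∃ d', F.Ad t z d' ∧ F.Rs {a} d d' ∧
    ∀ s : G, s • c = c → s • z = z → (s • d' = d' ↔ s • d = d) := by
  obtain ⟨d', k', r'⟩ : ∃ d', F.Ad t z d' ∧ F.Rs {a} d d' := by
    rcases rs_one.1 r with rfl | r
    exacts [⟨d, k, .refl _ _⟩, let ⟨d', h, _⟩ := digon h0 r k; ⟨d', h.1, h.2.rs1⟩]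
  refine ⟨d', k', r', fun s e e' => ⟨fun f => Rs.eq_of (ne_of_zero h0) (r'.trans (f ▸ (Rs_smul s).2 r'.symm)) (k.symm.rs1.trans (e ▸ (Rs_smul s).2 k.rs1)),
    fun f => Rs.eq_of (ne_of_zero h0) (r'.symm.trans (f ▸ (Rs_smul s).2 r')) (k'.symm.rs1.trans (e' ▸ (Rs_smul s).2 k'.rs1))⟩⟩

theorem ncard_tr (h0 : R.A a t = 0) {c z : F.X} (r : F.Rs {a} c z) {A : Set G} (h : ∀ s ∈ A, s • c = c ∧ s • z = z) :
    {d | F.Ad t c d ∧ ∀ g ∈ A, g • d = d}.ncard ≤ {d | F.Ad t z d ∧ ∀ g ∈ A, g • d = d}.ncard := by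
  choose! f h1 h2 h3 using fun d => exists_tr (d := d) h0 r
  exact Set.ncard_le_ncard_of_injOn f (fun d k => ⟨h1 d k.1, fun g m => (h3 d k.1 g (h g m).1 (h g m).2).2 (k.2 g m)⟩)
    fun d k d' k' e => Rs.eq_of (ne_of_zero h0) ((h2 d' k'.1).trans (e ▸ (h2 d k.1).symm)) (k'.1.symm.rs1.trans k.1.rs1)

theorem sub_fix' (h : Db R a b) (k : G) {A A' : Set G} (hAA : A ⊆ A')
    (hA : ∀ g, k * g * k⁻¹ ∈ A' → g ∈ F.Fx (WJ R {a, b}) ∧ g ∈ F.Tr (F.ch 1) a ∧ g ∈ F.Tr (F.ch (R.sW b)) a)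
    {d : F.X} (hd : F.Ad b (k • F.ch 1) d) (h1 : ∀ g ∈ A, g • d = d) (h2 : ∃ g ∈ A', g • d ≠ d) :
    F.q a * {d | F.Ad b (k • F.ch 1) d ∧ ∀ g ∈ A', g • d = d}.ncard ≤ {d | F.Ad b (k • F.ch 1) d ∧ ∀ g ∈ A, g • d = d}.ncard := by
  have e : ∀ A : Set G, {d | F.Ad b (k • F.ch 1) d ∧ ∀ g ∈ A, g • d = d}.ncard =
      {d | F.Ad b (F.ch 1) d ∧ ∀ g ∈ {g | k * g * k⁻¹ ∈ A}, g • d = d}.ncard := fun A => by
    symm
    refine Set.ncard_congr (fun d _ => k • d) (fun d m => ⟨(Ad_smul k).2 m.1, fun g n => ?_⟩) (fun _ _ _ _ => (smul_left_cancel_iff k).1) fun d m => ?_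
    · have := (conj_smul_iff k).2 (m.2 (k⁻¹ * g * k) (by simpa [mul_assoc] using n))
      simpa [mul_assoc] using this
    · exact ⟨k⁻¹ • d, ⟨by rw [← Ad_smul k, smul_inv_smul]; exact m.1, fun g n => (conj_smul_iff k).1 (by rw [smul_inv_smul]; exact m.2 _ n)⟩, smul_inv_smul k d⟩
  obtain ⟨g, m, n⟩ := h2
  rw [e, e]
  exact sub_fix h (fun g m => hAA m) hA (d := k⁻¹ • d) (by rwa [← Ad_smul k, smul_inv_smul])
    (fun g m => (conj_smul_iff k).1 (by rw [smul_inv_smul]; exact h1 _ m))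
    ⟨k⁻¹ * g * k, by simpa [mul_assoc] using m, fun e => n (by simpa [mul_smul] using e)⟩

theorem quad_tr (h : Sb R a b) (h' : Db R b t) (h0 : R.A a t = 0) {p m : ℕ} (hp : p.Prime) (hq : p ∣ F.q b) {g : G} (e : g ^ p ^ m = 1)
    (hg : g ∈ F.LJ {a, b}) (ha : g ∈ F.Tr (F.ch 1) a) (hb : g ∈ F.Tr (F.ch 1) b) :
    g ∈ F.Fx (WJ R {b, t}) ∧ g ∈ F.Tr (F.ch 1) b ∧ g ∈ F.Tr (F.ch (R.sW t)) b := by
  have o := (mem_Tr.1 ha).1
  have B : R.sW b ∈ WJ R {b, t} := sW_mem_WJ (by simp)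
  have T : R.sW t ∈ WJ R {b, t} := sW_mem_WJ (by simp)
  have d : R.sW t * R.sW b * R.sW t ∈ DJ R {a, b} := by
    rintro i (rfl | rfl)
    · simpa using mul_mem_hf_of_not_inJ (one_mem_hf.2 (isPos_simple i)) (fun k => by
        simpa [h.ne, ne_of_zero h0] using inJ_simple_iff.1 k) (mul_mem (mul_mem T B) T)
    · rw [mem_hf, t_inv, h'.symm.fix3]; exact isPos_simple i
  have x : g ∈ F.Fx (WJ R {b, t}) := mem_Fx.2 fun y hy => by
    simpa using fix_WJ_of_opp o (by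
      simpa [lg_db h', mul_assoc] using fix_mul_DJ hg (sW_mem_WJ (by simp)) ((mem_Tr.1 hb).2 _ (D_ch1 _)) d) hy
  exact ⟨x, hb, (mem_El h.symm hp hq (Tr_digon (A_zero_symm h0) (D_ch1 _) ha (mem_Fx.1 x _ T)) e).2 _ (ad_ch _ b) (mem_Fx.1 x _ (mul_mem T B))⟩

/-- Suppose not.  Let `E₁ ≤ Fx (DJ J)` be the group of elements over `xe 0 2 s * xe 1 2 u`, `S` a Sylow
`p`-subgroup; it covers the `q²` matrices, so its kernel on the `t`-panel has index `≥ q²`.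
`I` = the `a`-panel of `ch 1`, `T z = S ∩ Tr z b` (`el`).  For `z = k • ch 1`, `k ∈ LJ {a}`
(`exists_LJ_one`), `g = k⁻¹ s k` (`s ∈ T z`) is a `p`-element of `LJ J` in `Tr 1 a ⊓ Tr 1 b`, so in
`Fx (DJ J)`; it fixes `ch x` for `x = s_b` and `x = s_t s_b s_t ∈ DJ J`, hence the apartment of the
`{b, t}`-residue (`fix_WJ_of_opp`); `g ∈ Tr s_t a` (`Tr_digon`), `g` fixes `ch (s_t s_b)` (in `DJ J`), so
`g ∈ Tr s_t b` (`mem_El` for the bond `b - a`).  `sub_fix`; the fixed points of `s` on the `t`-panels of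
`ch 1` and of `z` correspond (`digon`, `s ∈ Tr 1 a`).  `q_le_sq`, `count_false`. -/
theorem nt_quad (h : Sb R a b) (h' : Db R b t) (h0 : R.A a t = 0) : F.NT {a, b} t := by
  obtain ⟨K, _, _, ⟨D⟩⟩ := exists_plD_LJ (F := F) h
  obtain ⟨p, n, hp, n0, pn⟩ := (isPrimePow_nat_iff _).1 (isPrimePow_q (F := F) h.symm)
  have := Fact.mk hp
  have cK : Nat.card K = F.q b := D.card.trans (q_eq h)
  have ht : t ∉ ({a, b} : Set ι) := by simp [(ne_of_zero h0).symm, h'.ne.symm]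
  let ψ : Multiplicative (K × K) →* SL(3, K) := MonoidHom.mk' (fun v => xe 0 2 v.toAdd.1 * xe 1 2 v.toAdd.2) fun v w =>
    Subtype.ext (by simp [xe02, xe12, add_comm])
  let E := D.Rel.comap ((MonoidHom.id G).prodMap ψ)
  let π : E →* Multiplicative (K × K) := (MonoidHom.snd _ _).comp E.subtype
  have sπ : Function.Surjective π := fun v => let ⟨g, k⟩ := D.surj (ψ v); ⟨⟨(g, v), k⟩, rfl⟩
  obtain ⟨S⟩ : Nonempty (Sylow p E) := inferInstance
  have cM : Nat.card (Multiplicative (K × K)) = F.q b ^ 2 := by simp [← cK, sq]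
  have sS : (π.comp (S : Subgroup E).subtype).range = ⊤ := by
    rw [MonoidHom.range_comp, Subgroup.range_subtype]
    exact ((S.mapSurjective sπ).is_maximal' (IsPGroup.of_card (n := n * 2) (by rw [Subgroup.card_top, cM, ← pn, pow_mul])) le_top).symm
  let φ : S →* G := ((MonoidHom.fst _ _).comp E.subtype).comp (S : Subgroup E).subtype
  have el : ∀ s : S, φ s ∈ F.Tr (F.ch 1) a ∧ ∃ z, (z = F.ch 1 ∨ F.Ad a (F.ch 1) z) ∧ φ s ∈ F.Tr z b := fun s => D.el s.1.2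
  have mL : ∀ s : S, φ s ∈ F.LJ {a, b} := fun s => D.mem s.1.2
  have o : ∀ s : S, φ s • F.ch 1 = F.ch 1 := fun s => (mem_Tr.1 (el s).1).1
  let Ω := {d // F.Ad t (F.ch 1) d}
  let _ : MulAction S Ω :=
    { smul := fun s d => ⟨φ s • d.1, by have := (Ad_smul (φ s)).2 d.2; rwa [o s] at this⟩
      one_smul := fun d => Subtype.ext ((congrArg (· • d.1) φ.map_one).trans (one_smul _ _))
      mul_smul := fun s s' d => Subtype.ext ((congrArg (· • d.1) (φ.map_mul s s')).trans (mul_smul _ _ _)) }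
  have sm : ∀ (s : S) (d : Ω), s • d = d ↔ φ s • d.1 = d.1 := fun s d => Subtype.ext_iff
  have nc : ∀ A : Set S, {d : Ω | ∀ s ∈ A, s • d = d}.ncard = {d | F.Ad t (F.ch 1) d ∧ ∀ g ∈ φ '' A, g • d = d}.ncard := fun A =>
    Set.ncard_congr (fun d _ => d.1) (fun d m => ⟨d.2, Set.forall_mem_image.2 fun s k => (sm _ _).1 (m s k)⟩) (fun _ _ _ _ => Subtype.ext)
      fun d m => ⟨⟨d, m.1⟩, fun s k => (sm _ _).2 (m.2 _ ⟨s, k, rfl⟩), rfl⟩
  by_contra N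
  refine count_false (Ω := Ω) (I := {z // z = F.ch 1 ∨ F.Ad a (F.ch 1) z}) hp S.2 (pn ▸ dvd_pow_self p n0.ne') (two_le_q b) ?_
    ((card_ad t (F.ch 1)).trans_le (q_le_sq h')) (ω := ⟨_, D_ch1 _⟩) (fun s => (sm _ _).2 (mem_Fx.1 (mem_Fx_DJ (mL s) (o s)) _ (sW_mem_DJ ht))) ?_
    (fun z => {s | φ s ∈ F.Tr z.1 b}) (fun s => let ⟨z, a, b⟩ := (el s).2; ⟨⟨z, a⟩, b⟩) fun z A A' hA hA' d d1 d2 => ?_
  · exact (Set.ncard_insert_of_notMem (s := {z | F.Ad a (F.ch 1) z}) fun k => Ad.ne k rfl).trans (by rw [card_ad, q_eq h])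
  · rw [← cM, ← Subgroup.card_top, ← sS, ← Subgroup.index_ker]
    refine Subgroup.index_antitone fun s m => ?_
    have k : ∀ v, (ψ v).1.IsDiag → v = 1 := fun v e => by
      have w : (ψ v).1 = !![1, 0, v.toAdd.1; 0, 1, v.toAdd.2; 0, 0, 1] := PC.EA_val _ _
      rw [w] at e
      exact Prod.ext (e (show (0 : Fin 3) ≠ 2 by decide)) (e (show (1 : Fin 3) ≠ 2 by decide))
    have := isDiag_of_center ((D.ker s.1.2).1 (by_contra fun k => N ⟨_, mem_Fx_DJ (mL s) (o s),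
      mem_Tr.2 ⟨o s, fun d hd => (sm s ⟨d, hd⟩).1 (Equiv.congr_fun m _)⟩, k⟩))
    exact k _ this
  obtain ⟨z', hz'⟩ := exists_D_right (F := F) (R.sW a) z.1
  obtain ⟨k, kL, k1, -⟩ := exists_LJ_one z.2 hz'
  have r := rs_one.2 z.2
  have fz : ∀ g ∈ φ '' A', g • F.ch 1 = F.ch 1 ∧ g • z.1 = z.1 := Set.forall_mem_image.2 fun s m => ⟨o s, (mem_Tr.1 (hA' m)).1⟩
  obtain ⟨d', a1, -, a2⟩ := exists_tr h0 r d.2
  obtain ⟨s, ms, ns⟩ := d2
  rw [nc, nc]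
  refine (Nat.mul_le_mul_left _ (ncard_tr h0 r fz)).trans (.trans ?_ (ncard_tr h0 r.symm fun g m => (fz g (Set.image_mono hA m)).symm))
  rw [← k1] at a1 ⊢
  refine sub_fix' h' k (Set.image_mono hA) ?_ a1 (Set.forall_mem_image.2 fun s m => (a2 _ (o s) (fz _ ⟨s, hA m, rfl⟩).2).2 ((sm _ _).1 (d1 s m)))
    ⟨_, ⟨s, ms, rfl⟩, fun e => ns ((sm _ _).2 ((a2 _ (o s) (fz _ ⟨s, ms, rfl⟩).2).1 e))⟩
  rintro g ⟨s, m, e⟩
  obtain ⟨j, hj⟩ := S.2 s
  obtain rfl : g = k⁻¹ * φ s * k⁻¹⁻¹ := by rw [e]; group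
  have kJ := LJ_mono (J := {a, b}) (by simp) kL
  refine quad_tr (m := j) h h' h0 hp (pn ▸ dvd_pow_self p n0.ne') (by rw [conj_pow, ← map_pow, hj]; simp)
    (mul_mem (mul_mem (inv_mem kJ) (mL s)) (inv_mem (inv_mem kJ))) (conj_mem_Tr_of (rs_one.1 (mem_PJ.1 (inv_mem (LJ_le_PJ _ kL)))) (el s).1) ?_
  rw [← inv_smul_smul k (F.ch 1), conj_mem_Tr, k1]
  exact hA' m

end Cfsg.Lib.TB.Fr
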