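import Cfsg.Agent.Lib.Perm.Plane5

/-!
S1143 (docs/TB.md): abstract projective planes; coordinates adapted to a triangle.
-/

set_option autoImplicit false

namespace Cfsg.Lib.TB.H17

open Cfsg.Lib.Perm MulAction Matrix Submodule Projectivization
open scoped MatrixGroups

local notation "pk" => Projectivization.mk

theorem exists_pl {P L : Type*} [Finite P] [Finite L] (I : P → L → Prop)
    (join : ∀ p q, ∃ l, I p l ∧ I q l) (meet : ∀ l m, ∃ p, I p l ∧ I p m)
    (uniq : ∀ {p q l m}, I p l → I q l → I p m → I q m → p = q ∨ l = m)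
    (t1 : ∀ l a b, ∃ p, I p l ∧ p ≠ a ∧ p ≠ b) (t2 : ∀ p a b, ∃ l, I p l ∧ l ≠ a ∧ l ≠ b)
    {p₂ : P} {l₂ : L} (h : I p₂ l₂) :
    ∃ D : Pl (IAut I) P L, D.I = I ∧ D.Cfg (fun _ => True) fun _ => True := by
  obtain ⟨l₃, a1, a2, -⟩ := t2 p₂ l₂ l₂
  obtain ⟨p₃, a3, a4, -⟩ := t1 l₂ p₂ p₂
  obtain ⟨p', a5, a6, a7⟩ := t1 l₂ p₂ p₃
  obtain ⟨l₁, a8, a9, -⟩ := t2 p' l₂ l₂
  obtain ⟨l', b1, b2, b3⟩ := t2 p₂ l₂ l₃
  obtain ⟨p₁, b4, b5, -⟩ := t1 l' p₂ p₂
  have c1 : ¬ I p₁ l₂ := fun e => (uniq b4 b1 e h).elim b5 b2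
  have c2 : ¬ I p₁ l₃ := fun e => (uniq b4 b1 e a1).elim b5 b3
  have c3 : ¬ I p₂ l₁ := fun e => (uniq a8 e a5 h).elim a6 a9
  have c4 : ¬ I p₃ l₁ := fun e => (uniq a8 e a5 a3).elim a7 a9
  have c5 : ¬ I p₃ l₃ := fun e => (uniq e a1 a3 h).elim a4 a2
  let : Membership P L := ⟨fun l p => I p l⟩
  let : Configuration.ProjectivePlane P L :=
    { exists_point := fun l => by
        obtain ⟨p, h1, -⟩ := t1 l p₂ p₂
        obtain ⟨m, h2, h3, -⟩ := t2 p l l
        obtain ⟨q, h4, h5, -⟩ := t1 m p p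
        exact ⟨q, fun e => (uniq h4 h2 e h1).elim h5 h3⟩
      exists_line := fun p => by
        obtain ⟨l, h1, -⟩ := t2 p l₂ l₂
        obtain ⟨q, h2, h3, -⟩ := t1 l p p
        obtain ⟨m, h4, h5, -⟩ := t2 q l l
        exact ⟨m, fun e => (uniq h4 e h2 h1).elim h3 h5⟩
      eq_or_eq := uniq
      mkPoint := fun {l m} _ => (meet l m).choose
      mkPoint_ax := fun {l m} _ => (meet l m).choose_spec
      mkLine := fun {p q} _ => (join p q).choose
      mkLine_ax := fun {p q} _ => (join p q).choose_spec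
      exists_config := ⟨p₁, p₂, p₃, l₁, l₂, l₃, c1, c2, c3, h, a1, c4, a3, c5⟩ }
  exact ⟨Pl.ofPlane P L, rfl, p₁, p₂, p₃, l₁, l₂, l₃, trivial, trivial, trivial, trivial, trivial,
    trivial, c1, c2, c3, h, a1, c4, a3, c5⟩

variable {G P L : Type*} [Group G] [MulAction G P] [MulAction G L]

/-- Restriction of the collineation group. -/
def plRes (D : Pl G P L) (K : Subgroup G) : Pl K P L where
  I := D.I
  n := D.n
  two := D.two
  join := D.join
  meet := D.meet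
  uniq := D.uniq
  cardL := D.cardL
  cardP := D.cardP
  cardA := D.cardA
  cardB := D.cardB
  inv g := D.inv g.1
  faith g h := Subtype.ext (D.faith g.1 h)
  faith' g h := Subtype.ext (D.faith' g.1 h)

theorem exists_proj (D : Pl G P L) [Finite G]
    (h2 : ∀ a b c d : P, a ≠ b → c ≠ d → ∃ g : G, g • a = c ∧ g • b = d)
    (hc : D.Cfg (fun _ => True) fun _ => True) :
    ∃ (K : Type) (_ : Field K) (_ : Fintype K), Nonempty (ON.Proj G P K 3) := by
  have := D.finite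
  have := D.dual.finite
  obtain ⟨g, h1, c, h3⟩ := D.exists_persp h2 hc
  have hB : (D.sym h2).dual.NT c := by
    obtain ⟨a, ha, b, hb, h⟩ := (Set.one_lt_ncard (s := {l | D.I c l}) (Set.toFinite _)).1
      (by rw [D.cardP]; have := D.two; omega)
    obtain ⟨a', ha', b', hb', h'⟩ := (Set.one_lt_ncard (s := {l | ¬ D.I c l}) (Set.toFinite _)).1
      (by rw [show {l | ¬ D.I c l}.ncard = D.n ^ 2 from D.dual.card_off c]; have := D.two; nlinarith)
    exact ⟨⟨a, b, h, ha, hb⟩, a', b', h', ha', hb'⟩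
  obtain ⟨F, _, _, N, hN, ⟨E⟩⟩ := hB.proj D.faith' h1 h3
  obtain rfl : N = 3 := le_antisymm (D.dim_le E) hN
  exact ⟨F, inferInstance, inferInstance, ⟨E⟩⟩

variable {K : Type} [Field K]

theorem inc_iff_le (D : Pl G P L) (E : ON.Proj G P K 3) {u v : Fin 3 → K} {hu : u ≠ 0} {hv : v ≠ 0}
    {l : L} (h : pk K u hu ≠ pk K v hv) (h1 : D.I (E.e (pk K u hu)) l)
    (h2 : D.I (E.e (pk K v hv)) l) (p : P) : D.I p l ↔ (E.e.symm p).submodule ≤ span K {u, v} := by
  obtain ⟨a, rfl⟩ := E.e.surjective p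
  induction a using Projectivization.ind with | h t ht => ?_
  rw [D.mem_iff_span E le_rfl ht h h1 h2, Equiv.symm_apply_apply, submodule_mk,
    span_singleton_le_iff_mem]

theorem exists_sub (D : Pl G P L) (E : ON.Proj G P K 3) (l : L) : ∃ W : Submodule K (Fin 3 → K),
    Module.finrank K W = 2 ∧ ∀ p : P, D.I p l ↔ (E.e.symm p).submodule ≤ W := by
  obtain ⟨a, ha, -⟩ := D.meet' l l
  obtain ⟨b, hb, hab, -⟩ := D.exists_third l a a
  obtain ⟨a, rfl⟩ := E.e.surjective a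
  obtain ⟨b, rfl⟩ := E.e.surjective b
  induction a using Projectivization.ind with | h v hv => ?_
  induction b using Projectivization.ind with | h u hu => ?_
  have h : pk K u hu ≠ pk K v hv := fun e => hab (e ▸ rfl)
  refine ⟨_, ?_, inc_iff_le D E h hb ha⟩
  have := finrank_span_eq_card ((Pl.li_iff_ne hu hv).2 h)
  rwa [Matrix.range_cons_cons_empty] at this

theorem exists_line (D : Pl G P L) (E : ON.Proj G P K 3) {W : Submodule K (Fin 3 → K)}
    (hW : Module.finrank K W = 2) : ∃ l : L, ∀ p : P, D.I p l ↔ (E.e.symm p).submodule ≤ W := by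
  let b := Module.finBasisOfFinrankEq K W hW
  have li := b.linearIndependent.map' W.subtype W.ker_subtype
  have hb : W.subtype ∘ b = ![(b 0).1, (b 1).1] := by
    funext i; fin_cases i <;> rfl
  have hu : (b 0).1 ≠ 0 := li.ne_zero 0
  have hv : (b 1).1 ≠ 0 := li.ne_zero 1
  have h := (Pl.li_iff_ne hu hv).1 (hb ▸ li)
  obtain ⟨l, l1, l2⟩ := D.join' (E.e (pk K _ hu)) (E.e (pk K _ hv))
  refine ⟨l, ?_⟩
  have := inc_iff_le D E h l1 l2
  rwa [← Matrix.range_cons_cons_empty, ← hb, Set.range_comp, ← map_span, b.span_eq,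
    map_subtype_top] at this

theorem sub_ext {W W' : Submodule K (Fin 3 → K)}
    (h : ∀ p : Projectivization K (Fin 3 → K), p.submodule ≤ W ↔ p.submodule ≤ W') : W = W' := by
  ext v
  by_cases hv : v = 0
  · simp [hv]
  · simpa only [submodule_mk, span_singleton_le_iff_mem] using h (pk K v hv)

/-- Change of basis. -/
def projConj (E : ON.Proj G P K 3) (M : SL(3, K)) : ON.Proj G P K 3 where
  e := (MulAction.toPerm M).trans E.e
  ρ := E.ρ.comp (MulAut.conj M).toMonoidHom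
  act A p := by
    change E.ρ (M * A * M⁻¹) • E.e (M • p) = E.e (M • A • p)
    rw [E.act, mul_smul, inv_smul_smul, mul_smul]
  normal := by
    rw [MonoidHom.range_comp, MonoidHom.range_eq_top.2 (MulAut.conj M).surjective,
      ← MonoidHom.range_eq_map]
    exact E.normal

theorem single_ne (i : Fin 3) : (Pi.single i 1 : Fin 3 → K) ≠ 0 := fun e => by
  simpa using congrFun e i

theorem exists_SL {u : Fin 3 → Fin 3 → K} (h : LinearIndependent K u) :
    ∃ M : SL(3, K), ∀ i, M • pk K (Pi.single i 1) (single_ne i) = pk K (u i) (h.ne_zero i) := by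
  have h1 : (Matrix.of u)ᵀ.det ≠ 0 := by
    rw [det_transpose]
    exact (Matrix.linearIndependent_rows_iff_isUnit.1 h).map detMonoidHom |>.ne_zero
  obtain ⟨d, hd⟩ : ∃ d : Fin 3 → K, ((Matrix.of u)ᵀ * diagonal d).det = 1 :=
    ⟨![((Matrix.of u)ᵀ.det)⁻¹, 1, 1], by
      rw [det_mul, det_diagonal, Fin.prod_univ_three]; simp [-det_transpose, h1]⟩
  obtain ⟨M, hM⟩ : ∃ M : SL(3, K), M.1 = (Matrix.of u)ᵀ * diagonal d := ⟨⟨_, hd⟩, rfl⟩
  refine ⟨M, fun i => ?_⟩
  rw [Projectivization.smul_mk, mk_eq_mk_iff']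
  refine ⟨d i, funext fun j => ?_⟩
  change _ = (M.1 *ᵥ Pi.single i 1) j
  simp [hM, mul_comm]

theorem exists_proj_std (D : Pl G P L) (E : ON.Proj G P K 3) {p : Fin 3 → P} {l : L}
    (h01 : p 0 ≠ p 1) (h0 : D.I (p 0) l) (h1 : D.I (p 1) l) (h2 : ¬ D.I (p 2) l) :
    ∃ E' : ON.Proj G P K 3, ∀ i, (E'.e.symm (p i)).submodule = K ∙ Pi.single i 1 := by
  let u : Fin 3 → Fin 3 → K := fun i => (E.e.symm (p i)).rep
  have hu : ∀ i, u i ≠ 0 := fun i => (E.e.symm (p i)).rep_nonzero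
  have e : ∀ i, E.e (pk K (u i) (hu i)) = p i := fun i => by
    rw [mk_rep, Equiv.apply_symm_apply]
  have h3 : pk K (u 0) (hu 0) ≠ pk K (u 1) (hu 1) := fun r => h01 (by rw [← e 0, ← e 1, r])
  have h4 : u 2 ∉ span K {u 0, u 1} := fun r =>
    h2 (e 2 ▸ (D.mem_iff_span E le_rfl (hu 2) h3 ((e 0).symm ▸ h0) ((e 1).symm ▸ h1)).2 r)
  have li : LinearIndependent K u := by
    have := (linearIndependent_finSnoc (v := ![u 0, u 1]) (x := u 2)).2
      ⟨(Pl.li_iff_ne (hu 0) (hu 1)).2 h3, by rwa [Matrix.range_cons_cons_empty]⟩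
    have e2 : u = Fin.snoc ![u 0, u 1] (u 2) := by
      funext i; fin_cases i <;> rfl
    rwa [← e2] at this
  obtain ⟨M, hM⟩ := exists_SL li
  refine ⟨projConj E M, fun i => ?_⟩
  rw [← submodule_mk _ (single_ne i), (Equiv.symm_apply_eq _).2]
  exact ((congrArg E.e (hM i)).trans (e i)).symm

end Cfsg.Lib.TB.H17
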