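import Cfsg.Agent.Lib.TB.Res
import Cfsg.Agent.Lib.TB.PlA0

/-!
S1143 (docs/TB.md): the projective plane of a single bond `a - b`: points = `b`-panels, lines =
`a`-panels of the `{a, b}`-residue of `ch 1`.  Build `Perm.Pl Γ P L` for the image `Γ` of a subgroup
`L ≤ PJ {a, b}` in `IAut` (or `L ⧸ kernel`); other chambers by conjugation (`conj_mem_El`).
-/

set_option autoImplicit false
set_option linter.unusedSectionVars false

namespace Cfsg.Lib.TB.Fr

open Cfsg.Lib.BN Cfsg.Lib.Chev RootSys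

variable {ι Φ : Type} [Fintype ι] [DecidableEq ι] {R : RootSys ι Φ} [Fintype Φ]
variable {G : Type*} [Group G] [Finite G] {F : Fr G R} {a b : ι} {c : F.X} {g k : G}

open H17 Cfsg.Lib.Perm
open scoped Pointwise MatrixGroups

section Plane

variable {J : Set ι} {s t : ι} {z z' : F.X}

variable (F) in
/-- The `t`-panels in the `J`-residue of `c`. -/
def Pn (J : Set ι) (c : F.X) (t : ι) : Type _ :=
  {S : Set F.X // ∃ z, F.Rs J c z ∧ S = {d | F.Rs {t} z d}}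

instance finitePn : Finite (F.Pn J c t) := inferInstanceAs (Finite {_S : Set F.X // _})

/-- The `t`-panel of a chamber. -/
def pn (t : ι) (z : F.X) (hz : F.Rs J c z) : F.Pn J c t := ⟨_, z, hz, rfl⟩

theorem pn_eq {hz : F.Rs J c z} {hz' : F.Rs J c z'} : pn t z hz = pn t z' hz' ↔ F.Rs {t} z z' := by
  refine ⟨fun h => ?_, fun h => Subtype.ext (Set.ext fun d =>
    ⟨fun e => h.symm.trans e, fun e => h.trans e⟩)⟩
  have h1 : {d | F.Rs {t} z d} = {d | F.Rs {t} z' d} := congrArg Subtype.val h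
  exact (h1.ge (Rs.refl _ _) :)

theorem exists_pn (p : F.Pn J c t) : ∃ z hz, p = pn t z hz :=
  let ⟨z, hz, e⟩ := p.2; ⟨z, hz, Subtype.ext e⟩

/-- Incidence of panels. -/
def Inc (p : F.Pn J c s) (l : F.Pn J c t) : Prop := ∃ z hz, p = pn s z hz ∧ l = pn t z hz

theorem Inc.symm {p : F.Pn J c s} {l : F.Pn J c t} (h : Inc p l) : Inc l p :=
  let ⟨z, hz, h1, h2⟩ := h; ⟨z, hz, h2, h1⟩

theorem inc_pn (hz : F.Rs J c z) : Inc (pn s z hz) (pn t z hz) := ⟨z, hz, rfl, rfl⟩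

theorem flag_eq (hst : s ≠ t) {hz : F.Rs J c z} {hz' : F.Rs J c z'} (h1 : pn s z hz = pn s z' hz')
    (h2 : pn t z hz = pn t z' hz') : z = z' := by
  rcases rs_one.1 (pn_eq.1 h1) with h3 | h3
  · exact h3.symm
  · exact ((rs_one.1 (pn_eq.1 h2)).resolve_right fun h4 => hst (h3.eq_of h4)).symm

theorem inc_join (h : Sb R s t) (hJ : J = {s, t}) (p q : F.Pn J c t) :
    ∃ l : F.Pn J c s, Inc p l ∧ Inc q l := by
  subst hJ
  obtain ⟨z, hz, rfl⟩ := exists_pn p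
  obtain ⟨z', hz', rfl⟩ := exists_pn q
  obtain ⟨y, y', h1, h2, h3⟩ : ∃ y y', F.Rs {t} z y ∧ F.Rs {s} y y' ∧ F.Rs {t} y' z' := by
    obtain ⟨w, hw, e⟩ := hz.symm.trans hz'
    have A : ∀ {i x y}, F.D (R.sW i) x y → F.Rs {i} x y := fun h => Ad.rs h rfl
    rcases (mem_WJ_sb h).1 hw with rfl | rfl | rfl | rfl | rfl | rfl
    · exact ⟨z, z, .refl _ _, .refl _ _, D_one.1 e ▸ .refl _ _⟩
    · exact ⟨z, z', .refl _ _, A e, .refl _ _⟩
    · exact ⟨z', z', A e, .refl _ _, .refl _ _⟩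
    · obtain ⟨y, e1, e2⟩ := e.split
      exact ⟨z, y, .refl _ _, A e1, A e2⟩
    · obtain ⟨y, e1, e2⟩ := e.split
      exact ⟨y, z', A e1, A e2, .refl _ _⟩
    · rw [h.braid] at e
      obtain ⟨y', e1, e2⟩ := e.split
      obtain ⟨y, e3, e4⟩ := e1.split
      exact ⟨y, y', A e3, A e4, A e2⟩
  have hy : F.Rs {s, t} c y := hz.trans (h1.mono (by simp))
  have hy' : F.Rs {s, t} c y' := hy.trans (h2.mono (by simp))
  exact ⟨pn s y hy, ⟨y, hy, pn_eq.2 h1, rfl⟩, ⟨y', hy', pn_eq.2 h3.symm, pn_eq.2 h2⟩⟩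

theorem inc_uniq (h : Sb R s t) {p q : F.Pn J c t} {l m : F.Pn J c s} (h1 : Inc p l) (h2 : Inc q l)
    (h3 : Inc p m) (h4 : Inc q m) : p = q ∨ l = m := by
  by_contra hc
  rw [not_or] at hc
  obtain ⟨x1, k1, rfl, rfl⟩ := h1
  obtain ⟨x4, k4, rfl, rfl⟩ := h4
  obtain ⟨x2, k2, e1, e2⟩ := h2
  obtain ⟨x3, k3, e3, e4⟩ := h3
  have a1 : F.Ad s x1 x2 := (rs_one.1 (pn_eq.1 e2)).resolve_left (by rintro rfl; exact hc.1 e1.symm)
  have a2 : F.Ad t x4 x2 := (rs_one.1 (pn_eq.1 e1)).resolve_left (by rintro rfl; exact hc.2 e2)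
  have a3 : F.Ad t x1 x3 := (rs_one.1 (pn_eq.1 e3)).resolve_left (by rintro rfl; exact hc.2 e4.symm)
  have a4 : F.Ad s x4 x3 := (rs_one.1 (pn_eq.1 e4)).resolve_left (by rintro rfl; exact hc.1 e3)
  have e := (a1.mul_of_lt (len_two h.ne) a2.symm).unique (a3.mul_of_lt (len_two h.ne.symm) a4.symm)
  have e' := h.braid
  rw [e, mul_assoc, sW_mul_self, mul_one, mul_assoc, e, sW_cancel] at e'
  exact h.ne (R.sref_injective (congrArg Subtype.val e')).symm

theorem card_inc (hst : s ≠ t) (hs : s ∈ J) (l : F.Pn J c s) :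
    {p : F.Pn J c t | Inc p l}.ncard = F.q s + 1 := by
  obtain ⟨z, hz, rfl⟩ := exists_pn l
  have h1 : {d | F.Rs {s} z d} = insert z {d | F.Ad s z d} := Set.ext fun d => rs_one
  rw [← card_ad s z, ← Set.ncard_insert_of_notMem (a := z) (s := {d | F.Ad s z d})
    (fun h => Ad.ne h rfl), ← h1]
  have h2 : ∀ d, F.Rs {s} z d → F.Rs J c d := fun d hd => hz.trans (hd.mono (by simpa))
  refine (Set.ncard_congr (fun d hd => pn t d (h2 d hd)) (fun d hd => (⟨d, h2 d hd, rfl, pn_eq.2 hd⟩ : Inc _ _))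
    (fun d d' hd hd' e => flag_eq hst (hz := h2 d hd) (hz' := h2 d' hd')
      (pn_eq.2 (Rs.trans (Rs.symm hd) hd')) e) ?_).symm
  rintro p ⟨d, hd, rfl, e⟩
  exact ⟨d, pn_eq.1 e, rfl⟩

theorem inc_third (hst : s ≠ t) (hs : s ∈ J) (l : F.Pn J c s) (x y : F.Pn J c t) :
    ∃ p, Inc p l ∧ p ≠ x ∧ p ≠ y := by
  by_contra h
  push Not at h
  have h1 := Set.ncard_le_ncard (s := {p : F.Pn J c t | Inc p l}) (t := {x, y}) fun p hp =>
    by_contra fun e => e (Or.inr (h p hp fun e' => e (Or.inl e')))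
  have := Set.ncard_insert_le x {y}
  have := two_le_q (F := F) s
  rw [card_inc hst hs] at h1
  rw [Set.ncard_singleton] at *
  omega

variable (F) in
/-- The stabilizer of a residue. -/
def St (J : Set ι) (c : F.X) : Subgroup G where
  carrier := {g | F.Rs J c (g • c)}
  one_mem' := by simpa using Rs.refl J c
  mul_mem' {g k} hg hk := by
    rw [Set.mem_ofPred_eq, mul_smul]; exact Rs.trans hg ((Rs_smul g).2 hk)
  inv_mem' {g} hg := by
    rw [Set.mem_ofPred_eq, ← Rs_smul g, smul_inv_smul]; exact Rs.symm hg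

theorem rs_St (g : F.St J c) (hz : F.Rs J c z) : F.Rs J c (g.1 • z) :=
  Rs.trans g.2 ((Rs_smul _).2 hz)

omit [Fintype Φ] [Finite G] in
theorem smul_pan (g : G) (z : F.X) : g • {d | F.Rs {t} z d} = {d | F.Rs {t} (g • z) d} := by
  ext d
  rw [Set.mem_smul_set_iff_inv_smul_mem, Set.mem_ofPred_eq, Set.mem_ofPred_eq, ← Rs_smul g,
    smul_inv_smul]

instance actPn : MulAction (F.St J c) (F.Pn J c t) where
  smul g p := ⟨g.1 • p.1, let ⟨z, hz, e⟩ := p.2; ⟨g.1 • z, rs_St g hz, by rw [e, smul_pan]⟩⟩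
  one_smul p := Subtype.ext (one_smul G p.1)
  mul_smul g k p := Subtype.ext (mul_smul g.1 k.1 p.1)

theorem smul_pn (g : F.St J c) (hz : F.Rs J c z) : g • pn t z hz = pn t (g.1 • z) (rs_St g hz) :=
  Subtype.ext (smul_pan g.1 z)

theorem Inc.smul (g : F.St J c) {p : F.Pn J c s} {l : F.Pn J c t} (h : Inc p l) :
    Inc (g • p) (g • l) := by
  obtain ⟨z, hz, rfl, rfl⟩ := h
  rw [smul_pn, smul_pn]
  exact inc_pn _

variable (F J c s t) in
/-- The action on the rank two geometry. -/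
def phi : F.St J c →* IAut (Inc : F.Pn J c t → F.Pn J c s → Prop) :=
  ((MulAction.toPermHom _ _).prod (MulAction.toPermHom _ _)).codRestrict _ fun g p l =>
    ⟨fun h => by simpa using Inc.smul g⁻¹ h, Inc.smul g⟩

theorem phi_smul (g : F.St J c) (p : F.Pn J c t) : F.phi c J s t g • p = g • p := rfl

theorem phi_smul' (g : F.St J c) (p : F.Pn J c s) : F.phi c J s t g • p = g • p := rfl

theorem fix_flag (hst : s ≠ t) (g : F.St J c) (hz : F.Rs J c z) :
    g.1 • z = z ↔ g • pn s z hz = pn s z hz ∧ g • pn t z hz = pn t z hz := by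
  rw [smul_pn, smul_pn]
  exact ⟨fun h => by simp only [h, and_self], fun h => flag_eq hst h.1 h.2⟩

theorem mem_Tr_iff (hst : s ≠ t) (hs : s ∈ J) (g : F.St J c) (hz : F.Rs J c z) :
    g.1 ∈ F.Tr z s ↔ g • pn s z hz = pn s z hz ∧
      ∀ p : F.Pn J c t, Inc p (pn s z hz) → g • p = p := by
  have h0 : g.1 ∈ F.Tr z s ↔ ∀ d, F.Rs {s} z d → g.1 • d = d := by
    rw [Tr, mem_Fix]; simp only [Set.mem_ofPred_eq, rs_one]
  rw [h0]
  constructor
  · intro h
    refine ⟨((fix_flag hst g hz).1 (h z (.refl _ _))).1, ?_⟩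
    rintro p ⟨d, hd, rfl, e⟩
    exact ((fix_flag hst g hd).1 (h d (pn_eq.1 e))).2
  · rintro ⟨h1, h2⟩ d hd
    have hd' : F.Rs J c d := hz.trans (hd.mono (by simpa))
    have e : pn s z hz = pn s d hd' := pn_eq.2 hd
    exact (fix_flag hst g hd').2 ⟨e ▸ h1, h2 _ ⟨d, hd', rfl, e⟩⟩

theorem exists_pl (h : Sb R a b) (c : F.X) :
    ∃ D : Pl (IAut (Inc : F.Pn {a, b} c b → F.Pn {a, b} c a → Prop)) (F.Pn {a, b} c b)
      (F.Pn {a, b} c a), (∀ p l, D.I p l ↔ Inc p l) ∧ (D.Cfg (fun _ => True) fun _ => True) ∧ D.n = F.q a ∧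
        D.n = F.q b := by
  obtain ⟨D, h1, h2⟩ := H17.exists_pl (Inc : F.Pn {a, b} c b → F.Pn {a, b} c a → Prop)
    (inc_join h rfl)
    (fun l m => let ⟨p, h1, h2⟩ := inc_join h.symm (Set.pair_comm a b) l m; ⟨p, h1.symm, h2.symm⟩)
    (inc_uniq h) (inc_third h.ne (.inl rfl))
    (fun p x y => let ⟨l, h1, h2⟩ := inc_third h.ne.symm (.inr rfl) p x y; ⟨l, h1.symm, h2⟩)
    (inc_pn (Rs.refl _ c))
  refine ⟨D, fun p l => by rw [h1], h2, ?_, ?_⟩
  · have := D.cardL (pn a c (Rs.refl _ c))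
    rw [h1, card_inc h.ne (.inl rfl)] at this
    omega
  · have := D.cardP (pn b c (Rs.refl _ c))
    rw [h1, show {l | Inc (pn b c (Rs.refl {a, b} c)) l} =
      {l : F.Pn {a, b} c a | Inc l (pn b c (Rs.refl {a, b} c))} from
        Set.ext fun _ => ⟨Inc.symm, Inc.symm⟩, card_inc h.ne.symm (.inr rfl)] at this
    omega

variable {D : Pl (IAut (Inc : F.Pn {a, b} c b → F.Pn {a, b} c a → Prop)) (F.Pn {a, b} c b)
  (F.Pn {a, b} c a)}

theorem ax_iff (h : Sb R a b) (hD : ∀ p l, D.I p l ↔ Inc p l) (g : F.St {a, b} c) (hz : F.Rs {a, b} c z) :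
    D.Ax (F.phi c {a, b} a b g) (pn a z hz) ↔ g.1 ∈ F.Tr z a := by
  rw [mem_Tr_iff h.ne (.inl rfl) g hz]
  exact ⟨fun e => ⟨e.fix, fun p hp => e p ((hD _ _).2 hp)⟩, fun e p hp => e.2 p ((hD _ _).1 hp)⟩

theorem ce_iff (h : Sb R a b) (hD : ∀ p l, D.I p l ↔ Inc p l) (g : F.St {a, b} c) (hz : F.Rs {a, b} c z) :
    D.Ce (F.phi c {a, b} a b g) (pn b z hz) ↔ g.1 ∈ F.Tr z b := by
  rw [mem_Tr_iff h.ne.symm (.inr rfl) g hz]
  exact ⟨fun e => ⟨e.fix, fun p hp => e p ((hD _ _).2 hp.symm)⟩,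
    fun e p hp => e.2 p (Inc.symm ((hD _ _).1 hp))⟩

omit [Fintype Φ] [Finite G] in
theorem mem_St_of_fix (h : g • c = c) : g ∈ F.St J c := by
  change F.Rs J c (g • c)
  rw [h]; exact Rs.refl _ _

theorem el_iff (h : Sb R a b) (hD : ∀ p l, D.I p l ↔ Inc p l) (g : F.St {a, b} c) :
    g.1 ∈ F.El c a b ↔ F.phi c {a, b} a b g ∈ D.dual.El (pn b c (Rs.refl _ c)) := by
  have hc := Rs.refl (F := F) {a, b} c
  have i0 : D.I (pn b c hc) (pn a c hc) := (hD _ _).2 (inc_pn hc)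
  constructor
  · rintro ⟨h1, h2⟩
    have h3 := (ce_iff h hD g hc).2 h1
    refine ⟨h3, ?_⟩
    obtain ⟨m, hm⟩ := h3.exists_ax
    by_cases e : D.I (pn b c hc) m
    · exact ⟨m, e, hm⟩
    obtain ⟨x, x1, x2⟩ := D.meet' m (pn a c hc)
    obtain ⟨d, hd, rfl, e2⟩ : Inc x (pn a c hc) := (hD _ _).1 x2
    have h4 : F.Ad a c d := (rs_one.1 (pn_eq.1 e2)).resolve_left (by rintro rfl; exact e x1)
    exact ⟨_, i0, (ax_iff h hD g hc).2 (h2 d h4
      ((fix_flag h.ne g hd).2 ⟨e2 ▸ h3 _ i0, hm _ x1⟩))⟩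
  · rintro ⟨h1, m, h2, h3⟩
    refine ⟨(ce_iff h hD g hc).1 h1, fun d hd e => (ax_iff h hD g hc).1 ?_⟩
    by_cases e1 : F.phi c {a, b} a b g = 1
    · exact fun p _ => by rw [e1, one_smul]
    have hd' : F.Rs {a, b} c d := hd.rs (.inl rfl)
    have e2 : pn a c hc = pn a d hd' := pn_eq.2 (hd.rs rfl)
    have e3 : pn b d hd' ≠ pn b c hc := fun r => hd.ne (flag_eq h.ne e2 r.symm)
    have h4 := (Pl.Ax.fixed (D := D) h3 h1 e1 ((fix_flag h.ne g hd').1 e).2).resolve_right e3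
    rwa [D.line_eq e3 (e2 ▸ (hD _ _).2 (inc_pn hd')) i0 h4 h2]

end Plane

theorem q_eq (h : Sb R a b) : F.q a = F.q b := by
  obtain ⟨D, -, -, h1, h2⟩ := exists_pl (F := F) h (F.ch 1)
  rw [← h1, h2]

/-- `El c a b` is the preimage of the group of elations with centre `p₀` (the `b`-panel of `c`): a
collineation with centre `p₀` has an axis `m` (`Ce.exists_ax`); if `p₀ ∉ m` it fixes the point
`m ∩ l₀ ≠ p₀`, and two axes force it to be trivial; an elation fixing a point of `l₀ ∖ p₀` has axis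
`l₀` or is trivial (`Ax.fixed`).  `Pl.El` for the dual plane is a subgroup. -/
theorem El_mul (h : Sb R a b) (hg : g ∈ F.El c a b) (hk : k ∈ F.El c a b) : g * k ∈ F.El c a b := by
  obtain ⟨D, hD, -⟩ := exists_pl (F := F) h c
  have h1 := (el_iff h hD ⟨g, mem_St_of_fix (mem_Tr.1 hg.1).1⟩).1 hg
  have h2 := (el_iff h hD ⟨k, mem_St_of_fix (mem_Tr.1 hk.1).1⟩).1 hk
  have h3 := mul_mem h1 h2
  rw [← map_mul] at h3
  exact (el_iff h hD _).2 h3

theorem El_inv (hg : g ∈ F.El c a b) : g⁻¹ ∈ F.El c a b := by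
  exact ⟨inv_mem hg.1, fun d hd e => inv_mem (hg.2 d hd (inv_smul_eq_iff.1 e).symm)⟩

/-- A nontrivial homology acts freely on the `q - 1` points of a line through the centre that are
not the centre and not on the axis. -/
theorem mem_El (h : Sb R a b) {p m : ℕ} (hp : p.Prime) (hq : p ∣ F.q a) (hg : g ∈ F.Tr c b)
    (e : g ^ p ^ m = 1) : g ∈ F.El c a b := by
  obtain ⟨D, hD, -, hn, -⟩ := exists_pl (F := F) h c
  have := Fact.mk hp
  have hc := Rs.refl (F := F) {a, b} c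
  let g' : F.St {a, b} c := ⟨g, mem_St_of_fix (mem_Tr.1 hg).1⟩
  refine (el_iff h hD g').2 ?_
  have h3 := (ce_iff h hD g' hc).2 hg
  have e1 : F.phi c {a, b} a b g' ^ p ^ m = 1 := by
    rw [← map_pow, show g' ^ p ^ m = 1 from Subtype.ext e, map_one]
  generalize F.phi c {a, b} a b g' = γ at h3 e1
  by_cases e0 : γ = 1
  · rw [e0]; exact one_mem _
  obtain ⟨l, hl⟩ := h3.exists_ax
  refine ⟨h3, l, by_contra fun e2 => ?_, hl⟩
  have i0 : D.I (pn b c hc) (pn a c hc) := (hD _ _).2 (inc_pn hc)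
  generalize pn b c hc = p0 at *
  generalize pn a c hc = l0 at *
  obtain ⟨x, x1, x2⟩ := D.meet' l l0
  have hx : x ≠ p0 := fun r => e2 (r ▸ x1)
  have hP : IsPGroup p (Subgroup.zpowers γ) := by
    rintro ⟨_, k, rfl⟩
    refine ⟨m, Subtype.ext ?_⟩
    change (γ ^ k) ^ p ^ m = 1
    rw [← zpow_natCast, ← zpow_mul, mul_comm, zpow_mul, zpow_natCast, e1, one_zpow]
  obtain ⟨y, hy, e3⟩ := exists_fixed_of_not_dvd hP (s := {y | D.I y l0 ∧ y ≠ p0} \ {x})
    (fun u hu y hy => by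
      have k1 : u ∈ MulAction.stabilizer _ l0 := (Subgroup.zpowers_le.2 (h3 l0 i0)) hu
      have k2 : u ∈ MulAction.stabilizer _ p0 := (Subgroup.zpowers_le.2 h3.fix) hu
      have k3 : u ∈ MulAction.stabilizer _ x := (Subgroup.zpowers_le.2 (hl x x1)) hu
      exact ⟨⟨D.smul_mem hy.1.1 k1, fun r => hy.1.2 (MulAction.injective u (r.trans k2.symm))⟩,
        fun r => hy.2 (MulAction.injective u (r.trans k3.symm))⟩)
    (by
      rw [Set.ncard_sdiff_singleton_of_mem (show x ∈ {y | D.I y l0 ∧ y ≠ p0} from ⟨x2, hx⟩),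
        D.card_diff i0, hn]
      intro r
      have := two_le_q (F := F) a
      exact hp.one_lt.ne' (Nat.dvd_one.1 (by
        simpa [Nat.sub_sub_self (show 1 ≤ F.q a by omega)] using Nat.dvd_sub hq r)))
  rcases hl.fixed h3 e0 (e3 γ (Subgroup.mem_zpowers γ)) with r | r
  · exact hy.2 (D.pt_eq (fun r' : l = l0 => e2 (r' ▸ i0)) r x1 hy.1.1 x2)
  · exact hy.1.2 r

/-- **Ostrom–Wagner.**  `L` is doubly transitive on the points (`exists_smul_pair`); copy the proof of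
`Perm.Pl.desarguesian` to get `E : ON.Proj Γ P K 3` with lines = planes through `0`
(`mem_iff_span`); the three points of the apartment are not collinear, so after a change of basis
(`conjSL`) they are the standard ones. -/
theorem exists_crd (h : Sb R a b) {L : Subgroup G} (hL : L ≤ F.PJ {a, b})
    (h1 : ∀ i ∈ ({a, b} : Set ι), F.n i ∈ L)
    (h2 : ∀ i ∈ ({a, b} : Set ι), F.Fx (hf R (R.simple i)) ≤ L) :
    ∃ (K : Type) (_ : Field K) (_ : Fintype K), Nonempty (F.Crd a b L K) := by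
  classical
  have h0 := Rs.refl (F := F) {a, b} (F.ch 1)
  obtain ⟨D0, hD, hc, -⟩ := exists_pl (F := F) h (F.ch 1)
  have hL' : ∀ g ∈ L, g ∈ F.St {a, b} (F.ch 1) := fun g hg => mem_PJ.1 (hL hg)
  let Γ := (L.subgroupOf (F.St {a, b} (F.ch 1))).map (F.phi (F.ch 1) {a, b} a b)
  let γ : ∀ g ∈ L, Γ := fun g hg => ⟨_, ⟨g, hL' g hg⟩, hg, rfl⟩
  have hγ : ∀ g hg z hz, γ g hg • pn b z hz = pn b (g • z) (rs_St ⟨g, hL' g hg⟩ hz) :=
    fun g hg z hz => smul_pn ⟨g, hL' g hg⟩ hz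
  let D := plRes D0 Γ
  have hD' : ∀ p l, D.I p l ↔ Inc p l := hD
  have wa : R.sW a ∈ WJ R {a, b} := sW_mem_WJ (.inl rfl)
  have wb : R.sW b ∈ WJ R {a, b} := sW_mem_WJ (.inr rfl)
  have r : ∀ {w}, w ∈ WJ R {a, b} → F.Rs {a, b} (F.ch 1) (F.ch w) := fun hw =>
    rs_ch.2 (by rwa [inv_one, one_mul])
  have tr : ∀ p q : F.Pn {a, b} (F.ch 1) b, p ≠ q →
      ∃ g : Γ, g • pn b _ h0 = p ∧ g • pn b _ (r wa) = q := fun p q hpq => by
    obtain ⟨l, ⟨z, hz, rfl, rfl⟩, ⟨z', hz', rfl, e⟩⟩ := inc_join h rfl p q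
    obtain ⟨g, k1, k2, k3⟩ := exists_smul_pair h1 h2 wa hz
      ((rs_one.1 (pn_eq.1 e)).resolve_left (by rintro rfl; exact hpq rfl))
    exact ⟨γ g k1, by simp only [hγ, k2], by simp only [hγ, k3]⟩
  obtain ⟨K, _, _, ⟨E0⟩⟩ := exists_proj D (fun p q p' q' e e' => by
    obtain ⟨g, k1, k2⟩ := tr p q e
    obtain ⟨g', k3, k4⟩ := tr p' q' e'
    exact ⟨g' * g⁻¹, by rw [← k1, mul_smul, inv_smul_smul, k3],
      by rw [← k2, mul_smul, inv_smul_smul, k4]⟩) hc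
  have a1 : F.Ad a (F.ch 1) (F.ch (R.sW a)) := by simpa using ad_ch (F := F) 1 a
  have a2 : F.Ad b (F.ch 1) (F.ch (R.sW b)) := by simpa using ad_ch (F := F) 1 b
  have a3 := ad_ch (F := F) (R.sW b) a
  have e1 : pn a _ h0 = pn a _ (r wa) := pn_eq.2 (a1.rs rfl)
  have e2 : pn b _ h0 = pn b _ (r wb) := pn_eq.2 (a2.rs rfl)
  have e3 : pn a _ (r wb) = pn a _ (r (mul_mem wb wa)) := pn_eq.2 (a3.rs rfl)
  obtain ⟨E, hE⟩ := exists_proj_std D E0
    (p := ![pn b _ h0, pn b _ (r wa), pn b _ (r (mul_mem wb wa))]) (l := pn a _ h0)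
    (fun e => a1.ne (flag_eq h.ne e1 e)) ((hD _ _).2 (inc_pn h0))
    ((hD _ _).2 (e1 ▸ inc_pn (r wa))) (fun e => by
      rcases inc_uniq h ((hD _ _).1 e) (inc_pn h0) (inc_pn (r (mul_mem wb wa)))
        (e3 ▸ e2 ▸ inc_pn (r wb)) with k | k
      · exact a3.ne (flag_eq h.ne e3 (e2.symm.trans k.symm))
      · exact a2.ne (flag_eq h.ne (k.trans e3.symm) e2))
  choose W hW hW' using exists_sub D E
  have Winj : Function.Injective W := fun l m e => by
    obtain ⟨p, hp, -⟩ := D.meet' l l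
    obtain ⟨q, hq, hpq, -⟩ := D.exists_third l p p
    exact D.line_eq hpq hq hp ((hW' _ _).2 (e ▸ (hW' _ _).1 hq)) ((hW' _ _).2 (e ▸ (hW' _ _).1 hp))
  let pp : ∀ t, F.X → F.Pn {a, b} (F.ch 1) t := fun t c =>
    if hc : F.Rs {a, b} (F.ch 1) c then pn t c hc else pn t _ h0
  have hp : ∀ t c hc, pp t c = pn t c hc := fun t c hc => dif_pos hc
  have act : ∀ g (hg : g ∈ L) (A : SL(3, K)),
      (∀ c, F.Rs {a, b} (F.ch 1) c → E.e.symm (pp b (g • c)) = A • E.e.symm (pp b c)) ↔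
        γ g hg = E.ρ A := fun g hg A => by
    constructor
    · intro k
      rw [← inv_mul_eq_one]
      refine D.faith _ fun p => ?_
      obtain ⟨z, hz, rfl⟩ := exists_pn p
      have k1 := k z hz
      rw [hp _ _ hz, hp _ _ (rs_St ⟨g, hL' g hg⟩ hz), Equiv.symm_apply_eq, ← E.act,
        Equiv.apply_symm_apply] at k1
      rw [mul_smul, ← k1, inv_smul_eq_iff, hγ g hg]
    · intro k c hc
      rw [hp _ _ hc, hp _ _ (rs_St ⟨g, hL' g hg⟩ hc), Equiv.symm_apply_eq, ← E.act,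
        Equiv.apply_symm_apply, ← k, hγ g hg]
  refine ⟨K, inferInstance, inferInstance, ⟨{
    pt c := E.e.symm (pp b c)
    ln c := W (pp a c)
    rk c := hW _
    inc c hc := by rw [hp _ _ hc, hp _ _ hc]; exact (hW' _ _).1 ((hD _ _).2 (inc_pn hc))
    inj c d hc hd k1 k2 := by
      rw [hp _ _ hc, hp _ _ hd] at k1 k2
      exact flag_eq h.ne (Winj k2) (E.e.symm.injective k1)
    surj p l hl k := by
      obtain ⟨m, hm⟩ := exists_line D E hl
      obtain ⟨c, hc, k1, rfl⟩ := (hD _ _).1 ((hm (E.e p)).2 (by rwa [Equiv.symm_apply_apply]))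
      refine ⟨c, hc, by rw [hp _ _ hc, ← k1, Equiv.symm_apply_apply], ?_⟩
      rw [hp _ _ hc]
      exact sub_ext fun q => by
        rw [← E.e.symm_apply_apply q, ← hW', hm]
    ada c d hc := by
      constructor
      · intro k
        have hd := hc.trans (k.rs (.inl rfl))
        exact ⟨hd, by rw [hp _ _ hc, hp _ _ hd, pn_eq.2 (k.rs rfl)], k.ne.symm⟩
      · rintro ⟨hd, k1, k2⟩
        rw [hp _ _ hc, hp _ _ hd] at k1
        exact (rs_one.1 (pn_eq.1 (Winj k1).symm)).resolve_left k2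
    adb c d hc := by
      constructor
      · intro k
        have hd := hc.trans (k.rs (.inr rfl))
        exact ⟨hd, by rw [hp _ _ hc, hp _ _ hd, pn_eq.2 (k.rs rfl)], k.ne.symm⟩
      · rintro ⟨hd, k1, k2⟩
        rw [hp _ _ hc, hp _ _ hd] at k1
        exact (rs_one.1 (pn_eq.1 (E.e.symm.injective k1).symm)).resolve_left k2
    sl A := by
      obtain ⟨g, hg, e⟩ := (E.ρ A).2
      exact ⟨g, hg, (act g hg A).2 (Subtype.ext e)⟩
    nrm l hl g hg A k := by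
      obtain ⟨A', e⟩ := E.normal.conj_mem _ ⟨A, rfl⟩ (γ l hl)
      refine ⟨A', (act _ (mul_mem (mul_mem hl hg) (inv_mem hl)) A').2 ?_⟩
      rw [e, ← (act g hg A).1 k]
      refine Subtype.ext ?_
      simp only [γ, Subgroup.coe_mul, Subgroup.coe_inv, ← map_mul, ← map_inv]
      rfl
    std0 := by rw [hp _ _ h0]; exact hE 0
    std1 := by rw [hp _ _ (r wa)]; exact hE 1
    std2 := by rw [hp _ _ (r (mul_mem wb wa))]; exact hE 2 }⟩⟩

end Cfsg.Lib.TB.Fr
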