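import Cfsg.Agent.Lib.TB.B3s
import Cfsg.Agent.Lib.Perm.Plane3
import Cfsg.Agent.Lib.Linear.Tv

/-!
S1143 (docs/TB.md): collineations of the Desarguesian plane and `SL₃(K)`.
-/

set_option autoImplicit false

noncomputable section

namespace Cfsg.Lib.TB.PC

open Matrix Cfsg.Lib.Perm Projectivization
open scoped MatrixGroups commutatorElement

variable (K : Type) [Field K]

/-- Points. -/
abbrev Pt : Type := Projectivization K (Fin 3 → K)

/-- Lines. -/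
def Li : Type := Projectivization K (Fin 3 → K)

instance memLi : Membership (Pt K) (Li K) := inferInstanceAs (Membership (Pt K) (Pt K))

open Classical in
instance planeLi : Configuration.ProjectivePlane (Pt K) (Li K) :=
  inferInstanceAs (Configuration.ProjectivePlane (Pt K) (Pt K))

instance finLi [Finite K] : Finite (Li K) := inferInstanceAs (Finite (Pt K))

/-- Collineations. -/
abbrev Γ : Type := IAut fun (p : Pt K) (l : Li K) => p ∈ l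

/-- The plane. -/
def D [Finite K] : Pl (Γ K) (Pt K) (Li K) := Pl.ofPlane _ _

variable {K}

/-- The line with coordinates `f`. -/
def lm (f : Fin 3 → K) (hf : f ≠ 0) : Li K := mk K f hf

theorem lm_ind (l : Li K) : ∃ f hf, l = lm f hf := ⟨_, _, (mk_rep l).symm⟩

theorem pk_ind (p : Pt K) : ∃ v hv, p = mk K v hv := ⟨_, _, (mk_rep p).symm⟩

theorem sg_ne (i : Fin 3) : (Pi.single i 1 : Fin 3 → K) ≠ 0 := Pi.single_ne_zero_iff.2 one_ne_zero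

variable (K) in
/-- The standard points. -/
def e (i : Fin 3) : Pt K := mk K _ (sg_ne i)

variable (K) in
/-- The standard lines. -/
def l (j : Fin 3) : Li K := lm _ (sg_ne j)

/-- The points of `l 2` other than `e 0`. -/
def q (t : K) : Pt K := mk K ![t, 1, 0] fun h => one_ne_zero (congrFun h 1)

theorem q_zero : q (0 : K) = e K 1 := by
  unfold q e
  congr 1
  ext i
  fin_cases i <;> simp

theorem q_inj : Function.Injective (q (K := K)) := fun s t h => by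
  obtain ⟨a, ha⟩ := (mk_eq_mk_iff' _ _ _ _ _).1 h
  have h0 := congrFun ha 0
  have h1 := congrFun ha 1
  simp at h0 h1
  rw [← h0, h1, one_mul]

theorem q_ne (t : K) : q t ≠ e K 0 := fun h => by
  obtain ⟨a, ha⟩ := (mk_eq_mk_iff' _ _ _ _ _).1 h
  simpa using congrFun ha 1

theorem e_ne {i j : Fin 3} (h : i ≠ j) : e K i ≠ e K j := fun h' => by
  obtain ⟨a, ha⟩ := (mk_eq_mk_iff' _ _ _ _ _).1 h'
  simpa [h] using congrFun ha i

theorem xe_mulVec {i j : Fin 3} (h : i ≠ j) (t : K) (v : Fin 3 → K) :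
    (xe i j t).1 *ᵥ v = v + (t * (v ⬝ᵥ Pi.single j 1)) • Pi.single i 1 := by
  rw [xe_val h, add_mulVec, one_mulVec, single_mulVec_eq]
  simp

/-- Elations with axis `l 2`. -/
def EA (s t : K) : SL(3, K) := xe 0 2 s * xe 1 2 t

/-- Elations with centre `e 0`. -/
def EB (s t : K) : SL(3, K) := xe 0 1 s * xe 0 2 t

theorem EA_val (s t : K) : (EA s t).1 = !![1, 0, s; 0, 1, t; 0, 0, 1] := by simp [EA, xe02, xe12]

theorem EB_val (s t : K) : (EB s t).1 = !![1, s, t; 0, 1, 0; 0, 0, 1] := by simp [EB, xe02, xe01]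

theorem EA_mulVec {u : Fin 3 → K} (h : u 2 = 0) (t : K) (v : Fin 3 → K) :
    (EA (t * u 0) (t * u 1)).1 *ᵥ v = v + (t * (v ⬝ᵥ Pi.single 2 1)) • u := by
  ext i
  fin_cases i <;> simp [EA_val, mulVec, dotProduct, Fin.sum_univ_three, h] <;> ring

theorem EB_mulVec {f : Fin 3 → K} (h : f 0 = 0) (t : K) (v : Fin 3 → K) :
    (EB (t * f 1) (t * f 2)).1 *ᵥ v = v + (t * (v ⬝ᵥ f)) • Pi.single 0 1 := by
  ext i
  fin_cases i <;> simp [EB_val, mulVec, dotProduct, Fin.sum_univ_three, h]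
  ring

variable [Finite K]

theorem I_mk {v f : Fin 3 → K} (hv : v ≠ 0) (hf : f ≠ 0) :
    (D K).I (mk K v hv) (lm f hf) ↔ v ⬝ᵥ f = 0 := orthogonal_mk hv hf

theorem I_l {v : Fin 3 → K} (hv : v ≠ 0) (j : Fin 3) : (D K).I (mk K v hv) (l K j) ↔ v j = 0 := by
  rw [l, I_mk, dotProduct_single, mul_one]

theorem I_e {f : Fin 3 → K} (hf : f ≠ 0) (i : Fin 3) : (D K).I (e K i) (lm f hf) ↔ f i = 0 := by
  rw [e, I_mk, single_dotProduct, one_mul]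

theorem I_el {i j : Fin 3} (h : i ≠ j) : (D K).I (e K i) (l K j) := by
  rw [e, I_l, Pi.single_eq_of_ne h.symm]

theorem not_I_el (i : Fin 3) : ¬ (D K).I (e K i) (l K i) := by simp [e, I_l]

theorem I_q (t : K) : (D K).I (q t) (l K 2) := (I_l _ _).2 rfl

theorem exists_q {p : Pt K} (h : (D K).I p (l K 2)) (h' : p ≠ e K 0) : ∃ t, p = q t := by
  obtain ⟨v, hv, rfl⟩ := pk_ind p
  rw [I_l] at h
  have h1 : v 1 ≠ 0 := fun h1 => h' ((mk_eq_mk_iff' _ _ _ _ _).2 ⟨v 0, by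
    ext i
    fin_cases i <;> simp [h, h1]⟩)
  refine ⟨v 0 / v 1, (mk_eq_mk_iff' _ _ _ _ _).2 ⟨v 1, ?_⟩⟩
  ext i
  fin_cases i <;> simp [h, mul_div_cancel₀ _ h1]

theorem card_l : {p | (D K).I p (l K 2) ∧ p ≠ e K 0}.ncard = Nat.card K := by
  rw [show {p | (D K).I p (l K 2) ∧ p ≠ e K 0} = q '' Set.univ from Set.ext fun p =>
    ⟨fun h => (exists_q h.1 h.2).imp fun t e => ⟨trivial, e.symm⟩, by
      rintro ⟨t, -, rfl⟩; exact ⟨I_q t, q_ne t⟩⟩, Set.ncard_image_of_injective _ q_inj,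
    Set.ncard_univ]

theorem fix_of_mem {γ : Γ K} {m : Li K} (h : ∀ p, (D K).I p m → (D K).I (γ • p) m) : γ • m = m := by
  obtain ⟨a, ha⟩ := (D K).meet' m m
  obtain ⟨b, hb, hab, -⟩ := (D K).exists_third m a a
  exact (D K).line_eq ((MulAction.injective γ).ne hab) (((D K).inv _ _ _).2 hb)
    (((D K).inv _ _ _).2 ha.1) (h _ hb) (h _ ha.1)

variable {ρ : SL(3, K) →* Γ K} (hρ : ∀ (A : SL(3, K)) (p : Pt K), ρ A • p = A • p)
include hρ

theorem ρ_mk (A : SL(3, K)) {v : Fin 3 → K} (hv : v ≠ 0) :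
    ∃ h, ρ A • mk K v hv = mk K (A.1 *ᵥ v) h := ⟨_, hρ A _⟩

theorem ρ_eq_one {A : SL(3, K)} : ρ A = 1 ↔ A ∈ Subgroup.center SL(3, K) := by
  rw [← SL_mulAction_ker, MonoidHom.mem_ker]
  exact ⟨fun h => Equiv.ext fun p => (hρ A p).symm.trans (by rw [h]; exact one_smul _ p),
    fun h => (D K).faith _ fun p => (hρ A p).trans (Equiv.ext_iff.1 h p)⟩

theorem eq_zero_of_ρ {A : SL(3, K)} (h : ρ A = 1) {i j : Fin 3} (hij : i ≠ j) : A.1 i j = 0 := by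
  obtain ⟨r, -, e⟩ := Matrix.SpecialLinearGroup.mem_center_iff.1 ((ρ_eq_one hρ).1 h)
  rw [← e]
  exact diagonal_apply_ne _ hij

theorem upper {A : SL(3, K)} (h1 : A 1 0 = 0) (h2 : A 2 0 = 0) (h3 : A 2 1 = 0) :
    ρ A • e K 0 = e K 0 ∧ ρ A • l K 2 = l K 2 := by
  constructor
  · obtain ⟨h, e⟩ := ρ_mk hρ A (sg_ne 0)
    refine e.trans ((mk_eq_mk_iff' _ _ _ _ _).2 ⟨A 0 0, ?_⟩)
    ext i
    fin_cases i <;> simp [h1, h2]
  · refine fix_of_mem fun p hp => ?_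
    obtain ⟨v, hv, rfl⟩ := pk_ind p
    obtain ⟨h, e⟩ := ρ_mk hρ A hv
    rw [I_l] at hp
    rw [e, I_l]
    simp [mulVec, dotProduct, Fin.sum_univ_three, h2, h3, hp]

theorem tv {A : SL(3, K)} {u f : Fin 3 → K} (hu : u ≠ 0) (hf : f ≠ 0) {t : K}
    (hA : ∀ v, A.1 *ᵥ v = v + (t * (v ⬝ᵥ f)) • u) :
    (D K).Ax (ρ A) (lm f hf) ∧ (D K).Ce (ρ A) (mk K u hu) := by
  refine ⟨fun p hp => ?_, fun m hm => fix_of_mem fun p hp => ?_⟩
  · obtain ⟨v, hv, rfl⟩ := pk_ind p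
    obtain ⟨h, e⟩ := ρ_mk hρ A hv
    rw [e]
    congr 1
    rw [hA, (I_mk _ _).1 hp, mul_zero, zero_smul, add_zero]
  · obtain ⟨v, hv, rfl⟩ := pk_ind p
    obtain ⟨g, hg, rfl⟩ := lm_ind m
    obtain ⟨h, e⟩ := ρ_mk hρ A hv
    rw [e, I_mk, hA, add_dotProduct, smul_dotProduct, (I_mk _ _).1 hp, (I_mk _ _).1 hm, smul_zero,
      add_zero]

theorem elation {T : K → SL(3, K)} {u f : Fin 3 → K} {hu : u ≠ 0} {hf : f ≠ 0} (h0 : u ⬝ᵥ f = 0)
    (hT : ∀ t v, (T t).1 *ᵥ v = v + (t * (v ⬝ᵥ f)) • u) {γ : Γ K} (h1 : (D K).Ax γ (lm f hf))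
    (h2 : (D K).Ce γ (mk K u hu)) : ∃ t, γ = ρ (T t) := by
  obtain ⟨w, hw⟩ := Cfsg.Lib.Linear.exists_dot_eq_one hf
  have w0 : w ≠ 0 := by
    rintro rfl
    simp at hw
  have w1 : ¬ (D K).I (mk K w w0) (lm f hf) := by simp [I_mk, hw]
  obtain ⟨v, hv, e⟩ := pk_ind (γ • mk K w w0)
  have v1 := (D K).smul_not_mem w1 h1.fix
  rw [e, I_mk] at v1
  obtain ⟨x, y, rfl⟩ := Submodule.mem_span_pair.1 (Cfsg.Lib.Linear.mem_of_forall_dot
    (W := Submodule.span K {u, w}) (v := v) fun g hg => by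
      by_cases g0 : g = 0
      · simp [g0]
      have g1 := hg u (Submodule.subset_span (by simp))
      have g2 := hg w (Submodule.subset_span (by simp))
      rw [dotProduct_comm] at g1 g2 ⊢
      have := (D K).smul_mem ((I_mk w0 g0).2 g2) (h2 _ ((I_mk hu g0).2 g1))
      rwa [e, I_mk] at this)
  have y0 : y ≠ 0 := fun h => v1 (by simp [h, h0])
  obtain ⟨t1, t2⟩ := tv hρ hu hf (hT (x / y))
  refine ⟨x / y, (inv_mul_eq_one.1 (by_contra fun h => ?_)).symm⟩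
  obtain ⟨h3, e'⟩ := ρ_mk hρ (T (x / y)) w0
  rcases (t1.inv.mul h1).fixed (t2.inv.mul h2) h (p := mk K w w0) (by
    rw [mul_smul, inv_smul_eq_iff, e, e']
    refine (mk_eq_mk_iff' _ _ _ _ _).2 ⟨y, ?_⟩
    rw [hT, hw, mul_one, smul_add, smul_smul, mul_div_cancel₀ _ y0, add_comm]) with h4 | h4
  · exact w1 h4
  · exact w1 (h4 ▸ (I_mk hu hf).2 h0)

theorem root {i j : Fin 3} (h : i ≠ j) {γ : Γ K} :
    (∃ t, γ = ρ (xe i j t)) ↔ (D K).Ax γ (l K j) ∧ (D K).Ce γ (e K i) :=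
  ⟨by rintro ⟨t, rfl⟩; exact tv hρ _ _ (xe_mulVec h t),
    fun h' => elation hρ (by simp [h.symm]) (xe_mulVec h) h'.1 h'.2⟩

theorem elA {γ : Γ K} : (∃ s t, γ = ρ (EA s t)) ↔
    (D K).Ax γ (l K 2) ∧ ∃ c, (D K).I c (l K 2) ∧ (D K).Ce γ c := by
  constructor
  · rintro ⟨s, t, rfl⟩
    by_cases h : ![s, t, 0] = 0
    · have h1 : s = 0 := congrFun h 0
      have h2 : t = 0 := congrFun h 1
      have := tv hρ (sg_ne 0) (sg_ne 2) (EA_mulVec (u := Pi.single 0 1) (by simp) 0)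
      simp only [zero_mul] at this
      rw [h1, h2]
      exact ⟨this.1, _, I_el (by decide), this.2⟩
    · have := tv hρ h (sg_ne 2) (EA_mulVec (u := ![s, t, 0]) rfl 1)
      simp only [one_mul] at this
      exact ⟨this.1, _, (I_l _ _).2 rfl, this.2⟩
  · rintro ⟨h1, c, h2, h3⟩
    obtain ⟨u, hu, rfl⟩ := pk_ind c
    obtain ⟨t, e⟩ := elation hρ ((I_mk _ _).1 h2) (EA_mulVec ((I_l _ _).1 h2)) h1 h3
    exact ⟨_, _, e⟩

theorem elB {γ : Γ K} : (∃ s t, γ = ρ (EB s t)) ↔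
    (D K).Ce γ (e K 0) ∧ ∃ m, (D K).I (e K 0) m ∧ (D K).Ax γ m := by
  constructor
  · rintro ⟨s, t, rfl⟩
    by_cases h : ![0, s, t] = 0
    · have h1 : s = 0 := congrFun h 1
      have h2 : t = 0 := congrFun h 2
      have := tv hρ (sg_ne 0) (sg_ne 2) (EB_mulVec (f := Pi.single 2 1) (by simp) 0)
      simp only [zero_mul] at this
      rw [h1, h2]
      exact ⟨this.2, _, I_el (by decide), this.1⟩
    · have := tv hρ (sg_ne 0) h (EB_mulVec (f := ![0, s, t]) rfl 1)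
      simp only [one_mul] at this
      exact ⟨this.2, _, (I_e _ _).2 rfl, this.1⟩
  · rintro ⟨h1, m, h2, h3⟩
    obtain ⟨f, hf, rfl⟩ := lm_ind m
    obtain ⟨t, e⟩ := elation hρ ((I_mk _ _).1 h2) (EB_mulVec ((I_e _ _).1 h2)) h3 h1
    exact ⟨_, _, e⟩

theorem trans {m : Li K} (h1 : (D K).I (e K 1) m) (h2 : m ≠ l K 2) :
    ∃ t, ρ (xe 0 2 t) • e K 1 = e K 1 ∧ ρ (xe 0 2 t) • l K 0 = m := by
  obtain ⟨f, hf, rfl⟩ := lm_ind m
  have f0 : f 0 ≠ 0 := fun h => h2 ((D K).line_eq (e_ne (show (0 : Fin 3) ≠ 1 by decide))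
    ((I_e _ _).2 h) h1 (I_el (by decide)) (I_el (by decide)))
  have h3 := ((root hρ (show (0 : Fin 3) ≠ 2 by decide)).1 ⟨-f 2 / f 0, rfl⟩).1 _
    (I_el (i := 1) (by decide))
  refine ⟨_, h3, (D K).line_eq ((MulAction.injective (ρ (xe 0 2 (-f 2 / f 0)))).ne
    (e_ne (show (1 : Fin 3) ≠ 2 by decide))) (((D K).inv _ _ _).2 (I_el (by decide)))
    (((D K).inv _ _ _).2 (I_el (by decide))) (h3.symm ▸ h1) ?_⟩
  obtain ⟨h, e'⟩ := ρ_mk hρ (xe 0 2 (-f 2 / f 0)) (sg_ne 2)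
  rw [e, e', I_mk, xe_mulVec (by decide)]
  simp [div_mul_cancel₀ _ f0]

theorem nsub {N : Subgroup (Γ K)} (h1 : ∀ γ ∈ N, γ • e K 0 = e K 0 ∧ γ • l K 2 = l K 2)
    (h2 : ∀ A : SL(3, K), A 1 0 = 0 → A 2 0 = 0 → A 2 1 = 0 → ∀ γ ∈ N, ρ A * γ * (ρ A)⁻¹ ∈ N)
    {γ : Γ K} (h3 : γ ∈ N) (h4 : γ ≠ 1) (t : K) : ρ (xe 0 2 t) ∈ N := by
  suffices ∃ s, s ≠ 0 ∧ ρ (xe 0 2 s) ∈ N by
    obtain ⟨s, hs, h⟩ := this
    by_cases ht : t = 0
    · rw [ht, xe_zero, map_one]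
      exact one_mem _
    have h5 := div_ne_zero ht hs
    have := h2 (hd (t / s)) (by simp [hd_val h5]) (by simp [hd_val h5]) (by simp [hd_val h5]) _ h
    rwa [← map_mul, hd_02 h5, map_mul, mul_inv_cancel_right, div_mul_cancel₀ _ hs] at this
  have cm : ∀ A : SL(3, K), A 1 0 = 0 → A 2 0 = 0 → A 2 1 = 0 → ∀ γ ∈ N,
      γ * ρ A * γ⁻¹ * (ρ A)⁻¹ ∈ N := fun A a1 a2 a3 γ hγ => by
    simpa only [mul_assoc] using mul_mem hγ (h2 A a1 a2 a3 _ (inv_mem hγ))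
  by_cases ha : ∃ s t, γ * ρ (EA s t) * γ⁻¹ ≠ ρ (EA s t)
  · obtain ⟨s, t, h⟩ := ha
    obtain ⟨k1, c, k2, k3⟩ := (elA hρ).1 ⟨s, t, rfl⟩
    obtain ⟨s', t', e⟩ := (elA hρ).2 ⟨(h1 γ h3).2 ▸ k1.conj γ, _, (D K).smul_mem k2 (h1 γ h3).2,
      k3.conj γ⟩
    have k4 := cm (EA s t) (by simp [EA_val]) (by simp [EA_val]) (by simp [EA_val]) γ h3
    rw [e, show EA s' t' = EA (s' - s) (t' - t) * EA s t from Subtype.ext (by simp [EA_val]),
      map_mul] at h k4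
    rw [mul_inv_cancel_right] at k4
    generalize s' - s = x at h k4
    generalize t' - t = y at h k4
    by_cases hy : y = 0
    · rw [hy, EA, xe_zero, mul_one] at k4 h
      exact ⟨x, fun hx => h (by rw [hx, xe_zero, map_one, one_mul]), k4⟩
    have k5 := inv_mem (cm (xe 0 1 1) (by simp [xe01]) (by simp [xe01]) (by simp [xe01]) _ k4)
    refine ⟨y, hy, ?_⟩
    have k6 : xe 0 1 1 * EA x y = xe 0 2 y * EA x y * xe 0 1 1 :=
      Subtype.ext (by simp [EA_val, xe01, xe02, add_comm])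
    rwa [show ρ (xe 0 2 y) = ρ (xe 0 1 1 * EA x y) * (ρ (xe 0 1 1))⁻¹ * (ρ (EA x y))⁻¹ by
      rw [k6, map_mul, map_mul]; group, map_mul, show ∀ a b : Γ K, a * b * a⁻¹ * b⁻¹ =
        (b * a * b⁻¹ * a⁻¹)⁻¹ from fun a b => by group]
  by_cases hb : ∃ s t, γ * ρ (EB s t) * γ⁻¹ ≠ ρ (EB s t)
  · obtain ⟨s, t, h⟩ := hb
    obtain ⟨k1, c, k2, k3⟩ := (elB hρ).1 ⟨s, t, rfl⟩
    obtain ⟨s', t', e⟩ := (elB hρ).2 ⟨(h1 γ h3).1 ▸ k1.conj γ, _, (D K).smul_mem' k2 (h1 γ h3).1,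
      k3.conj γ⟩
    have k4 := cm (EB s t) (by simp [EB_val]) (by simp [EB_val]) (by simp [EB_val]) γ h3
    rw [e, show EB s' t' = EB (s' - s) (t' - t) * EB s t from Subtype.ext (by simp [EB_val]),
      map_mul] at h k4
    rw [mul_inv_cancel_right] at k4
    generalize s' - s = x at h k4
    generalize t' - t = y at h k4
    by_cases hx : x = 0
    · rw [hx, EB, xe_zero, one_mul] at k4 h
      exact ⟨y, fun hy => h (by rw [hy, xe_zero, map_one, one_mul]), k4⟩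
    have k5 := cm (xe 1 2 1) (by simp [xe12]) (by simp [xe12]) (by simp [xe12]) _ k4
    refine ⟨x, hx, ?_⟩
    have k6 : EB x y * xe 1 2 1 = xe 0 2 x * xe 1 2 1 * EB x y :=
      Subtype.ext (by simp [EB_val, xe12, xe02, add_comm])
    rwa [← map_mul, k6, map_mul, map_mul, mul_inv_cancel_right, mul_inv_cancel_right] at k5
  push Not at ha hb
  obtain ⟨s, rfl⟩ := (root hρ (show (0 : Fin 3) ≠ 2 by decide)).2 ⟨fun p hp => by_contra fun h => by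
    obtain ⟨u, hu, rfl⟩ := pk_ind p
    rw [I_l] at hp
    have k1 := (tv hρ hu (sg_ne 2) (EA_mulVec hp 1)).2
    have k2 := k1.conj γ
    rw [ha] at k2
    have k3 := k2.eq_one k1 h
    have k4 := eq_zero_of_ρ hρ k3 (show (0 : Fin 3) ≠ 2 by decide)
    have k5 := eq_zero_of_ρ hρ k3 (show (1 : Fin 3) ≠ 2 by decide)
    simp [EA_val] at k4 k5
    exact hu (funext fun i => by fin_cases i <;> assumption), fun m hm => by_contra fun h => by
    obtain ⟨f, hf, rfl⟩ := lm_ind m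
    rw [I_e] at hm
    have k1 := (tv hρ (sg_ne 0) hf (EB_mulVec hm 1)).1
    have k2 := k1.conj γ
    rw [hb] at k2
    have k3 := k2.eq_one k1 h
    have k4 := eq_zero_of_ρ hρ k3 (show (0 : Fin 3) ≠ 1 by decide)
    have k5 := eq_zero_of_ρ hρ k3 (show (0 : Fin 3) ≠ 2 by decide)
    simp [EB_val] at k4 k5
    exact hf (funext fun i => by fin_cases i <;> assumption)⟩
  exact ⟨s, fun h => h4 (by rw [h, xe_zero, map_one]), h3⟩

omit hρ in
theorem exists_unit {γ : Γ K} (h0 : γ • e K 0 = e K 0) (h1 : γ • e K 1 = e K 1) (x : Kˣ) :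
    ∃ y : Kˣ, γ • q (x : K) = q (y : K) := by
  have h2 := (D K).fix_line (e_ne (show (0 : Fin 3) ≠ 1 by decide)) (I_el (j := 2) (by decide))
    (I_el (by decide)) h0 h1
  obtain ⟨t, ht⟩ := exists_q ((D K).smul_mem (I_q (x : K)) h2) fun h =>
    q_ne _ (MulAction.injective γ (h.trans h0.symm))
  refine ⟨Units.mk0 t fun h => x.ne_zero (q_inj (MulAction.injective γ ?_)), ht⟩
  change γ • _ = γ • _
  rw [ht, h, q_zero, h1]

theorem ρ_q {A : SL(3, K)} (h0 : ρ A • e K 0 = e K 0) (h1 : ρ A • e K 1 = e K 1) :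
    ∃ c : K, ∀ x, ρ A • q x = q (c * x) := by
  obtain ⟨_, e0⟩ := ρ_mk hρ A (sg_ne 0)
  obtain ⟨_, e1⟩ := ρ_mk hρ A (sg_ne 1)
  obtain ⟨a, ha⟩ := (mk_eq_mk_iff _ _ _ _ _).1 (e0.symm.trans h0)
  obtain ⟨b, hb⟩ := (mk_eq_mk_iff _ _ _ _ _).1 (e1.symm.trans h1)
  refine ⟨a / b, fun x => (hρ A _).trans ((mk_eq_mk_iff' _ _ _ _ _).2 ⟨b, ?_⟩)⟩
  change _ = A.1 *ᵥ ![x, 1, 0]
  rw [show ![x, 1, 0] = x • Pi.single 0 1 + Pi.single 1 1 by ext i; fin_cases i <;> simp,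
    mulVec_add, mulVec_smul, ← ha, ← hb]
  ext i
  fin_cases i <;> simp [Units.smul_def]
  field_simp

theorem exists_pw {γ : Γ K} (h : ∀ A, ∃ A', γ * ρ A * γ⁻¹ = ρ A') (h0 : γ • e K 0 = e K 0)
    (h1 : γ • e K 1 = e K 1) : ∃ (c : Kˣ) (n : ℤ), 
      ∀ x : Kˣ, γ • q (x : K) = q (K := K) (c * x ^ n : Kˣ) := by
  choose θ hθ using exists_unit h0 h1
  have key : ∀ a x, θ (a * x) * θ 1 = θ a * θ x := fun a x => by
    have a0 := inv_ne_zero a.ne_zero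
    have k1 : ∀ x : K, ρ (hd' (a : K)⁻¹) • q x = q (a * x) := fun x =>
      (hρ _ _).trans ((mk_eq_mk_iff' _ _ _ _ _).2 ⟨(a : K)⁻¹, by
        change _ = (hd' (a : K)⁻¹).1 *ᵥ ![x, 1, 0]
        ext i
        fin_cases i <;> simp [hd'_val a0, mulVec, dotProduct, Fin.sum_univ_three]⟩)
    obtain ⟨A', e'⟩ := h (hd' (a : K)⁻¹)
    obtain ⟨c, hc⟩ := ρ_q hρ (A := A') (by
      rw [← e', mul_smul, mul_smul, inv_smul_eq_iff.2 h0.symm, (upper hρ (by simp [hd'_val a0])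
        (by simp [hd'_val a0]) (by simp [hd'_val a0])).1, h0]) (by
      rw [← e', mul_smul, mul_smul, inv_smul_eq_iff.2 h1.symm, ← q_zero, k1, mul_zero, q_zero, h1])
    have k2 : ∀ x : Kˣ, (θ (a * x) : K) = c * θ x := fun x => q_inj (by
      rw [← hθ, ← hc, ← hθ, ← e', mul_smul, mul_smul, inv_smul_smul, k1, Units.val_mul])
    have k3 := k2 1
    rw [mul_one] at k3
    ext
    rw [Units.val_mul, Units.val_mul, k2, k3]
    ring
  obtain ⟨n, hn⟩ := MonoidHom.map_cyclic (MonoidHom.mk' (fun x => (θ 1)⁻¹ * θ x) fun a x => by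
    rw [← mul_left_inj (θ 1), mul_assoc, key]
    simp [mul_assoc, mul_comm, mul_left_comm])
  refine ⟨θ 1, n, fun x => ?_⟩
  rw [hθ, ← hn]
  simp

omit hρ in
theorem pw_comm {γ δ : Γ K} {c d : Kˣ} {m n : ℤ} (h0 : γ • e K 0 = e K 0 ∧ γ • e K 1 = e K 1)
    (k0 : δ • e K 0 = e K 0 ∧ δ • e K 1 = e K 1)
    (h : ∀ x : Kˣ, γ • q (x : K) = q (K := K) (c * x ^ m : Kˣ))
    (k : ∀ x : Kˣ, δ • q (x : K) = q (K := K) (d * x ^ n : Kˣ)) (x : Kˣ) :
    ⁅γ, δ⁆ • q (x : K) = q (K := K) (c * d ^ m * (d * c ^ n)⁻¹ * x ^ (1 : ℤ) : Kˣ) := by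
  obtain ⟨y, hy⟩ := exists_unit (γ := (δ * γ)⁻¹) (by rw [inv_smul_eq_iff, mul_smul, h0.1, k0.1])
    (by rw [inv_smul_eq_iff, mul_smul, h0.2, k0.2]) x
  have h1 := inv_smul_eq_iff.1 hy
  rw [mul_smul, h, k] at h1
  obtain rfl := Units.ext (q_inj h1)
  rw [commutatorElement_def, mul_assoc (γ * δ), ← _root_.mul_inv_rev, mul_smul, hy, mul_smul, k, h]
  congr 2
  rw [zpow_one, mul_zpow, mul_zpow, ← _root_.zpow_mul, ← _root_.zpow_mul, mul_comm n m,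
    ← mul_assoc d, mul_assoc _ (d * c ^ n)⁻¹, inv_mul_cancel_left, mul_assoc]

theorem metab {γ : Fin 4 → Γ K} (h : ∀ i A, ∃ A', γ i * ρ A * (γ i)⁻¹ = ρ A')
    (h0 : ∀ i, γ i • e K 0 = e K 0 ∧ γ i • e K 1 = e K 1) :
    (D K).Ax ⁅⁅γ 0, γ 1⁆, ⁅γ 2, γ 3⁆⁆ (l K 2) := by
  choose c n hc using fun i => exists_pw hρ (h i) (h0 i).1 (h0 i).2
  have k : ∀ {a b : Γ K}, a • e K 0 = e K 0 ∧ a • e K 1 = e K 1 →
      b • e K 0 = e K 0 ∧ b • e K 1 = e K 1 → ⁅a, b⁆ • e K 0 = e K 0 ∧ ⁅a, b⁆ • e K 1 = e K 1 :=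
    fun ha hb => by
      simp only [commutatorElement_def, mul_smul, inv_smul_eq_iff.2 ha.1.symm,
        inv_smul_eq_iff.2 ha.2.symm, inv_smul_eq_iff.2 hb.1.symm, inv_smul_eq_iff.2 hb.2.symm,
        ha.1, ha.2, hb.1, hb.2, and_self]
  have k1 := pw_comm (k (h0 0) (h0 1)) (k (h0 2) (h0 3)) (pw_comm (h0 0) (h0 1) (hc 0) (hc 1))
    (pw_comm (h0 2) (h0 3) (hc 2) (hc 3))
  have k2 := k (k (h0 0) (h0 1)) (k (h0 2) (h0 3))
  intro p hp
  by_cases h1 : p = e K 0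
  · rw [h1, k2.1]
  obtain ⟨t, rfl⟩ := exists_q hp h1
  by_cases h2 : t = 0
  · rw [h2, q_zero, k2.2]
  have := k1 (Units.mk0 t h2)
  rwa [zpow_one, zpow_one, zpow_one, mul_comm (c 2 * _ * _), mul_inv_cancel, one_mul] at this

end Cfsg.Lib.TB.PC
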