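import Cfsg.Agent.Lib.TB.Res

/-!
S1143 (docs/TB.md): consequences of the Moufang condition (root group datum).
-/

set_option autoImplicit false

namespace Cfsg.Lib.TB.Fr

open Cfsg.Lib.BN Cfsg.Lib.Chev RootSys
open scoped commutatorElement

variable {ι Φ : Type} [Fintype ι] [DecidableEq ι] {R : RootSys ι Φ} [Fintype Φ]
variable {G : Type*} [Group G] {F : Fr G R} {g x y : G} {i j : ι} {J : Set ι} {r s : Φ} {w : R.W}

theorem U_le_US {A : Set Φ} (h : r ∈ A) : F.U r ≤ F.US A :=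
  le_iSup₂ (f := fun k (_ : k ∈ A) => F.U k) r h

theorem US_le {A : Set Φ} {K : Subgroup G} : F.US A ≤ K ↔ ∀ r ∈ A, F.U r ≤ K := iSup₂_le_iff

theorem Ov.conj_mem_US {A : Set Φ} (h : F.Ov g w) (hx : x ∈ F.US A) :
    g * x * g⁻¹ ∈ F.US (w.1 '' A) := by
  have : F.US A ≤ (F.US (w.1 '' A)).comap (MulAut.conj g).toMonoidHom :=
    US_le.2 fun k hk y hy => U_le_US (Set.mem_image_of_mem _ hk) (h.conj_mem_U.2 hy)
  exact this hx

theorem U_le_GJ (hi : i ∈ J) :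
    F.U (R.simple i) ≤ F.GJ J ∧ F.U (R.neg (R.simple i)) ≤ F.GJ J :=
  sup_le_iff.1 (le_iSup₂ (f := fun i (_ : i ∈ J) => F.U (R.simple i) ⊔ F.U (R.neg (R.simple i))) i hi)

theorem GJ_mono {I : Set ι} (h : I ⊆ J) : F.GJ I ≤ F.GJ J :=
  iSup₂_le fun _ hi => sup_le (U_le_GJ (h hi)).1 (U_le_GJ (h hi)).2

theorem conj_mem_GJ_of_H (hg : g ∈ F.H) (hx : x ∈ F.GJ J) : g * x * g⁻¹ ∈ F.GJ J := by
  have : F.GJ J ≤ (F.GJ J).comap (MulAut.conj g).toMonoidHom := iSup₂_le fun _ hi =>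
    sup_le (fun _ hy => (U_le_GJ hi).1 (conj_mem_U_of_H hg hy))
      fun _ hy => (U_le_GJ hi).2 (conj_mem_U_of_H hg hy)
  exact this hx

variable (hR : Good R)
include hR

omit [Fintype Φ] in
theorem _root_.Cfsg.Lib.TB.Good.nontriv : Nontrivial ι :=
  Fintype.one_lt_card_iff_nontrivial.1 (by have := hR.three; omega)

theorem U_fix (hx : x ∈ F.U r) (hw : w ∈ hf R r) : x • F.ch w = F.ch w :=
  haveI := hR.nontriv
  mem_Fx.1 (U_le_Fx r hx) w hw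

theorem U_le_LJ (h : R.InJ J r) : F.U r ≤ F.LJ J :=
  haveI := hR.nontriv
  (U_le_Fx r).trans (Fx_hf_le_LJ h)

theorem US_le_Fx (A : Set Φ) : F.US A ≤ F.Fx {w | ∀ r ∈ A, w ∈ hf R r} :=
  US_le.2 fun r hr _ hx => mem_Fx.2 fun _ hw => U_fix hR hx (hw r hr)

theorem GJ_le_LJ (J : Set ι) : F.GJ J ≤ F.LJ J :=
  iSup₂_le fun _ hi => sup_le (U_le_LJ hR (inJ_simple_iff.2 hi))
    (U_le_LJ hR (inJ_simple_iff.2 hi).neg)

/-- Unique factorization: `x` fixes `ch w`, `eq_one_of_fix`. -/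
theorem eq_one_of_US {A : Set Φ} (hA : ∀ k ∈ A, w ∈ hf R k) (hw : w ∉ hf R r) (hx : x ∈ F.U r)
    (hx' : x ∈ F.US A ⊔ F.H) : x = 1 :=
  eq_one_of_fix hR hx hw (mem_Fx.1 (sup_le (US_le_Fx hR A) (H_le_Fx _) hx') w hA)

theorem U_inf_H (hx : x ∈ F.U r) (hx' : x ∈ F.H) : x = 1 := by
  obtain ⟨w, hw, -⟩ := hR.exists_deep (R.neg r)
  exact eq_one_of_fix hR hx (mem_hf_neg.1 hw) (mem_H.1 hx' w)

variable (hM : F.Mo)
include hM

theorem U_ne_bot (r : Φ) : ∃ x ∈ F.U r, x ≠ 1 := by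
  obtain ⟨w, i, rfl⟩ := exists_simple (R := R) r
  obtain ⟨z, h1, h2⟩ := (F.ad_ch w i).exists_third
  obtain ⟨u, hu, e⟩ := (hM (w.1 (R.simple i))).trans (w := w) (inv_apply _ _) h1
  exact ⟨u, hu, fun h => h2.ne (by rw [← e, h, one_smul])⟩

/-- The only chamber of the panel fixed by `U αᵢ` (`Mf.trans`, `Ad.exists_third`). -/
theorem eq_of_fix_U {c : F.X} (hc : c = F.ch 1 ∨ F.Ad i (F.ch 1) c)
    (h : ∀ x ∈ F.U (R.simple i), x • c = c) : c = F.ch 1 := by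
  refine hc.resolve_right fun hc => ?_
  obtain ⟨z, h1, h2⟩ := hc.exists_third
  obtain ⟨u, hu, e⟩ := (hM (R.simple i)).trans (w := 1) rfl hc
  obtain ⟨u', hu', e'⟩ := (hM (R.simple i)).trans (w := 1) rfl h1
  refine h2.ne ?_
  rw [← h _ (mul_mem hu' (inv_mem hu)), mul_smul, ← e, inv_smul_smul, e']

/-- The same in a residue (`D.split`, `gate`). -/
theorem eq_of_fix_UJ {c : F.X} (hc : F.Rs J (F.ch 1) c)
    (h : ∀ i ∈ J, ∀ x ∈ F.U (R.simple i), x • c = c) : c = F.ch 1 := by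
  obtain ⟨w, hw, hc⟩ := hc
  obtain ⟨l, l1, rfl, l3⟩ := R.invGen.exists_reduced_of_mem_closure R.exchange hw
  rcases l with _ | ⟨i, l⟩
  · exact (D_one.1 hc).symm
  have h1 := R.invGen.reduced_tail l3.symm
  rw [wp_cons] at hc l3
  obtain ⟨z, h2, h3⟩ := hc.split
  have h2 : F.Ad i (F.ch 1) z := h2
  refine absurd (eq_of_fix_U hR hM (.inr h2) fun x hx => Eq.symm ?_) h2.ne.symm
  have h4 : F.Ad i (F.ch 1) (x • z) := by
    have := (Ad_smul x).2 h2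
    rwa [U_fix hR hx (one_mem_hf.2 (isPos_simple i))] at this
  refine gate (i := i) (by rw [← l3, h1]; simp) ?_ h3 ?_
  · exact (eq_or_ne z (x • z)).imp_right (h2.symm.trans h4)
  · have := (D_smul x).2 h3
    rwa [h i (l1 i (by simp)) x hx] at this

/-- An element of `LJ J` that maps the `U αᵢ` to groups acting on the residue like the `U (w αᵢ)`,
and the same for `-αᵢ`, lies over `w`: `eq_of_fix_UJ` (for the negative roots conjugate by an element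
over `lg J`, `exists_lg_simple`), `ov_of_LJ`. -/
theorem ov_of_conj (hg : g ∈ F.LJ J) (hw : w ∈ WJ R J)
    (h : ∀ i ∈ J, ∀ r ∈ [R.simple i, R.neg (R.simple i)], ∀ x ∈ F.U r,
      g * x * g⁻¹ ∈ F.U (w.1 r) ⊔ F.TrJ J (F.ch 1)) : F.Ov g w := by
  have k1 : ∀ {y r}, y ∈ WJ R J → y ∈ hf R r →
      F.U r ⊔ F.TrJ J (F.ch 1) ≤ MulAction.stabilizer G (F.ch y) := fun hy hr =>
    sup_le (fun _ hx => U_fix hR hx hr) fun _ hx => mem_TrJ.1 hx _ (rs_ch.2 (by simpa using hy))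
  have k2 : ∀ {y}, y ∈ WJ R J → F.Rs J (F.ch 1) (g⁻¹ • F.ch y) := fun hy =>
    rs_smul_of_PJ (LJ_le_PJ J (inv_mem hg)) (rs_ch.2 (by simpa using hy))
  have k3 : ∀ {y x}, g * x * g⁻¹ ∈ MulAction.stabilizer G (F.ch y) →
      x • g⁻¹ • F.ch y = g⁻¹ • F.ch y := fun {y x} e => by
    rw [eq_inv_smul_iff, ← mul_smul, ← mul_smul]
    exact e
  refine ov_of_LJ hg hw ?_ ?_
  · rw [← eq_inv_smul_iff]
    refine (eq_of_fix_UJ hR hM (k2 hw) fun i hi x hx => k3 (k1 hw ?_ (h i hi _ (by simp) x hx))).symm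
    simpa using (mul_mem_hf (w := w)).2 (one_mem_hf.2 (isPos_simple i))
  · have n1 := F.ov_nr (lg R J)
    have w1 := mul_mem hw (lg_mem (R := R) J)
    have := eq_of_fix_UJ hR hM (rs_smul_of_PJ (LJ_le_PJ J (inv_mem (n1.mem_LJ (lg_mem J)))) (k2 w1))
      fun j hj x hx => by
        obtain ⟨i, hi, e⟩ := exists_lg_simple (R := R) hj
        have h1 := n1.conj_mem_U.2 hx
        have h2 : lg R J ∈ hf R ((lg R J).1 (R.simple j)) := by
          simpa using (mul_mem_hf (w := lg R J)).2 (one_mem_hf.2 (isPos_simple j))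
        rw [e] at h1 h2
        have h3 := k3 (k1 w1 (mul_mem_hf.2 h2) (h i hi _ (by simp) _ h1))
        rw [eq_inv_smul_iff, ← mul_smul, ← mul_smul]
        exact h3
    rw [inv_smul_eq_iff, n1.smul_ch, mul_one, inv_smul_eq_iff] at this
    exact this.symm

theorem exists_mu_simple (hx : x ∈ F.U (R.simple i)) (h1 : x ≠ 1) :
    ∃ v ∈ F.U (R.neg (R.simple i)), ∃ v' ∈ F.U (R.neg (R.simple i)), F.Ov (v * x * v') (R.sW i) := by
  have s1 : R.sW i ∈ hf R (R.neg (R.simple i)) := by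
    rw [mem_hf, R.invGen.inv, coe_sW, sref_neg_simple]
    exact isPos_simple i
  have k1 : ∀ x ∈ F.U (R.simple i), x ≠ 1 →
      ∃ u ∈ F.U (R.neg (R.simple i)), u • F.ch 1 = x • F.ch (R.sW i) := fun x hx h1 => by
    have h2 : F.Ad i (F.ch 1) (F.ch (R.sW i)) := by simpa using F.ad_ch 1 i
    have h3 := (Ad_smul x).2 h2
    rw [U_fix hR hx (one_mem_hf.2 (isPos_simple i))] at h3
    have := (hM (R.neg (R.simple i))).trans (w := R.sW i) (i := i)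
      (by rw [R.invGen.inv, coe_sW, sref_neg_simple])
      (h2.symm.trans h3 fun e => h1 (eq_one_of_fix hR hx (mem_hf_neg.1 s1) e.symm))
    rwa [R.invGen.sq] at this
  obtain ⟨u, hu, e⟩ := k1 x hx h1
  obtain ⟨u', hu', e'⟩ := k1 x⁻¹ (inv_mem hx) (inv_ne_one.2 h1)
  have hi : R.InJ {i} (R.simple i) := inJ_simple_iff.2 rfl
  refine ⟨u⁻¹, inv_mem hu, u', hu', ov_of_LJ (J := {i}) (mul_mem (mul_mem
    (U_le_LJ hR hi.neg (inv_mem hu)) (U_le_LJ hR hi hx)) (U_le_LJ hR hi.neg hu'))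
      (mem_WJ_one.2 (.inr rfl)) ?_ ?_⟩
  · rw [mul_smul, mul_smul, e', smul_inv_smul, U_fix hR (inv_mem hu) s1]
  · rw [lg_one, R.invGen.sq, mul_smul, mul_smul, U_fix hR hu' s1, ← e, inv_smul_smul]

/-- The `μ`-map: for `r = αᵢ`, `v x v'` interchanges `ch 1` and `ch sᵢ`, `ov_of_LJ`. -/
theorem exists_mu (hx : x ∈ F.U r) (h1 : x ≠ 1) : ∃ v ∈ F.U (R.neg r), ∃ v' ∈ F.U (R.neg r),
    F.Ov (v * x * v') ⟨R.refl r, R.refl_mem_W r⟩ := by
  obtain ⟨w, i, rfl⟩ := exists_simple (R := R) r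
  have n1 := F.ov_nr w
  obtain ⟨x, hx', rfl⟩ := (n1.cj_U _).ge hx
  obtain ⟨v, hv, v', hv', e⟩ := exists_mu_simple hR hM hx' fun e => h1 (by rw [e, map_one])
  rw [← (isAut_of_mem_W w.2).neg]
  refine ⟨_, n1.conj_mem_U.2 hv, _, n1.conj_mem_U.2 hv', ?_⟩
  have := (n1.mul e).mul n1.inv
  rw [show w * R.sW i * w⁻¹ = ⟨R.refl (w.1 (R.simple i)), R.refl_mem_W _⟩ from Subtype.ext (by
    have := (isAut_of_mem_W w.2).conj_refl (R.simple i)
    rwa [refl_simple] at this)] at this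
  convert this using 1
  simp [mul_assoc]

theorem mu_unique {v₁ v₁' v₂ v₂' : G} (h1 : v₁ ∈ F.U (R.neg r)) (h1' : v₁' ∈ F.U (R.neg r))
    (h2 : v₂ ∈ F.U (R.neg r)) (h2' : v₂' ∈ F.U (R.neg r)) (hx : x ∈ F.U r)
    (e1 : F.Ov (v₁ * x * v₁') ⟨R.refl r, R.refl_mem_W r⟩)
    (e2 : F.Ov (v₂ * x * v₂') ⟨R.refl r, R.refl_mem_W r⟩) : v₁ = v₂ ∧ v₁' = v₂' := by
  obtain ⟨y, hy, -⟩ := hR.exists_deep (R.neg r)
  have k1 := e1.smul_ch y
  have k2 := e2.smul_ch y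
  rw [mul_smul, mul_smul, U_fix hR h1' hy] at k1
  rw [mul_smul, mul_smul, U_fix hR h2' hy] at k2
  have k3 := (mul_mem_hf (w := ⟨R.refl r, R.refl_mem_W r⟩)).2 hy
  rw [show (⟨R.refl r, R.refl_mem_W r⟩ : R.W).1 (R.neg r) = r from R.refl_neg_self r] at k3
  have k4 := eq_one_of_fix hR (mul_mem h2 (inv_mem h1)) (fun h => mem_hf_neg.1 h k3)
    (by rw [mul_smul, ← k1, inv_smul_smul, k2, k1])
  obtain rfl := mul_inv_eq_one.1 k4
  have k5 := e1.inv_mul_mem e2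
  rw [show (v₂ * x * v₁')⁻¹ * (v₂ * x * v₂') = v₁'⁻¹ * v₂' by group] at k5
  exact ⟨rfl, inv_mul_eq_one.1 (U_inf_H hR (mul_mem (inv_mem h1') h2') k5)⟩

theorem exists_ov_GJ (hw : w ∈ WJ R J) : ∃ m ∈ F.GJ J, F.Ov m w := by
  induction hw using Subgroup.closure_induction with
  | mem _ h =>
    obtain ⟨i, hi, rfl⟩ := h
    obtain ⟨x, hx, h1⟩ := U_ne_bot hR hM (R.simple i)
    obtain ⟨v, hv, v', hv', e⟩ := exists_mu_simple hR hM hx h1
    exact ⟨_, mul_mem (mul_mem ((U_le_GJ hi).2 hv) ((U_le_GJ hi).1 hx)) ((U_le_GJ hi).2 hv'), e⟩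
  | one => exact ⟨1, one_mem _, mem_H_iff_ov.1 (one_mem _)⟩
  | mul _ _ _ _ h1 h2 =>
    obtain ⟨a, ha, ea⟩ := h1
    obtain ⟨b, hb, eb⟩ := h2
    exact ⟨_, mul_mem ha hb, ea.mul eb⟩
  | inv _ _ h1 =>
    obtain ⟨a, ha, ea⟩ := h1
    exact ⟨_, inv_mem ha, ea.inv⟩

theorem U_le_GJ_of_inJ (h : R.InJ J r) : F.U r ≤ F.GJ J := by
  obtain ⟨w, hw, i, hi, rfl⟩ := exists_WJ_simple h
  obtain ⟨m, hm, e⟩ := exists_ov_GJ hR hM hw
  rw [← e.cj_U]
  rintro _ ⟨b, hb, rfl⟩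
  exact mul_mem (mul_mem hm ((U_le_GJ hi).1 hb)) (inv_mem hm)

/-- `US {k > 0 | w ∉ hf k}` is transitive on the chambers at distance `w` from `ch 1`. -/
theorem exists_US_smul {d : F.X} (hd : F.D w (F.ch 1) d) :
    ∃ x ∈ F.US {k | R.IsPos k ∧ w ∉ hf R k}, x • F.ch w = d := by
  induction hn : len R.sW w generalizing w d with
  | zero =>
    obtain rfl := R.invGen.eq_one_of_len hn
    exact ⟨1, one_mem _, by rw [one_smul, D_one.1 hd]⟩
  | succ n ih =>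
    obtain ⟨i, w', rfl, h'⟩ := R.invGen.exists_left_descent hn
    obtain ⟨z, h1, h2⟩ := hd.split
    obtain ⟨u, hu, rfl⟩ := (hM (R.simple i)).trans (w := 1) rfl h1
    have n1 := F.ov_n i
    have h3 := (D_smul (F.n i)⁻¹).2 ((D_smul u⁻¹).2 h2)
    rw [inv_smul_smul, n1.inv.smul_ch, one_mul, inv_mul_cancel] at h3
    obtain ⟨x, hx, e⟩ := ih h3 h'
    have h4 : w' ∈ hf R (R.simple i) := mem_hf_simple.2 (by omega)
    refine ⟨u * (F.n i * x * (F.n i)⁻¹), mul_mem (U_le_US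
      (A := {k | R.IsPos k ∧ R.sW i * w' ∉ hf R k}) ⟨isPos_simple i, fun h => ?_⟩ hu)
      (US_le.2 ?_ (n1.conj_mem_US hx)), ?_⟩
    · have := mem_hf_simple.1 h
      rw [R.invGen.cancel_left] at this
      omega
    · rintro _ ⟨k, hk, rfl⟩
      refine U_le_US (A := {k | R.IsPos k ∧ R.sW i * w' ∉ hf R k}) ⟨?_,
        fun h => hk.2 (mul_mem_hf.1 h)⟩
      rw [coe_sW]
      exact hk.1.sref fun e => hk.2 (by rw [e]; exact h4)
    · rw [mul_smul, mul_smul, mul_smul, n1.inv.smul_ch, inv_mul_cancel_left, e, smul_inv_smul,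
        smul_inv_smul]

theorem exists_US_smul' {d : F.X} (hw : w ∈ WJ R J) (hd : F.D w (F.ch 1) d) :
    ∃ x ∈ F.US {k | R.IsPos k ∧ R.InJ J k}, x • F.ch w = d := by
  obtain ⟨x, hx, e⟩ := exists_US_smul hR hM hd
  refine ⟨x, US_le.2 (fun k hk => U_le_US (A := {k | R.IsPos k ∧ R.InJ J k})
    ⟨hk.1, by_contra fun h => hk.2 ?_⟩) hx, e⟩
  simpa using mul_mem_hf_of_not_inJ (one_mem_hf.2 hk.1) h hw

/-- Bruhat decomposition of `LJ J`. -/
theorem bruhat (hg : g ∈ F.LJ J) : ∃ x ∈ F.US {k | R.IsPos k ∧ R.InJ J k}, ∃ m w, w ∈ WJ R J ∧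
    F.Ov m w ∧ ∃ y ∈ F.US {k | R.IsPos k ∧ R.InJ J k}, g = x * m * y := by
  obtain ⟨w, hw, hd⟩ := mem_PJ.1 (LJ_le_PJ J hg)
  obtain ⟨x, hx, e⟩ := exists_US_smul' hR hM hw hd
  have hL : F.US {k | R.IsPos k ∧ R.InJ J k} ≤ F.LJ J := US_le.2 fun k hk => U_le_LJ hR hk.2
  have n1 := F.ov_nr w
  have h1 : ((F.nr w)⁻¹ * x⁻¹ * g) • F.ch 1 = F.ch 1 := by
    rw [mul_smul, mul_smul, ← e, inv_smul_smul, n1.inv.smul_ch, inv_mul_cancel]
  have h2 := (D_smul ((F.nr w)⁻¹ * x⁻¹ * g)).2 (F.D_ch 1 (lg R J))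
  rw [h1, inv_one, one_mul] at h2
  obtain ⟨y, hy, e'⟩ := exists_US_smul' hR hM (lg_mem J) h2
  have h3 : y⁻¹ * ((F.nr w)⁻¹ * x⁻¹ * g) ∈ F.H := mem_H_of_LJ (mul_mem (inv_mem (hL hy))
    (mul_mem (mul_mem (inv_mem (n1.mem_LJ hw)) (inv_mem (hL hx))) hg)) (one_mem _) (by
      rw [mul_smul, h1, inv_smul_eq_iff]
      exact (mem_Fx.1 (US_le_Fx hR _ hy) 1 fun k hk => one_mem_hf.2 hk.1).symm)
    (by rw [one_mul, mul_smul, ← e', inv_smul_smul])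
  have h4 := mem_H_iff_ov.1 h3
  refine ⟨x, hx, _, _, by simpa using hw, n1.mul h4, _, US_le.2 ?_ (h4.inv.conj_mem_US hy), by group⟩
  rintro _ ⟨k, hk, rfl⟩
  exact U_le_US (by simpa using hk)

theorem LJ_univ : F.LJ Set.univ = ⊤ := by
  refine eq_top_iff.2 fun g _ => ?_
  obtain ⟨w, hd⟩ := exists_D (F.ch 1) (g • F.ch 1)
  have hw : w ∈ WJ R Set.univ := by
    change w ∈ Subgroup.closure _
    rw [Set.image_univ, R.invGen.gen]
    trivial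
  obtain ⟨x, hx, e⟩ := exists_US_smul' hR hM hw hd
  have n1 := F.ov_nr w
  have h1 : (F.nr w)⁻¹ * x⁻¹ * g ∈ F.Fx (DJ R Set.univ) := mem_Fx.2 fun v hv => by
    obtain rfl : v = 1 := inv_eq_one.1 (Subtype.ext
      (eq_one_of_pos (v⁻¹).2 fun i => hv i (Set.mem_univ i)))
    rw [mul_smul, mul_smul, ← e, inv_smul_smul, n1.inv.smul_ch, inv_mul_cancel]
  simpa [mul_assoc] using mul_mem (US_le.2 (fun k hk => U_le_LJ hR hk.2) hx)
    (mul_mem (n1.mem_LJ hw) (Fx_DJ_le _ h1))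

/-- `GJ univ` is normalized by `N` and contains all `U r`, `B ≤ GJ univ ⊔ H`; so it is normal. -/
theorem GJ_univ [IsSimpleGroup G] : F.GJ Set.univ = ⊤ := by
  have h1 : ∀ r, F.U r ≤ F.GJ Set.univ := fun r =>
    U_le_GJ_of_inJ hR hM fun i hi => absurd (Set.mem_univ i) hi
  have h2 : (F.GJ Set.univ).Normal := ⟨fun a ha g => by
    obtain ⟨x, hx, m, w, -, hm, y, hy, rfl⟩ := bruhat hR hM (J := Set.univ) (g := g)
      (by rw [LJ_univ hR hM]; trivial)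
    have hx := US_le.2 (fun k _ => h1 k) hx
    have hy := US_le.2 (fun k _ => h1 k) hy
    have : F.GJ Set.univ ≤ (F.GJ Set.univ).comap (MulAut.conj m).toMonoidHom :=
      iSup₂_le fun _ _ => sup_le (fun _ hy => h1 _ (hm.conj_mem_U.2 hy))
        fun _ hy => h1 _ (hm.conj_mem_U.2 hy)
    have := mul_mem (mul_mem hx (this (mul_mem (mul_mem hy ha) (inv_mem hy)))) (inv_mem hx)
    simpa [mul_assoc] using this⟩
  refine h2.eq_bot_or_eq_top.resolve_left fun h => ?_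
  obtain ⟨i, -⟩ := hR.nontriv.exists_pair_ne
  obtain ⟨x, hx, e⟩ := U_ne_bot hR hM (R.simple i)
  exact e (Subgroup.mem_bot.1 (h ▸ h1 _ hx))

end Cfsg.Lib.TB.Fr
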