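import Cfsg.Agent.Lib.TB.Def

/-!
S1143 (docs/TB.md): half-apartments, `DJ`, `lg`, cones.  Pure root system combinatorics; use
`Chev/Refl`, `Chev/Weyl` (`len_mul_sW_of_pos/neg`, `invGen`, `exchange`), `Chev/Bruhat` (`InJ`, `fJ`),
`Chev/Sub` (`induction_inJ`, `fJ_of_mem_WJ`), `St/Cox`.
-/

set_option autoImplicit false
set_option linter.unusedSectionVars false

namespace Cfsg.Lib.TB

open Cfsg.Lib.BN Cfsg.Lib.Chev RootSys

variable {ι Φ : Type} [Fintype ι] [DecidableEq ι] {R : RootSys ι Φ}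

theorem Sb.symm {i j : ι} (h : Sb R i j) : Sb R j i := ⟨h.2, h.1⟩

theorem Db.symm {i j : ι} (h : Db R i j) : Db R j i := (mul_comm _ _).trans h

theorem Sb.ne {i j : ι} (h : Sb R i j) : i ≠ j := by
  rintro rfl
  have := h.1
  rw [R.A_diag] at this
  omega

theorem Db.ne {i j : ι} (h : Db R i j) : i ≠ j := by
  rintro rfl
  have : R.A i i * R.A i i = 2 := h
  rw [R.A_diag] at this
  omega

theorem A_zero_symm {i j : ι} (h : R.A i j = 0) : R.A j i = 0 := by
  rwa [← pair_simple_simple, pair_eq_zero_comm, pair_simple_simple] at h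

theorem mem_hf {r : Φ} {w : R.W} : w ∈ hf R r ↔ R.IsPos ((w⁻¹ : R.W).1 r) := Iff.rfl

theorem H17.W_aut (w : R.W) : R.IsAut w.1 := isAut_of_mem_W w.2

open H17

theorem H17.W_mul (w x : R.W) (r : Φ) : (w * x).1 r = w.1 (x.1 r) := rfl

theorem H17.W_inv_apply (w : R.W) (r : Φ) : (w⁻¹ : R.W).1 (w.1 r) = r := inv_apply _ _

theorem H17.W_apply_inv (w : R.W) (r : Φ) : w.1 ((w⁻¹ : R.W).1 r) = r := apply_inv _ _

theorem H17.sW_inv (i : ι) : (R.sW i)⁻¹ = R.sW i := R.invGen.inv i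

theorem H17.sW_mul_self (i : ι) : R.sW i * R.sW i = 1 := R.invGen.sq i

theorem H17.sW_ne_one (i : ι) : R.sW i ≠ 1 := fun h => by
  have h1 : (R.sW i).1 (R.simple i) = R.simple i := by rw [h]; rfl
  rw [coe_sW, sref_simple] at h1
  exact R.neg_ne_self _ h1

theorem one_mem_hf {r : Φ} : (1 : R.W) ∈ hf R r ↔ R.IsPos r := by
  rw [mem_hf, inv_one]; rfl

theorem mul_mem_hf {r : Φ} {w x : R.W} : w * x ∈ hf R (w.1 r) ↔ x ∈ hf R r := by
  rw [mem_hf, mem_hf, mul_inv_rev, W_mul, W_inv_apply]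

theorem mem_hf_neg {r : Φ} {w : R.W} : w ∈ hf R (R.neg r) ↔ w ∉ hf R r := by
  rw [mem_hf, mem_hf, (W_aut _).neg, isPos_neg_iff]

theorem mul_sW_notMem_hf {r : Φ} {w : R.W} (h : w ∈ hf R r) {i : ι} :
    w * R.sW i ∉ hf R r ↔ (w⁻¹ : R.W).1 r = R.simple i := by
  rw [mem_hf, mul_inv_rev, W_mul, sW_inv, coe_sW]
  refine ⟨eq_simple_of_sref_neg h, fun e => ?_⟩
  rw [e, sref_simple, isPos_neg_iff, not_not]
  exact isPos_simple i

theorem mem_WJ_iff {J : Set ι} {w : R.W} : w ∈ WJ R J ↔ w.1 ∈ R.WJ J := by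
  constructor
  · intro h
    induction h using Subgroup.closure_induction with
    | mem x hx =>
      obtain ⟨i, hi, rfl⟩ := hx
      exact Subgroup.subset_closure ⟨i, hi, rfl⟩
    | one => exact one_mem _
    | mul x y _ _ hx hy => exact mul_mem hx hy
    | inv x _ hx => exact inv_mem hx
  · intro h
    obtain ⟨l, h1, h2⟩ := exists_word_of_mem_closure R.sref_mul_self h
    have : w = wp R.sW l := Subtype.ext (by rw [coe_wp, h2])
    rw [this]
    exact Cfsg.Lib.St.wp_mem_WJ h1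

theorem inJ_of_mem_WJ {J : Set ι} {w : R.W} (hw : w ∈ WJ R J) {r : Φ} :
    R.InJ J (w.1 r) ↔ R.InJ J r := by
  rw [← fJ_eq_zero_iff, fJ_of_mem_WJ (mem_WJ_iff.1 hw), fJ_eq_zero_iff]

/-- A residue whose reflections do not include that of `r` lies on one side of the wall. -/
theorem mul_mem_hf_of_not_inJ {r : Φ} {w y : R.W} {J : Set ι} (h : w ∈ hf R r)
    (h' : ¬ R.InJ J ((w⁻¹ : R.W).1 r)) (hy : y ∈ WJ R J) : w * y ∈ hf R r := by
  rw [mem_hf, mul_inv_rev, W_mul]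
  have h1 := fJ_pos_iff.2 ⟨h, h'⟩
  rw [← fJ_of_mem_WJ (mem_WJ_iff.1 (inv_mem hy))] at h1
  exact (fJ_pos_iff.1 h1).1

/-- A root supported on one node (`eq_or_neg_of_smul`). -/
theorem eq_simple_of_inJ {r : Φ} {i : ι} (h : R.InJ {i} r) (hp : R.IsPos r) : r = R.simple i := by
  rcases inJ_singleton_iff.1 h with h1 | h1
  · exact h1
  · exact absurd (isPos_simple i) (isPos_neg_iff.1 (h1 ▸ hp))

theorem refl_mem_WJ {J : Set ι} {r : Φ} (h : R.InJ J r) :
    (⟨R.refl r, R.refl_mem_W r⟩ : R.W) ∈ WJ R J := by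
  rw [mem_WJ_iff]
  refine induction_inJ (p := fun r => R.refl r ∈ R.WJ J) (fun i hi => ?_) (fun i hi r _ h => ?_) h
  · rw [refl_simple]
    exact Subgroup.subset_closure ⟨i, hi, rfl⟩
  · have h1 : R.sref i ∈ R.WJ J := Subgroup.subset_closure ⟨i, hi, rfl⟩
    rw [← (R.isAut_sref i).conj_refl]
    exact mul_mem (mul_mem h1 h) (inv_mem h1)

theorem exists_WJ_simple {J : Set ι} {r : Φ} (h : R.InJ J r) :
    ∃ w ∈ WJ R J, ∃ i ∈ J, w.1 (R.simple i) = r := by
  refine induction_inJ (p := fun r => ∃ w ∈ WJ R J, ∃ i ∈ J, w.1 (R.simple i) = r)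
    (fun i hi => ⟨1, one_mem _, i, hi, rfl⟩) ?_ h
  rintro i hi r - ⟨w, hw, j, hj, rfl⟩
  exact ⟨R.sW i * w, mul_mem (Cfsg.Lib.St.simple_mem_WJ hi) hw, j, hj, rfl⟩

theorem exists_simple (r : Φ) : ∃ (w : R.W) (i : ι), w.1 (R.simple i) = r := by
  obtain ⟨w, hw, i, e⟩ := R.exists_W_simple r
  exact ⟨⟨w, hw⟩, i, e⟩

theorem Cone.map {r s k : Φ} (w : R.W) : Cone R (w.1 r) (w.1 s) (w.1 k) ↔ Cone R r s k := by
  obtain ⟨L, h1, -⟩ := W_aut w
  simp only [Cone, h1, ← map_zsmul, ← map_add, L.apply_eq_iff_eq]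

theorem Cone.symm {r s k : Φ} (h : Cone R r s k) : Cone R s r k := by
  obtain ⟨m, i, j, h1, h2, h3, e⟩ := h
  exact ⟨m, j, i, h1, h3, h2, e.trans (add_comm _ _)⟩

theorem Cone.mem_hf {r s k : Φ} (h : Cone R r s k) {w : R.W} (hr : w ∈ hf R r) (hs : w ∈ hf R s) :
    w ∈ hf R k := by
  obtain ⟨m, i, j, h1, h2, h3, e⟩ := (Cone.map w⁻¹).2 h
  intro t
  have h4 := congrFun e t
  have h5 := hr t
  have h6 := hs t
  simp only [Pi.add_apply, Pi.smul_apply, smul_eq_mul] at h4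
  by_contra hc
  nlinarith [mul_nonneg h2.le h5, mul_nonneg h3.le h6]

theorem Cone.inJ {r s k : Φ} (h : Cone R r s k) {J : Set ι} (hr : R.InJ J r) (hs : R.InJ J s) :
    R.InJ J k := by
  obtain ⟨m, i, j, h1, h2, h3, e⟩ := h
  intro t ht
  have h4 := congrFun e t
  simp only [Pi.add_apply, Pi.smul_apply, smul_eq_mul, hr t ht, hs t ht, mul_zero, add_zero] at h4
  exact (mul_eq_zero.1 h4).resolve_left h1.ne'

theorem Cone.ne {r s k : Φ} (h : Cone R r s k) (h1 : s ≠ r) (h2 : s ≠ R.neg r) :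
    k ≠ r ∧ k ≠ s := by
  obtain ⟨m, i, j, h3, h4, h5, e⟩ := h
  constructor
  · rintro rfl
    have : j • R.α s = (m - i) • R.α k := by rw [sub_smul, e]; abel
    rcases eq_or_neg_of_smul h5.ne' this with h | h
    · exact h1 h.symm
    · exact h2 (by rw [h, R.neg_neg])
  · rintro rfl
    have : i • R.α r = (m - j) • R.α k := by rw [sub_smul, e]; abel
    rcases eq_or_neg_of_smul h4.ne' this with h | h
    · exact h1 h
    · exact h2 h

theorem H17.sref_of_zero {a b : ι} (h : R.A a b = 0) : R.sref a (R.simple b) = R.simple b :=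
  R.α_inj (by rw [α_sref', pair_simple_simple, h, zero_smul, sub_zero])

theorem H17.inJ_two {a b : ι} {P : Φ → Prop} (ha : P (R.simple a)) (hb : P (R.simple b))
    (h1 : ∀ x, P x → x ≠ R.simple a → P (R.sref a x))
    (h2 : ∀ x, P x → x ≠ R.simple b → P (R.sref b x)) {r : Φ} (hr : R.InJ {a, b} r) :
    P r ∨ P (R.neg r) := by
  have key : ∀ i, P (R.simple i) → (∀ x, P x → x ≠ R.simple i → P (R.sref i x)) → ∀ r,
      P r ∨ P (R.neg r) → P (R.sref i r) ∨ P (R.neg (R.sref i r)) := by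
    rintro i hi h r (h3 | h3)
    · by_cases e : r = R.simple i
      · right; rw [e, sref_simple, R.neg_neg]; exact hi
      · exact .inl (h r h3 e)
    · by_cases e : R.neg r = R.simple i
      · left; rw [R.neg_eq_iff.1 e, sref_neg_simple]; exact hi
      · right; rw [← sref_neg]; exact h _ h3 e
  refine induction_inJ (p := fun r => P r ∨ P (R.neg r)) ?_ ?_ hr
  · rintro i (rfl | rfl)
    exacts [.inl ha, .inl hb]
  · rintro i (rfl | rfl) r - h
    exacts [key _ ha h1 r h, key _ hb h2 r h]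

theorem H17.pos_two {a b : ι} {P : Φ → Prop} (ha : P (R.simple a)) (hb : P (R.simple b))
    (h1 : ∀ x, P x → x ≠ R.simple a → P (R.sref a x))
    (h2 : ∀ x, P x → x ≠ R.simple b → P (R.sref b x)) (h3 : ∀ x, P x → R.IsPos x) {r : Φ}
    (hr : R.InJ {a, b} r) (hp : R.IsPos r) : P r :=
  (inJ_two ha hb h1 h2 hr).resolve_right fun h => isPos_neg_iff.1 (h3 _ h) hp

theorem H17.isPos_sref_simple {a b : ι} (h : a ≠ b) : R.IsPos (R.sref a (R.simple b)) :=
  (isPos_simple b).sref (R.simple_injective.ne h.symm)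

theorem H17.pair_sref_right (i j : ι) (s : Φ) : R.pair (R.simple i) (R.sref j s) =
    R.pair (R.simple i) s - R.pair (R.simple j) s * R.A i j := by
  rw [pair, α_sref', map_sub, map_zsmul, ← pair, ← pair, pair_simple_simple, smul_eq_mul]

theorem H17.db_cases {a b : ι} (h : Db R a b) :
    (R.A a b = -1 ∧ R.A b a = -2) ∨ (R.A a b = -2 ∧ R.A b a = -1) := by
  have h1 : R.A a b * R.A b a = 2 := h
  rcases R.A_cases h.ne with h2 | h2 | h2 | h2 | h2 | h2 <;> simp [h2.1, h2.2] at h1 ⊢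

/-- The positive roots of a rank two subsystem (`induction_inJ`, coordinates). -/
theorem pos_of_zero {a b : ι} (h : R.A a b = 0) {r : Φ} (h1 : R.InJ {a, b} r) (h2 : R.IsPos r) :
    r = R.simple a ∨ r = R.simple b := by
  have key : ∀ x, R.IsPos x → ∀ y, R.neg x = y ∨ x = y → R.IsPos y → x = y := by
    rintro x hx y (rfl | rfl) hy
    · exact absurd hx (isPos_neg_iff.1 hy)
    · rfl
  have e1 := sref_of_zero h
  have e2 := sref_of_zero (A_zero_symm h)
  have := inJ_two (P := fun x => x = R.simple a ∨ x = R.simple b) (.inl rfl) (.inr rfl)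
    (by rintro x (rfl | rfl) hx; exacts [absurd rfl hx, .inr e1])
    (by rintro x (rfl | rfl) hx; exacts [.inl e2, absurd rfl hx]) h1
  rcases this with (h3 | h3) | h3 | h3
  · exact .inl h3
  · exact .inr h3
  · exact absurd (isPos_simple a) (h3 ▸ fun e => isPos_neg_iff.1 e h2)
  · exact absurd (isPos_simple b) (h3 ▸ fun e => isPos_neg_iff.1 e h2)

theorem pos_of_sb {a b : ι} (h : Sb R a b) {r : Φ} (h1 : R.InJ {a, b} r) (h2 : R.IsPos r) :
    r = R.simple a ∨ r = R.simple b ∨ r = R.sref a (R.simple b) := by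
  have e : R.sref b (R.simple a) = R.sref a (R.simple b) := R.α_inj (by
    rw [α_sref', α_sref', pair_simple_simple, pair_simple_simple, h.1, h.2]; module)
  refine pos_two (P := fun r => r = R.simple a ∨ r = R.simple b ∨ r = R.sref a (R.simple b))
    (.inl rfl) (.inr (.inl rfl)) ?_ ?_ ?_ h1 h2
  · rintro x (rfl | rfl | rfl) hx
    exacts [absurd rfl hx, .inr (.inr rfl), .inr (.inl (R.sref_sref _ _))]
  · rintro x (rfl | rfl | rfl) hx
    exacts [.inr (.inr e), absurd rfl hx, .inl (by rw [← e, sref_sref])]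
  · rintro x (rfl | rfl | rfl)
    exacts [isPos_simple _, isPos_simple _, isPos_sref_simple h.ne]

theorem Sb.sref_eq {a b : ι} (h : Sb R a b) : R.sref b (R.simple a) = R.sref a (R.simple b) := by
  exact R.α_inj (by
    rw [α_sref', α_sref', pair_simple_simple, pair_simple_simple, h.1, h.2]; module)

theorem pos_of_db {a b : ι} (h : Db R a b) {r : Φ} (h1 : R.InJ {a, b} r) (h2 : R.IsPos r) :
    r = R.simple a ∨ r = R.simple b ∨ r = R.sref a (R.simple b) ∨ r = R.sref b (R.simple a) := by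
  have key : ∀ {a b}, Db R a b → R.sref a (R.sref b (R.simple a)) = R.sref b (R.simple a) := by
    intro a b h
    have h1 : R.A a b * R.A b a = 2 := h
    refine R.α_inj ?_
    rw [α_sref' R a, pair_sref_right, pair_simple_simple, pair_simple_simple, A_diag, mul_comm, h1,
      sub_self, zero_smul, sub_zero]
  refine pos_two (P := fun r => r = R.simple a ∨ r = R.simple b ∨ r = R.sref a (R.simple b) ∨
    r = R.sref b (R.simple a)) (.inl rfl) (.inr (.inl rfl)) ?_ ?_ ?_ h1 h2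
  · rintro x (rfl | rfl | rfl | rfl) hx
    exacts [absurd rfl hx, .inr (.inr (.inl rfl)), .inr (.inl (R.sref_sref _ _)),
      .inr (.inr (.inr (key h)))]
  · rintro x (rfl | rfl | rfl | rfl) hx
    exacts [.inr (.inr (.inr rfl)), absurd rfl hx, .inr (.inr (.inl (key h.symm))),
      .inl (R.sref_sref _ _)]
  · rintro x (rfl | rfl | rfl | rfl)
    exacts [isPos_simple _, isPos_simple _, isPos_sref_simple h.ne, isPos_sref_simple h.ne.symm]

theorem Db.sref_sref {a b : ι} (h : Db R a b) :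
    R.sref a (R.sref b (R.simple a)) = R.sref b (R.simple a) := by
  have h1 : R.A a b * R.A b a = 2 := h
  refine R.α_inj ?_
  rw [α_sref' R a, pair_sref_right, pair_simple_simple, pair_simple_simple, A_diag, mul_comm, h1,
    sub_self, zero_smul, sub_zero]

theorem H17.pow_bond (a b : ι) : (R.sW a * R.sW b) ^ bondOrder (R.A a b * R.A b a) = 1 := by
  rw [← orderOf_sref_mul]
  exact Subtype.ext (pow_orderOf_eq_one (R.sref a * R.sref b))

theorem sW_comm {a b : ι} (h : R.A a b = 0) : R.sW a * R.sW b = R.sW b * R.sW a := by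
  have h1 := pow_bond (R := R) a b
  rw [h, zero_mul, show bondOrder 0 = 2 from rfl] at h1
  have ha := sW_mul_self (R := R) a
  have hb := sW_mul_self (R := R) b
  calc R.sW a * R.sW b = R.sW a * R.sW b * ((R.sW a * R.sW b) ^ 2)⁻¹ := by rw [h1]; simp
    _ = (R.sW b)⁻¹ * (R.sW a)⁻¹ := by group
    _ = _ := by rw [sW_inv, sW_inv]

theorem Sb.braid {a b : ι} (h : Sb R a b) :
    R.sW a * R.sW b * R.sW a = R.sW b * R.sW a * R.sW b := by
  have h1 := pow_bond (R := R) a b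
  rw [h.1, h.2, show bondOrder (-1 * -1) = 3 from rfl] at h1
  have h2 : R.sW a * R.sW b * R.sW a * (R.sW b * R.sW a * R.sW b) = 1 := by
    rw [← h1]; simp only [pow_succ, pow_zero, one_mul, mul_assoc]
  rw [eq_inv_of_mul_eq_one_left h2]
  simp only [mul_inv_rev, sW_inv, mul_assoc]

theorem Db.braid {a b : ι} (h : Db R a b) :
    R.sW a * R.sW b * R.sW a * R.sW b = R.sW b * R.sW a * R.sW b * R.sW a := by
  have h1 := pow_bond (R := R) a b
  rw [show R.A a b * R.A b a = 2 from h, show bondOrder 2 = 4 from rfl] at h1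
  have h2 : R.sW a * R.sW b * R.sW a * R.sW b * (R.sW a * R.sW b * R.sW a * R.sW b) = 1 := by
    rw [← h1]; simp only [pow_succ, pow_zero, one_mul, mul_assoc]
  rw [eq_inv_of_mul_eq_one_left h2]
  simp only [mul_inv_rev, sW_inv, mul_assoc]

theorem H17.sW_mem_WJ {J : Set ι} {i : ι} (hi : i ∈ J) : R.sW i ∈ WJ R J :=
  Cfsg.Lib.St.simple_mem_WJ hi

theorem H17.WJ_mono {I J : Set ι} (h : I ⊆ J) : WJ R I ≤ WJ R J := Cfsg.Lib.St.WJ_mono h

theorem H17.mem_WJ_univ (w : R.W) : w ∈ WJ R Set.univ := by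
  obtain ⟨l, rfl⟩ := R.invGen.exists_word w
  exact Cfsg.Lib.St.wp_mem_WJ fun _ _ => trivial

/-- Induction over `W_J` by left multiplication. -/
theorem H17.WJ_ind {J : Set ι} {P : R.W → Prop} (h1 : P 1) (h2 : ∀ i ∈ J, ∀ x, P x → P (R.sW i * x))
    {w : R.W} (hw : w ∈ WJ R J) : P w := by
  obtain ⟨l, hl, rfl⟩ := exists_word_of_mem_closure R.invGen.sq hw
  clear hw
  induction l with
  | nil => exact h1
  | cons i l ih =>
    rw [wp_cons]
    exact h2 i (hl i List.mem_cons_self) _ (ih fun j hj => hl j (List.mem_cons_of_mem _ hj))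

theorem H17.sW_cancel (i : ι) (w : R.W) : R.sW i * (R.sW i * w) = w := R.invGen.cancel_left i w

theorem mem_WJ_one {a : ι} {w : R.W} : w ∈ WJ R {a} ↔ w = 1 ∨ w = R.sW a := by
  refine ⟨WJ_ind (P := fun w => w = 1 ∨ w = R.sW a) (.inl rfl) ?_, ?_⟩
  · rintro i rfl x (rfl | rfl)
    · simp
    · simp [sW_mul_self]
  · rintro (rfl | rfl)
    exacts [one_mem _, sW_mem_WJ rfl]

theorem mem_WJ_zero {a b : ι} (h : R.A a b = 0) {w : R.W} :
    w ∈ WJ R {a, b} ↔ w = 1 ∨ w = R.sW a ∨ w = R.sW b ∨ w = R.sW a * R.sW b := by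
  have ha : R.sW a ∈ WJ R {a, b} := sW_mem_WJ (.inl rfl)
  have hb : R.sW b ∈ WJ R {a, b} := sW_mem_WJ (.inr rfl)
  have e := sW_comm h
  refine ⟨WJ_ind (P := fun w => w = 1 ∨ w = R.sW a ∨ w = R.sW b ∨ w = R.sW a * R.sW b)
    (.inl rfl) ?_, ?_⟩
  · rintro i (rfl | rfl) x (rfl | rfl | rfl | rfl)
    · simp
    · simp [sW_mul_self]
    · simp
    · simp [sW_cancel]
    · simp
    · simp [e]
    · simp [sW_mul_self]
    · simp [e, sW_cancel]
  · rintro (rfl | rfl | rfl | rfl)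
    exacts [one_mem _, ha, hb, mul_mem ha hb]

theorem mem_WJ_sb {a b : ι} (h : Sb R a b) {w : R.W} :
    w ∈ WJ R {a, b} ↔ w = 1 ∨ w = R.sW a ∨ w = R.sW b ∨ w = R.sW a * R.sW b ∨ w = R.sW b * R.sW a ∨
      w = R.sW a * R.sW b * R.sW a := by
  have ha : R.sW a ∈ WJ R {a, b} := sW_mem_WJ (.inl rfl)
  have hb : R.sW b ∈ WJ R {a, b} := sW_mem_WJ (.inr rfl)
  have e := h.braid
  refine ⟨WJ_ind (P := fun w => w = 1 ∨ w = R.sW a ∨ w = R.sW b ∨ w = R.sW a * R.sW b ∨
    w = R.sW b * R.sW a ∨ w = R.sW a * R.sW b * R.sW a) (.inl rfl) ?_, ?_⟩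
  · rintro i (rfl | rfl) x (rfl | rfl | rfl | rfl | rfl | rfl)
    · simp
    · simp [sW_mul_self]
    · simp
    · simp [sW_cancel]
    · simp [mul_assoc]
    · simp [mul_assoc, sW_cancel]
    · simp
    · simp
    · simp [sW_mul_self]
    · simp [e, mul_assoc]
    · simp [sW_cancel]
    · simp [e, mul_assoc, sW_cancel]
  · rintro (rfl | rfl | rfl | rfl | rfl | rfl)
    exacts [one_mem _, ha, hb, mul_mem ha hb, mul_mem hb ha, mul_mem (mul_mem ha hb) ha]

theorem mem_WJ_db {a b : ι} (h : Db R a b) {w : R.W} :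
    w ∈ WJ R {a, b} ↔ w = 1 ∨ w = R.sW a ∨ w = R.sW b ∨ w = R.sW a * R.sW b ∨ w = R.sW b * R.sW a ∨
      w = R.sW a * R.sW b * R.sW a ∨ w = R.sW b * R.sW a * R.sW b ∨
      w = R.sW a * R.sW b * R.sW a * R.sW b := by
  have ha : R.sW a ∈ WJ R {a, b} := sW_mem_WJ (.inl rfl)
  have hb : R.sW b ∈ WJ R {a, b} := sW_mem_WJ (.inr rfl)
  have e := h.braid
  refine ⟨WJ_ind (P := fun w => w = 1 ∨ w = R.sW a ∨ w = R.sW b ∨ w = R.sW a * R.sW b ∨
    w = R.sW b * R.sW a ∨ w = R.sW a * R.sW b * R.sW a ∨ w = R.sW b * R.sW a * R.sW b ∨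
      w = R.sW a * R.sW b * R.sW a * R.sW b) (.inl rfl) ?_, ?_⟩
  · rintro i (rfl | rfl) x (rfl | rfl | rfl | rfl | rfl | rfl | rfl | rfl)
    · simp
    · simp [sW_mul_self]
    · simp
    · simp [sW_cancel]
    · simp [mul_assoc]
    · simp [mul_assoc, sW_cancel]
    · simp [mul_assoc]
    · simp [mul_assoc, sW_cancel]
    · simp
    · simp
    · simp [sW_mul_self]
    · simp [mul_assoc]
    · simp [sW_cancel]
    · rw [e]; simp [mul_assoc]
    · simp [mul_assoc, sW_cancel]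
    · rw [e]; simp [mul_assoc, sW_cancel]
  · rintro (rfl | rfl | rfl | rfl | rfl | rfl | rfl | rfl)
    exacts [one_mem _, ha, hb, mul_mem ha hb, mul_mem hb ha, mul_mem (mul_mem ha hb) ha,
      mul_mem (mul_mem hb ha) hb, mul_mem (mul_mem (mul_mem ha hb) ha) hb]

variable [Fintype Φ]

theorem H17.len_lt_iff {i : ι} {w : R.W} :
    len R.sW w < len R.sW (w * R.sW i) ↔ R.IsPos (w.1 (R.simple i)) := by
  by_cases h : R.IsPos (w.1 (R.simple i))
  · have := len_mul_sW_of_pos h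
    simp only [h, iff_true]; omega
  · have := len_mul_sW_of_neg h
    simp only [h, iff_false]; omega

theorem H17.len_lt_iff' {i : ι} {w : R.W} :
    len R.sW (w * R.sW i) < len R.sW w ↔ ¬ R.IsPos (w.1 (R.simple i)) := by
  by_cases h : R.IsPos (w.1 (R.simple i))
  · have := len_mul_sW_of_pos h
    simp only [h, not_true, iff_false]; omega
  · have := len_mul_sW_of_neg h
    simp only [h, not_false_iff, iff_true]; omega

theorem mem_hf_simple {i : ι} {w : R.W} :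
    w ∈ hf R (R.simple i) ↔ len R.sW w < len R.sW (R.sW i * w) := by
  rw [mem_hf, ← R.invGen.len_inv w, ← R.invGen.len_inv (R.sW i * w), mul_inv_rev, sW_inv]
  exact len_lt_iff.symm

theorem H17.lg_spec (J : Set ι) : lg R J ∈ WJ R J ∧
    (∀ i ∈ J, len R.sW (R.sW i * lg R J) < len R.sW (lg R J)) ∧
    (∀ i ∈ J, len R.sW (lg R J * R.sW i) < len R.sW (lg R J)) ∧
    (∀ w ∈ WJ R J, (∀ i ∈ J, len R.sW (R.sW i * w) < len R.sW w) → w = lg R J) ∧
    ∀ w ∈ WJ R J, (∀ i ∈ J, len R.sW (w * R.sW i) < len R.sW w) → w = lg R J :=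
  (Cfsg.Lib.St.exists_longest R.invGen R.exchange J).choose_spec

theorem H17.eq_lg {J : Set ι} {w : R.W} (hw : w ∈ WJ R J)
    (h : ∀ i ∈ J, ¬ R.IsPos (w.1 (R.simple i))) : w = lg R J :=
  (lg_spec J).2.2.2.2 w hw fun i hi => len_lt_iff'.2 (h i hi)

theorem H17.lg_simple_neg {J : Set ι} {i : ι} (hi : i ∈ J) : ¬ R.IsPos ((lg R J).1 (R.simple i)) :=
  len_lt_iff'.1 ((lg_spec J).2.2.1 i hi)

theorem H17.lg_inv (J : Set ι) : (lg R J)⁻¹ = lg R J := by
  refine (lg_spec J).2.2.2.1 _ (inv_mem (lg_spec J).1) fun i hi => ?_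
  rw [← R.invGen.len_inv (R.sW i * _), mul_inv_rev, inv_inv, sW_inv, R.invGen.len_inv]
  exact (lg_spec J).2.2.1 i hi

theorem lg_mem (J : Set ι) : lg R J ∈ WJ R J := by
  exact (lg_spec J).1

theorem lg_mul_self (J : Set ι) : lg R J * lg R J = 1 := by
  rw [← lg_inv J, lg_inv J]; nth_rewrite 1 [← lg_inv J]; exact inv_mul_cancel _

omit [Fintype Φ] in
theorem H17.not_isPos_of_simple {w : Equiv.Perm Φ} (hw : R.IsAut w) {r : Φ} (hr : R.IsPos r)
    (h : ∀ i, R.α r i ≠ 0 → ¬ R.IsPos (w (R.simple i))) : ¬ R.IsPos (w r) := by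
  obtain ⟨L, h1, -⟩ := hw
  have := R.map_eq_sum L.toAddMonoidHom (R.α r)
  simp only [AddEquiv.coe_toAddMonoidHom, ← h1] at this
  refine not_isPos_iff.2 fun j => ?_
  rw [this, Finset.sum_apply]
  refine Finset.sum_nonpos fun i _ => ?_
  by_cases h0 : R.α r i = 0
  · simp [h0]
  · exact mul_nonpos_of_nonneg_of_nonpos (hr i) (not_isPos_iff.1 (h i h0) j)

theorem isPos_lg {J : Set ι} {r : Φ} (h : R.IsPos r) : R.IsPos ((lg R J).1 r) ↔ ¬ R.InJ J r := by
  constructor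
  · intro h1 h2
    exact not_isPos_of_simple (W_aut _) h
      (fun i hi => lg_simple_neg (by_contra fun hc => hi (h2 i hc))) h1
  · intro h1
    have h2 := fJ_pos_iff.2 ⟨h, h1⟩
    rw [← fJ_of_mem_WJ (mem_WJ_iff.1 (lg_mem J))] at h2
    exact (fJ_pos_iff.1 h2).1

theorem exists_lg_simple {J : Set ι} {i : ι} (hi : i ∈ J) :
    ∃ j ∈ J, (lg R J).1 (R.simple i) = R.neg (R.simple j) := by
  have hm := lg_mem (R := R) J
  have h1 : R.InJ J (R.neg ((lg R J).1 (R.simple i))) :=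
    ((inJ_of_mem_WJ hm).2 (inJ_simple_iff.2 hi)).neg
  have h2 : R.IsPos (R.neg ((lg R J).1 (R.simple i))) := isPos_neg_iff.2 (lg_simple_neg hi)
  generalize hk : R.neg ((lg R J).1 (R.simple i)) = k at h1 h2
  obtain ⟨j, h3, h4⟩ := h2.exists_pair_pos
  have hj : j ∈ J := by_contra fun hc => h3.ne' (h1 j hc)
  refine ⟨j, hj, ?_⟩
  rw [← R.neg_neg ((lg R J).1 (R.simple i)), hk]
  congr 1
  by_contra hne
  -- `k = sref j k + c αⱼ`, both positive roots of `J`
  have h5 := h2.sref hne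
  have h6 := h1.sref hj
  have h7 : ¬ R.IsPos ((lg R J).1 (R.sref j k)) := fun e => (isPos_lg h5).1 e h6
  have h8 := lg_simple_neg (R := R) hj
  have e : R.α k = (1 : ℤ) • R.α (R.sref j k) + R.pair (R.simple j) k • R.α (R.simple j) := by
    rw [α_sref']; module
  have e' := (W_aut (lg R J)).comb.2 e
  have e2 : (lg R J).1 k = R.neg (R.simple i) := by
    rw [← hk, (W_aut _).neg, ← W_mul, lg_mul_self]; rfl
  have h9 := congrArg (htL ι) e'
  rw [map_add, map_zsmul, map_zsmul] at h9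
  change R.ht _ = _ • R.ht _ + _ • R.ht _ at h9
  rw [e2, ht_neg, ht_simple] at h9
  have h10 := (isPos_neg_iff.2 h7).ht_pos
  have h11 := (isPos_neg_iff.2 h8).ht_pos
  rw [ht_neg] at h10 h11
  simp only [smul_eq_mul] at h9
  nlinarith

theorem len_le_lg (w : R.W) : len R.sW w ≤ len R.sW (lg R Set.univ) := by
  rw [len_eq_card, len_eq_card]
  refine Finset.card_le_card fun r hr => ?_
  rw [mem_invSet] at hr ⊢
  exact ⟨hr.1, fun e => (isPos_lg hr.1).1 e fun i hi => absurd trivial hi⟩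

theorem lg_one (a : ι) : lg R {a} = R.sW a := by
  refine (eq_lg (J := {a}) (sW_mem_WJ (Set.mem_singleton a)) ?_).symm
  rintro i rfl
  rw [coe_sW, sref_simple, isPos_neg_iff, not_not]
  exact isPos_simple _

theorem lg_zero {a b : ι} (h : R.A a b = 0) : lg R {a, b} = R.sW a * R.sW b := by
  refine (eq_lg (mul_mem (sW_mem_WJ (.inl rfl)) (sW_mem_WJ (.inr rfl))) ?_).symm
  rintro i (rfl | rfl)
  · rw [W_mul, coe_sW, coe_sW, sref_of_zero (A_zero_symm h), sref_simple, isPos_neg_iff, not_not]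
    exact isPos_simple _
  · rw [W_mul, coe_sW, coe_sW, sref_simple, sref_neg, sref_of_zero h, isPos_neg_iff, not_not]
    exact isPos_simple _

theorem lg_sb {a b : ι} (h : Sb R a b) : lg R {a, b} = R.sW a * R.sW b * R.sW a := by
  refine (eq_lg (mul_mem (mul_mem (sW_mem_WJ (.inl rfl)) (sW_mem_WJ (.inr rfl)))
    (sW_mem_WJ (.inl rfl))) ?_).symm
  have key : ∀ {a b}, Sb R a b → ¬ R.IsPos ((R.sW a * R.sW b * R.sW a).1 (R.simple a)) := by
    intro a b h
    rw [W_mul, W_mul, coe_sW, coe_sW, sref_simple, sref_neg, sref_neg, h.sref_eq, sref_sref,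
      isPos_neg_iff, not_not]
    exact isPos_simple _
  rintro i (rfl | rfl)
  · exact key h
  · rw [h.braid]; exact key h.symm

theorem lg_db {a b : ι} (h : Db R a b) : lg R {a, b} = R.sW a * R.sW b * R.sW a * R.sW b := by
  refine (eq_lg (mul_mem (mul_mem (mul_mem (sW_mem_WJ (.inl rfl)) (sW_mem_WJ (.inr rfl)))
    (sW_mem_WJ (.inl rfl))) (sW_mem_WJ (.inr rfl))) ?_).symm
  have key : ∀ {a b}, Db R a b →
      ¬ R.IsPos ((R.sW a * R.sW b * R.sW a * R.sW b).1 (R.simple b)) := by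
    intro a b h
    rw [W_mul, W_mul, W_mul, coe_sW, coe_sW, sref_simple, sref_neg, sref_neg, sref_neg,
      h.symm.sref_sref, sref_sref, isPos_neg_iff, not_not]
    exact isPos_simple _
  rintro i (rfl | rfl)
  · rw [h.braid]; exact key h.symm
  · exact key h

theorem H17.isPos_lg_univ {r : Φ} : R.IsPos ((lg R Set.univ).1 r) ↔ ¬ R.IsPos r := by
  have h0 : ∀ r, R.IsPos r → ¬ R.IsPos ((lg R Set.univ).1 r) := fun r h e =>
    (isPos_lg h).1 e fun i hi => absurd trivial hi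
  refine ⟨fun h h' => h0 r h' h, fun h => ?_⟩
  have := h0 _ (isPos_neg_iff.2 h)
  rwa [(W_aut _).neg, isPos_neg_iff, not_not] at this

/-- No root contains two opposite chambers. -/
theorem mul_lg_mem_hf {r : Φ} {w : R.W} : w * lg R Set.univ ∈ hf R r ↔ w ∉ hf R r := by
  rw [mem_hf, mem_hf, mul_inv_rev, lg_inv, W_mul, isPos_lg_univ]

/-- `w = x d` with `x ∈ W_J`, `d ∈ DJ J` (take `d` of minimal length in `W_J w`). -/
theorem exists_DJ (J : Set ι) (w : R.W) : ∃ x ∈ WJ R J, ∃ d ∈ DJ R J, w = x * d := by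
  obtain ⟨u, hu, v, hv, h⟩ := Cfsg.Lib.St.exists_minDC (s := R.sW) J ∅ w
  rw [Cfsg.Lib.St.WJ_empty, Subgroup.mem_bot] at hv
  subst hv
  refine ⟨u⁻¹, inv_mem hu, u * w * 1, fun i hi => mem_hf_simple.2 ?_, by group⟩
  have h1 := h.red.1 i hi
  rcases R.invGen.len_simple_mul_ne R.exchange i (u * w * 1) with h2 | h2 <;> omega

theorem mul_DJ_mem_hf {J : Set ι} {k : Φ} (hk : R.InJ J k) {x d : R.W} (hx : x ∈ WJ R J)
    (hd : d ∈ DJ R J) : x * d ∈ hf R k ↔ x ∈ hf R k := by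
  rw [mem_hf, mem_hf, mul_inv_rev, W_mul]
  have h1 : R.InJ J ((x⁻¹ : R.W).1 k) := (inJ_of_mem_WJ (inv_mem hx)).2 hk
  generalize (x⁻¹ : R.W).1 k = m at h1
  have key : ∀ m, R.InJ J m → R.IsPos m → R.IsPos ((d⁻¹ : R.W).1 m) := fun m h1 h2 =>
    (W_aut _).isPos_of_simple h2 fun i hi => hd i (by_contra fun hc => hi (h1 i hc))
  refine ⟨fun h => by_contra fun hc => ?_, key m h1⟩
  have := key _ h1.neg (isPos_neg_iff.2 hc)
  rw [(W_aut _).neg, isPos_neg_iff] at this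
  exact this h

/-- `DJ J` is the convex hull of `1` and `lg J * lg univ`. -/
theorem mem_DJ_iff {J : Set ι} {w : R.W} : w ∈ DJ R J ↔
    ∀ k, (1 : R.W) ∈ hf R k → lg R J * lg R Set.univ ∈ hf R k → w ∈ hf R k := by
  have key : ∀ k, (1 : R.W) ∈ hf R k →
      (lg R J * lg R Set.univ ∈ hf R k ↔ R.InJ J k) := fun k hk => by
    rw [mul_lg_mem_hf, mem_hf, lg_inv, isPos_lg (one_mem_hf.1 hk), not_not]
  constructor
  · intro h k h1 h2
    have := (mul_DJ_mem_hf ((key k h1).1 h2) (one_mem _) h).2 h1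
    rwa [one_mul] at this
  · intro h i hi
    have h1 : (1 : R.W) ∈ hf R (R.simple i) := one_mem_hf.2 (isPos_simple i)
    exact h _ h1 ((key _ h1).2 (inJ_simple_iff.2 hi))

/-- A chamber on the positive side of a linear functional (`exists_W_pos`). -/
theorem exists_chamber (f : (ι → ℤ) →+ ℤ) : ∃ w : R.W, ∀ k, (0 < f (R.α k) → w ∈ hf R k) ∧
    (f (R.α k) < 0 → w ∉ hf R k) := by
  obtain ⟨w, hw, h⟩ := exists_W_pos (R := R) f
  refine ⟨(⟨w, hw⟩ : R.W)⁻¹, fun k => ⟨fun h1 => ?_, fun h1 => ?_⟩⟩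
  · rw [mem_hf, inv_inv]; exact h k h1
  · rw [← mem_hf_neg, mem_hf, inv_inv]
    exact h _ (by rw [R.α_neg, map_neg]; omega)

/-- Every half-apartment contains a chamber that is not adjacent to its wall
(`r = w αᵢ`, `j` a neighbour of `i`, the chamber `w sⱼ`). -/
theorem Good.exists_deep (hR : Good R) (r : Φ) : ∃ w ∈ hf R r, ∀ i, w * R.sW i ∈ hf R r := by
  obtain ⟨w, i, rfl⟩ := exists_simple (R := R) r
  obtain ⟨a, ha, j, hj, h⟩ := hR.conn {i} ⟨i, rfl⟩ (by
    obtain ⟨j, hj⟩ := Fintype.exists_ne_of_one_lt_card (by have := hR.three; omega) i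
    exact ⟨j, hj⟩)
  obtain rfl : a = i := ha
  have hj' : j ≠ a := hj
  have h1 : R.sW j ∈ hf R (R.simple a) := by
    rw [mem_hf, sW_inv, coe_sW]; exact isPos_sref_simple hj'
  refine ⟨w * R.sW j, mul_mem_hf.2 h1, fun t => ?_⟩
  rw [mul_assoc, mul_mem_hf]
  by_contra hc
  have h2 := (mul_sW_notMem_hf h1).1 hc
  rw [sW_inv, coe_sW] at h2
  have h3 := congrFun (congrArg R.α h2) a
  rw [α_sref_of_ne R hj'.symm, R.α_simple, R.α_simple, Pi.single_eq_same] at h3
  obtain rfl : a = t := by_contra fun e => by simp [e] at h3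
  have h4 := congrFun (congrArg R.α h2) j
  rw [α_sref', pair_simple_simple, R.α_simple, R.α_simple] at h4
  simp [hj'] at h4
  exact h (A_zero_symm h4)

/-- Any two roots `s ≠ ± r` can be moved into a rank two subsystem with `s = -α_b`, `r > 0`
(`exists_W_pair`; then `exists_WJ_simple`, and `s_c * lg J` if the sign of `r` is wrong). -/
theorem exists_pair_std {r s : Φ} (h1 : s ≠ r) (h2 : s ≠ R.neg r) :
    ∃ (w : R.W) (a b : ι) (k : Φ), a ≠ b ∧ R.InJ {a, b} k ∧ R.IsPos k ∧ w.1 k = r ∧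
      w.1 (R.neg (R.simple b)) = s := by
  obtain ⟨w, hw, i, j, a, b, ha, hb, rfl, rfl⟩ := exists_W_pair (R := R) r s
  have hw' := isAut_of_mem_W hw
  have h1' : b ≠ a := fun e => h1 (by rw [e])
  have h2' : b ≠ R.neg a := fun e => h2 (by rw [e, hw'.neg])
  have hJ : pr i j = {i, j} := rfl
  rw [hJ] at ha hb
  have hij : i ≠ j := by
    rintro rfl
    rw [Set.pair_eq_singleton, inJ_singleton_iff] at ha hb
    rcases ha with rfl | rfl <;> rcases hb with rfl | rfl <;> simp at h1' h2'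
  -- move `-b` to a simple root `c`
  obtain ⟨x, hx, c, hc, e⟩ := exists_WJ_simple hb.neg
  have hb' : b = x.1 (R.neg (R.simple c)) := by rw [(W_aut _).neg, e, R.neg_neg]
  obtain ⟨k, rfl⟩ : ∃ k, a = x.1 k := ⟨_, (W_apply_inv x a).symm⟩
  have hk : R.InJ {i, j} k := (inJ_of_mem_WJ hx).1 ha
  subst hb'
  have k1 : k ≠ R.neg (R.simple c) := fun e => h1' (by rw [e])
  have k2 : k ≠ R.simple c := fun e => h2' (by rw [e, (W_aut _).neg])
  have fin : ∀ (y : R.W) (c : ι) (k : Φ), c ∈ ({i, j} : Set ι) → R.InJ {i, j} k → R.IsPos k →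
      ∃ (w' : R.W) (a b : ι) (k' : Φ), a ≠ b ∧ R.InJ {a, b} k' ∧ R.IsPos k' ∧ w'.1 k' = y.1 k ∧
        w'.1 (R.neg (R.simple b)) = y.1 (R.neg (R.simple c)) := by
    rintro y c k (rfl | rfl) h3 h4
    · exact ⟨y, j, c, k, hij.symm, by rwa [Set.pair_comm], h4, rfl, rfl⟩
    · exact ⟨y, i, c, k, hij, h3, h4, rfl, rfl⟩
  by_cases hp : R.IsPos k
  · exact fin (⟨w, hw⟩ * x) c k hc hk hp
  · obtain ⟨d, hd, e2⟩ := exists_lg_simple (R := R) hc
    have h3 : R.IsPos (R.neg (R.sref c k)) := by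
      rw [isPos_neg_iff, isPos_sref_iff k2 k1]; exact hp
    have h4 : R.InJ {i, j} (R.neg (R.sref c k)) := (hk.sref hc).neg
    have h5 : ¬ R.IsPos ((lg R {i, j}).1 (R.neg (R.sref c k))) := fun e => (isPos_lg h3).1 e h4
    rw [(W_aut _).neg, isPos_neg_iff, not_not] at h5
    obtain ⟨w', a, b, k', q1, q2, q3, q4, q5⟩ := fin (⟨w, hw⟩ * x * R.sW c * lg R {i, j}) d
      ((lg R {i, j}).1 (R.sref c k)) hd ((inJ_of_mem_WJ (lg_mem _)).2 (hk.sref hc)) h5
    have q6 : ∀ t, (lg R {i, j}).1 ((lg R {i, j}).1 t) = t := fun t => by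
      rw [← W_mul, lg_mul_self]; rfl
    refine ⟨w', a, b, k', q1, q2, q3, ?_, ?_⟩
    · rw [q4, W_mul, W_mul, W_mul, q6, coe_sW, sref_sref]
    · rw [q5, ← e2, W_mul, W_mul, W_mul, q6, coe_sW, sref_simple]

end Cfsg.Lib.TB
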